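import Cfsg.Statements.S1529
import Mathlib
import Cfsg.Agent.Lib.CharCoh

set_option autoImplicit false
open Cfsg

open scoped Pointwise
namespace Cfsg.Agent.S1529

open Cfsg CfsgLib.CharBasic CfsgLib.CharInd CfsgLib.CharClifford CfsgLib.CharCoh


/-- Let N be a subgroup of the finite group G, S a set of irreducible characters of N with at least two members, and τ₁ a linear isometry on the integer combinations of S with virtual-character values such that τ₁ α vanishes at 1 whenever α ∈ ℤ[S] does. Then there is ε ∈ {1, −1} such that ε • τ₁ χ is an irreducible character of G for every χ ∈ S, and distinct members of S give distinct characters. -/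
theorem result {G : Type*} [Group G] [Fintype G] (N : Subgroup G) [Fintype N] (S : Set (N → ℂ)) (hirr : ∀ χ ∈ S, Cfsg.IsIrrCharacter N χ) (htwo : ∃ χ ∈ S, ∃ ψ ∈ S, χ ≠ ψ) (τ₁ : (N → ℂ) → (G → ℂ)) (hτ₁ : Cfsg.IsLinearIsometryOn (Cfsg.zspan S) τ₁) (h0 : ∀ α ∈ Cfsg.zspan S, α 1 = 0 → τ₁ α 1 = 0) : ∃ ε : ℂ, (ε = 1 ∨ ε = -1) ∧ (∀ χ ∈ S, Cfsg.IsIrrCharacter G (ε • τ₁ χ)) ∧ (∀ χ ∈ S, ∀ ψ ∈ S, τ₁ χ = τ₁ ψ → χ = ψ) := by
  classical
  have hgen : ∀ χ ∈ S, IsGeneralizedCharacter G (τ₁ χ) := fun χ hχ => hτ₁.2.2.2 χ (mem_zspan_of_mem hχ)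
  have hnorm : ∀ χ ∈ S, classInner (τ₁ χ) (τ₁ χ) = 1 := fun χ hχ => by
    rw [hτ₁.2.2.1 χ (mem_zspan_of_mem hχ) χ (mem_zspan_of_mem hχ), IsIrrCharacter.inner_self (hirr χ hχ)]
  obtain ⟨χ₀, hχ₀, -⟩ := htwo
  obtain ⟨a, ha, ha'⟩ := IsIrrCharacter.exists_pos (hirr χ₀ hχ₀)
  have hE := isZClosed_zspan S
  have key : ∀ ψ ∈ S, ∀ b : ℕ, ψ 1 = b → (b : ℂ) * τ₁ χ₀ 1 = a * τ₁ ψ 1 := by
    intro ψ hψ b hb
    have h1 : ((b : ℤ) : ℂ) • χ₀ - ((a : ℤ) : ℂ) • ψ ∈ zspan S := by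
      rw [← zsmul_eq, ← zsmul_eq]
      exact zspan_sub (zspan_zsmul _ (mem_zspan_of_mem hχ₀)) (zspan_zsmul _ (mem_zspan_of_mem hψ))
    have h2 := h0 _ h1 (by
      simp only [Pi.sub_apply, Pi.smul_apply, smul_eq_mul]
      rw [ha', hb]; push_cast; ring)
    rw [iso_sub hE hτ₁ (by rw [← zsmul_eq]; exact zspan_zsmul _ (mem_zspan_of_mem hχ₀)) (by rw [← zsmul_eq]; exact zspan_zsmul _ (mem_zspan_of_mem hψ)),
      iso_smul hτ₁ (mem_zspan_of_mem hχ₀), iso_smul hτ₁ (mem_zspan_of_mem hψ)] at h2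
    simp only [Pi.sub_apply, Pi.smul_apply, smul_eq_mul, Int.cast_natCast] at h2
    exact sub_eq_zero.mp h2
  have main : ∀ ε : ℂ, (ε = 1 ∨ ε = -1) → IsIrrCharacter G (ε • τ₁ χ₀) → ∀ ψ ∈ S, IsIrrCharacter G (ε • τ₁ ψ) := by
    intro ε hε hirr0 ψ hψ
    obtain ⟨b, hb, hb'⟩ := IsIrrCharacter.exists_pos (hirr ψ hψ)
    obtain ⟨c, hc, hc'⟩ := IsIrrCharacter.exists_pos hirr0
    have h1 := key ψ hψ b hb'
    have h2 : (b : ℂ) * c = a * (ε • τ₁ ψ) 1 := by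
      rw [← hc', Pi.smul_apply, Pi.smul_apply, smul_eq_mul, smul_eq_mul]
      linear_combination ε * h1
    have ha0 : (a : ℂ) ≠ 0 := by exact_mod_cast ha.ne'
    have h3 : (ε • τ₁ ψ) 1 = (((b : ℝ) * c / a : ℝ) : ℂ) := by
      push_cast
      rw [eq_div_iff ha0, h2]; ring
    apply IsGeneralizedCharacter.irr_of_pos
    · rcases hε with rfl | rfl
      · rw [one_smul]; exact hgen ψ hψ
      · rw [neg_one_smul]; exact IsGeneralizedCharacter.neg (hgen ψ hψ)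
    · rw [classInner_smul_left, classInner_smul_right, hnorm ψ hψ]
      rcases hε with rfl | rfl <;> simp
    · rw [h3, Complex.ofReal_re]
      positivity
  have hinj : ∀ χ ∈ S, ∀ ψ ∈ S, τ₁ χ = τ₁ ψ → χ = ψ := by
    intro χ hχ ψ hψ h
    by_contra hne
    have h1 := hτ₁.2.2.1 χ (mem_zspan_of_mem hχ) ψ (mem_zspan_of_mem hψ)
    rw [← h, hnorm χ hχ, IsIrrCharacter.inner_eq_zero (hirr χ hχ) (hirr ψ hψ) hne] at h1
    exact one_ne_zero h1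
  rcases IsGeneralizedCharacter.irr_or_neg (hgen χ₀ hχ₀) (hnorm χ₀ hχ₀) with h | h
  · refine ⟨1, Or.inl rfl, main 1 (Or.inl rfl) (by rwa [one_smul]), hinj⟩
  · refine ⟨-1, Or.inr rfl, main (-1) (Or.inr rfl) (by rwa [neg_one_smul]), hinj⟩

end Cfsg.Agent.S1529
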