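import Cfsg.Statements.S1531
import Mathlib
import Cfsg.Agent.Lib.CharCoh3
import Cfsg.Agent.S1529

set_option autoImplicit false
open Cfsg

open scoped Pointwise
namespace Cfsg.Agent.S1531

open Cfsg CfsgLib.CharBasic CfsgLib.CharInd CfsgLib.CharClifford CfsgLib.CharCoh
open scoped ComplexConjugate


/-- Let N be a subgroup of the finite group G, S a set of irreducible characters of N, and α a linear isometry on the integer combinations of S vanishing at 1 with values virtual characters of G vanishing at 1. Let X, Y ⊆ S be disjoint, each with at least two members, and σ, τ linear isometries on ℤ[X], ℤ[Y] into virtual characters agreeing with α on the members vanishing at 1. Then ⟨σ χ, τ η⟩ = 0 for χ ∈ X, η ∈ Y; and if for some χ₀ ∈ X, η₀ ∈ Y with degrees c = χ₀ 1, e = η₀ 1 one has α (c • η₀ − e • χ₀) = c • τ η₀ − e • σ χ₀, then (X ∪ Y, N minus 1, α) is coherent. -/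
theorem result {G : Type*} [Group G] [Fintype G] (N : Subgroup G) [Fintype N] (S X Y : Set (N → ℂ)) (hirr : ∀ ξ ∈ S, Cfsg.IsIrrCharacter N ξ) (hXS : X ⊆ S) (hYS : Y ⊆ S) (hXY : Disjoint X Y) (hX2 : ∃ a ∈ X, ∃ b ∈ X, a ≠ b) (hY2 : ∃ a ∈ Y, ∃ b ∈ Y, a ≠ b) (α : (N → ℂ) → (G → ℂ)) (hα : Cfsg.IsLinearIsometryOn (Cfsg.zspanOn S {1}ᶜ) α) (hα1 : ∀ θ ∈ Cfsg.zspanOn S {1}ᶜ, α θ 1 = 0) (σ τ : (N → ℂ) → (G → ℂ)) (hσ : Cfsg.IsLinearIsometryOn (Cfsg.zspan X) σ) (hσα : ∀ θ ∈ Cfsg.zspanOn X {1}ᶜ, σ θ = α θ) (hτ : Cfsg.IsLinearIsometryOn (Cfsg.zspan Y) τ) (hτα : ∀ θ ∈ Cfsg.zspanOn Y {1}ᶜ, τ θ = α θ) : (∀ χ ∈ X, ∀ η ∈ Y, Cfsg.classInner (σ χ) (τ η) = 0) ∧ ((∃ χ₀ ∈ X, ∃ η₀ ∈ Y, α (χ₀ 1 • η₀ - η₀ 1 • χ₀) = χ₀ 1 • τ η₀ - η₀ 1 • σ χ₀) → Cfsg.IsCoherent (X ∪ Y) {1}ᶜ α) := by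
  classical
  have hXmono : zspanOn X {1}ᶜ ⊆ zspanOn S {1}ᶜ := zspanOn_mono hXS
  have hYmono : zspanOn Y {1}ᶜ ⊆ zspanOn S {1}ᶜ := zspanOn_mono hYS
  have hex : ∀ φ : N → ℂ, ∃ d : ℕ, φ ∈ S → (0 < d ∧ φ 1 = d) := by
    intro φ
    by_cases h : φ ∈ S
    · obtain ⟨d, hd⟩ := IsIrrCharacter.exists_pos (hirr φ h)
      exact ⟨d, fun _ => hd⟩
    · exact ⟨0, fun h' => absurd h' h⟩
  choose d hd' using hex
  have hd : ∀ φ ∈ S, φ 1 = (d φ : ℂ) := fun φ hφ => (hd' φ hφ).2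
  have hdpos : ∀ φ ∈ S, 0 < d φ := fun φ hφ => (hd' φ hφ).1
  have horth : ∀ φ ∈ S, ∀ ξ ∈ S, φ ≠ ξ → classInner φ ξ = 0 := fun φ hφ ξ hξ h => IsIrrCharacter.inner_eq_zero (hirr φ hφ) (hirr ξ hξ) h
  have hself : ∀ φ ∈ S, classInner φ φ = 1 := fun φ hφ => IsIrrCharacter.inner_self (hirr φ hφ)
  -- images of degree zero combinations
  have hsub : ∀ (E : Set (N → ℂ)) (ρ : (N → ℂ) → (G → ℂ)), E ⊆ S → IsLinearIsometryOn (zspan E) ρ → (∀ θ ∈ zspanOn E {1}ᶜ, ρ θ = α θ) →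
      ∀ φ ∈ E, ∀ ψ ∈ E, α ((d ψ : ℂ) • φ - (d φ : ℂ) • ψ) = (d ψ : ℂ) • ρ φ - (d φ : ℂ) • ρ ψ := by
    intro E ρ hES hρ hρα φ hφ ψ hψ
    have hm := sub_smul_mem d (fun φ hφ => hd φ (hES hφ)) hφ hψ
    rw [← hρα _ hm]
    have i1 : (d ψ : ℂ) • φ = (((d ψ : ℕ) : ℤ) : ℂ) • φ := by simp
    have i2 : (d φ : ℂ) • ψ = (((d φ : ℕ) : ℤ) : ℂ) • ψ := by simp
    rw [i1, i2, iso_sub (isZClosed_zspan _) hρ (by rw [← zsmul_eq]; exact zspan_zsmul _ (mem_zspan_of_mem hφ)) (by rw [← zsmul_eq]; exact zspan_zsmul _ (mem_zspan_of_mem hψ)),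
      iso_smul hρ (mem_zspan_of_mem hφ), iso_smul hρ (mem_zspan_of_mem hψ)]
    simp
  have hX1 := Cfsg.Agent.S1529.result N X (fun χ hχ => hirr χ (hXS hχ)) (by obtain ⟨a, ha, b, hb, hab⟩ := hX2; exact ⟨a, ha, b, hb, hab⟩) σ hσ (by
    intro θ hθ h1
    have hm : θ ∈ zspanOn X {1}ᶜ := mem_zspanOn_one.mpr ⟨hθ, h1⟩
    rw [hσα θ hm]
    exact hα1 θ (hXmono hm))
  have hY1 := Cfsg.Agent.S1529.result N Y (fun χ hχ => hirr χ (hYS hχ)) (by obtain ⟨a, ha, b, hb, hab⟩ := hY2; exact ⟨a, ha, b, hb, hab⟩) τ hτ (by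
    intro θ hθ h1
    have hm : θ ∈ zspanOn Y {1}ᶜ := mem_zspanOn_one.mpr ⟨hθ, h1⟩
    rw [hτα θ hm]
    exact hα1 θ (hYmono hm))
  obtain ⟨ε, hε, hirrX, hinjX⟩ := hX1
  obtain ⟨δ, hδ, hirrY, hinjY⟩ := hY1
  have horthST : ∀ χ ∈ X, ∀ η ∈ Y, classInner (σ χ) (τ η) = 0 := by
    intro χ hχ η hη
    have hε0 : ε * conj ε = 1 := by rcases hε with rfl | rfl <;> simp
    have hδ0 : δ * conj δ = 1 := by rcases hδ with rfl | rfl <;> simp
    have hεne : ε ≠ 0 := by rintro rfl; simp at hε0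
    have hδne : conj δ ≠ 0 := by intro h; rw [h, mul_zero] at hδ0; exact zero_ne_one hδ0
    by_contra hne
    have hirr1 := hirrX χ hχ
    have hirr2 := hirrY η hη
    have h1 : ε • σ χ = δ • τ η := by
      by_contra h
      have := IsIrrCharacter.inner_eq_zero hirr1 hirr2 h
      rw [classInner_smul_left, classInner_smul_right] at this
      rcases mul_eq_zero.mp this with h | h
      · exact hεne h
      · rcases mul_eq_zero.mp h with h | h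
        · exact hδne h
        · exact hne h
    obtain ⟨χ', hχ', hχχ'⟩ : ∃ χ' ∈ X, χ' ≠ χ := by
      obtain ⟨a, ha, b, hb, hab⟩ := hX2
      by_cases h : a = χ
      · exact ⟨b, hb, fun h' => hab (by rw [h, h'])⟩
      · exact ⟨a, ha, h⟩
    obtain ⟨η', hη', hηη'⟩ : ∃ η' ∈ Y, η' ≠ η := by
      obtain ⟨a, ha, b, hb, hab⟩ := hY2
      by_cases h : a = η
      · exact ⟨b, hb, fun h' => hab (by rw [h, h'])⟩
      · exact ⟨a, ha, h⟩
    have hmX := sub_smul_mem d (fun φ hφ => hd φ (hXS hφ)) hχ hχ'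
    have hmY := sub_smul_mem d (fun φ hφ => hd φ (hYS hφ)) hη hη'
    have hne1 : χ ≠ η := fun h => Set.disjoint_left.mp hXY hχ (h ▸ hη)
    have hne2 : χ ≠ η' := fun h => Set.disjoint_left.mp hXY hχ (h ▸ hη')
    have hne3 : χ' ≠ η := fun h => Set.disjoint_left.mp hXY hχ' (h ▸ hη)
    have hne4 : χ' ≠ η' := fun h => Set.disjoint_left.mp hXY hχ' (h ▸ hη')
    have h2 := hα.2.2.1 _ (hXmono hmX) _ (hYmono hmY)
    rw [hsub X σ hXS hσ hσα χ hχ χ' hχ', hsub Y τ hYS hτ hτα η hη η' hη'] at h2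
    have h3 : classInner ((d χ' : ℂ) • χ - (d χ : ℂ) • χ') ((d η' : ℂ) • η - (d η : ℂ) • η') = 0 := by
      rw [classInner_sub_left, classInner_sub_right, classInner_sub_right]
      simp only [classInner_smul_left, classInner_smul_right]
      rw [horth _ (hXS hχ) _ (hYS hη) hne1, horth _ (hXS hχ) _ (hYS hη') hne2, horth _ (hXS hχ') _ (hYS hη) hne3, horth _ (hXS hχ') _ (hYS hη') hne4]
      ring
    rw [h3] at h2
    -- multiply by signs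
    have h4 : classInner ((d χ' : ℂ) • (ε • σ χ) - (d χ : ℂ) • (ε • σ χ')) ((d η' : ℂ) • (δ • τ η) - (d η : ℂ) • (δ • τ η')) = 0 := by
      have e1 : (d χ' : ℂ) • (ε • σ χ) - (d χ : ℂ) • (ε • σ χ') = ε • ((d χ' : ℂ) • σ χ - (d χ : ℂ) • σ χ') := by
        rw [smul_sub, smul_comm, smul_comm ε (d χ : ℂ)]
      have e2 : (d η' : ℂ) • (δ • τ η) - (d η : ℂ) • (δ • τ η') = δ • ((d η' : ℂ) • τ η - (d η : ℂ) • τ η') := by
        rw [smul_sub, smul_comm, smul_comm δ (d η : ℂ)]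
      rw [e1, e2, classInner_smul_left, classInner_smul_right, h2]; ring
    have hσne : ε • σ χ' ≠ ε • σ χ := fun h => hχχ' (hinjX _ hχ' _ hχ (smul_right_injective _ hεne h))
    have hδne' : δ ≠ 0 := by rintro rfl; simp at hδ0
    have hτne : δ • τ η' ≠ δ • τ η := fun h => hηη' (hinjY _ hη' _ hη (smul_right_injective _ hδne' h))
    have hirr3 := hirrX χ' hχ'
    have hirr4 := hirrY η' hη'
    generalize ε • σ χ = A at h1 h4 hirr1 hσne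
    generalize ε • σ χ' = A' at h4 hσne hirr3
    generalize δ • τ η = B at h1 h4 hirr2 hτne
    generalize δ • τ η' = B' at h4 hτne hirr4
    subst h1
    rw [classInner_sub_left, classInner_sub_right, classInner_sub_right, classInner_smul_left, classInner_smul_left, classInner_smul_left, classInner_smul_left,
      classInner_smul_right, classInner_smul_right, classInner_smul_right, classInner_smul_right, IsIrrCharacter.inner_self hirr2,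
      IsIrrCharacter.inner_eq_zero hirr2 hirr4 hτne.symm, IsIrrCharacter.inner_eq_zero hirr3 hirr2 hσne,
      IsIrrCharacter.inner hirr3 hirr4] at h4
    simp only [map_natCast] at h4
    have p1 := hdpos χ' (hXS hχ')
    have p2 := hdpos η' (hYS hη')
    split_ifs at h4
    · have : (d χ' * d η' + d χ * d η : ℂ) = 0 := by linear_combination h4
      have h5 : d χ' * d η' + d χ * d η = 0 := by exact_mod_cast this
      have := Nat.mul_pos p1 p2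
      omega
    · have : (d χ' * d η' : ℂ) = 0 := by linear_combination h4
      have h5 : d χ' * d η' = 0 := by exact_mod_cast this
      have := Nat.mul_pos p1 p2
      omega
  refine ⟨horthST, ?_⟩
  rintro ⟨χ₀, hχ₀, η₀, hη₀, h0⟩
  have hUS : X ∪ Y ⊆ S := Set.union_subset hXS hYS
  have hfin : (X ∪ Y).Finite := finite_of_orthogonal (fun φ hφ => IsIrrCharacter.isCharacter (hirr φ (hUS hφ)))
    (fun φ hφ h => IsIrrCharacter.one_ne_zero (hirr φ (hUS hφ)) (by rw [h]; rfl)) (fun φ hφ ψ hψ => horth φ (hUS hφ) ψ (hUS hψ))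
  obtain ⟨F, hF⟩ := hfin.exists_finset_coe
  have hFU : ∀ φ, φ ∈ F ↔ φ ∈ X ∪ Y := fun φ => by rw [← hF, Finset.mem_coe]
  have hFS : ∀ φ ∈ F, φ ∈ S := fun φ hφ => hUS ((hFU φ).mp hφ)
  obtain ⟨T, hT⟩ : ∃ T : (N → ℂ) → (G → ℂ), T = fun φ => if φ ∈ X then σ φ else τ φ := ⟨_, rfl⟩
  have hTX : ∀ φ ∈ X, T φ = σ φ := fun φ hφ => by rw [hT]; simp [hφ]
  have hTY : ∀ φ ∈ Y, T φ = τ φ := fun φ hφ => by
    have : φ ∉ X := fun h => Set.disjoint_left.mp hXY h hφ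
    rw [hT]; simp [this]
  have hcase : ∀ P : (N → ℂ) → Prop, (∀ φ ∈ X, P φ) → (∀ φ ∈ Y, P φ) → ∀ φ ∈ F, P φ := by
    intro P p1 p2 φ hφ
    rcases (hFU φ).mp hφ with h | h
    · exact p1 φ h
    · exact p2 φ h
  have hFmono : zspanOn (F : Set (N → ℂ)) {1}ᶜ ⊆ zspanOn S {1}ᶜ := zspanOn_mono (by rw [hF]; exact hUS)
  rw [← hF]
  have hneXY : ∀ φ ∈ X, ∀ ψ ∈ Y, φ ≠ ψ := fun φ hφ ψ hψ h => Set.disjoint_left.mp hXY hφ (h ▸ hψ)
  refine isCoherent_of_base (T := T) (fun φ hφ ψ hψ h => horth φ (hFS φ hφ) ψ (hFS ψ hψ) h) (fun φ hφ => by rw [hself φ (hFS φ hφ)]; exact one_ne_zero)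
    (iso_mono hα hFmono) (fun φ => (d φ : ℤ)) (fun φ hφ => by rw [hd φ (hFS φ hφ)]; simp) (χ₁ := χ₀) ((hFU _).mpr (Or.inl hχ₀)) ?_ ?_ ?_ ?_ ?_
  · have := (hdpos χ₀ (hXS hχ₀)).ne'
    exact_mod_cast this
  · apply hcase
    · intro φ hφ; rw [hTX φ hφ]; exact hσ.2.2.2 _ (mem_zspan_of_mem hφ)
    · intro φ hφ; rw [hTY φ hφ]; exact hτ.2.2.2 _ (mem_zspan_of_mem hφ)
  · apply hcase
    · intro φ hφ
      apply hcase
      · intro ψ hψ; rw [hTX φ hφ, hTX ψ hψ, hσ.2.2.1 _ (mem_zspan_of_mem hφ) _ (mem_zspan_of_mem hψ)]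
      · intro ψ hψ; rw [hTX φ hφ, hTY ψ hψ, horthST φ hφ ψ hψ, horth _ (hXS hφ) _ (hYS hψ) (hneXY φ hφ ψ hψ)]
    · intro φ hφ
      apply hcase
      · intro ψ hψ; rw [hTY φ hφ, hTX ψ hψ, symm_zero (horthST ψ hψ φ hφ), horth _ (hYS hφ) _ (hXS hψ) (hneXY ψ hψ φ hφ).symm]
      · intro ψ hψ; rw [hTY φ hφ, hTY ψ hψ, hτ.2.2.1 _ (mem_zspan_of_mem hφ) _ (mem_zspan_of_mem hψ)]
  · apply hcase
    · intro φ hφ
      have := hsub X σ hXS hσ hσα φ hφ χ₀ hχ₀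
      rw [hTX φ hφ, hTX χ₀ hχ₀]
      simpa using this
    · intro η hη
      have h1 := hsub Y τ hYS hτ hτα η hη η₀ hη₀
      have hm1 := hYmono (sub_smul_mem d (fun φ hφ => hd φ (hYS hφ)) hη hη₀)
      rw [hd χ₀ (hXS hχ₀), hd η₀ (hYS hη₀)] at h0
      have hm2 : (d χ₀ : ℂ) • η₀ - (d η₀ : ℂ) • χ₀ ∈ zspanOn S {1}ᶜ := sub_smul_mem d (fun φ hφ => hd φ hφ) (hYS hη₀) (hXS hχ₀)
      have hm3 : (d χ₀ : ℂ) • η - (d η : ℂ) • χ₀ ∈ zspanOn S {1}ᶜ := sub_smul_mem d (fun φ hφ => hd φ hφ) (hYS hη) (hXS hχ₀)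
      have hE := isZClosed_zspanOn S ({1}ᶜ : Set N)
      have e1 : (((d η₀ : ℕ) : ℤ) : ℂ) • ((d χ₀ : ℂ) • η - (d η : ℂ) • χ₀) = (((d χ₀ : ℕ) : ℤ) : ℂ) • ((d η₀ : ℂ) • η - (d η : ℂ) • η₀) +
          (((d η : ℕ) : ℤ) : ℂ) • ((d χ₀ : ℂ) • η₀ - (d η₀ : ℂ) • χ₀) := by
        push_cast
        rw [smul_sub, smul_sub, smul_sub, smul_smul, smul_smul, smul_smul, smul_smul, smul_smul, smul_smul, mul_comm (d η₀ : ℂ) (d χ₀ : ℂ),
          mul_comm (d η : ℂ) (d χ₀ : ℂ), mul_comm (d η₀ : ℂ) (d η : ℂ)]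
        ring
      have h2 := iso_smul hα hm3 ((d η₀ : ℕ) : ℤ)
      rw [e1, hα.1 _ (by rw [← zsmul_eq]; exact hE.smul _ _ hm1) _ (by rw [← zsmul_eq]; exact hE.smul _ _ hm2), iso_smul hα hm1, iso_smul hα hm2, h1, h0] at h2
      rw [hTY η hη, hTX χ₀ hχ₀]
      push_cast at h2 ⊢
      have hne : (d η₀ : ℂ) ≠ 0 := by
        have := (hdpos η₀ (hYS hη₀)).ne'
        exact_mod_cast this
      apply smul_right_injective _ hne
      simp only []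
      rw [← h2, smul_sub, smul_sub, smul_sub, smul_smul, smul_smul, smul_smul, smul_smul, smul_smul, smul_smul, mul_comm (d η₀ : ℂ) (d χ₀ : ℂ),
          mul_comm (d η : ℂ) (d χ₀ : ℂ), mul_comm (d η₀ : ℂ) (d η : ℂ)]
      ring
  · obtain ⟨a, ha, b, hb, hab⟩ := hX2
    refine exists_ne_zero_of_two (φ := a) (ψ := b) (a := d a) (b := d b) ?_ ?_ (horth _ (hXS ha) _ (hXS hb) hab) (by rw [hself a (hXS ha)]; exact one_ne_zero) (by rw [hd a (hXS ha)]; simp)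
      (by rw [hd b (hXS hb)]; simp) ?_
    · exact (hFU a).mpr (Or.inl ha)
    · exact (hFU b).mpr (Or.inl hb)
    · have := (hdpos b (hXS hb)).ne'
      exact_mod_cast this

end Cfsg.Agent.S1531
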