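import Cfsg.Statements.S2326
import Cfsg.Agent.Lib.CHO7

set_option autoImplicit false
open Cfsg

namespace Cfsg.Agent.S2326


/-- In a Chevalley group of type G₂, B₂, D₄, F₄, E₆, E₇ or E₈ over a finite field of characteristic p, the subgroup U generated by the positive root elements is a Sylow p-subgroup. -/
theorem result {F : Type*} [Field F] [Fintype F] (p : ℕ) [Fact p.Prime] [CharP F p] (D : Cfsg.Lie.ChevalleyDatum) (hD : D ∈ [Cfsg.Lie.chevG2, Cfsg.Lie.chevB2, Cfsg.Lie.chevD4, Cfsg.Lie.chevF4, Cfsg.Lie.chevE6, Cfsg.Lie.chevE7, Cfsg.Lie.chevE8]) :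
    ∃ P : Sylow p ↥(D.group F), (P : Subgroup ↥(D.group F)) = (D.posUnipotent F).subgroupOf (D.group F) := by
  classical
  obtain ⟨M⟩ := CfsgLib.Chev.exists_cg hD F
  have hU := Cfsg.Agent.S1027.result (F := F) D hD
  haveI : Finite (CfsgLib.BNP.Weyl M.bnp) := by
    haveI : Finite ↥(D.group F) := inferInstance
    haveI : Finite M.bnp.N := inferInstance
    exact Quotient.finite _
  haveI := Fintype.ofFinite (CfsgLib.BNP.Weyl M.bnp)
  have hG := M.card_G
  rw [M.card_B] at hG
  obtain ⟨k, hk⟩ := FiniteField.card F p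
  have hpU : IsPGroup p ((D.posUnipotent F).subgroupOf (D.group F)) := by
    apply IsPGroup.of_card (n := k * (D.nroots / 2))
    rw [Nat.card_congr (Subgroup.subgroupOfEquivOfLe M.U_le_G).toEquiv, hU, hk.2, ← pow_mul]
  -- the index
  have hidx : ((D.posUnipotent F).subgroupOf (D.group F)).index =
      Nat.card (D.diagonalSubgroup F) * ∑ w : CfsgLib.BNP.Weyl M.bnp, (Fintype.card F) ^ CfsgLib.BNP.len M.sW w := by
    have h1 := Subgroup.card_mul_index ((D.posUnipotent F).subgroupOf (D.group F))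
    rw [Nat.card_congr (Subgroup.subgroupOfEquivOfLe M.U_le_G).toEquiv, hG, mul_assoc] at h1
    exact Nat.eq_of_mul_eq_mul_left Nat.card_pos h1
  have hnd : ¬ p ∣ ((D.posUnipotent F).subgroupOf (D.group F)).index := by
    rw [hidx, (Fact.out : p.Prime).dvd_mul, not_or]
    constructor
    · intro hdvd
      have h2 : Nat.card (D.diagonalSubgroup F) ∣ Nat.card (Fin D.rank → Fˣ) := by
        rw [← M.hF_range]
        exact Subgroup.card_range_dvd _
      have h3 := hdvd.trans h2
      rw [Nat.card_fun, Nat.card_units, Nat.card_eq_fintype_card, hk.2] at h3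
      have h4 := (Fact.out : p.Prime).dvd_of_dvd_pow h3
      have h5 : p ∣ p ^ (k : ℕ) := dvd_pow_self p k.2.ne'
      have h6 : 1 ≤ p ^ (k : ℕ) := Nat.one_le_pow _ _ (Fact.out : p.Prime).pos
      have h7 : p ∣ 1 := by
        have := Nat.dvd_sub h5 h4
        rwa [Nat.sub_sub_self h6] at this
      exact (Fact.out : p.Prime).one_lt.ne' (Nat.dvd_one.1 h7)
    · intro hdvd
      rw [← Finset.add_sum_erase _ _ (Finset.mem_univ (1 : CfsgLib.BNP.Weyl M.bnp)), M.invW.len_one, pow_zero] at hdvd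
      have h2 : p ∣ ∑ w ∈ Finset.univ.erase (1 : CfsgLib.BNP.Weyl M.bnp), (Fintype.card F) ^ CfsgLib.BNP.len M.sW w := by
        apply Finset.dvd_sum
        intro w hw
        have h3 : CfsgLib.BNP.len M.sW w ≠ 0 := by
          intro h
          exact (Finset.ne_of_mem_erase hw) (M.invW.len_eq_zero.1 h)
        rw [hk.2]
        exact dvd_pow (dvd_pow_self p k.2.ne') h3
      have h7 := (Nat.dvd_add_left h2).1 hdvd
      exact (Fact.out : p.Prime).one_lt.ne' (Nat.dvd_one.1 h7)
  exact ⟨hpU.toSylow hnd, rfl⟩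

end Cfsg.Agent.S2326
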