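import Cfsg.Statements.S2427
import Cfsg.Agent.Lib.GLg1

set_option autoImplicit false
open Cfsg CfsgLib.GL2a

set_option linter.style.haveILetI false
namespace Cfsg.Agent.S2427

theorem aux : Nat.card (S2 (ZMod 3)) = 24 ∧ Nat.card (Subgroup.center (S2 (ZMod 3))) = 2 ∧ ∃ S : Subgroup (S2 (ZMod 3)), Nat.card S = 8 ∧ commutator (S2 (ZMod 3)) = S ∧ Nonempty (S ≃* QuaternionGroup 2) ∧
    ∀ N : Subgroup (S2 (ZMod 3)), N.Normal → N = ⊥ ∨ N = ⊤ ∨ N = Subgroup.center (S2 (ZMod 3)) ∨ N = S := by
  classical
  have hF : Fintype.card (ZMod 3) = 3 := ZMod.card 3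
  obtain ⟨h2, S, i, u, w, h, hNS, hcS, hw, hwT, hwi, hww, hui, huw, huS, hall, hq⟩ := sl23 hF
  have hG : Nat.card (S2 (ZMod 3)) = 24 := by rw [card_S2', hF]
  have hcS' : Nat.card (S : Subgroup (S2 (ZMod 3))) = 8 := hcS
  have hidx : (S : Subgroup (S2 (ZMod 3))).index = 3 := by
    have := (S : Subgroup (S2 (ZMod 3))).index_mul_card
    rw [hG, hcS'] at this
    omega
  -- a normal subgroup containing `i` contains `S`
  have hiN : ∀ N : Subgroup (S2 (ZMod 3)), N.Normal → i ∈ N → (S : Subgroup (S2 (ZMod 3))) ≤ N := by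
    intro N hN hi
    have hw' : w ∈ N := by rw [← hui]; exact hN.conj_mem _ hi u
    have hm1 : (-1 : S2 (ZMod 3)) ∈ N := by rw [← h.sq]; exact mul_mem hi hi
    have hneg : ∀ x ∈ N, -x ∈ N := fun x hx => by rw [← neg_one_mul]; exact mul_mem hm1 hx
    intro s hs
    rcases hall s hs with h1 | h1 | h1 | h1 | h1 | h1 | h1 | h1 <;> rw [h1]
    · exact one_mem _
    · exact hm1
    · exact hi
    · exact hneg _ hi
    · exact hw'
    · exact hneg _ hw'
    · exact mul_mem hi hw'
    · exact hneg _ (mul_mem hi hw')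
  have hnegN : ∀ N : Subgroup (S2 (ZMod 3)), ∀ x : S2 (ZMod 3), x * x = -1 → -x ∈ N → x ∈ N := by
    intro N x hx hn
    have : x = (-x)⁻¹ := by
      rw [eq_comm, inv_eq_iff_mul_eq_one]
      simp [hx]
    rw [this]; exact inv_mem hn
  have hiw2 : (i * w) * (i * w) = -1 := by
    have e : (i * w) = u * w * u⁻¹ := huw.symm
    rw [e]
    calc u * w * u⁻¹ * (u * w * u⁻¹) = u * (w * w) * u⁻¹ := by group
      _ = -1 := by rw [hww]; simp
  have huiw : u * (i * w) * u⁻¹ = i := by
    have : u * (i * w) * u⁻¹ = (u * i * u⁻¹) * (u * w * u⁻¹) := by group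
    rw [this, hui, huw]
    have hwi' : w * i = -i * w := by rw [← h.inv, ← hwi]; group
    rw [← mul_assoc, hwi', mul_assoc, hww]; simp
  -- a noncentral element of `S` in a normal subgroup
  have hnc : ∀ N : Subgroup (S2 (ZMod 3)), N.Normal → ∀ s ∈ S, s ∈ N → s ≠ 1 → s ≠ -1 → (S : Subgroup (S2 (ZMod 3))) ≤ N := by
    intro N hN s hs hsN h1 h3
    apply hiN N hN
    have hwi2 : w ∈ N → i ∈ N := by
      intro hwN
      have e : i = u⁻¹ * w * u := by rw [← hui]; group
      rw [e]
      have := hN.conj_mem _ hwN u⁻¹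
      simpa using this
    have hiwi : i * w ∈ N → i ∈ N := fun hk => by rw [← huiw]; exact hN.conj_mem _ hk u
    rcases hall s hs with h4 | h4 | h4 | h4 | h4 | h4 | h4 | h4
    · exact absurd h4 h1
    · exact absurd h4 h3
    · rw [← h4]; exact hsN
    · exact hnegN N i h.sq (h4 ▸ hsN)
    · exact hwi2 (h4 ▸ hsN)
    · exact hwi2 (hnegN N w hww (h4 ▸ hsN))
    · exact hiwi (h4 ▸ hsN)
    · exact hiwi (hnegN N _ hiw2 (h4 ▸ hsN))
  haveI := hNS
  refine ⟨hG, card_center h2, S, hcS, ?_, hq, ?_⟩
  · apply le_antisymm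
    · rw [← Subgroup.Normal.quotient_commutative_iff_commutator_le]
      haveI : Fact (Nat.Prime 3) := ⟨Nat.prime_three⟩
      have hc3 : Nat.card (S2 (ZMod 3) ⧸ (S : Subgroup (S2 (ZMod 3)))) = 3 := hidx
      haveI := isCyclic_of_prime_card hc3
      exact IsCyclic.commutative
    · apply hnc (commutator (S2 (ZMod 3))) inferInstance (u * i * u⁻¹ * i⁻¹)
      · rw [hui]; exact mul_mem hw (inv_mem h.mem)
      · exact Subgroup.commutator_mem_commutator (Subgroup.mem_top u) (Subgroup.mem_top i)
      · rw [hui, Ne, mul_inv_eq_one]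
        intro e; exact hwT (e ▸ TT_self i)
      · rw [hui]
        intro e
        apply hwT
        rw [mul_inv_eq_iff_eq_mul] at e
        rw [e]; exact mul_mem (neg_one_mem_TT i) (TT_self i)
  · intro N hN
    by_cases hle : N ≤ S
    · by_cases hS : (S : Subgroup (S2 (ZMod 3))) ≤ N
      · right; right; right; exact le_antisymm hle hS
      · have hsc : ∀ x ∈ N, x = 1 ∨ x = -1 := by
          intro x hx
          by_contra hcon
          push Not at hcon
          exact hS (hnc N hN x (hle hx) hx hcon.1 hcon.2)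
        by_cases hm : (-1 : S2 (ZMod 3)) ∈ N
        · right; right; left
          ext x
          rw [mem_center_iff_isScal]
          constructor
          · intro hx
            rcases hsc x hx with e | e
            · rw [e]; exact isScal_one
            · rw [e]; exact isScal_neg_one
          · intro hx
            rcases scal_sl' hx with e | e
            · rw [e]; exact one_mem _
            · rw [e]; exact hm
        · left
          rw [Subgroup.eq_bot_iff_forall]
          intro x hx
          rcases hsc x hx with e | e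
          · exact e
          · exact absurd (e ▸ hx) hm
    · obtain ⟨n, hn, hnS⟩ := Set.not_subset.mp hle
      have hnN : n ∈ Subgroup.normalizer ((S : Subgroup (S2 (ZMod 3))) : Set (S2 (ZMod 3))) := by
        rw [Subgroup.normalizer_eq_top_iff.mpr hNS]; trivial
      have hS : (S : Subgroup (S2 (ZMod 3))) ≤ N := by
        apply hnc N hN (n * i * n⁻¹ * i⁻¹)
        · exact mul_mem ((Subgroup.mem_normalizer_iff.mp hnN i).mp h.mem) (inv_mem h.mem)
        · have : n * i * n⁻¹ * i⁻¹ = n * (i * n⁻¹ * i⁻¹) := by group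
          rw [this]
          exact mul_mem hn (hN.conj_mem _ (inv_mem hn) i)
        · rw [Ne, mul_inv_eq_one]
          intro e
          apply hnS
          apply h.NT hnN
          left; rw [mem_TT_comm]; rw [mul_inv_eq_iff_eq_mul] at e; exact e.symm
        · intro e
          apply hnS
          apply h.NT hnN
          right
          rw [mul_inv_eq_iff_eq_mul] at e
          rw [e, h.inv]; simp
      right; left
      have h4 : N.index ∣ (S : Subgroup (S2 (ZMod 3))).index := Subgroup.index_dvd_of_le hS
      rw [hidx] at h4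
      rcases (Nat.dvd_prime Nat.prime_three).mp h4 with h5 | h5
      · exact Subgroup.index_eq_one.mp h5
      · exfalso
        have h6 := N.card_mul_index
        rw [h5, hG] at h6
        have h7 : (S : Subgroup (S2 (ZMod 3))) = N := Subgroup.eq_of_le_of_card_ge hS (by rw [hcS']; omega)
        exact hnS (h7 ▸ hn)


/-- The group SL₂ over the field with 3 elements has order 24 and centre of order 2; its commutator subgroup has order 8, is isomorphic to the quaternion group of order 8 and is complemented by every Sylow 3-subgroup (so the group is a semidirect product of a quaternion group of order 8 by a cyclic group of order 3); and its only normal subgroups besides the trivial subgroup and the whole group are the centre and the commutator subgroup. -/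
theorem result :
    Nat.card (Matrix.SpecialLinearGroup (Fin 2) (ZMod 3)) = 24 ∧
    Nat.card (Subgroup.center (Matrix.SpecialLinearGroup (Fin 2) (ZMod 3))) = 2 ∧
    Nat.card (commutator (Matrix.SpecialLinearGroup (Fin 2) (ZMod 3))) = 8 ∧
    Nonempty (commutator (Matrix.SpecialLinearGroup (Fin 2) (ZMod 3)) ≃* QuaternionGroup 2) ∧
    (∀ P : Sylow 3 (Matrix.SpecialLinearGroup (Fin 2) (ZMod 3)),
      Subgroup.IsComplement' (commutator (Matrix.SpecialLinearGroup (Fin 2) (ZMod 3)))
        (P : Subgroup (Matrix.SpecialLinearGroup (Fin 2) (ZMod 3)))) ∧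
    ∀ N : Subgroup (Matrix.SpecialLinearGroup (Fin 2) (ZMod 3)), N.Normal →
      N = ⊥ ∨ N = ⊤ ∨ N = Subgroup.center (Matrix.SpecialLinearGroup (Fin 2) (ZMod 3)) ∨
        N = commutator (Matrix.SpecialLinearGroup (Fin 2) (ZMod 3)) := by
  obtain ⟨hG, hZ, S, hS, hcomm, hq, hN⟩ := aux
  refine ⟨hG, hZ, by rw [hcomm]; exact hS, by rw [hcomm]; exact hq, ?_, by rw [hcomm]; exact hN⟩
  intro P
  rw [hcomm]
  have hP : Nat.card P = 3 := by
    haveI : Fact (Nat.Prime 3) := ⟨Nat.prime_three⟩
    rw [Sylow.card_eq_multiplicity, hG]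
    have : (24 : ℕ).factorization 3 = 1 := by
      rw [show (24 : ℕ) = 3 * 8 by norm_num, Nat.factorization_mul (by norm_num) (by norm_num)]
      simp [Nat.prime_three.factorization, Nat.factorization_eq_zero_of_not_dvd]
    rw [this, pow_one]
  have hP' : Nat.card (P : Subgroup (S2 (ZMod 3))) = 3 := hP
  apply Subgroup.isComplement'_of_coprime
  · rw [hS, hP', hG]
  · rw [hS, hP']; norm_num

end Cfsg.Agent.S2427
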