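import Cfsg.Statements.S0881
import Mathlib
import Cfsg.Agent.Lib.H7Z4

set_option autoImplicit false
open Cfsg

set_option linter.style.haveILetI false
namespace Cfsg.Agent.S0881

open CfsgLib.H7Z MulAction CfsgLib.CharBasic CfsgLib.CharInd
open scoped ComplexConjugate


/-- Let G be a finite simple Zassenhaus group on Ω with n points, a ≠ b points with two-point stabilizer E of odd order less than n - 2, and let H be the subgroup of the stabilizer of a consisting of the identity and the elements fixing no point other than a (given here as a subgroup of the stabilizer of order one less than the number of points whose non-identity elements fix only a; it is the Frobenius kernel of the stabilizer). Let μ be a character of degree 1 of the stabilizer of a that is identically 1 on H but not identically 1. Then the function induced from μ to G is an irreducible character of G, and it takes the value 1 at every non-identity element of H. -/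
theorem result {G Ω : Type*} [Group G] [Fintype G] [MulAction G Ω] [Fintype Ω] (hZ : Cfsg.IsZassenhausGroup G Ω) {a b : Ω} (hab : a ≠ b) [IsSimpleGroup G] (hodd : Odd (Nat.card ↥(MulAction.stabilizer G a ⊓ MulAction.stabilizer G b : Subgroup G))) (hlt : Nat.card ↥(MulAction.stabilizer G a ⊓ MulAction.stabilizer G b : Subgroup G) < Fintype.card Ω - 2) (H : Subgroup G) (hHa : H ≤ MulAction.stabilizer G a) (hHcard : Nat.card H + 1 = Fintype.card Ω) (hHfix : ∀ u ∈ H, u ≠ 1 → ∀ c : Ω, u • c = c → c = a) (μ : MulAction.stabilizer G a → ℂ) (hμ : Cfsg.IsCharacter (MulAction.stabilizer G a) μ ∧ μ 1 = 1) (hμH : ∀ u : MulAction.stabilizer G a, (u : G) ∈ H → μ u = 1) (hμne : μ ≠ fun _ => 1) : Cfsg.IsIrrCharacter G (Cfsg.indFun (MulAction.stabilizer G a) μ) ∧ ∀ u ∈ H, u ≠ 1 → Cfsg.indFun (MulAction.stabilizer G a) μ u = 1 := by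
  classical
  haveI : Fintype (stabilizer G a) := Fintype.ofFinite _
  haveI : Fintype H := Fintype.ofFinite _
  haveI : Fintype (stabilizer G a ⊓ stabilizer G b : Subgroup G) := Fintype.ofFinite _
  have hμc : IsClassFunction (stabilizer G a) μ := IsCharacter.isClassFunction hμ.1
  obtain ⟨lam, hlam⟩ := IsCharacter.exists_linear hμ.1 hμ.2
  obtain ⟨-, hinv⟩ := E_cyclic_inverted hZ hab hodd
  obtain ⟨s, hsa, hsb⟩ := exists_map2 hZ hab hab.symm
  obtain ⟨-, hsE⟩ := hinv s hsa hsb
  have hval : ∀ u ∈ H, u ≠ 1 → indFun (stabilizer G a) μ u = 1 := by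
    intro u hu hu1
    rw [ind_one_fix hμc (mem_stabilizer_iff.mp (hHa hu)) (hHfix u hu hu1)]
    exact hμH ⟨u, _⟩ hu
  refine ⟨?_, hval⟩
  have hgen : IsGeneralizedCharacter G (indFun (stabilizer G a) μ) := isGeneralized_indFun _ (IsCharacter.isGeneralized hμ.1)
  have hidx : indFun (stabilizer G a) μ 1 = (Nat.card H : ℂ) + 1 := by
    rw [indFun_one, hμ.2, stab_index hZ, ← hHcard]
    push_cast; ring
  -- values on E
  have hvE : ∀ x (hx : x ∈ stabilizer G a ⊓ stabilizer G b), x ≠ 1 → indFun (stabilizer G a) μ x = lam ⟨x, hx.1⟩ + ((lam ⟨x, hx.1⟩)⁻¹ : ℂˣ) := by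
    intro x hx hx1
    have h1 : s⁻¹ * x * s = x⁻¹ := by
      have := hsE _ (inv_mem hx)
      rw [inv_inv] at this
      calc s⁻¹ * x * s = s⁻¹ * (s * x⁻¹ * s⁻¹) * s := by rw [this]
        _ = x⁻¹ := by group
    have h2 : s⁻¹ * x * s ∈ stabilizer G a := by rw [h1]; exact inv_mem hx.1
    rw [ind_EE hZ hab hμc hx hx1 hsa h2, hlam, hlam, ← map_inv]
    have h3 : (⟨s⁻¹ * x * s, h2⟩ : stabilizer G a) = ⟨x, hx.1⟩⁻¹ := Subtype.ext h1
    rw [h3]
  -- restriction of lam to E
  obtain ⟨κ, hκ⟩ : ∃ κ : (stabilizer G a ⊓ stabilizer G b : Subgroup G) →* ℂˣ, ∀ x, κ x = lam ⟨x, x.2.1⟩ :=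
    ⟨lam.comp (Subgroup.inclusion inf_le_left), fun x => rfl⟩
  have hκne : (fun x => (κ x : ℂ)) ≠ fun x => ((κ⁻¹ : (stabilizer G a ⊓ stabilizer G b : Subgroup G) →* ℂˣ) x : ℂ) := by
    intro h
    apply hμne
    have h1 : ∀ x : (stabilizer G a ⊓ stabilizer G b : Subgroup G), κ x = 1 := by
      intro x
      have h2 : ∀ y, κ y * κ y = 1 := by
        intro y
        have : κ y = (κ y)⁻¹ := Units.ext (congrFun h y)
        nth_rewrite 1 [this]
        exact inv_mul_cancel _
      obtain ⟨k, hk⟩ := hodd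
      have h3 : x ^ (2 * k + 1) = 1 := by rw [← hk]; exact pow_card_eq_one'
      have h4 : x = (x ^ (k + 1)) * (x ^ (k + 1)) := by
        rw [← pow_add]
        have : k + 1 + (k + 1) = (2 * k + 1) + 1 := by ring
        rw [this, pow_succ, h3, one_mul]
      rw [h4, map_mul, h2]
    funext n
    obtain ⟨u, hu, x, hx, hn⟩ := exists_fac hZ hab hHa hHcard hHfix n.2
    have e : n = ⟨u, hHa hu⟩ * ⟨x, hx.1⟩ := Subtype.ext hn
    have e2 : lam ⟨u, hHa hu⟩ = 1 := Units.ext (by rw [← hlam]; exact hμH _ hu)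
    rw [hlam, e, map_mul, ← hκ ⟨x, hx⟩, h1, mul_one, e2, Units.val_one]
  have hsum : ∑ x : (stabilizer G a ⊓ stabilizer G b : Subgroup G), (κ x : ℂ) * (κ x : ℂ) = 0 := by
    have h1 := IsIrrCharacter.inner_eq_zero (isIrr_linear κ) (isIrr_linear κ⁻¹) hκne
    rw [classInner] at h1
    have h2 := (mul_eq_zero.mp h1).resolve_left (inv_ne_zero (card_sub_ne_zero _))
    rw [← h2]
    apply Finset.sum_congr rfl
    intro x _
    congr 1
    have h3 := norm_linear κ x
    rw [MonoidHom.inv_apply, Units.val_inv_eq_inv_val, map_inv₀, ← Complex.inv_eq_conj h3, inv_inv]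
  have hpos : 0 < (indFun (stabilizer G a) μ 1).re := by
    rw [hidx]
    simp
    positivity
  refine IsGeneralizedCharacter.irr_of_pos hgen ?_ hpos
  rw [CfsgLib.CharInd.frobenius _ _ (isClassFunction_indFun _ _), classInner]
  obtain ⟨F, hF⟩ : ∃ F : G → ℂ, F = fun g => extendByZero (stabilizer G a) μ g * conj (indFun (stabilizer G a) μ g) := ⟨_, rfl⟩
  have hFc : ∀ g ∈ stabilizer G a, ∀ x, F (g * x * g⁻¹) = F x := by
    intro g hg x
    rw [hF]
    simp only
    rw [ext_conj_mem hμc hg, isClassFunction_indFun _ _ x g]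
  have h1 : ∑ n : stabilizer G a, μ n * conj (indFun (stabilizer G a) μ (n : G)) = ∑ n : stabilizer G a, F n := by
    refine Finset.sum_congr rfl fun n _ => ?_
    rw [hF]
    simp only
    rw [ext_coe]
  rw [h1, sum_stab hZ hab hHa hHcard hHfix F hFc]
  have hF1 : F 1 = (Nat.card H : ℂ) + 1 := by
    rw [hF]
    simp only
    rw [ext_of_mem (one_mem _), hidx]
    have : (⟨1, one_mem _⟩ : stabilizer G a) = 1 := rfl
    rw [this, hμ.2]; simp
  have hFH : ∀ u : H, u ≠ 1 → F u = 1 := by
    intro u hu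
    rw [hF]
    simp only
    rw [ext_of_mem (hHa u.2), hval u u.2 (fun h => hu (Subtype.ext h)), hμH ⟨u, hHa u.2⟩ u.2]
    simp
  have hFE : ∀ x : (stabilizer G a ⊓ stabilizer G b : Subgroup G), x ≠ 1 → F x = 1 + (κ x : ℂ) * κ x := by
    intro x hx
    rw [hF]
    simp only
    rw [ext_of_mem x.2.1, hvE x x.2 (fun h => hx (Subtype.ext h)), hlam, ← hκ]
    have h3 := norm_linear κ x
    rw [Units.val_inv_eq_inv_val, map_add, map_inv₀, ← Complex.inv_eq_conj h3, inv_inv, mul_add, mul_inv_cancel₀ (Units.ne_zero _)]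
  have hSH : ∑ u : H, F u = 2 * (Nat.card H : ℂ) := by
    rw [← Finset.add_sum_erase Finset.univ _ (Finset.mem_univ (1 : H)), Finset.sum_congr rfl fun u hu => hFH u (Finset.ne_of_mem_erase hu), Finset.sum_const,
      Finset.card_erase_of_mem (Finset.mem_univ _), Finset.card_univ, nsmul_eq_mul, mul_one]
    have : ((1 : H) : G) = 1 := rfl
    rw [this, hF1, Nat.cast_sub Fintype.card_pos, Nat.card_eq_fintype_card]
    push_cast; ring
  have hSE : ∑ x : (stabilizer G a ⊓ stabilizer G b : Subgroup G), F x - F 1 = (Nat.card (stabilizer G a ⊓ stabilizer G b : Subgroup G) : ℂ) - 2 := by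
    rw [← Finset.add_sum_erase Finset.univ _ (Finset.mem_univ (1 : (stabilizer G a ⊓ stabilizer G b : Subgroup G)))]
    rw [← Finset.add_sum_erase Finset.univ _ (Finset.mem_univ (1 : (stabilizer G a ⊓ stabilizer G b : Subgroup G)))] at hsum
    rw [Finset.sum_congr rfl fun x hx => hFE x (Finset.ne_of_mem_erase hx), Finset.sum_add_distrib, Finset.sum_const, 
      Finset.card_erase_of_mem (Finset.mem_univ _), Finset.card_univ, nsmul_eq_mul, mul_one, Nat.cast_sub Fintype.card_pos, Nat.card_eq_fintype_card]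
    have : ((1 : (stabilizer G a ⊓ stabilizer G b : Subgroup G)) : G) = 1 := rfl
    rw [this]
    rw [map_one, Units.val_one] at hsum
    push_cast
    linear_combination hsum
  rw [hSH, hSE, card_stab hZ hab, ← hHcard, Nat.add_sub_cancel]
  have hH0 := card_sub_ne_zero H
  have hE0 := card_sub_ne_zero (stabilizer G a ⊓ stabilizer G b : Subgroup G)
  push_cast
  field_simp
  ring

end Cfsg.Agent.S0881
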