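import Cfsg.Statements.S1534
import Mathlib
import Cfsg.Agent.Lib.Sibley3

set_option autoImplicit false
open Cfsg

open scoped commutatorElement
set_option linter.style.haveILetI false
namespace Cfsg.Agent.S1534

open Cfsg CfsgLib.CharBasic CfsgLib.CharInd CfsgLib.CharClifford CfsgLib.CharCoh CfsgLib.FrobQuot CfsgLib.FrobCoh CfsgLib.Sibley2
open scoped commutatorElement


/-- Let G be a finite group and K a nontrivial nilpotent subgroup whose underlying set is a TI-subset of G, properly contained in its set normaliser N, with C_G(k) ≤ K for every non-identity k ∈ K; let e be the index of K in N and S the set of irreducible characters χ of N with χ k ≠ χ 1 for some k ∈ K. Then one of: S has exactly one member, Nat.card K = e + 1 and K is an elementary abelian p-group for some prime p; or K is a Sylow 2-subgroup of G (Nat.card K is the largest power of 2 dividing Nat.card G) and [K : [K,K]] < 4e²; or (S, N minus 1, induction to G) is coherent. -/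
theorem result {G : Type*} [Group G] [Fintype G] (K : Subgroup G) (hK1 : K ≠ ⊥) (hnil : Group.IsNilpotent K) (hTI : Cfsg.IsTISubset (K : Set G)) (hlt : K < Subgroup.normalizer (K : Set G)) (hC : ∀ k ∈ K, k ≠ 1 → Subgroup.centralizer ({k} : Set G) ≤ K) [Fintype ↥(Subgroup.normalizer (K : Set G))] : (Nat.card {χ : ↥(Subgroup.normalizer (K : Set G)) → ℂ // Cfsg.IsIrrCharacter ↥(Subgroup.normalizer (K : Set G)) χ ∧ ∃ k : ↥(Subgroup.normalizer (K : Set G)), (k : G) ∈ K ∧ χ k ≠ χ 1} = 1 ∧ Nat.card K = (K.subgroupOf (Subgroup.normalizer (K : Set G))).index + 1 ∧ ∃ p : ℕ, p.Prime ∧ Cfsg.IsElementaryAbelian p K) ∨ (Nat.card K = 2 ^ (Nat.card G).factorization 2 ∧ (⁅K, K⁆.subgroupOf K).index < 4 * (K.subgroupOf (Subgroup.normalizer (K : Set G))).index ^ 2) ∨ Cfsg.IsCoherent {χ : ↥(Subgroup.normalizer (K : Set G)) → ℂ | Cfsg.IsIrrCharacter ↥(Subgroup.normalizer (K : Set G)) χ ∧ ∃ k : ↥(Subgroup.normalizer (K : Set G)), (k : G) ∈ K ∧ χ k ≠ χ 1} {1}ᶜ (fun α => Cfsg.indFun (Subgroup.normalizer (K : Set G)) α) := by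
  classical
  obtain ⟨N, hN⟩ : ∃ N : Subgroup G, N = Subgroup.normalizer (K : Set G) := ⟨_, rfl⟩
  rename_i inst
  revert inst
  rw [← hN] at hlt ⊢
  intro inst
  have hKN : K ≤ N := hlt.le
  obtain ⟨H, hH⟩ : ∃ H : Subgroup N, H = K.subgroupOf N := ⟨_, rfl⟩
  haveI hnorm : H.Normal := by
    rw [hH, hN]; infer_instance
  haveI hnorm' : (K.subgroupOf N).Normal := by rw [← hH]; exact hnorm
  have hCN : ∀ h ∈ H, h ≠ 1 → Subgroup.centralizer ({h} : Set N) ≤ H := by
    rw [hH]; exact CfsgLib.CohTI.hC_sub hC
  have hTI' : ∀ g : G, g ∉ N → ∀ k ∈ K, g * k * g⁻¹ ∈ K → k = 1 := by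
    intro g hg k hk hgk
    rw [hN] at hg
    exact hTI g hg k hk hgk
  have hiso : IsLinearIsometryOn (zspanOn (inducedIrrAbove H (⊥ : Subgroup N)) {1}ᶜ) (fun α => indFun N α) := by
    rw [hH]; exact CfsgLib.CohTI.ti_isometry hTI'
  have hone : ∀ α ∈ zspanOn (inducedIrrAbove H (⊥ : Subgroup N)) {1}ᶜ, (fun α => indFun N α) α 1 = 0 := by
    rw [hH]; exact fun α hα => CfsgLib.CohTI.ti_one hα
  have hset : {χ : N → ℂ | IsIrrCharacter N χ ∧ ∃ z : N, (z : G) ∈ K ∧ χ z ≠ χ 1} = inducedIrrAbove H (⊥ : Subgroup N) := by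
    rw [frob_set hCN, hH]
    rfl
  have hcardK : Nat.card H = Nat.card K := by
    rw [hH]; exact Nat.card_congr (Subgroup.subgroupOfEquivOfLe hKN).toEquiv
  have hnilH : Group.IsNilpotent H := by
    rw [hH]
    exact Group.nilpotent_of_mulEquiv (_h := hnil) (Subgroup.subgroupOfEquivOfLe hKN).symm
  have hHtop : H ≠ ⊤ := by
    intro h
    rw [hH, Subgroup.subgroupOf_eq_top] at h
    exact hlt.not_ge h
  have hHbot : H ≠ ⊥ := by
    intro h
    apply hK1
    rw [Subgroup.eq_bot_iff_forall]
    intro w hw
    have h1 : (⟨w, hKN hw⟩ : N) ∈ H := by rw [hH, Subgroup.mem_subgroupOf]; exact hw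
    rw [h, Subgroup.mem_bot] at h1
    exact congrArg (Subtype.val : N → G) h1
  have hI0 : H.index ≠ 0 := Subgroup.index_ne_zero_of_finite
  by_cases hcard : Nat.card H = H.index + 1
  · left
    obtain ⟨hcomm, p, hp, hexp⟩ := CfsgLib.Sibley3.small_case hHbot hCN hcard
    have hder : ⁅H, H⁆ = ⊥ := by
      rw [Subgroup.commutator_eq_bot_iff_le_centralizer]
      intro x hx
      rw [Subgroup.mem_centralizer_iff]
      intro y hy
      exact hcomm y hy x hx
    refine ⟨?_, by rw [← hcardK, ← hH]; exact hcard, p, hp, ?_, ?_⟩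
    · have hfin : (inducedIrrAbove H (⊥ : Subgroup N)).Finite := above_finite H ⊥
      obtain ⟨F, hF⟩ := hfin.exists_finset_coe
      have hFm : ∀ φ, φ ∈ F ↔ φ ∈ inducedIrrAbove H (⊥ : Subgroup N) := fun φ => by rw [← hF, Finset.mem_coe]
      have h1 := frob_card hCN (A := ⊥) (by rw [hder]) F hFm
      rw [Subgroup.relIndex_bot_left, hcard, Nat.add_sub_cancel] at h1
      have h2 : F.card = 1 := by
        have : F.card * H.index = 1 * H.index := by rw [h1, one_mul]
        exact Nat.eq_of_mul_eq_mul_right (Nat.pos_of_ne_zero hI0) this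
      have h3 : Nat.card {χ : N → ℂ // IsIrrCharacter N χ ∧ ∃ z : N, (z : G) ∈ K ∧ χ z ≠ χ 1} = Nat.card (F : Set (N → ℂ)) := by
        rw [hF, ← hset]
        rfl
      rw [h3, Nat.card_coe_set_eq, Set.ncard_coe_finset, h2]
    · refine ⟨⟨fun a b => Subtype.ext ?_⟩⟩
      have h1 : (⟨a, hKN a.2⟩ : N) ∈ H := by rw [hH, Subgroup.mem_subgroupOf]; exact a.2
      have h2 : (⟨b, hKN b.2⟩ : N) ∈ H := by rw [hH, Subgroup.mem_subgroupOf]; exact b.2
      exact congrArg (Subtype.val : N → G) (hcomm _ h1 _ h2)
    · intro a ha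
      have h1 : (⟨a, hKN ha⟩ : N) ∈ H := by rw [hH, Subgroup.mem_subgroupOf]; exact ha
      exact congrArg (Subtype.val : N → G) (hexp _ h1)
  · right
    rw [hset]
    rcases frob_main hCN hiso hone hnilH hHtop hHbot hcard with h | ⟨p, hp, ⟨m, hm⟩, hna, hle⟩
    · exact Or.inr h
    · haveI := Fact.mk hp
      have hpK : IsPGroup p K := IsPGroup.iff_card.mpr ⟨m, by rw [← hcardK, hm]⟩
      have hcop := CfsgLib.CohTI.hall hC
      have hm0 : m ≠ 0 := by
        rintro rfl
        rw [pow_zero] at hm
        exact hHbot (Subgroup.card_eq_one.mp hm)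
      have hnd : ¬ p ∣ K.index := by
        intro h
        rw [← hcardK, hm] at hcop
        have h1 : p ∣ 1 := by
          rw [← hcop]
          exact Nat.dvd_gcd (dvd_pow_self p hm0) h
        exact hp.one_lt.ne' (Nat.dvd_one.mp h1)
      have hKp : ∃ P : Sylow p G, (P : Subgroup G) = K := ⟨hpK.toSylow hnd, rfl⟩
      obtain ⟨P, hPK⟩ := hKp
      by_cases hp2 : p = 2
      · left
        subst hp2
        refine ⟨?_, ?_⟩
        · rw [← hPK]
          exact P.card_eq_multiplicity
        · -- index of the commutator subgroup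
          have h1 : (⁅K, K⁆.subgroupOf K).index = (⁅H, H⁆).relIndex H := by
            have h2 : ⁅H, H⁆ = ⁅K, K⁆.subgroupOf N := by
              apply Subgroup.map_injective N.subtype_injective
              rw [Subgroup.map_commutator, hH, Subgroup.subgroupOf_map_subtype, Subgroup.subgroupOf_map_subtype, inf_eq_left.mpr hKN]
              exact (inf_eq_left.mpr ((Subgroup.commutator_le_self K).trans hKN)).symm
            rw [h2, hH, Subgroup.relIndex_subgroupOf hKN]
            rfl
          rw [h1, ← hH]
          -- the index is a power of two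
          have h3 : (⁅H, H⁆).relIndex H ∣ 2 ^ m := by rw [← hm]; exact Subgroup.relIndex_dvd_card _ _
          obtain ⟨k, -, hk⟩ := (Nat.dvd_prime_pow Nat.prime_two).mp h3
          have hk0 : k ≠ 0 := by
            rintro rfl
            rw [pow_zero, Subgroup.relIndex_eq_one] at hk
            haveI : Nontrivial H := (Subgroup.nontrivial_iff_ne_bot _).mpr hHbot
            haveI := hnilH
            have h4 := (Group.IsSolvable.commutator_lt_top_of_nontrivial H).ne
            apply h4
            apply Subgroup.map_injective H.subtype_injective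
            rw [Subgroup.map_subtype_commutator H, le_antisymm (Subgroup.commutator_le_self H) hk, ← MonoidHom.range_eq_map, Subgroup.range_subtype]
          have hoddI : ¬ 2 ∣ H.index := by
            intro h
            have h5 := CfsgLib.CohTI.hall hCN
            rw [hm] at h5
            have h1 : 2 ∣ 1 := by
              rw [← h5]
              exact Nat.dvd_gcd (dvd_pow_self 2 hm0) h
            exact absurd h1 (by norm_num)
          have hI1 : H.index ≠ 1 := fun h => hHtop (Subgroup.index_eq_one.mp h)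
          rw [hk] at hle ⊢
          have h6 : 2 ^ k ≠ 4 * H.index ^ 2 + 1 := by
            intro h
            have h7 : 2 ∣ 2 ^ k := dvd_pow_self 2 hk0
            rw [h] at h7
            omega
          have h7 : 2 ^ k ≠ 4 * H.index ^ 2 := by
            intro h
            -- index squared is a power of two
            have h8 : H.index ∣ 2 ^ k := by
              rw [h]
              exact Dvd.dvd.mul_left (dvd_pow_self _ two_ne_zero) _
            obtain ⟨j, -, hj⟩ := (Nat.dvd_prime_pow Nat.prime_two).mp h8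
            have hj0 : j ≠ 0 := by
              rintro rfl
              exact hI1 (by rw [hj, pow_zero])
            exact hoddI (by rw [hj]; exact dvd_pow_self 2 hj0)
          omega
      · right
        subst hPK
        exact sibley hp2 hTI hC N hN H hH hHtop hna

end Cfsg.Agent.S1534
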