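import Cfsg.Statements.S0007
import Cfsg.Agent.Lib.Transfer

set_option autoImplicit false
open Cfsg

namespace Cfsg.Agent.S0007

/-- Subgroups of coprime index: the intersection has index equal to the product of the indices, and every element is a product of an element of the first subgroup and an element of the second. -/
theorem result {G : Type*} [Group G] [Finite G] (H K : Subgroup G)
    (h : H.index.Coprime K.index) :
    (H ⊓ K).index = H.index * K.index ∧ ∀ g : G, ∃ x ∈ H, ∃ y ∈ K, g = x * y := by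
  have hne : (H ⊓ K).index = H.index * K.index := by
    apply le_antisymm Subgroup.index_inf_le
    have h1 : H.index ∣ (H ⊓ K).index := Subgroup.index_dvd_of_le inf_le_left
    have h2 : K.index ∣ (H ⊓ K).index := Subgroup.index_dvd_of_le inf_le_right
    exact Nat.le_of_dvd (Nat.pos_of_ne_zero Subgroup.FiniteIndex.index_ne_zero) (h.mul_dvd_of_dvd_of_dvd h1 h2)
  refine ⟨hne, fun g => ?_⟩
  have h3 : H.relIndex K = H.index := by
    have h4 : (H ⊓ K).relIndex K * K.index = (H ⊓ K).index := Subgroup.relIndex_mul_index inf_le_right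
    rw [Subgroup.inf_relIndex_right, hne] at h4
    exact Nat.eq_of_mul_eq_mul_right (Nat.pos_of_ne_zero Subgroup.FiniteIndex.index_ne_zero) h4
  have h5 : MulAction.stabilizer K ((1 : G) : G ⧸ H) = H.subgroupOf K := by
    ext k
    rw [MulAction.mem_stabilizer_iff, Subgroup.mem_subgroupOf]
    change (((k : G) * 1 : G) : G ⧸ H) = ((1 : G) : G ⧸ H) ↔ _
    rw [mul_one, eq_comm, QuotientGroup.eq]
    simp
  have h6 : (MulAction.orbit K ((1 : G) : G ⧸ H)).ncard = Nat.card (G ⧸ H) := by
    rw [← MulAction.index_stabilizer, h5, ← Subgroup.index_eq_card]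
    exact h3
  have h7 : MulAction.orbit K ((1 : G) : G ⧸ H) = Set.univ :=
    Set.eq_of_subset_of_ncard_le (Set.subset_univ _) (by rw [h6, Set.ncard_univ]) (Set.toFinite _)
  have h8 : ((g⁻¹ : G) : G ⧸ H) ∈ MulAction.orbit K ((1 : G) : G ⧸ H) := by rw [h7]; trivial
  obtain ⟨k, hk⟩ := h8
  change (((k : G) * 1 : G) : G ⧸ H) = ((g⁻¹ : G) : G ⧸ H) at hk
  rw [mul_one, QuotientGroup.eq] at hk
  refine ⟨((k : G)⁻¹ * g⁻¹)⁻¹, H.inv_mem hk, (k : G)⁻¹, K.inv_mem k.2, by group⟩

end Cfsg.Agent.S0007
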