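import Cfsg.Statements.S0682
import Cfsg.Agent.Lib.PermG3

set_option autoImplicit false
open Cfsg

open scoped Pointwise
set_option linter.style.haveILetI false
namespace Cfsg.Agent.S0682

/-- A finite near-field has prime-power order; its additive group is commutative of prime exponent. -/
theorem result {F : Type*} [Cfsg.NearField F] [Finite F] : ∃ p j : ℕ, p.Prime ∧ 1 ≤ j ∧ Nat.card F = p ^ j ∧ (∀ x y : F, x + y = y + x) ∧ ∀ x : F, p • x = 0 := by
  classical
  -- right multiplication by a nonzero element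
  have hzero : ∀ a : F, (0 : F) * a = 0 := by
    intro a
    have h1 := NearField.right_distrib (0 : F) 0 a
    rw [add_zero] at h1
    exact (left_eq_add (a := (0 : F) * a)).1 h1
  have hns : ∀ (n : ℕ) (a c : F), (n • a) * c = n • (a * c) := by
    intro n a c
    induction n with
    | zero => rw [zero_nsmul, zero_nsmul, hzero]
    | succ n ih => rw [succ_nsmul, succ_nsmul, NearField.right_distrib, ih]
  have hmove : ∀ a b : F, a ≠ 0 → b ≠ 0 → ∃ c : F, a * c = b := by
    intro a b ha _
    obtain ⟨d, hd, -⟩ := NearField.exists_inv a ha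
    exact ⟨d * b, by rw [← mul_assoc, hd, one_mul]⟩
  obtain ⟨p, hp, hpd⟩ : ∃ p : ℕ, p.Prime ∧ p ∣ Nat.card F := by
    apply Nat.exists_prime_and_dvd
    intro h1
    rw [Nat.card_eq_one_iff_unique] at h1
    obtain ⟨h1, -⟩ := h1
    exact NearField.zero_ne_one (h1.elim (0 : F) 1)
  haveI := Fact.mk hp
  obtain ⟨x, hx⟩ := exists_prime_addOrderOf_dvd_card' (G := F) p hpd
  have hx0 : x ≠ 0 := by
    rintro rfl
    rw [addOrderOf_zero] at hx
    exact hp.one_lt.ne hx
  have hpx : ∀ y : F, p • y = 0 := by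
    intro y
    by_cases hy : y = 0
    · rw [hy, nsmul_zero]
    · obtain ⟨c, hc⟩ := hmove x y hx0 hy
      rw [← hc, ← hns, ← hx, addOrderOf_nsmul_eq_zero, hzero]
  have hpg : IsPGroup p (Multiplicative F) := by
    intro g
    refine ⟨1, ?_⟩
    rw [pow_one]
    exact hpx g.toAdd
  obtain ⟨j, hj⟩ := IsPGroup.iff_card.1 hpg
  have hj' : Nat.card F = p ^ j := hj
  have hj0 : j ≠ 0 := by
    rintro rfl
    rw [pow_zero, Nat.card_eq_one_iff_unique] at hj'
    exact NearField.zero_ne_one (hj'.1.elim (0 : F) 1)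
  refine ⟨p, j, hp, by omega, hj', ?_, hpx⟩
  haveI : Nontrivial (Multiplicative F) := ⟨Multiplicative.ofAdd 0, Multiplicative.ofAdd 1, fun h => NearField.zero_ne_one (F := F) h⟩
  have hz := hpg.center_nontrivial
  obtain ⟨z, hz1⟩ := exists_ne (1 : Subgroup.center (Multiplicative F))
  have hzc : ∀ y : F, (z : Multiplicative F).toAdd + y = y + (z : Multiplicative F).toAdd := by
    intro y
    have := (Subgroup.mem_center_iff.1 z.2) (Multiplicative.ofAdd y)
    exact this.symm
  have hz0 : (z : Multiplicative F).toAdd ≠ 0 := fun h => hz1 (Subtype.ext h)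
  intro a b
  by_cases ha : a = 0
  · rw [ha, zero_add, add_zero]
  · obtain ⟨c, hc⟩ := hmove _ a hz0 ha
    have hc0 : c ≠ 0 := by
      rintro rfl
      rw [NearField.mul_zero] at hc
      exact ha hc.symm
    obtain ⟨d, hd, hd'⟩ := NearField.exists_inv c hc0
    have h1 := congrArg (fun t => t * c) (hzc (b * d))
    simp only [NearField.right_distrib] at h1
    rw [hc, mul_assoc, hd', mul_one] at h1
    exact h1

end Cfsg.Agent.S0682
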