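import Cfsg.Statements.S0705
import Cfsg.Agent.Lib.PermG3

set_option autoImplicit false
open scoped Pointwise
open Cfsg

open scoped Pointwise
namespace Cfsg.Agent.S0705

/-- A generously `k`-transitive permutation group (every `(k+1)`-subset has its full symmetric group induced by the setwise stabiliser) of degree greater than `k` is `k`-transitive, and for a `k`-subset the setwise and pointwise stabilisers have the same orbits outside it. -/
theorem result {α : Type*} [Fintype α] [DecidableEq α] (G : Subgroup (Equiv.Perm α)) {k : ℕ} (hk : k < Fintype.card α) (hgen : ∀ s : Finset α, s.card = k + 1 → ∀ σ : Equiv.Perm ↥s, ∃ g ∈ G, ∀ x : ↥s, g (x : α) = σ x) : MulAction.IsMultiplyPretransitive G α k ∧ ∀ s : Finset α, s.card = k → ∀ a b : α, a ∉ s → b ∉ s → (∃ g ∈ G, g • s = s ∧ g a = b) → ∃ g ∈ G, (∀ x ∈ s, g x = x) ∧ g a = b := by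
  classical
  have hstab : ∀ s : Finset α, s.card = k → ∀ a b : α, a ∉ s → b ∉ s → (∃ g ∈ G, g • s = s ∧ g a = b) → ∃ g ∈ G, (∀ x ∈ s, g x = x) ∧ g a = b := by
    rintro s hs a b ha hb ⟨g, hg, hgs, hgab⟩
    have hgx : ∀ x, x ∈ s ↔ g x ∈ s := by
      intro x
      have h1 : g • x ∈ g • s ↔ x ∈ s := Finset.smul_mem_smul_finset_iff g
      rw [hgs] at h1
      exact h1.symm
    -- the permutation of insert a s
    have hs1 : (insert a s).card = k + 1 := by rw [Finset.card_insert_of_notMem ha, hs]
    let σ₀ : Equiv.Perm {x // x ∈ s} := g.subtypePerm (fun x => (hgx x).symm)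
    let τ : Equiv.Perm α := σ₀.extendDomain (Equiv.refl _)
    have hτs : ∀ x ∈ s, τ x = g x := by
      intro x hx
      have := Equiv.Perm.extendDomain_apply_subtype σ₀ (Equiv.refl {x // x ∈ s}) hx
      exact this
    have hτn : ∀ x, x ∉ s → τ x = x := fun x hx =>
      Equiv.Perm.extendDomain_apply_not_subtype σ₀ (Equiv.refl {x // x ∈ s}) hx
    have hτi : ∀ x, x ∈ insert a s ↔ τ x ∈ insert a s := by
      intro x
      by_cases hx : x ∈ s
      · rw [hτs x hx]
        constructor
        · intro _; exact Finset.mem_insert_of_mem ((hgx x).1 hx)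
        · intro _; exact Finset.mem_insert_of_mem hx
      · rw [hτn x hx]
    obtain ⟨h, hh, hhx⟩ := hgen (insert a s) hs1 ((τ.subtypePerm (fun x => (hτi x).symm))⁻¹)
    have hh2 : ∀ x ∈ insert a s, h (τ x) = x := by
      intro x hx
      have h1 := hhx ⟨τ x, (hτi x).1 hx⟩
      rw [h1]
      have h2 : (⟨τ x, (hτi x).1 hx⟩ : {y // y ∈ insert a s}) = (τ.subtypePerm (fun x => (hτi x).symm)) ⟨x, hx⟩ := rfl
      rw [h2, CfsgLib.PermG3.inv_apply]
    -- h (g x) = x on s and h a = a
    refine ⟨g * h, mul_mem hg hh, ?_, ?_⟩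
    · intro x hx
      -- x = g y
      have hy : g⁻¹ x ∈ s := by
        rw [hgx (g⁻¹ x), CfsgLib.PermG3.apply_inv]
        exact hx
      have h3 := hh2 _ (Finset.mem_insert_of_mem (a := g⁻¹ x) (b := a) hy)
      rw [hτs _ hy, CfsgLib.PermG3.apply_inv] at h3
      rw [Equiv.Perm.mul_apply, h3, CfsgLib.PermG3.apply_inv]
    · have h3 := hh2 a (Finset.mem_insert_self a s)
      rw [hτn a ha] at h3
      rw [Equiv.Perm.mul_apply, h3, hgab]
  refine ⟨?_, hstab⟩
  rcases Nat.eq_zero_or_pos k with rfl | hk0
  · exact MulAction.is_zero_pretransitive'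
  · apply CfsgLib.PermG3.mt_of_fix hk0 hk
    intro s hs a b ha hb
    by_cases hab : a = b
    · subst hab
      exact ⟨1, fun x _ => one_smul _ _, one_smul _ _⟩
    · have hcard : (insert a (insert b s)).card = k + 1 := by
        rw [Finset.card_insert_of_notMem (by
          rw [Finset.mem_insert]; rintro (h | h); exacts [hab h, ha h]),
          Finset.card_insert_of_notMem hb, hs]
        omega
      have hsw : ∀ x, x ∈ insert a (insert b s) ↔ Equiv.swap a b x ∈ insert a (insert b s) := by
        intro x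
        by_cases hxa : x = a
        · subst hxa; rw [Equiv.swap_apply_left]; simp
        · by_cases hxb : x = b
          · subst hxb; rw [Equiv.swap_apply_right]; simp
          · rw [Equiv.swap_apply_of_ne_of_ne hxa hxb]
      obtain ⟨g, hg, hgx⟩ := hgen _ hcard ((Equiv.swap a b).subtypePerm (fun x => (hsw x).symm))
      refine ⟨⟨g, hg⟩, ?_, ?_⟩
      · intro x hx
        have h1 := hgx ⟨x, by simp [hx]⟩
        change g x = x
        rw [h1]
        change Equiv.swap a b x = x
        apply Equiv.swap_apply_of_ne_of_ne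
        · rintro rfl; exact ha hx
        · rintro rfl; exact hb hx
      · have h1 := hgx ⟨a, by simp⟩
        change g a = b
        rw [h1]
        exact Equiv.swap_apply_left a b

end Cfsg.Agent.S0705
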