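import Cfsg.Statements.S0009
import Cfsg.Agent.Lib.Core

set_option autoImplicit false
open Cfsg

set_option linter.style.haveILetI false
namespace Cfsg.Agent.S0009

/-- The Fitting subgroup of a finite group is generated by the p-cores, p ranging over the primes. -/
theorem result {G : Type*} [Group G] [Finite G] :
    Cfsg.fittingSubgroup G = ⨆ p : Nat.Primes, Cfsg.pCore (p : ℕ) G := by
  apply le_antisymm
  · rw [CfsgLib.Core.fitting_eq_iSup G]
    refine iSup_le fun q => ?_
    exact le_iSup (fun p : Nat.Primes => Cfsg.pCore (p : ℕ) G) ⟨q, Nat.prime_of_mem_primeFactors q.2⟩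
  · refine iSup_le fun p => ?_
    haveI : Fact (p : ℕ).Prime := ⟨p.2⟩
    exact CfsgLib.Core.pCore_le_fitting (p : ℕ) G

end Cfsg.Agent.S0009
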