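import Cfsg.Statements.S0011
import Cfsg.Agent.Lib.Transfer

set_option autoImplicit false
open Cfsg

set_option linter.style.haveILetI false
namespace Cfsg.Agent.S0011

/-- If the Frattini quotient of a finite group is nilpotent then the group is nilpotent. -/
theorem result {G : Type*} [Group G] [Finite G]
    (h : Group.IsNilpotent (G ⧸ frattini G)) : Group.IsNilpotent G := by
  -- every Sylow subgroup is normal, by the Frattini argument
  apply ((Group.isNilpotent_of_finite_tfae (G := G)).out 0 3).mpr
  intro p hp P
  haveI := hp
  haveI := h
  -- the image of P in the quotient is Sylow and normal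
  have h2 : ((P : Subgroup G).map (QuotientGroup.mk' (frattini G))).Normal := by
    have h1 : (P.mapSurjective (QuotientGroup.mk'_surjective (frattini G))).Normal := inferInstance
    exact h1
  have h3 : ((P : Subgroup G) ⊔ frattini G).Normal := by
    have h4 := Subgroup.Normal.comap h2 (QuotientGroup.mk' (frattini G))
    rwa [Subgroup.comap_map_eq, QuotientGroup.ker_mk'] at h4
  haveI := h3
  -- Frattini argument
  have hPle : (P : Subgroup G) ≤ (P : Subgroup G) ⊔ frattini G := le_sup_left
  have h5 := Sylow.normalizer_sup_eq_top' (p := p) P (N := (P : Subgroup G) ⊔ frattini G) hPle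
  have h6 : Subgroup.normalizer (P : Set G) ⊔ frattini G = ⊤ := by
    rw [eq_top_iff, ← h5]
    exact sup_le le_sup_left (sup_le (Subgroup.le_normalizer.trans le_sup_left) le_sup_right)
  have h7 := frattini_nongenerating h6
  exact Subgroup.normalizer_eq_top_iff.mp h7

end Cfsg.Agent.S0011
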