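import Cfsg.Statements.S0014
import Cfsg.Agent.Lib.Frattini
import Mathlib.GroupTheory.Index

set_option autoImplicit false
open Cfsg

set_option linter.style.haveILetI false
namespace Cfsg.Agent.S0014

/-- Burnside's basis Theorem: in a finite p-group whose Frattini quotient has order p ^ n, every generating set contains n elements that already generate, and no set with fewer than n elements generates. -/
theorem result {G : Type*} [Group G] [Finite G] (p n : ℕ) [Fact p.Prime]
    (hG : IsPGroup p G) (hn : (frattini G).index = p ^ n) :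
    (∀ S : Finset G, Subgroup.closure (S : Set G) = ⊤ → ∃ T : Finset G, T ⊆ S ∧ T.card = n ∧ Subgroup.closure (T : Set G) = ⊤) ∧
    (∀ T : Finset G, Subgroup.closure (T : Set G) = ⊤ → n ≤ T.card) := by
  classical
  set Φ := frattini G with hΦ
  have hp := (Fact.out : p.Prime)
  have hΦn : Φ.Normal := inferInstance
  have step : ∀ (M : Subgroup G) (x : G), Φ ≤ M → x ∉ M → Φ.relIndex (M ⊔ Subgroup.zpowers x) = p * Φ.relIndex M := by
    intro M x hM hx
    have hMn : M.Normal := Subgroup.Normal.of_commutator_le G ((CfsgLib.Frattini.commutator_le_frattini_of_nilpotent hG.isNilpotent).trans hM)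
    rw [← Subgroup.relIndex_mul_relIndex Φ M (M ⊔ Subgroup.zpowers x) hM le_sup_left, mul_comm]
    congr 1
    rw [Subgroup.relIndex_sup_left]
    have h1 : M = (QuotientGroup.mk' M).ker := (QuotientGroup.ker_mk' M).symm
    have h2 : M.relIndex (Subgroup.zpowers x) = Nat.card ((Subgroup.zpowers x).map (QuotientGroup.mk' M)) := by
      rw [← Subgroup.relIndex_ker, QuotientGroup.ker_mk']
    rw [h2, MonoidHom.map_zpowers, Nat.card_zpowers]
    haveI := Fact.mk hp
    apply orderOf_eq_prime
    · rw [← map_pow]
      exact (QuotientGroup.eq_one_iff _).mpr (hM (CfsgLib.Frattini.pow_mem_frattini hG x))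
    · intro h
      exact hx ((QuotientGroup.eq_one_iff x).mp h)
  have ind : ∀ S : Finset G, ∃ T : Finset G, T ⊆ S ∧ Φ ⊔ Subgroup.closure (S : Set G) = Φ ⊔ Subgroup.closure (T : Set G) ∧
      Φ.relIndex (Φ ⊔ Subgroup.closure (T : Set G)) = p ^ T.card := by
    intro S
    induction S using Finset.induction_on with
    | empty => exact ⟨∅, subset_rfl, rfl, by simp⟩
    | insert a S ha ih =>
      obtain ⟨T, hTS, hT, hTp⟩ := ih
      have hcl : ∀ X : Finset G, Subgroup.closure ((insert a X : Finset G) : Set G) = Subgroup.closure (X : Set G) ⊔ Subgroup.zpowers a := by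
        intro X
        rw [Finset.coe_insert, Set.insert_eq, Subgroup.closure_union, Subgroup.zpowers_eq_closure, sup_comm]
      by_cases haT : a ∈ Φ ⊔ Subgroup.closure (T : Set G)
      · refine ⟨T, hTS.trans (Finset.subset_insert _ _), ?_, hTp⟩
        rw [hcl, ← sup_assoc, hT, sup_eq_left, Subgroup.zpowers_le]
        exact haT
      · refine ⟨insert a T, Finset.insert_subset_insert _ hTS, ?_, ?_⟩
        · rw [hcl, hcl, ← sup_assoc, ← sup_assoc, hT]
        · have haT' : a ∉ T := fun h => haT (Subgroup.mem_sup_right (Subgroup.subset_closure h))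
          rw [hcl, ← sup_assoc, step _ _ le_sup_left haT, hTp, Finset.card_insert_of_notMem haT', pow_succ']
  have main : ∀ S : Finset G, Subgroup.closure (S : Set G) = ⊤ → ∃ T : Finset G, T ⊆ S ∧ T.card = n ∧ Subgroup.closure (T : Set G) = ⊤ := by
    intro S hS
    obtain ⟨T, hTS, hT, hTp⟩ := ind S
    rw [hS, sup_top_eq] at hT
    refine ⟨T, hTS, ?_, ?_⟩
    · rw [← hT, Subgroup.relIndex_top_right, hn] at hTp
      exact (Nat.pow_right_injective hp.two_le hTp).symm
    · apply frattini_nongenerating
      rw [sup_comm]; exact hT.symm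
  refine ⟨main, fun T hT => ?_⟩
  obtain ⟨T', hT', hc, -⟩ := main T hT
  rw [← hc]; exact Finset.card_le_card hT'

end Cfsg.Agent.S0014
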