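import Cfsg.Statements.S0031
import Cfsg.Agent.Lib.SZ
import Mathlib.GroupTheory.FixedPointFree

set_option autoImplicit false
open Cfsg

open scoped Pointwise
namespace Cfsg.Agent.S0031

/-- A fixed-point-free automorphism of a finite group maps some Sylow p-subgroup to itself. -/
theorem result {G : Type*} [Group G] [Finite G] (φ : G ≃* G)
    (hφ : MonoidHom.FixedPointFree (φ : G →* G)) (p : ℕ) [Fact p.Prime] :
    ∃ P : Sylow p G, (P : Subgroup G).map (φ : G →* G) = P := by
  classical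
  obtain ⟨P⟩ : Nonempty (Sylow p G) := inferInstance
  -- φ P is a Sylow subgroup
  have hφP : Nat.card ((P : Subgroup G).map (φ : G →* G)) = Nat.card (P : Subgroup G) :=
    Nat.card_congr ((P : Subgroup G).equivMapOfInjective _ φ.injective).symm.toEquiv
  obtain ⟨k, hk⟩ : ∃ k, Nat.card (P : Subgroup G) = p ^ k := (IsPGroup.iff_card (p := p)).mp P.isPGroup'
  have hind : ¬ p ∣ (P : Subgroup G).index := P.not_dvd_index
  obtain ⟨g, hg⟩ := CfsgLib.SZ.sylow_conj_of_card (Fact.out : p.Prime) hk (hφP.trans hk) hind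
  -- find h with h⁻¹ * φ h = g⁻¹ 
  obtain ⟨y, hy⟩ := MonoidHom.FixedPointFree.commutatorMap_surjective hφ g⁻¹
  -- y / φ y = g⁻¹; take h = y⁻¹
  have hy' : y * (φ y)⁻¹ = g⁻¹ := by simpa [MonoidHom.commutatorMap, div_eq_mul_inv] using hy
  refine ⟨y⁻¹ • P, ?_⟩
  rw [Sylow.coe_subgroup_smul]
  have e1 : (MulAut.conj y⁻¹ • (P : Subgroup G)).map (φ : G →* G) =
      MulAut.conj (φ y⁻¹) • ((P : Subgroup G).map (φ : G →* G)) := CfsgLib.SZ.map_conj (φ : G →* G) _ _
  rw [e1, ← hg, smul_smul, ← map_mul]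
  congr 2
  rw [map_inv]
  have : φ y = g * y := by
    have h2 := congrArg (fun z => z⁻¹) hy'
    simp only [mul_inv_rev, inv_inv] at h2
    rw [← h2]; group
  rw [this]; group

end Cfsg.Agent.S0031
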