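import Cfsg.Statements.S0032
import Cfsg.Agent.Lib.SZ
import Mathlib.GroupTheory.FixedPointFree

set_option autoImplicit false
open Cfsg

namespace Cfsg.Agent.S0032

/-- If an automorphism of a finite group fixes only the identity and maps a normal subgroup N into itself, then the only cosets of N it fixes are those in N: a fixed coset xN forces x ∈ N. -/
theorem result {G : Type*} [Group G] [Finite G] (φ : G ≃* G)
    (hφ : MonoidHom.FixedPointFree (φ : G →* G)) (N : Subgroup G) [N.Normal] (hN : ∀ n ∈ N, φ n ∈ N)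
    (x : G) (hx : (φ x)⁻¹ * x ∈ N) : x ∈ N := by
  classical
  let ψ : N →* N := MonoidHom.codRestrict ((φ : G →* G).comp N.subtype) N (fun n => hN n n.2)
  have hψv : ∀ n : N, ((ψ n : N) : G) = φ n := fun n => rfl
  have hψ : MonoidHom.FixedPointFree ψ := by
    intro n hn
    ext
    exact hφ n (congrArg Subtype.val hn)
  obtain ⟨n, hn⟩ := MonoidHom.FixedPointFree.commutatorMap_surjective hψ (⟨(φ x)⁻¹ * x, hx⟩⁻¹ : N)
  have hn' : (n : G) * (φ n)⁻¹ = ((φ x)⁻¹ * x)⁻¹ := by
    have := congrArg Subtype.val hn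
    rw [MonoidHom.commutatorMap_apply, div_eq_mul_inv, Subgroup.coe_mul, Subgroup.coe_inv, Subgroup.coe_inv, hψv] at this
    exact this
  have h1 : φ (x * n) = x * n := by
    rw [map_mul]
    have h2 := congrArg (fun z => z⁻¹) hn'
    simp only [mul_inv_rev, inv_inv] at h2
    have h3 : φ n = (φ x)⁻¹ * x * n := by rw [← h2]; group
    rw [h3]; group
  have h4 := hφ (x * n) h1
  have h5 : x = (n : G)⁻¹ := mul_eq_one_iff_eq_inv.mp h4
  rw [h5]; exact N.inv_mem n.2

end Cfsg.Agent.S0032
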