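import Cfsg.Statements.S0033
import Cfsg.Agent.Lib.H5Fpf

set_option autoImplicit false
open Cfsg

namespace Cfsg.Agent.S0033

/-- Thompson's Theorem on fixed-point-free automorphisms: a finite group with an automorphism of prime order fixing only the identity is nilpotent. -/
theorem result {G : Type*} [Group G] [Finite G] (φ : G ≃* G)
    (hφ : MonoidHom.FixedPointFree (φ : G →* G)) (p : ℕ) (hp : p.Prime) (hord : orderOf φ = p) :
    Group.IsNilpotent G := by
  refine CfsgLib.H5Fpf.nilpotent_of_fpf hp (φ : G →* G) hφ ?_
  have h1 : φ ^ p = 1 := by rw [← hord]; exact pow_orderOf_eq_one φ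
  have h2 : ∀ n : ℕ, ((φ : G →* G) : G → G)^[n] = ((φ ^ n : G ≃* G) : G → G) := by
    intro n
    induction n with
    | zero => rfl
    | succ n ih =>
      funext x
      rw [Function.iterate_succ_apply, ih, pow_succ]; rfl
  rw [h2, h1]; rfl

end Cfsg.Agent.S0033
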