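import Cfsg.Statements.S0042
import Cfsg.Agent.Lib.FrobThm
import Cfsg.Agent.Lib.H5Fpf

set_option autoImplicit false
open Cfsg

namespace Cfsg.Agent.S0042

/-- In a finite Frobenius group, the Frobenius kernel is (the carrier of) a normal subgroup which is nilpotent. -/
theorem result {G : Type*} [Group G] [Finite G] (H : Subgroup G) (hH : Cfsg.IsFrobeniusComplement H) :
    ∃ N : Subgroup G, (N : Set G) = Cfsg.frobeniusKernel H ∧ N.Normal ∧ Group.IsNilpotent N := by
  classical
  obtain ⟨N, hN, hNn, hc⟩ := CfsgLib.FrobThm.frobenius_theorem H hH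
  refine ⟨N, hN, hNn, ?_⟩
  have hcard : Nat.card H ≠ 1 := fun h => hH.1 (Subgroup.card_eq_one.mp h)
  obtain ⟨p, hp, hpd⟩ := Nat.exists_prime_and_dvd hcard
  haveI : Fact p.Prime := ⟨hp⟩
  obtain ⟨h, hh⟩ := exists_prime_orderOf_dvd_card' (G := H) p hpd
  have hpow : (h : G) ^ p = 1 := by
    have := pow_orderOf_eq_one h
    rw [hh] at this
    exact_mod_cast congrArg Subtype.val this
  have h1 : (h : G) ≠ 1 := by
    intro h1
    have : h = 1 := Subtype.ext h1
    rw [this, orderOf_one] at hh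
    exact hp.one_lt.ne hh
  let φ : N →* N :=
    { toFun := fun n => ⟨(h : G) * n * (h : G)⁻¹, hNn.conj_mem n n.2 h⟩
      map_one' := Subtype.ext (by simp)
      map_mul' := fun a b => Subtype.ext (by simp) }
  have hφ : ∀ (k : ℕ) (n : N), ((φ^[k] n : N) : G) = (h : G) ^ k * n * ((h : G) ^ k)⁻¹ := by
    intro k
    induction k with
    | zero => intro n; simp
    | succ k ih =>
      intro n
      rw [Function.iterate_succ_apply']
      change (h : G) * (φ^[k] n : N) * (h : G)⁻¹ = _
      rw [ih, pow_succ']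
      group
  apply CfsgLib.H5Fpf.nilpotent_of_fpf hp φ
  · intro n hn
    have h2 : (h : G) * n * (h : G)⁻¹ = n := congrArg Subtype.val hn
    have h3 : (n : G)⁻¹ * h * n = h := by
      have : (h : G) * n = n * h := mul_inv_eq_iff_eq_mul.mp h2
      rw [mul_assoc, this, inv_mul_cancel_left]
    have h4 : (n : G) ∈ H := CfsgLib.FrobThm.mem_of_conj hH h.2 h1 (by rw [h3]; exact h.2)
    have h5 : (n : G) ∈ N ⊓ H := ⟨n.2, h4⟩
    rw [hc.disjoint.eq_bot, Subgroup.mem_bot] at h5
    exact Subtype.ext h5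
  · funext n
    apply Subtype.ext
    rw [hφ, hpow]
    simp

end Cfsg.Agent.S0042
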