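import Cfsg.Statements.S0047
import Cfsg.Agent.Lib.Solv

set_option autoImplicit false
open Cfsg

namespace Cfsg.Agent.S0047

/-- A finite group which is the product AB of two abelian subgroups A and B is solvable. -/
theorem result {G : Type*} [Group G] [Finite G] (A B : Subgroup G)
    [IsMulCommutative A] [IsMulCommutative B] (hAB : ∀ g : G, ∃ a ∈ A, ∃ b ∈ B, g = a * b) :
    Group.IsSolvable G := by
  have h := CfsgLib.Solv.ito A B inferInstance inferInstance hAB
  have h1 : (derivedSeries G 2) = ⊥ := by
    rw [derivedSeries_succ, derivedSeries_one, eq_bot_iff, Subgroup.commutator_le]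
    intro x hx y hy
    rw [Subgroup.mem_bot, commutatorElement_eq_one_iff_mul_comm]
    exact congrArg Subtype.val (h.is_comm.comm (⟨x, hx⟩ : commutator G) ⟨y, hy⟩)
  exact ⟨2, h1⟩

end Cfsg.Agent.S0047
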