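import Cfsg.Statements.S0054
import Cfsg.Agent.Lib.SZ
import Mathlib.GroupTheory.GroupAction.MultipleTransitivity
import Mathlib.GroupTheory.PGroup

set_option autoImplicit false
open Cfsg

open scoped Pointwise
set_option linter.style.haveILetI false
namespace Cfsg.Agent.S0054

/-- A regular normal subgroup of a finite 2-transitive group is elementary abelian: it is commutative and all its elements have order dividing one prime. -/
theorem result {G : Type*} [Group G] [Finite G]
    {X : Type*} [Nonempty X] [MulAction G X] (h2 : MulAction.IsMultiplyPretransitive G X 2)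
    (N : Subgroup G) [N.Normal] (htrans : MulAction.IsPretransitive N X) (hreg : ∀ x : X, MulAction.stabilizer N x = ⊥) :
    IsMulCommutative N ∧ ∃ p : ℕ, p.Prime ∧ ∀ n ∈ N, n ^ p = 1 := by
  classical
  rcases subsingleton_or_nontrivial N with hN | hN
  · refine ⟨⟨⟨fun a b => Subsingleton.elim _ _⟩⟩, 2, Nat.prime_two, fun n hn => ?_⟩
    have : (⟨n, hn⟩ : N) = 1 := Subsingleton.elim _ _
    have h1 : n = 1 := congrArg Subtype.val this
    rw [h1, one_pow]
  obtain ⟨x⟩ : Nonempty X := inferInstance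
  -- all nonidentity elements are conjugate in G
  have hfree : ∀ n ∈ N, ∀ y : X, n • y = y → n = 1 := by
    intro n hn y hy
    have : (⟨n, hn⟩ : N) ∈ MulAction.stabilizer N y := hy
    rw [hreg, Subgroup.mem_bot] at this
    exact congrArg Subtype.val this
  have hconj : ∀ n ∈ N, ∀ m ∈ N, n ≠ 1 → m ≠ 1 → ∃ g : G, g * n * g⁻¹ = m := by
    intro n hn m hm hn1 hm1
    have h3 : ∀ {a b c d : X}, a ≠ b → c ≠ d → ∃ g : G, g • a = c ∧ g • b = d := MulAction.is_two_pretransitive_iff.mp h2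
    obtain ⟨g, hg1, hg2⟩ := @h3 x (n • x) x (m • x) (fun h => hn1 (hfree n hn x h.symm)) (fun h => hm1 (hfree m hm x h.symm))
    refine ⟨g, ?_⟩
    have h4 : (g * n * g⁻¹) • x = m • x := by
      rw [mul_smul, mul_smul, inv_smul_eq_iff.mpr hg1.symm, hg2]
    have h5 : m⁻¹ * (g * n * g⁻¹) = 1 := by
      apply hfree _ (N.mul_mem (N.inv_mem hm) (Subgroup.Normal.conj_mem inferInstance n hn g)) x
      rw [mul_smul, h4, inv_smul_smul]
    have := mul_eq_one_iff_inv_eq.mp h5
    rw [inv_inv] at this; exact this.symm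
  obtain ⟨n0, hn0⟩ := exists_ne (1 : N)
  set p := Nat.minFac (orderOf (n0 : G)) with hp
  have hn0' : (n0 : G) ≠ 1 := fun h => hn0 (Subtype.ext h)
  have hpp : p.Prime := Nat.minFac_prime (fun h => hn0' (orderOf_eq_one_iff.mp h))
  have hex : ∀ n ∈ N, n ^ p = 1 := by
    obtain ⟨k, hk⟩ := Nat.minFac_dvd (orderOf (n0 : G))
    rw [← hp] at hk
    have ho : orderOf ((n0 : G) ^ k) = p := by
      have h0 : orderOf (n0 : G) ≠ 0 := (orderOf_pos _).ne'
      have hk0 : k ≠ 0 := by rintro rfl; rw [mul_zero] at hk; exact h0 hk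
      rw [orderOf_pow' _ hk0, Nat.gcd_eq_right (hk ▸ dvd_mul_left _ _), hk, Nat.mul_div_cancel _ (Nat.pos_of_ne_zero hk0)]
    intro n hn
    by_cases hn1 : n = 1
    · rw [hn1, one_pow]
    have hz1 : (n0 : G) ^ k ≠ 1 := fun h => by rw [h, orderOf_one] at ho; exact hpp.one_lt.ne ho
    obtain ⟨g, hg⟩ := hconj _ (N.pow_mem n0.2 k) n hn hz1 hn1
    rw [← hg, conj_pow, ← ho, pow_orderOf_eq_one]; group
  refine ⟨?_, p, hpp, hex⟩
  haveI := Fact.mk hpp
  have hNp : IsPGroup p N := fun y => ⟨1, by ext; simpa using hex y y.2⟩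
  haveI := hNp.center_nontrivial
  obtain ⟨z, hz⟩ := exists_ne (1 : Subgroup.center N)
  have hz1 : ((z : N) : G) ≠ 1 := fun h => hz (Subtype.ext (Subtype.ext h))
  have hcen : ∀ n : N, n ∈ Subgroup.center N := by
    intro n
    by_cases hn1 : n = 1
    · rw [hn1]; exact Subgroup.one_mem _
    obtain ⟨g, hg⟩ := hconj (z : N) (z : N).2 n n.2 hz1 (fun h => hn1 (Subtype.ext h))
    rw [Subgroup.mem_center_iff]
    intro m
    have h5 : g⁻¹ * (m : G) * g ∈ N := by
      have := Subgroup.Normal.conj_mem (inferInstance : N.Normal) (m : G) m.2 g⁻¹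
      simpa using this
    have h6 := Subgroup.mem_center_iff.mp z.2 ⟨_, h5⟩
    have h7 : g⁻¹ * (m : G) * g * ((z : N) : G) = ((z : N) : G) * (g⁻¹ * (m : G) * g) := congrArg Subtype.val h6
    ext
    show (m : G) * n = n * m
    rw [← hg]
    calc (m : G) * (g * z * g⁻¹) = g * (g⁻¹ * m * g * z) * g⁻¹ := by group
      _ = g * (z * (g⁻¹ * m * g)) * g⁻¹ := by rw [h7]
      _ = _ := by group
  exact ⟨⟨fun a b => (Subgroup.mem_center_iff.mp (hcen b) a)⟩⟩

end Cfsg.Agent.S0054
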