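import Cfsg.Statements.S0072
import Cfsg.Agent.Lib.NPC

set_option autoImplicit false
open Cfsg

namespace Cfsg.Agent.S0072

/-- A finite group has a normal p-complement if and only if every p-local subgroup (normalizer of a nontrivial p-subgroup) has one. -/
theorem result {G : Type*} [Group G] [Finite G] (p : ℕ) [Fact p.Prime] : Cfsg.HasNormalPComplement p G ↔ ∀ Q : Subgroup G, IsPGroup p Q → Q ≠ ⊥ → Cfsg.HasNormalPComplement p (Subgroup.normalizer (Q : Set G)) := by
  rw [CfsgLib.NPC.npc_iff]
  constructor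
  · intro h Q _ _
    rw [CfsgLib.NPC.npc_iff]
    exact h.subgroup _
  · intro h
    apply CfsgLib.NPC.npc_of_frobCond _ G le_rfl
    intro Q hQ g hg hgo
    by_cases hQ1 : Q = ⊥
    · subst hQ1
      rw [Subgroup.mem_centralizer_iff]
      intro x hx
      rw [SetLike.mem_coe, Subgroup.mem_bot] at hx
      simp [hx]
    have h1 := CfsgLib.NPC.npc_iff.mp (h Q hQ hQ1)
    have h2 := CfsgLib.NPC.frobCond_of_npc h1 (Q.subgroupOf (Subgroup.normalizer (Q : Set G)))
      (hQ.of_equiv (Subgroup.subgroupOfEquivOfLe Subgroup.le_normalizer).symm) ⟨g, hg⟩ (by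
        rw [Subgroup.mem_normalizer_iff]
        intro x
        exact Subgroup.mem_normalizer_iff.mp hg x) (by rwa [Subgroup.orderOf_mk])
    rw [Subgroup.mem_centralizer_iff] at h2 ⊢
    intro x hx
    exact congrArg Subtype.val (h2 ⟨x, Subgroup.le_normalizer hx⟩ hx)

end Cfsg.Agent.S0072
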