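import Cfsg.Statements.S0073
import Cfsg.Agent.Lib.Transfer

set_option autoImplicit false
open Cfsg

set_option linter.style.haveILetI false
namespace Cfsg.Agent.S0073

/-- For a finite non-abelian simple group, either the cube of the least prime divisor of the order divides the order, or 12 does. -/
theorem result {G : Type*} [Group G] [Finite G] [IsSimpleGroup G] (hG : ∃ x y : G, x * y ≠ y * x) : (Nat.card G).minFac ^ 3 ∣ Nat.card G ∨ 12 ∣ Nat.card G := by
  classical
  obtain ⟨x, y, hxy⟩ := hG
  have hc1 : Nat.card G ≠ 1 := by
    intro h
    haveI := (Nat.card_eq_one_iff_unique.mp h).1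
    exact hxy (Subsingleton.elim _ _)
  set p := (Nat.card G).minFac with hp
  have hpp : p.Prime := Nat.minFac_prime hc1
  haveI := Fact.mk hpp
  by_cases h3 : p ^ 3 ∣ Nat.card G
  · exact Or.inl h3
  right
  obtain ⟨P⟩ : Nonempty (Sylow p G) := inferInstance
  obtain ⟨n, hn⟩ := (IsPGroup.iff_card (p := p)).mp P.isPGroup'
  have hn' : Nat.card (P : Subgroup G) = p ^ n := hn
  have hn0 : n ≠ 0 := by
    intro h
    have h1 := P.dvd_card_of_dvd_card (Nat.minFac_dvd _)
    rw [hn', h, pow_zero] at h1
    exact hpp.one_lt.ne' (Nat.dvd_one.mp h1)
  have hn2 : n ≤ 2 := by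
    by_contra h
    push Not at h
    apply h3
    have h1 : p ^ 3 ∣ p ^ n := pow_dvd_pow p (by omega)
    exact h1.trans (hn' ▸ Subgroup.card_subgroup_dvd_card _)
  have hPab : IsMulCommutative (P : Subgroup G) := by
    interval_cases n
    · exact absurd rfl hn0
    · haveI : IsCyclic (P : Subgroup G) := isCyclic_of_prime_card (p := p) (by rw [hn', pow_one])
      infer_instance
    · exact ⟨⟨fun a b => IsPGroup.commutative_of_card_eq_prime_sq (p := p) hn' a b⟩⟩
  have hrp : ∀ r, r.Prime → r ∣ Nat.card G → r ≠ p → p < r := by
    intro r hr hrG hne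
    exact lt_of_le_of_ne (Nat.minFac_le_of_dvd hr.two_le hrG) (Ne.symm hne)
  by_contra h12
  have hNC : Subgroup.normalizer ((P : Subgroup G) : Set G) ≤ Subgroup.centralizer ((P : Subgroup G) : Set G) := by
    apply CfsgLib.Transfer.normalizer_le_centralizer_of_abelian P hPab
    rintro g hg ⟨r, j, hr, hrp', hgr⟩
    haveI := Fact.mk hr
    by_cases hj : j = 0
    · rw [hj, pow_zero, orderOf_eq_one_iff] at hgr
      rw [hgr]; exact Subgroup.one_mem _
    have hrG : r ∣ Nat.card G := (dvd_pow_self r hj).trans (hgr ▸ orderOf_dvd_natCard g)
    have hlt := hrp r hr hrG hrp'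
    have hR : IsPGroup r (Subgroup.zpowers g) := IsPGroup.of_card (n := j) (by rw [Nat.card_zpowers, hgr])
    have h1 : (P : Subgroup G) ≤ Subgroup.centralizer (Subgroup.zpowers g : Set G) := by
      apply CfsgLib.Transfer.centralizes_of_card_eq_pow hpp hR ?_ hn'
      · intro i hi hdvd
        interval_cases n
        · exact absurd rfl hn0
        · have : i = 0 := by omega
          subst this
          rw [pow_one, pow_zero] at hdvd
          have := Nat.le_of_dvd (by have := hpp.two_le; omega) hdvd
          omega
        · interval_cases i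
          · -- r ∣ p^2 - 1
            have e : p ^ 2 - p ^ 0 = (p - 1) * (p + 1) := by
              have := hpp.one_le
              zify [Nat.one_le_pow 2 p hpp.pos, this]
              ring_nf
              rw [Nat.cast_sub (by nlinarith)]
              push_cast; ring
            rw [e] at hdvd
            rcases (hr.dvd_mul).mp hdvd with h | h
            · have := Nat.le_of_dvd (by have := hpp.two_le; omega) h
              omega
            · have h5 := Nat.le_of_dvd (by omega) h
              have h6 : r = p + 1 := by omega
              -- p = 2, r = 3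
              have h7 : p = 2 := by
                rcases hpp.eq_two_or_odd with h | h
                · exact h
                · rcases hr.eq_two_or_odd with h' | h'
                  · have := hpp.two_le; omega
                  · omega
              apply h12
              have h8 : 4 ∣ Nat.card G := by
                have : Nat.card (P : Subgroup G) ∣ Nat.card G := Subgroup.card_subgroup_dvd_card _
                rw [hn', h7] at this; exact this
              have h9 : 3 ∣ Nat.card G := by rw [h6, h7] at hrG; exact hrG
              exact Nat.Coprime.mul_dvd_of_dvd_of_dvd (by norm_num) h8 h9 |>.trans (dvd_refl _)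
          · have e : p ^ 2 - p ^ 1 = p * (p - 1) := by
              rw [pow_one, pow_two, Nat.mul_sub, mul_one]
            rw [e] at hdvd
            rcases (hr.dvd_mul).mp hdvd with h | h
            · exact hrp' ((Nat.prime_dvd_prime_iff_eq hr hpp).mp h)
            · have := Nat.le_of_dvd (by have := hpp.two_le; omega) h
              omega
      · rwa [Subgroup.zpowers_le]
    have h2 := Subgroup.le_centralizer_iff.mp h1
    exact h2 (Subgroup.mem_zpowers g)
  obtain ⟨N, hN, hNc, k, hk⟩ := CfsgLib.Transfer.npc_of_normalizer_le P hNC
  rcases hN.eq_bot_or_eq_top with h | h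
  · rw [h, Subgroup.index_bot] at hk
    have hpG : IsPGroup p G := IsPGroup.of_card hk
    haveI := hpG.isNilpotent
    haveI : Nontrivial G := ⟨x, y, fun h => hxy (by rw [h])⟩
    haveI := hpG.center_nontrivial
    rcases (inferInstance : (Subgroup.center G).Normal).eq_bot_or_eq_top with h1 | h1
    · exact (Subgroup.nontrivial_iff_ne_bot _).mp hpG.center_nontrivial h1
    · exact hxy ((Subgroup.mem_center_iff.mp (h1 ▸ Subgroup.mem_top y : y ∈ Subgroup.center G)) x)
  · rw [h, Subgroup.card_top] at hNc
    exact (Nat.Prime.coprime_iff_not_dvd hpp).mp hNc.symm (Nat.minFac_dvd _)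

end Cfsg.Agent.S0073
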