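import Cfsg.Statements.S0075
import Cfsg.Agent.Lib.Transfer

set_option autoImplicit false
open Cfsg

open scoped commutatorElement
set_option linter.style.haveILetI false
namespace Cfsg.Agent.S0075

/-- For an abelian Sylow p-subgroup T, its intersection with the subgroup generated by the elements of order prime to p is the commutator of T with its normalizer. -/
theorem result {G : Type*} [Group G] [Finite G] {p : ℕ} [Fact p.Prime] (T : Sylow p G) (hT : IsMulCommutative T) : (T : Subgroup G) ⊓ Cfsg.pResidual p G = ⁅(T : Subgroup G), Subgroup.normalizer (T : Set G)⁆ := by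
  have h1 : (T : Subgroup G).focalSubgroup ≤ ⁅(T : Subgroup G), Subgroup.normalizer (T : Set G)⁆ :=
    CfsgLib.Transfer.focal_le_of_control_by (T : Subgroup G) _
      (fun x hx g hg => CfsgLib.Transfer.control_of_abelian T hT x hx g hg)
  have h2 : commutator G ⊓ (T : Subgroup G) = (T : Subgroup G).focalSubgroup :=
    Subgroup.commutator_inf_eq_focalSubgroup T
  haveI := CfsgLib.Transfer.pResidual_normal (G := G) p
  -- G / O^p(G) is abelian
  have h3 : commutator G ≤ Cfsg.pResidual p G := by
    have hsup := CfsgLib.Transfer.sup_pResidual T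
    rw [commutator_def, Subgroup.commutator_le]
    intro a _ b _
    have hm : ∀ g : G, ∃ t ∈ (T : Subgroup G), ∃ r ∈ Cfsg.pResidual p G, t * r = g := by
      intro g
      have : g ∈ (T : Subgroup G) ⊔ Cfsg.pResidual p G := by rw [hsup]; trivial
      exact Subgroup.mem_sup_of_normal_right.mp this
    obtain ⟨t, ht, r, hr, rfl⟩ := hm a
    obtain ⟨u, hu, s, hs, rfl⟩ := hm b
    rw [← QuotientGroup.ker_mk' (Cfsg.pResidual p G), MonoidHom.mem_ker]
    have hr' : QuotientGroup.mk' (Cfsg.pResidual p G) r = 1 := (QuotientGroup.eq_one_iff r).mpr hr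
    have hs' : QuotientGroup.mk' (Cfsg.pResidual p G) s = 1 := (QuotientGroup.eq_one_iff s).mpr hs
    have htu : t * u = u * t := congrArg Subtype.val (hT.is_comm.comm (⟨t, ht⟩ : T) ⟨u, hu⟩)
    rw [map_commutatorElement, map_mul, map_mul, hr', hs', mul_one, mul_one, ← map_commutatorElement,
      commutatorElement_eq_one_iff_mul_comm.mpr htu, map_one]
  have h4 := CfsgLib.Transfer.inf_commutator_sup_pResidual T
  rw [sup_eq_right.mpr h3] at h4
  rw [inf_comm, h4, h2]
  apply le_antisymm h1
  rw [← h2]
  exact le_inf (Subgroup.commutator_mono le_top le_top)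
    (CfsgLib.Coprime.commutator_le_of_le_normalizer le_rfl)

end Cfsg.Agent.S0075
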