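import Cfsg.Statements.S0083
import Cfsg.Agent.Lib.Transfer

set_option autoImplicit false
open Cfsg

namespace Cfsg.Agent.S0083

/-- For an abelian Sylow p-subgroup P, a normal p-complement exists exactly when the normalizer of P is an internal direct product of P with some subgroup. -/
theorem result {G : Type*} [Group G] [Finite G] {p : ℕ} [Fact p.Prime] (P : Sylow p G) (hP : IsMulCommutative P) : Cfsg.HasNormalPComplement p G ↔ ∃ Q : Subgroup G, Q ≤ Subgroup.centralizer (P : Set G) ∧ Q ⊓ (P : Subgroup G) = ⊥ ∧ Q ⊔ (P : Subgroup G) = Subgroup.normalizer (P : Set G) := by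
  rw [CfsgLib.NPC.npc_iff]
  have hPC : (P : Subgroup G) ≤ Subgroup.centralizer (P : Set G) := by
    intro x hx
    rw [Subgroup.mem_centralizer_iff]
    intro y hy
    exact congrArg Subtype.val (hP.is_comm.comm (⟨y, hy⟩ : P) ⟨x, hx⟩)
  constructor
  · intro h
    obtain ⟨N, hN, hc, k, hk⟩ := h
    refine ⟨N ⊓ Subgroup.normalizer (P : Set G), ?_, ?_, ?_⟩
    · intro g hg
      exact CfsgLib.NPC.frobCond_of_npc ⟨N, hN, hc, k, hk⟩ P P.isPGroup' g hg.2 ((CfsgLib.NPC.mem_iff_coprime hc hk).mp hg.1)
    · rw [eq_bot_iff]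
      have := (CfsgLib.NPC.isComplement'_sylow hc hk P).disjoint.eq_bot
      rw [← this]
      exact le_inf (inf_le_left.trans inf_le_left) inf_le_right
    · apply le_antisymm (sup_le inf_le_right Subgroup.le_normalizer)
      intro g hg
      have hc' := CfsgLib.NPC.isComplement'_sylow hc hk P
      obtain ⟨⟨a, b⟩, hab, -⟩ := hc'.existsUnique g
      have hb : (b : G) ∈ Subgroup.normalizer (P : Set G) := Subgroup.le_normalizer b.2
      have ha : (a : G) ∈ Subgroup.normalizer (P : Set G) := by
        have : (a : G) = g * (b : G)⁻¹ := by rw [← hab]; simp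
        rw [this]; exact Subgroup.mul_mem _ hg (Subgroup.inv_mem _ hb)
      rw [← hab]
      exact Subgroup.mul_mem_sup ⟨a.2, ha⟩ b.2
  · rintro ⟨Q, hQ, hQP, hQN⟩
    apply CfsgLib.Transfer.npc_of_normalizer_le P
    rw [← hQN]
    exact sup_le hQ hPC

end Cfsg.Agent.S0083
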