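import Cfsg.Statements.S0084
import Cfsg.Agent.Lib.Transfer

set_option autoImplicit false
open Cfsg

set_option linter.style.haveILetI false
namespace Cfsg.Agent.S0084

/-- A group whose Sylow 2-subgroups are Klein four-groups and whose order is prime to 3 has a normal 2-complement. -/
theorem result {G : Type*} [Group G] [Finite G] (T : Sylow 2 G) (hT : IsKleinFour T) (h3 : ¬ 3 ∣ Nat.card G) : Cfsg.HasNormalPComplement 2 G := by
  rw [CfsgLib.NPC.npc_iff]
  apply CfsgLib.Transfer.npc_of_normalizer_le T
  have hK : IsKleinFour T := hT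
  have hcomm : IsMulCommutative T := IsKleinFour.isMulCommutative
  apply CfsgLib.Transfer.normalizer_le_centralizer_of_abelian T hcomm
  rintro g hg ⟨r, j, hr, hr2, hgj⟩
  haveI := Fact.mk hr
  rcases Nat.eq_zero_or_pos j with hj | hj
  · rw [hj, pow_zero, orderOf_eq_one_iff] at hgj
    rw [hgj]; exact Subgroup.one_mem _
  have hr3 : r ≠ 3 := by
    rintro rfl
    apply h3
    have h4 : orderOf g ∣ Nat.card G := orderOf_dvd_natCard g
    rw [hgj] at h4
    exact (dvd_pow_self 3 hj.ne').trans h4
  have hIsP : IsPGroup r (Subgroup.zpowers g) := IsPGroup.of_card (n := j) (by rw [Nat.card_zpowers, hgj])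
  have h5 := CfsgLib.Transfer.centralizes_of_card_eq_pow (n := 2) Nat.prime_two hIsP
    (T := (T : Subgroup G)) (by rw [Subgroup.zpowers_le]; exact hg) (hK.card_four) (by
      intro i hi hd
      have h6 : r ∣ 2 * 3 := by
        interval_cases i
        · exact hd.trans (by norm_num)
        · exact hd.trans (by norm_num)
      rcases (Nat.Prime.dvd_mul hr).mp h6 with h7 | h7
      · exact hr2 ((Nat.prime_dvd_prime_iff_eq hr Nat.prime_two).mp h7)
      · exact hr3 ((Nat.prime_dvd_prime_iff_eq hr Nat.prime_three).mp h7))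
  have h8 := Subgroup.le_centralizer_iff.mp h5
  exact h8 (Subgroup.mem_zpowers g)

end Cfsg.Agent.S0084
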