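import Cfsg.Statements.S0085
import Cfsg.Agent.Lib.Transfer

set_option autoImplicit false
open Cfsg

set_option linter.style.haveILetI false
namespace Cfsg.Agent.S0085

/-- A group whose Sylow 2-subgroups are elementary abelian of order 8 and whose order is prime to 3 and to 7 has a normal 2-complement. -/
theorem result {G : Type*} [Group G] [Finite G] (T : Sylow 2 G) (h8 : Nat.card T = 8) (he : ∀ x : T, x * x = 1) (h3 : ¬ 3 ∣ Nat.card G) (h7 : ¬ 7 ∣ Nat.card G) : Cfsg.HasNormalPComplement 2 G := by
  rw [CfsgLib.NPC.npc_iff]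
  apply CfsgLib.Transfer.npc_of_normalizer_le T
  have hcomm : IsMulCommutative T := ⟨⟨fun a b => by
    have h1 := he (a * b)
    have h2 := he a
    have h3 := he b
    calc a * b = a * (a * b * (a * b)) * b * (b * b) := by rw [h1, h3]; group
      _ = (a * a) * (b * a) * (b * b) * (b * b) := by group
      _ = b * a := by rw [h2, h3]; group⟩⟩
  apply CfsgLib.Transfer.normalizer_le_centralizer_of_abelian T hcomm
  rintro g hg ⟨r, j, hr, hr2, hgj⟩
  haveI := Fact.mk hr
  rcases Nat.eq_zero_or_pos j with hj | hj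
  · rw [hj, pow_zero, orderOf_eq_one_iff] at hgj
    rw [hgj]; exact Subgroup.one_mem _
  have hrG : ∀ s, ¬ s ∣ Nat.card G → r ≠ s := by
    rintro s hs rfl
    apply hs
    have h4 : orderOf g ∣ Nat.card G := orderOf_dvd_natCard g
    rw [hgj] at h4
    exact (dvd_pow_self r hj.ne').trans h4
  have hIsP : IsPGroup r (Subgroup.zpowers g) := IsPGroup.of_card (n := j) (by rw [Nat.card_zpowers, hgj])
  have h5 := CfsgLib.Transfer.centralizes_of_card_eq_pow (n := 3) Nat.prime_two hIsP
    (T := (T : Subgroup G)) (by rw [Subgroup.zpowers_le]; exact hg) h8 (by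
      intro i hi hd
      have h6 : r ∣ 2 * 2 * (3 * 7) := by
        interval_cases i
        · exact hd.trans (by norm_num)
        · exact hd.trans (by norm_num)
        · exact hd.trans (by norm_num)
      rcases (Nat.Prime.dvd_mul hr).mp h6 with h7 | h7
      · rcases (Nat.Prime.dvd_mul hr).mp h7 with h7 | h7 <;>
        exact hr2 ((Nat.prime_dvd_prime_iff_eq hr Nat.prime_two).mp h7)
      · rcases (Nat.Prime.dvd_mul hr).mp h7 with h7 | h7
        · exact hrG 3 h3 ((Nat.prime_dvd_prime_iff_eq hr Nat.prime_three).mp h7)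
        · exact hrG 7 ‹_› ((Nat.prime_dvd_prime_iff_eq hr (by norm_num)).mp h7))
  have h9 := Subgroup.le_centralizer_iff.mp h5
  exact h9 (Subgroup.mem_zpowers g)

end Cfsg.Agent.S0085
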