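import Cfsg.Statements.S0088
import Cfsg.Agent.Lib.Transfer

set_option autoImplicit false
open Cfsg

namespace Cfsg.Agent.S0088

/-- An abelian Hall subgroup meets G' ∩ Z(G) trivially. -/
theorem result {G : Type*} [Group G] [Finite G] (H : Subgroup G) (hc : IsMulCommutative H) (hHall : Nat.Coprime (Nat.card H) H.index) : H ⊓ commutator G ⊓ Subgroup.center G = ⊥ := by
  rw [eq_bot_iff]
  rintro z ⟨⟨hzH, hzG⟩, hz⟩
  have h1 : ⁅H, H⁆ = ⊥ := Subgroup.commutator_self_eq_bot_iff.mpr hc
  have h2 := CfsgLib.Transfer.center_inf_le_focal H z hzH hz hzG (by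
    rw [h1, Subgroup.relIndex_bot_left]; exact hHall.symm)
  rwa [h1] at h2

end Cfsg.Agent.S0088
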