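import Cfsg.Statements.S0089
import Cfsg.Agent.Lib.Transfer

set_option autoImplicit false
open Cfsg

open scoped commutatorElement
set_option linter.style.haveILetI false
namespace Cfsg.Agent.S0089

/-- When all Sylow subgroups are abelian, the derived subgroup meets the centre trivially. -/
theorem result {G : Type*} [Group G] [Finite G] (h : ∀ p : ℕ, p.Prime → ∀ P : Sylow p G, IsMulCommutative P) : commutator G ⊓ Subgroup.center G = ⊥ := by
  rw [eq_bot_iff]
  rintro z ⟨hzG, hz⟩
  rw [Subgroup.mem_bot]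
  refine Subgroup.mem_bot.mp (CfsgLib.Transfer.mem_of_prime_pow (⊥ : Subgroup G) _ z rfl (orderOf_pos z).ne' ?_)
  rintro k ⟨r, j, hr, hj⟩
  haveI := Fact.mk hr
  have h1 : IsPGroup r (Subgroup.zpowers (z ^ k)) := IsPGroup.of_card (n := j) (by rw [Nat.card_zpowers, hj])
  obtain ⟨P, hP⟩ := h1.exists_le_sylow
  have hPc := h r hr P
  have h2 : ⁅(P : Subgroup G), (P : Subgroup G)⁆ = ⊥ := Subgroup.commutator_self_eq_bot_iff.mpr hPc
  have h3 := CfsgLib.Transfer.center_inf_le_focal (P : Subgroup G) (z ^ k) (hP (Subgroup.mem_zpowers _))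
    (Subgroup.pow_mem _ hz k) (Subgroup.pow_mem _ hzG k) (by
      rw [h2, Subgroup.relIndex_bot_left]
      obtain ⟨m, hm⟩ := IsPGroup.iff_card.mp P.isPGroup'
      rw [hm]
      exact (Nat.Coprime.pow_left m ((Nat.Prime.coprime_iff_not_dvd hr).mpr P.not_dvd_index)).symm)
  rwa [h2] at h3

end Cfsg.Agent.S0089
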