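import Cfsg.Statements.S0091
import Cfsg.Agent.Lib.Transfer
import Cfsg.Agent.Lib.Coprime2

set_option autoImplicit false
open Cfsg

open scoped commutatorElement
set_option linter.style.haveILetI false
namespace Cfsg.Agent.S0091

/-- If a nontrivial Sylow p-subgroup controls its own fusion then it is not contained in the derived subgroup. -/
theorem result {G : Type*} [Group G] [Finite G] {p : ℕ} [Fact p.Prime] (P : Sylow p G) (hp : p ∣ Nat.card G) (h : ∀ x ∈ P, ∀ y ∈ P, (∃ g : G, g * x * g⁻¹ = y) → ∃ z ∈ P, z * x * z⁻¹ = y) : ¬ (P : Subgroup G) ≤ commutator G := by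
  intro hle
  have h1 : (P : Subgroup G).focalSubgroup ≤ ⁅(P : Subgroup G), (P : Subgroup G)⁆ := by
    refine CfsgLib.NPC.focal_le_of_control P fun x hx g hg => ?_
    obtain ⟨z, hz, hzz⟩ := h x hx _ hg ⟨g⁻¹, by rw [inv_inv]⟩
    exact ⟨z⁻¹, P.inv_mem hz, by rw [inv_inv]; exact hzz.symm⟩
  rw [← Subgroup.commutator_inf_eq_focalSubgroup, inf_eq_right.mpr hle] at h1
  haveI : Group.IsNilpotent (P : Subgroup G) := P.isPGroup'.isNilpotent
  have h2 := CfsgLib.Coprime.eq_bot_of_le_commutator (S := (P : Subgroup G)) inferInstance le_rfl le_rfl h1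
  have h3 := P.card_eq_multiplicity
  rw [show Nat.card P = Nat.card (P : Subgroup G) from rfl, h2, Subgroup.card_bot] at h3
  have hpp : p.Prime := Fact.out
  have h4 : 0 < (Nat.card G).factorization p := hpp.factorization_pos_of_dvd Nat.card_pos.ne' hp
  have h5 := Nat.one_lt_pow h4.ne' hpp.one_lt
  omega

end Cfsg.Agent.S0091
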