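import Cfsg.Statements.S0092
import Cfsg.Agent.Lib.Transfer3

set_option autoImplicit false
open Cfsg

open scoped Pointwise
open scoped commutatorElement
set_option linter.style.haveILetI false
namespace Cfsg.Agent.S0092

theorem key {G : Type*} [Group G] [Finite G] {p : ℕ} [hp : Fact p.Prime]
    (h : ∀ Q : Sylow p (Cfsg.pResidual p G), IsMulCommutative (Q : Subgroup (Cfsg.pResidual p G))) :
    ∃ T : Subgroup G, T.IsComplement' (Cfsg.pResidual p G) := by
  classical
  set K := Cfsg.pResidual p G with hK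
  haveI hKn : K.Normal := CfsgLib.Transfer.pResidual_normal p
  obtain ⟨k, hk⟩ := CfsgLib.Transfer.pResidual_index (G := G) p
  rw [← hK] at hk
  obtain ⟨Q⟩ : Nonempty (Sylow p K) := inferInstance
  have hQab := h Q
  -- O^p(K) = K
  have hKK : Cfsg.pResidual p K = ⊤ := by
    rw [eq_top_iff]
    intro x _
    have hx : (x : G) ∈ (Cfsg.pResidual p K).map K.subtype := by
      have h1 : K ≤ (Cfsg.pResidual p K).map K.subtype := by
        conv_lhs => rw [hK, Cfsg.pResidual]
        rw [Subgroup.closure_le]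
        intro g hg
        have hgK : g ∈ K := Subgroup.subset_closure hg
        refine ⟨⟨g, hgK⟩, Subgroup.subset_closure ?_, rfl⟩
        show Nat.Coprime (orderOf (⟨g, hgK⟩ : K)) p
        rw [Subgroup.orderOf_mk]; exact hg
      exact h1 x.2
    obtain ⟨y, hy, hyx⟩ := hx
    rwa [← Subtype.ext hyx]
  -- Q ≤ K'
  have hQK' : (Q : Subgroup K) ≤ commutator K := by
    have h1 : (⊤ : Subgroup K).map (Abelianization.of) = Subgroup.closure (Abelianization.of '' {g : K | Nat.Coprime (orderOf g) p}) := by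
      rw [← MonoidHom.map_closure, ← hKK]; rfl
    intro x hx
    have hxp : ∃ j, orderOf (Abelianization.of x) = p ^ j := by
      obtain ⟨j, hj⟩ := (IsPGroup.iff_orderOf.mp Q.isPGroup') ⟨x, hx⟩
      rw [Subgroup.orderOf_mk] at hj
      have h2 : orderOf (Abelianization.of x) ∣ p ^ j := by
        rw [← hj]; exact orderOf_map_dvd _ x
      obtain ⟨i, -, hi⟩ := (Nat.dvd_prime_pow hp.out).mp h2
      exact ⟨i, hi⟩
    obtain ⟨j, hj⟩ := hxp
    have h3 : ∀ y : Abelianization K, (orderOf y).Coprime p := by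
      intro y
      have hx : y ∈ (⊤ : Subgroup K).map (Abelianization.of) := by
        obtain ⟨x, rfl⟩ := QuotientGroup.mk_surjective y
        exact ⟨x, trivial, rfl⟩
      rw [h1] at hx
      induction hx using Subgroup.closure_induction with
      | mem z hz =>
        obtain ⟨g, hg, rfl⟩ := hz
        exact Nat.Coprime.coprime_dvd_left (orderOf_map_dvd _ g) hg
      | one => rw [orderOf_one]; exact Nat.coprime_one_left p
      | mul a b _ _ ha hb =>
        exact Nat.Coprime.coprime_dvd_left ((Commute.all a b).orderOf_mul_dvd_mul_orderOf) (Nat.Coprime.mul_left ha hb)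
      | inv a _ ha => rwa [orderOf_inv]
    have h4 := h3 (Abelianization.of x)
    rw [hj] at h4
    have h5 : orderOf (Abelianization.of x) = 1 := by
      rw [hj]
      rcases Nat.eq_zero_or_pos j with h | h
      · rw [h, pow_zero]
      · exfalso
        have := Nat.Coprime.eq_one_of_dvd (h4.symm) (dvd_pow_self p (by omega))
        exact hp.out.one_lt.ne' this
    rw [orderOf_eq_one_iff] at h5
    rw [← Abelianization.ker_of, MonoidHom.mem_ker]
    exact h5
  obtain ⟨A, hA, hAc, hQA⟩ := CfsgLib.Transfer3.exists_complement_normalizer Q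
  obtain ⟨hact, h1, -⟩ := CfsgLib.Transfer3.abelian_sylow Q hQab hA hAc hQA
  have h2 := CfsgLib.Coprime.inf_commutator_eq_bot_of_abelian hQab hA hact.2
  rw [inf_eq_left.mpr hQK'] at h1
  rw [← h1] at h2
  have hCQ : (Q : Subgroup K) ⊓ Subgroup.centralizer (A : Set K) = ⊥ := by
    rw [eq_bot_iff, ← h2]
    exact le_inf le_rfl inf_le_left
  -- move to G
  set Q' : Subgroup G := (Q : Subgroup K).map K.subtype with hQ'
  set A' : Subgroup G := A.map K.subtype with hA'
  have hQs : CfsgLib.Coprime.IsSyl p Q' K := CfsgLib.Coprime.isSyl_of_sylow Q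
  have hQp : IsPGroup p Q' := hQs.isPGroup
  have hAcard : Nat.card A' = Nat.card A := (Nat.card_congr (A.equivMapOfInjective _ K.subtype_injective).toEquiv).symm
  have hQcard : Nat.card Q' = Nat.card (Q : Subgroup K) := (Nat.card_congr ((Q : Subgroup K).equivMapOfInjective _ K.subtype_injective).toEquiv).symm
  set N := Subgroup.normalizer (Q' : Set G) with hN
  have hKN : K ⊔ N = ⊤ := CfsgLib.Solv3.frattini_isSyl hQs
  -- N ⊓ K = Q' ⊔ A'
  have hNK : N ⊓ K = Q' ⊔ A' := by
    rw [hQ', hA', ← Subgroup.map_sup, hQA]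
    ext x
    constructor
    · rintro ⟨hx1, hx2⟩
      refine ⟨⟨x, hx2⟩, ?_, rfl⟩
      have hx1' : x ∈ N := hx1
      rw [SetLike.mem_coe, Subgroup.mem_normalizer_iff]
      intro y
      show y ∈ (Q : Subgroup K) ↔ _ ∈ (Q : Subgroup K)
      have h3 := Subgroup.mem_normalizer_iff.mp hx1' (y : G)
      have h4 : ∀ z : K, (z : G) ∈ Q' ↔ z ∈ (Q : Subgroup K) := by
        intro z
        constructor
        · rintro ⟨w, hw, hwz⟩
          rwa [← Subtype.ext hwz]
        · intro hz; exact ⟨z, hz, rfl⟩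
      rw [← h4, ← h4]
      exact h3
    · rintro ⟨y, hy, rfl⟩
      refine ⟨?_, y.2⟩
      have h3 := Subgroup.le_normalizer_map (H := (Q : Subgroup K)) K.subtype
      exact h3 ⟨y, hy, rfl⟩
  have hQN : Q' ≤ N := Subgroup.le_normalizer
  have hAN : A' ≤ N := by
    have : A' ≤ N ⊓ K := by rw [hNK]; exact le_sup_right
    exact this.trans inf_le_left
  have hAcop : (Nat.card A').Coprime p := by rw [hAcard]; exact hAc
  have hcop : (Nat.card A').Coprime (Nat.card Q') := by
    obtain ⟨j, hj⟩ := (IsPGroup.iff_card (p := p)).mp hQp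
    rw [hj]; exact hAcop.pow_right j
  have hact' : CfsgLib.Coprime.CopAct A' Q' := ⟨hAN, hcop, Or.inr (by haveI := hQp.isNilpotent; infer_instance)⟩
  have hCQ' : Q' ⊓ Subgroup.centralizer (A' : Set G) = ⊥ := by
    rw [eq_bot_iff]
    rintro x ⟨⟨y, hy, rfl⟩, hx2⟩
    have h3 : y ∈ (Q : Subgroup K) ⊓ Subgroup.centralizer (A : Set K) := by
      refine ⟨hy, ?_⟩
      show y ∈ Subgroup.centralizer (A : Set K)
      rw [Subgroup.mem_centralizer_iff]
      intro a ha
      ext
      exact Subgroup.mem_centralizer_iff.mp hx2 _ ⟨a, ha, rfl⟩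
    rw [hCQ, Subgroup.mem_bot] at h3
    rw [h3]; exact Subgroup.mem_bot.mpr rfl
  set L := N ⊓ Subgroup.normalizer (A' : Set G) with hL
  -- N = Q' L
  have hNQL : N ≤ Q' ⊔ L := by
    intro n hn
    have h3 : MulAut.conj n • A' ≤ Q' ⊔ A' := by
      intro x hx
      rw [← hNK]
      rw [CfsgLib.SZ.mem_conj_iff] at hx
      have h4 : n⁻¹ * x * n ∈ N ⊓ K := by rw [hNK]; exact Subgroup.mem_sup_right hx
      have h5 := N.mul_mem (N.mul_mem hn h4.1) (N.inv_mem hn)
      have h6 := hKn.conj_mem _ h4.2 n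
      have e : n * (n⁻¹ * x * n) * n⁻¹ = x := by group
      rw [e] at h5 h6
      exact ⟨h5, h6⟩
    obtain ⟨q, hq, hqa⟩ := hact'.conj h3 (CfsgLib.SZ.card_conj n A')
    have h7 : MulAut.conj (q⁻¹ * n) • A' = A' := by
      rw [map_mul, mul_smul, ← hqa, smul_smul, ← map_mul, inv_mul_cancel, map_one, one_smul]
    have h8 : q⁻¹ * n ∈ L := ⟨N.mul_mem (N.inv_mem (hQN hq)) hn, CfsgLib.Transfer.mem_normalizer_of_conj_eq h7⟩
    have h9 := (Q' ⊔ L).mul_mem (Subgroup.mem_sup_left hq) (Subgroup.mem_sup_right h8)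
    simpa using h9
  have hKL : K ⊔ L = ⊤ := by
    rw [eq_top_iff, ← hKN]
    exact sup_le le_sup_left (hNQL.trans (sup_le_sup_right hQs.1 L))
  -- p-elements of K ∩ L are trivial
  have hKLp : ∀ x ∈ K ⊓ L, (∃ j, orderOf x = p ^ j) → x = 1 := by
    rintro x ⟨hxK, hxL⟩ ⟨j, hj⟩
    have h3 : IsPGroup p (Subgroup.zpowers x) := IsPGroup.of_card (n := j) (by rw [Nat.card_zpowers, hj])
    have hQs' : CfsgLib.Coprime.IsSyl p Q' (N ⊓ K) := CfsgLib.Solv3.isSyl_mono hQs (le_inf hQN hQs.1) inf_le_right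
    obtain ⟨R, hR, hxR⟩ := CfsgLib.Coprime.exists_isSyl_ge (K := N ⊓ K) (U := Subgroup.zpowers x) (by
      rw [Subgroup.zpowers_le]; exact ⟨hxL.1, hxK⟩) h3
    obtain ⟨c, hc, hcR⟩ := hQs'.exists_conj hR
    have h4 : MulAut.conj c • Q' = Q' := (CfsgLib.SZ.le_normalizer_iff_conj (H := N) (K := Q')).mp le_rfl c hc.1
    rw [h4] at hcR
    have hxQ : x ∈ Q' := by rw [hcR]; exact hxR (Subgroup.mem_zpowers x)
    have h5 : x ∈ Subgroup.centralizer (A' : Set G) := by
      rw [Subgroup.mem_centralizer_iff]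
      intro a ha
      rw [← commutatorElement_eq_one_iff_mul_comm]
      have h6 : ⁅a, x⁆ ∈ Q' := by
        rw [commutatorElement_def]
        exact Q'.mul_mem ((Subgroup.mem_normalizer_iff.mp (hAN ha) x).mp hxQ) (Q'.inv_mem hxQ)
      have h7 : ⁅a, x⁆ ∈ A' := by
        have h8 := (Subgroup.mem_normalizer_iff.mp hxL.2 a⁻¹).mp (A'.inv_mem ha)
        have e : ⁅a, x⁆ = a * (x * a⁻¹ * x⁻¹) := by rw [commutatorElement_def]; group
        rw [e]; exact A'.mul_mem ha h8
      have h9 : ⁅a, x⁆ ∈ A' ⊓ Q' := ⟨h7, h6⟩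
      rwa [(Subgroup.disjoint_of_coprime_natCard hcop).eq_bot, Subgroup.mem_bot] at h9
    have h6 : x ∈ Q' ⊓ Subgroup.centralizer (A' : Set G) := ⟨hxQ, h5⟩
    rwa [hCQ', Subgroup.mem_bot] at h6
  have hKLc : ¬ p ∣ Nat.card (K ⊓ L : Subgroup G) := by
    intro hd
    obtain ⟨x, hx⟩ := exists_prime_orderOf_dvd_card' p hd
    have h3 := hKLp x x.2 ⟨1, by rw [pow_one, ← hx, Subgroup.orderOf_coe]⟩
    rw [← Subgroup.orderOf_coe, h3, orderOf_one] at hx
    exact hp.out.one_lt.ne hx
  obtain ⟨T, hT⟩ := CfsgLib.Coprime.exists_isSyl p L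
  have hidx : (K ⊓ L).relIndex L = p ^ k := by
    rw [Subgroup.inf_relIndex_right, ← hk, ← Subgroup.relIndex_top_right K, ← hKL, sup_comm K L, Subgroup.relIndex_sup_right]
  have hLcard : Nat.card (K ⊓ L : Subgroup G) * p ^ k = Nat.card L := by
    have := Subgroup.card_mul_index ((K ⊓ L).subgroupOf L)
    rw [CfsgLib.SZ.card_subgroupOf inf_le_right] at this
    rw [← hidx]; exact this
  have hTc : Nat.card T = p ^ k := by
    rw [hT.2, ← hLcard, Nat.factorization_mul Nat.card_pos.ne' (pow_pos hp.out.pos k).ne', Finsupp.add_apply,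
      Nat.factorization_eq_zero_of_not_dvd hKLc, hp.out.factorization_pow, Finsupp.single_apply, if_pos rfl, zero_add]
  refine ⟨T, Subgroup.isComplement'_of_card_mul_and_disjoint ?_ ?_⟩
  · rw [hTc, ← hk, mul_comm, Subgroup.card_mul_index]
  · rw [disjoint_iff, eq_bot_iff]
    rintro x ⟨hx1, hx2⟩
    have h3 := hKLp x ⟨hx2, hT.1 hx1⟩ (by
      obtain ⟨j, hj⟩ := (IsPGroup.iff_orderOf.mp hT.isPGroup) ⟨x, hx1⟩
      exact ⟨j, by rwa [Subgroup.orderOf_mk] at hj⟩)
    rw [h3]; exact Subgroup.mem_bot.mpr rfl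


/-- If the Sylow p-subgroups of O^p(G) are abelian then G splits over O^p(G). -/
theorem result {G : Type*} [Group G] [Finite G] {p : ℕ} [Fact p.Prime] (h : ∀ Q : Sylow p (Cfsg.pResidual p G), IsMulCommutative Q) : ∃ K : Subgroup G, K.IsComplement' (Cfsg.pResidual p G) := by
  exact key h

end Cfsg.Agent.S0092
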