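import Cfsg.Statements.S0094
import Cfsg.Agent.Lib.PG2

set_option autoImplicit false
open Cfsg

namespace Cfsg.Agent.S0094

/-- In a special p-group every central element has order dividing p. -/
theorem result {P : Type*} [Group P] [Finite P] {p : ℕ} [Fact p.Prime] (h : Cfsg.IsSpecial p P) (z : P) (hz : z ∈ Subgroup.center P) : z ^ p = 1 := by
  obtain ⟨h1, h2, h3⟩ := h
  have hcl := CfsgLib.PG2.class_two_iff.mpr h3.le
  -- the centre is generated by commutators, each of order dividing p
  have hz' : z ∈ commutator P := h3 ▸ hz
  have hgen : ∀ y ∈ commutator P, y ^ p = 1 := by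
    intro y hy
    rw [commutator_def] at hy
    induction hy using Subgroup.closure_induction with
    | mem x hx =>
      obtain ⟨a, -, b, -, rfl⟩ := hx
      rw [← CfsgLib.PG2.comm_pow_left hcl, commutatorElement_eq_one_iff_mul_comm]
      have h4 : a ^ p ∈ Subgroup.center P := h2 ▸ CfsgLib.Frattini.pow_mem_frattini h1 a
      exact ((Subgroup.mem_center_iff.mp h4) b).symm
    | one => exact one_pow p
    | mul x y hx hy ihx ihy =>
      have hxc : x ∈ Subgroup.center P := h3 ▸ hx
      have : Commute x y := ((Subgroup.mem_center_iff.mp hxc) y).symm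
      rw [this.mul_pow, ihx, ihy, one_mul]
    | inv x _ ih => rw [inv_pow, ih, inv_one]
  exact hgen z hz'

end Cfsg.Agent.S0094
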