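import Cfsg.Statements.S0101
import Cfsg.Agent.Lib.Transfer
import Cfsg.Agent.Lib.Frattini

set_option autoImplicit false
open Cfsg

open scoped commutatorElement
namespace Cfsg.Agent.S0101

/-- In a perfect central extension, the kernel meets each Sylow p-subgroup P inside the Frattini subgroup of P. -/
theorem result {H : Type*} {G : Type*} [Group H] [Group G] [Finite H] (σ : H →* G) (hσ : Function.Surjective σ) (hc : σ.ker ≤ Subgroup.center H) (hH : commutator H = ⊤) {p : ℕ} [Fact p.Prime] (P : Sylow p H) : σ.ker ⊓ (P : Subgroup H) ≤ (frattini P).map (P : Subgroup H).subtype := by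
  rintro z ⟨hzk, hzP⟩
  have h1 := CfsgLib.Transfer.center_inf_le_focal (P : Subgroup H) z hzP (hc hzk) (by rw [hH]; trivial) (by
      obtain ⟨m, hm⟩ := IsPGroup.iff_card.mp P.isPGroup'
      have h2 : (⁅(P : Subgroup H), (P : Subgroup H)⁆ : Subgroup H).relIndex (P : Subgroup H) ∣ p ^ m := by
        rw [← hm]; exact Subgroup.relIndex_dvd_card _ _
      have hp : p.Prime := Fact.out
      exact Nat.Coprime.coprime_dvd_right h2
        (Nat.Coprime.pow_left m ((Nat.Prime.coprime_iff_not_dvd hp).mpr P.not_dvd_index)).symm)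
  rw [← Subgroup.map_subtype_commutator] at h1
  obtain ⟨y, hy, rfl⟩ := h1
  exact ⟨y, CfsgLib.Frattini.commutator_le_frattini_of_nilpotent P.isPGroup'.isNilpotent hy, rfl⟩

end Cfsg.Agent.S0101
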