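import Cfsg.Statements.S0102
import Cfsg.Agent.Lib.Transfer
import Cfsg.Agent.Lib.Frattini
import Cfsg.Agent.Lib.Core

set_option autoImplicit false
open Cfsg

open scoped commutatorElement
set_option linter.style.haveILetI false
namespace Cfsg.Agent.S0102

/-- A finite perfect group with cyclic Sylow p-subgroups has no perfect central extension whose kernel has order divisible by p. -/
theorem result {G : Type*} {H : Type*} [Group G] [Group H] [Finite G] [Finite H] (hG : commutator G = ⊤) {p : ℕ} [Fact p.Prime] (hcyc : ∀ P : Sylow p G, IsCyclic P) (σ : H →* G) (hσ : Function.Surjective σ) (hz : σ.ker ≤ Subgroup.center H) (hH : commutator H = ⊤) : ¬ p ∣ Nat.card σ.ker := by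
  intro hpd
  obtain ⟨P⟩ : Nonempty (Sylow p H) := inferInstance
  have hp : p.Prime := Fact.out
  haveI : Group.IsNilpotent (P : Subgroup H) := P.isPGroup'.isNilpotent
  -- P is abelian
  have hcyc' : IsCyclic ((P : Subgroup H).map σ) := by
    have := hcyc (P.mapSurjective hσ)
    exact this
  have hPc : IsMulCommutative (P : Subgroup H) := by
    have hcyc2 : IsCyclic (σ.subgroupMap (P : Subgroup H)).range := by
      have : (σ.subgroupMap (P : Subgroup H)).range = ⊤ :=
        MonoidHom.range_eq_top.mpr (σ.subgroupMap_surjective _)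
      rw [this]
      exact (Subgroup.topEquiv.isCyclic).mpr hcyc'
    refine MonoidHom.isMulCommutative_of_isCyclic_of_ker_le_center (σ.subgroupMap (P : Subgroup H)) ?_
    intro x hx
    rw [Subgroup.mem_center_iff]
    intro y
    have h1 : σ x = 1 := congrArg Subtype.val hx
    exact Subtype.ext (Subgroup.mem_center_iff.mp (hz h1) y)
  obtain ⟨z, hzo⟩ := exists_prime_orderOf_dvd_card' p hpd
  have hzc : (z : H) ∈ Subgroup.center H := hz z.2
  -- z lies in P
  have hzP : (z : H) ∈ (P : Subgroup H) := by
    have h1 : IsPGroup p (Subgroup.zpowers (z : H)) := IsPGroup.of_card (n := 1) (by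
      rw [Nat.card_zpowers, Subgroup.orderOf_coe, hzo, pow_one])
    have hn : (Subgroup.zpowers (z : H)).Normal := ⟨by
      rintro _ ⟨k, rfl⟩ g
      have h2 := Subgroup.mem_center_iff.mp (Subgroup.zpow_mem _ hzc k) g
      refine ⟨k, ?_⟩
      change (z : H) ^ k = g * (z : H) ^ k * g⁻¹
      rw [h2]; group⟩
    exact CfsgLib.Core.pCore_le_sylow P (CfsgLib.Core.le_pCore hn h1 (Subgroup.mem_zpowers _))
  have h2 : ⁅(P : Subgroup H), (P : Subgroup H)⁆ = ⊥ := Subgroup.commutator_self_eq_bot_iff.mpr hPc
  have h3 := CfsgLib.Transfer.center_inf_le_focal (P : Subgroup H) z hzP hzc (by rw [hH]; trivial) (by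
      rw [h2, Subgroup.relIndex_bot_left]
      obtain ⟨m, hm⟩ := IsPGroup.iff_card.mp P.isPGroup'
      rw [hm]
      exact (Nat.Coprime.pow_left m ((Nat.Prime.coprime_iff_not_dvd hp).mpr P.not_dvd_index)).symm)
  rw [h2, Subgroup.mem_bot] at h3
  have h4 : z = 1 := Subtype.ext h3
  rw [h4, orderOf_one] at hzo
  exact hp.one_lt.ne hzo

end Cfsg.Agent.S0102
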