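import Cfsg.Statements.S0104
import Cfsg.Agent.Lib.Transfer2

set_option autoImplicit false
open Cfsg

open scoped Pointwise
namespace Cfsg.Agent.S0104

/-- A subgroup Z of a Sylow p-subgroup P that is normalized by N_G(P) is weakly closed in P exactly when it is normal in every Sylow p-subgroup containing it. -/
theorem result {G : Type*} [Group G] [Finite G] {p : ℕ} [Fact p.Prime] (P : Sylow p G) (Z : Subgroup G) (hZP : Z ≤ (P : Subgroup G)) (hZN : Subgroup.normalizer (P : Set G) ≤ Subgroup.normalizer (Z : Set G)) : Cfsg.IsWeaklyClosed Z P ↔ ∀ R : Sylow p G, Z ≤ (R : Subgroup G) → (R : Subgroup G) ≤ Subgroup.normalizer (Z : Set G) := by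
  constructor
  · rintro ⟨-, h⟩ R hR
    obtain ⟨g, hg⟩ := MulAction.exists_smul_eq G R P
    have hg' : MulAut.conj g • (R : Subgroup G) = P := congrArg Sylow.toSubgroup hg
    have h1 : MulAut.conj g • Z = Z := by
      apply h g
      show MulAut.conj g • Z ≤ P
      rw [← hg']
      exact Subgroup.pointwise_smul_le_pointwise_smul_iff.mpr hR
    have hgZ := CfsgLib.Transfer.mem_normalizer_of_conj_eq h1
    intro x hx
    have h2 : g * x * g⁻¹ ∈ (P : Subgroup G) := by rw [← hg']; exact CfsgLib.SZ.conj_mem_conj hx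
    have h3 := hZN (Subgroup.le_normalizer h2)
    have h4 := Subgroup.mul_mem _ (Subgroup.mul_mem _ (Subgroup.inv_mem _ hgZ) h3) hgZ
    have e : g⁻¹ * (g * x * g⁻¹) * g = x := by group
    rwa [e] at h4
  · intro h
    refine ⟨hZP, fun g hg => ?_⟩
    have hg' : MulAut.conj g • Z ≤ (P : Subgroup G) := hg
    set Q : Sylow p G := g⁻¹ • P with hQ
    have hQc : (Q : Subgroup G) = MulAut.conj g⁻¹ • (P : Subgroup G) := rfl
    have hZQ : Z ≤ (Q : Subgroup G) := by
      intro z hz
      rw [hQc, CfsgLib.SZ.mem_conj_iff, inv_inv]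
      exact hg' (CfsgLib.SZ.conj_mem_conj hz)
    obtain ⟨n, hn, hnQ⟩ := CfsgLib.Transfer.sylow_conj_in P Q (h P hZP) (h Q hZQ)
    -- conj n P = conj g⁻¹ P
    have h1 : MulAut.conj (g * n) • (P : Subgroup G) = P := by
      rw [map_mul, mul_smul, hnQ, hQc, smul_smul, ← map_mul, mul_inv_cancel, map_one, one_smul]
    have h2 := hZN (CfsgLib.Transfer.mem_normalizer_of_conj_eq h1)
    have h3 := Subgroup.mul_mem _ h2 (Subgroup.inv_mem _ hn)
    rw [mul_inv_cancel_right] at h3
    exact (CfsgLib.SZ.le_normalizer_iff_conj (H := Subgroup.normalizer (Z : Set G)) (K := Z)).mp le_rfl g h3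

end Cfsg.Agent.S0104
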