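import Cfsg.Statements.S0106
import Cfsg.Agent.Lib.GLj5

set_option autoImplicit false
open Cfsg

set_option linter.style.haveILetI false
namespace Cfsg.Agent.S0106

/-- A finite group with generalized quaternion Sylow 2-subgroups either has a normal 2-complement or has a section isomorphic to SL(2,3). -/
theorem result {G : Type*} [Group G] [Finite G] (T : Sylow 2 G) (n : ℕ) (hn : 1 ≤ n) (hT : Nonempty ((T : Subgroup G) ≃* QuaternionGroup (2 ^ n))) : Cfsg.HasNormalPComplement 2 G ∨ ∃ (H K : Subgroup G) (hK : (K.subgroupOf H).Normal), Nonempty ((H ⧸ K.subgroupOf H) ≃* Matrix.SpecialLinearGroup (Fin 2) (ZMod 3)) := by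
  classical
  haveI : Fact (Nat.Prime 2) := ⟨Nat.prime_two⟩
  obtain ⟨e⟩ := hT
  by_cases hN : CfsgLib.NPC.NPC 2 G
  · left; exact CfsgLib.NPC.npc_iff.mpr hN
  · right
    have hU := CfsgLib.H6SPE.uniq_quaternion (p := 2) T.isPGroup' e
    have hex : ∃ Q : Subgroup G, Q ≤ (T : Subgroup G) ∧ ∃ g ∈ Subgroup.normalizer (Q : Set G), (orderOf g).Coprime 2 ∧ g ∉ Subgroup.centralizer (Q : Set G) := by
      by_contra hcon
      push Not at hcon
      apply hN
      rw [CfsgLib.NPC.npc_iff_frobCond]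
      exact CfsgLib.NPC.frobCond_of_sylow T hcon
    obtain ⟨Q, hQT, g, hg, hgo, hgc⟩ := hex
    have ho : Odd (orderOf g) := Nat.coprime_two_right.mp hgo
    obtain ⟨e'⟩ := CfsgLib.Rec23.cases_uniq (T.isPGroup'.to_le hQT) (by
      intro x hx y hy hox hoy
      have h1 := hU ⟨x, hQT hx⟩ ⟨y, hQT hy⟩ (by rw [Subgroup.orderOf_mk]; exact hox) (by rw [Subgroup.orderOf_mk]; exact hoy)
      obtain ⟨k, hk⟩ := Subgroup.mem_zpowers_iff.mp h1
      have hk' : y ^ k = x := congrArg Subtype.val hk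
      have hy2 : y ^ 2 = 1 := by rw [← hoy]; exact pow_orderOf_eq_one y
      rcases Int.even_or_odd' k with ⟨m, hm | hm⟩
      · exfalso
        rw [hm, zpow_mul, zpow_ofNat, hy2, one_zpow] at hk'
        rw [← hk', orderOf_one] at hox; omega
      · rw [hm, zpow_add, zpow_mul, zpow_ofNat, hy2, one_zpow, one_mul, zpow_one] at hk'
        exact hk'.symm) hg ho hgc
    obtain ⟨hK, hiso⟩ := CfsgLib.Rec23.section_sl23 Q e' g hg ho hgc
    exact ⟨_, _, hK, hiso⟩

end Cfsg.Agent.S0106
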