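import Cfsg.Statements.S0131
import Cfsg.Agent.Lib.Transfer

set_option autoImplicit false
open Cfsg

open scoped commutatorElement
set_option linter.style.haveILetI false
namespace Cfsg.Agent.S0131

/-- P/P' has a normal complement in G exactly when the focal subgroup G' ∩ P is as small as possible, namely P'. -/
theorem result {G : Type*} [Group G] [Finite G] {p : ℕ} [Fact p.Prime] (P : Sylow p G) : (∃ N : Subgroup G, N.Normal ∧ N ⊓ (P : Subgroup G) = ⁅(P : Subgroup G), (P : Subgroup G)⁆ ∧ N ⊔ (P : Subgroup G) = ⊤) ↔ commutator G ⊓ (P : Subgroup G) = ⁅(P : Subgroup G), (P : Subgroup G)⁆ := by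
  constructor
  · rintro ⟨N, hN, h1, h2⟩
    apply le_antisymm
    · rw [← h1]
      refine le_inf (inf_le_left.trans ?_) inf_le_right
      -- G' ≤ N since G = N P and P' ≤ N
      rw [commutator_def, Subgroup.commutator_le]
      intro a _ b _
      have hm : ∀ g : G, ∃ n ∈ N, ∃ t ∈ (P : Subgroup G), n * t = g := by
        intro g
        have : g ∈ N ⊔ (P : Subgroup G) := by rw [h2]; trivial
        exact Subgroup.mem_sup_of_normal_left.mp this
      obtain ⟨n, hn, t, ht, rfl⟩ := hm a
      obtain ⟨m, hm', u, hu, rfl⟩ := hm b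
      rw [← QuotientGroup.ker_mk' N, MonoidHom.mem_ker, map_commutatorElement, map_mul, map_mul]
      have hn' : QuotientGroup.mk' N n = 1 := (QuotientGroup.eq_one_iff n).mpr hn
      have hm'' : QuotientGroup.mk' N m = 1 := (QuotientGroup.eq_one_iff m).mpr hm'
      rw [hn', hm'', one_mul, one_mul, ← map_commutatorElement]
      have h3 : ⁅t, u⁆ ∈ N ⊓ (P : Subgroup G) := by rw [h1]; exact Subgroup.commutator_mem_commutator ht hu
      exact (QuotientGroup.eq_one_iff _).mpr h3.1
    · exact le_inf (Subgroup.commutator_mono le_top le_top) (Subgroup.commutator_le_self _)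
  · intro h
    refine ⟨(P : Subgroup G).transferFocal.ker, inferInstance, ?_, ?_⟩
    · rw [Subgroup.ker_transferFocal_inf_eq_focalSubgroup, ← Subgroup.commutator_inf_eq_focalSubgroup, h]
    · haveI : ((P : Subgroup G).transferFocal.ker).Normal := inferInstance
      rw [eq_top_iff]
      have h2 : IsPGroup p (P : Subgroup G).transferFocal.range :=
        (P.isPGroup'.to_quotient (P : Subgroup G).focalSubgroupOf).to_subgroup _
      obtain ⟨k, hk⟩ := IsPGroup.iff_card.mp h2
      rw [← Subgroup.index_ker] at hk
      rw [← CfsgLib.Transfer.sup_pResidual P]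
      exact sup_le le_sup_right ((CfsgLib.Transfer.pResidual_le hk).trans le_sup_left)

end Cfsg.Agent.S0131
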