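import Cfsg.Statements.S0135
import Cfsg.Agent.Lib.CharBasic2

set_option autoImplicit false
open Cfsg

namespace Cfsg.Agent.S0135

/-- The degree of an irreducible complex representation of a finite group divides the group order. -/
theorem result {G : Type*} [Group G] [Finite G] {V : Type*} [AddCommGroup V] [Module ℂ V] [FiniteDimensional ℂ V] (ρ : Representation ℂ G V) [ρ.IsIrreducible] : Module.finrank ℂ V ∣ Nat.card G := by
  have h := CfsgLib.CharBasic.isIrrCharacter_character ρ inferInstance
  exact CfsgLib.CharBasic.IsIrrCharacter.degree_dvd h (by rw [Representation.char_one])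

end Cfsg.Agent.S0135
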