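import Cfsg.Statements.S0155
import Mathlib

set_option autoImplicit false
open Cfsg

open scoped Pointwise
namespace Cfsg.Agent.S0155

/-- The character of the left regular representation of a finite group takes the value |G| at the identity and 0 at every other element. -/
theorem result {G : Type*} [Group G] [Fintype G] [DecidableEq G] (g : G) : (Representation.leftRegular ℂ G).character g = if g = 1 then (Nat.card G : ℂ) else 0 := by
  classical
  rw [Representation.character, LinearMap.trace_eq_matrix_trace ℂ (MonoidAlgebra.basis G ℂ), Matrix.trace]
  have h1 : ∀ x : G, (LinearMap.toMatrix (MonoidAlgebra.basis G ℂ) (MonoidAlgebra.basis G ℂ) (Representation.leftRegular ℂ G g)).diag x = if g = 1 then (1 : ℂ) else 0 := by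
    intro x
    rw [Matrix.diag_apply, LinearMap.toMatrix_apply, MonoidAlgebra.basis_apply, Representation.ofMulAction_single]
    show (Finsupp.single (g • x) (1 : ℂ)) x = _
    rw [Finsupp.single_apply]
    congr 1
    simp
  rw [Finset.sum_congr rfl (fun x _ => h1 x), Finset.sum_const, Finset.card_univ, nsmul_eq_mul, Nat.card_eq_fintype_card]
  split_ifs <;> simp

end Cfsg.Agent.S0155
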