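import Cfsg.Statements.S0157
import Mathlib
import Cfsg.Agent.Lib.CharBasic
import Cfsg.Agent.Lib.CharBasic2
import Cfsg.Agent.Lib.PermChar

set_option autoImplicit false
open Cfsg

open scoped Pointwise
set_option linter.style.haveILetI false
namespace Cfsg.Agent.S0157

open CfsgLib.CharBasic CfsgLib.PermChar MulAction


/-- For a transitive action of a finite group on a finite set with at least two points: the action is 2-transitive if and only if the function sending g to (number of fixed points of g) − 1 is an irreducible character. -/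
theorem result {G : Type*} [Group G] [Finite G] (X : Type*) [MulAction G X] [Finite X] [MulAction.IsPretransitive G X] (hX : 2 ≤ Nat.card X) : Cfsg.IsIrrCharacter G (fun g => (Nat.card (MulAction.fixedBy X g) : ℂ) - 1) ↔ MulAction.IsMultiplyPretransitive G X 2 := by
  classical
  haveI : Fintype G := Fintype.ofFinite G
  haveI : Nonempty X := (Nat.card_pos_iff.mp (by omega : 0 < Nat.card X)).1
  haveI : Nontrivial X := Finite.one_lt_card_iff_nontrivial.mp (by omega)
  obtain ⟨a, b, hab⟩ := exists_pair_ne X
  have hchar := isCharacter_sub_one (G := G) X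
  have horb1 : Nat.card (orbitRel.Quotient G X) = 1 := by
    haveI : Subsingleton (orbitRel.Quotient G X) := (pretransitive_iff_subsingleton_quotient G X).mp inferInstance
    haveI : Nonempty (orbitRel.Quotient G X) := ⟨Quotient.mk _ a⟩
    exact Nat.card_unique
  have hinner : classInner (fun g : G => (Nat.card (fixedBy X g) : ℂ) - 1) (fun g : G => (Nat.card (fixedBy X g) : ℂ) - 1) = (Nat.card (orbitRel.Quotient G (X × X)) : ℂ) - 1 := by
    have e : (fun g : G => (Nat.card (fixedBy X g) : ℂ) - 1) = (fun g : G => (Nat.card (fixedBy X g) : ℂ)) - (fun _ => 1) := rfl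
    have h1 : classInner (fun _ : G => (1 : ℂ)) (fun g : G => (Nat.card (fixedBy X g) : ℂ)) = 1 := by
      rw [← classInner_conj_symm, inner_one, horb1]; simp
    have h2 : classInner (fun _ : G => (1 : ℂ)) (fun _ => 1) = 1 := IsIrrCharacter.inner_self isIrr_one'
    rw [e, classInner_sub_left, classInner_sub_right, classInner_sub_right, inner_self_perm, inner_one, h1, h2, horb1]
    push_cast; ring
  have hirr : Cfsg.IsIrrCharacter G (fun g => (Nat.card (MulAction.fixedBy X g) : ℂ) - 1) ↔ Nat.card (orbitRel.Quotient G (X × X)) = 2 := by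
    rw [isIrr_iff]
    constructor
    · rintro ⟨-, h⟩
      rw [hinner] at h
      have : (Nat.card (orbitRel.Quotient G (X × X)) : ℂ) = 2 := by linear_combination h
      exact_mod_cast this
    · intro h
      refine ⟨hchar, ?_⟩
      rw [hinner, h]; norm_num
  rw [hirr, is_two_pretransitive_iff, Nat.card_eq_two_iff' (Quotient.mk (orbitRel G (X × X)) (a, a))]
  have hmk : ∀ p q : X × X, (Quotient.mk (orbitRel G (X × X)) p = Quotient.mk (orbitRel G (X × X)) q) ↔ ∃ g : G, g • q = p := by
    intro p q
    rw [Quotient.eq]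
    exact Iff.rfl
  have hdiag : ∀ c d : X, c ≠ d → Quotient.mk (orbitRel G (X × X)) (c, d) ≠ Quotient.mk (orbitRel G (X × X)) (a, a) := by
    intro c d hcd h
    obtain ⟨g, hg⟩ := (hmk _ _).mp h
    apply hcd
    have h1 := congrArg Prod.fst hg
    have h2 := congrArg Prod.snd hg
    exact h1.symm.trans h2
  constructor
  · rintro ⟨y, hy, huniq⟩ c d e f hcd hef
    have h1 := huniq _ (hdiag e f hef)
    have h2 := huniq _ (hdiag c d hcd)
    obtain ⟨g, hg⟩ := (hmk _ _).mp (h1.trans h2.symm)
    exact ⟨g, congrArg Prod.fst hg, congrArg Prod.snd hg⟩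
  · intro h
    refine ⟨Quotient.mk _ (a, b), hdiag a b hab, ?_⟩
    intro z hz
    obtain ⟨⟨c, d⟩, rfl⟩ := Quotient.exists_rep z
    have hcd : c ≠ d := by
      rintro rfl
      apply hz
      obtain ⟨g, hg⟩ := exists_smul_eq G a c
      exact (hmk _ _).mpr ⟨g, Prod.ext hg hg⟩
    obtain ⟨g, h1, h2⟩ := h hab hcd
    exact (hmk _ _).mpr ⟨g, Prod.ext h1 h2⟩

end Cfsg.Agent.S0157
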