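import Cfsg.Statements.S0162
import Mathlib
import Cfsg.Agent.Lib.CNOdd
import Cfsg.Agent.Lib.CharFS

set_option autoImplicit false
open Cfsg

set_option linter.style.haveILetI false
namespace Cfsg.Agent.S0162

open Cfsg CfsgLib.CharBasic CfsgLib.CNOdd
open scoped ComplexConjugate


/-- If a finite group has odd order, its order is congruent to its number of conjugacy classes modulo 16. -/
theorem result {G : Type*} [Group G] [Finite G] (hodd : Odd (Nat.card G)) : Nat.card G ≡ Nat.card (ConjClasses G) [MOD 16] := by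
  classical
  haveI : Fintype G := Fintype.ofFinite G
  choose d hd hd' using fun χ : IrrCharacter G => IsIrrCharacter.exists_pos χ.2
  have hsum : ∑ χ : IrrCharacter G, d χ ^ 2 = Nat.card G := by
    have h1 := sum_irr_one_sq G
    rw [Finset.sum_congr rfl (fun χ _ => by rw [hd' χ])] at h1
    exact_mod_cast h1
  have hodd' : ∀ χ : IrrCharacter G, Odd (d χ) := fun χ => hodd.of_dvd_nat (IsIrrCharacter.degree_dvd χ.2 (hd' χ))
  have h8 : ∀ χ : IrrCharacter G, ∃ t : ℤ, (d χ : ℤ) ^ 2 = 8 * t + 1 := by
    intro χ
    obtain ⟨r, hr⟩ := hodd' χ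
    rcases Nat.even_or_odd' r with ⟨s, hs | hs⟩
    · exact ⟨2 * s ^ 2 + s, by rw [hr, hs]; push_cast; ring⟩
    · exact ⟨2 * s ^ 2 + 3 * s + 1, by rw [hr, hs]; push_cast; ring⟩
  choose t ht using h8
  have hcard : Nat.card (ConjClasses G) = Fintype.card (IrrCharacter G) := by
    rw [← card_irr, Nat.card_eq_fintype_card]
  have heven : Even (∑ χ : IrrCharacter G, t χ) := by
    have h1 := even_sum_involution (fun χ : IrrCharacter G => (⟨fun g => conj ((χ : G → ℂ) g), IsIrrCharacter.conj χ.2⟩ : IrrCharacter G)) (fun χ => by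
        apply Subtype.ext; funext g; exact Complex.conj_conj _) (irrOne G) (fun χ hχ => by
        apply Subtype.ext
        have h2 := congrArg Subtype.val hχ
        rw [CfsgLib.CharFS.real_odd hodd χ.2 (fun g => Complex.conj_eq_iff_im.mp (congrFun h2 g))]
        funext g; exact (irrOne_apply g).symm) (by
        apply Subtype.ext; funext g
        show conj ((irrOne G : G → ℂ) g) = _
        rw [irrOne_apply, map_one]) t (fun χ => by
        have h2 : d (⟨fun g => conj ((χ : G → ℂ) g), IsIrrCharacter.conj χ.2⟩ : IrrCharacter G) = d χ := by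
          have h3 := hd' (⟨fun g => conj ((χ : G → ℂ) g), IsIrrCharacter.conj χ.2⟩ : IrrCharacter G)
          have h4 : conj ((χ : G → ℂ) 1) = (d (⟨fun g => conj ((χ : G → ℂ) g), IsIrrCharacter.conj χ.2⟩ : IrrCharacter G) : ℂ) := h3
          rw [hd' χ, map_natCast] at h4
          exact_mod_cast h4.symm
        have h5 := ht (⟨fun g => conj ((χ : G → ℂ) g), IsIrrCharacter.conj χ.2⟩ : IrrCharacter G)
        rw [h2, ht χ] at h5
        linarith)
    have h0 : t (irrOne G) = 0 := by
      have h2 := ht (irrOne G)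
      have h3 : d (irrOne G) = 1 := by
        have h4 := hd' (irrOne G)
        rw [irrOne_apply] at h4
        exact_mod_cast h4.symm
      rw [h3] at h2
      push_cast at h2
      linarith
    rw [h0, sub_zero] at h1
    exact h1
  obtain ⟨s, hs⟩ := heven
  have h1 : (Nat.card G : ℤ) = 16 * s + Nat.card (ConjClasses G) := by
    rw [← hsum, hcard]
    push_cast
    rw [Finset.sum_congr rfl (fun χ _ => ht χ), Finset.sum_add_distrib, ← Finset.mul_sum, hs]
    simp
    ring
  have h2 : (Nat.card G : ℤ) ≡ Nat.card (ConjClasses G) [ZMOD 16] := by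
    rw [h1]
    unfold Int.ModEq
    omega
  exact_mod_cast (Int.natCast_modEq_iff.mp h2)

end Cfsg.Agent.S0162
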