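import Cfsg.Statements.S0165
import Cfsg.Agent.Lib.BlockDefect

set_option autoImplicit false
open Cfsg

namespace Cfsg.Agent.S0165

/-- If p ^ n is the exact power of the prime p dividing the order of a finite group and p ^ n divides the degree of an irreducible complex representation, then its character vanishes at every element of order divisible by p. -/
theorem result {G : Type*} [Group G] [Finite G] {V : Type*} [AddCommGroup V] [Module ℂ V] [FiniteDimensional ℂ V] (ρ : Representation ℂ G V) [ρ.IsIrreducible] (p n : ℕ) (hp : p.Prime) (hn : p ^ n ∣ Nat.card G) (hn' : ¬ p ^ (n + 1) ∣ Nat.card G) (hdeg : p ^ n ∣ Module.finrank ℂ V) (x : G) (hx : p ∣ orderOf x) : ρ.character x = 0 := by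
  have : Fintype G := Fintype.ofFinite G
  obtain ⟨M, hM⟩ := CfsgLib.Block.exists_isPModular hp
  have hirr := CfsgLib.CharBasic.isIrrCharacter_character ρ inferInstance
  let χ : Cfsg.IrrCharacter G := ⟨ρ.character, hirr⟩
  have hdeg' : Cfsg.charDegree (χ : G → ℂ) = Module.finrank ℂ V :=
    CfsgLib.Block.charDegree_eq (by rw [show (χ : G → ℂ) = ρ.character from rfl, Representation.char_one])
  apply CfsgLib.Block.vanish_of_inS_singleton hM χ _ hx
  apply CfsgLib.Block.inS_eB_singleton hM χ
  have h0 := CfsgLib.Block.charDegree_ne_zero χ.2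
  have h1 : (Nat.card G).factorization p < n + 1 := by
    by_contra hcon
    push Not at hcon
    exact hn' ((hp.pow_dvd_iff_le_factorization Nat.card_pos.ne').mpr hcon)
  have h2 : n ≤ (Cfsg.charDegree (χ : G → ℂ)).factorization p := by
    rw [← hp.pow_dvd_iff_le_factorization h0, hdeg']
    exact hdeg
  omega

end Cfsg.Agent.S0165
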