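import Cfsg.Statements.S0167
import Cfsg.Agent.Lib.CharBasic3

set_option autoImplicit false
open Cfsg

namespace Cfsg.Agent.S0167

/-- An element g of a finite group is a commutator if and only if the sum over the irreducible characters χ of χ g / χ 1 is nonzero. -/
theorem result {G : Type*} [Group G] [Finite G] (g : G) : (∃ a b : G, g = a * b * a⁻¹ * b⁻¹) ↔ ∑ᶠ χ : Cfsg.IrrCharacter G, (χ : G → ℂ) g / (χ : G → ℂ) 1 ≠ 0 := by
  have : Fintype G := Fintype.ofFinite G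
  rw [finsum_eq_sum_of_fintype]
  have h := CfsgLib.CharBasic.card_commutator_eq g
  have hG : (Nat.card G : ℂ) ≠ 0 := CfsgLib.CharBasic.card_ne_zero
  constructor
  · rintro ⟨a, b, hab⟩ h0
    rw [h0, mul_zero] at h
    have h1 : Nat.card {p : G × G // p.1 * p.2 * p.1⁻¹ * p.2⁻¹ = g} = 0 := by exact_mod_cast h
    have : Nonempty {p : G × G // p.1 * p.2 * p.1⁻¹ * p.2⁻¹ = g} := ⟨⟨(a, b), hab.symm⟩⟩
    exact Nat.card_pos.ne' h1
  · intro h0
    have h1 : (Nat.card {p : G × G // p.1 * p.2 * p.1⁻¹ * p.2⁻¹ = g} : ℂ) ≠ 0 := by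
      rw [h]; exact mul_ne_zero hG h0
    have h2 : Nat.card {p : G × G // p.1 * p.2 * p.1⁻¹ * p.2⁻¹ = g} ≠ 0 := by exact_mod_cast h1
    obtain ⟨⟨⟨a, b⟩, hab⟩⟩ := (Nat.card_ne_zero.mp h2).1
    exact ⟨a, b, hab.symm⟩

end Cfsg.Agent.S0167
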