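import Cfsg.Statements.S0168
import Mathlib
import Cfsg.Agent.Lib.CharBasic
import Cfsg.Agent.Lib.CharBasic2

set_option autoImplicit false
open Cfsg

set_option linter.style.haveILetI false
namespace Cfsg.Agent.S0168

open CfsgLib.CharBasic Polynomial
open scoped ComplexConjugate


/-- The Burnside–Brauer Theorem. Let χ be the character of a faithful complex representation of a finite group, taking m distinct values. Then every irreducible character has nonzero inner product with χ ^ i for some i < m. -/
theorem result {G : Type*} [Group G] [Fintype G] {V : Type*} [AddCommGroup V] [Module ℂ V] [FiniteDimensional ℂ V] (ρ : Representation ℂ G V) (hfaithful : Function.Injective ρ) (ψ : G → ℂ) (hψ : Cfsg.IsIrrCharacter G ψ) : ∃ i : ℕ, i < Nat.card (Set.range ρ.character) ∧ Cfsg.classInner (fun g => ρ.character g ^ i) ψ ≠ 0 := by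
  classical
  by_contra hcon
  push Not at hcon
  haveI : Fintype (Set.range ρ.character) := Fintype.ofFinite _
  -- the values other than the degree
  obtain ⟨S, hS⟩ : ∃ S : Finset ℂ, S = (Finset.univ.image ρ.character).erase (ρ.character 1) := ⟨_, rfl⟩
  have hcard : S.card + 1 = Nat.card (Set.range ρ.character) := by
    rw [hS, Finset.card_erase_of_mem (Finset.mem_image_of_mem _ (Finset.mem_univ _))]
    have h1 : (Finset.univ.image ρ.character).card = Nat.card (Set.range ρ.character) := by
      rw [Nat.card_eq_fintype_card, ← Set.toFinset_card]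
      congr 1
      ext x
      simp
    have h2 : 0 < (Finset.univ.image ρ.character).card := Finset.card_pos.mpr ⟨_, Finset.mem_image_of_mem _ (Finset.mem_univ 1)⟩
    omega
  obtain ⟨Q, hQ⟩ : ∃ Q : ℂ[X], Q = ∏ a ∈ S, (X - C a) := ⟨_, rfl⟩
  have hdeg : Q.natDegree = S.card := by rw [hQ]; exact natDegree_prod_of_monic _ _ (fun a _ => monic_X_sub_C a) |>.trans (by simp)
  have hzero : ∑ g : G, Q.eval (ρ.character g) * conj (ψ g) = 0 := by
    have h1 : ∀ g : G, Q.eval (ρ.character g) * conj (ψ g) = ∑ i ∈ Finset.range (Q.natDegree + 1), Q.coeff i * (ρ.character g ^ i * conj (ψ g)) := by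
      intro g
      rw [eval_eq_sum_range, Finset.sum_mul]
      exact Finset.sum_congr rfl (fun i _ => by ring)
    rw [Finset.sum_congr rfl (fun g _ => h1 g), Finset.sum_comm]
    apply Finset.sum_eq_zero
    intro i hi
    rw [← Finset.mul_sum]
    have h2 := hcon i (by
      rw [Finset.mem_range, hdeg] at hi
      omega)
    rw [classInner] at h2
    rcases mul_eq_zero.mp h2 with h3 | h3
    · exact absurd (inv_eq_zero.mp h3) (by exact_mod_cast Nat.card_pos.ne')
    · rw [h3, mul_zero]
  have hval : ∀ g : G, g ≠ 1 → Q.eval (ρ.character g) = 0 := by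
    intro g hg
    rw [hQ, eval_prod]
    apply Finset.prod_eq_zero (i := ρ.character g)
    · rw [hS, Finset.mem_erase]
      refine ⟨?_, Finset.mem_image_of_mem _ (Finset.mem_univ _)⟩
      intro h
      rw [Representation.char_one, character_eq_finrank_iff] at h
      exact hg (hfaithful (by rw [h, map_one]; rfl))
    · simp
  rw [Finset.sum_eq_single 1 (fun g _ hg => by rw [hval g hg, zero_mul]) (fun h => absurd (Finset.mem_univ _) h)] at hzero
  rcases mul_eq_zero.mp hzero with h | h
  · rw [hQ, eval_prod, Finset.prod_eq_zero_iff] at h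
    obtain ⟨a, ha, h1⟩ := h
    rw [eval_sub, eval_X, eval_C] at h1
    rw [hS, Finset.mem_erase] at ha
    exact ha.1 (sub_eq_zero.mp h1).symm
  · exact IsIrrCharacter.one_ne_zero hψ ((map_eq_zero (starRingEnd ℂ)).mp h)

end Cfsg.Agent.S0168
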