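import Cfsg.Statements.S0169
import Mathlib
import Cfsg.Agent.Lib.CharBasic
import Cfsg.Agent.Lib.CharClifford
import Cfsg.Agent.Lib.Cover3

set_option autoImplicit false
open Cfsg

set_option linter.style.haveILetI false
namespace Cfsg.Agent.S0169

open CfsgLib.CharBasic CfsgLib.CharClifford CfsgLib.Cover3


/-- Itô's Theorem on character degrees: the degree of an irreducible complex representation of a finite group divides the index of any abelian normal subgroup. -/
theorem result {G : Type*} [Group G] [Finite G] {V : Type*} [AddCommGroup V] [Module ℂ V] [FiniteDimensional ℂ V] (ρ : Representation ℂ G V) [ρ.IsIrreducible] (H : Subgroup G) [H.Normal] (hH : ∀ a ∈ H, ∀ b ∈ H, a * b = b * a) : Module.finrank ℂ V ∣ H.index := by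
  haveI : Fintype G := Fintype.ofFinite G
  haveI : Fintype H := Fintype.ofFinite H
  have hi : ρ.IsIrreducible := inferInstance
  have hχ := isIrrCharacter_character ρ hi
  have hα : IsCharacter H (fun h : H => ρ.character h) := by
    have := isCharacter_character (ρ.comp H.subtype)
    exact this
  have hne : (fun h : H => ρ.character h) ≠ 0 := by
    intro h0
    have := congrFun h0 1
    simp only [Subgroup.coe_one, Pi.zero_apply] at this
    exact IsIrrCharacter.one_ne_zero hχ this
  obtain ⟨ψ, hψ⟩ := exists_constituent hα hne
  obtain ⟨e, he, hd⟩ := degree_ratio' ψ.2 hχ hψ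
  have h1 : (ψ : H → ℂ) 1 = 1 := by
    haveI : IsMulCommutative H := ⟨⟨fun a b => Subtype.ext (hH a a.2 b b.2)⟩⟩
    obtain ⟨n, hn0, hn⟩ := IsIrrCharacter.exists_pos ψ.2
    have h2 := IsIrrCharacter.degree_dvd_index_center ψ.2 hn
    have h3 : Subgroup.center H = ⊤ := by
      rw [eq_top_iff]
      intro a _
      rw [Subgroup.mem_center_iff]
      intro b
      exact Subtype.ext (hH b b.2 a a.2)
    rw [h3, Subgroup.index_top, Nat.dvd_one] at h2
    rw [hn, h2, Nat.cast_one]
  rw [h1, mul_one, Representation.char_one] at he
  have he' : Module.finrank ℂ V = e := by exact_mod_cast he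
  rw [he']; exact hd

end Cfsg.Agent.S0169
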