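import Cfsg.Statements.S0170
import Mathlib
import Cfsg.Agent.Lib.CharTI

set_option autoImplicit false
open Cfsg

set_option linter.style.haveILetI false
namespace Cfsg.Agent.S0170

/-- Exceptional characters. Let S be a subset of a finite group contained in its normalizer N and meeting its conjugates by elements outside N only in the identity. Given n ≥ 2 distinct irreducible characters of N of equal degree that vanish on N away from S, there exist a sign ε and n distinct irreducible characters θ_i of G such that inducing χ_i − χ_j to G gives ε (θ_i − θ_j) for all i, j. -/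
theorem result {G : Type*} [Group G] [Fintype G] (S : Set G) (hSN : S ⊆ Subgroup.normalizer S) (hTI : ∀ g : G, g ∉ Subgroup.normalizer S → ∀ s ∈ S, g * s * g⁻¹ ∈ S → s = 1) (n : ℕ) (hn : 2 ≤ n) (χ : Fin n → (Subgroup.normalizer S → ℂ)) (hirr : ∀ i, Cfsg.IsIrrCharacter (Subgroup.normalizer S) (χ i)) (hinj : Function.Injective χ) (hvan : ∀ i, ∀ x : Subgroup.normalizer S, (x : G) ∉ S → χ i x = 0) (hdeg : ∀ i j, χ i 1 = χ j 1) : ∃ ε : ℂ, (ε = 1 ∨ ε = -1) ∧ ∃ θ : Fin n → (G → ℂ), (∀ i, Cfsg.IsIrrCharacter G (θ i)) ∧ Function.Injective θ ∧ ∀ i j, Cfsg.indFun (Subgroup.normalizer S) (χ i) - Cfsg.indFun (Subgroup.normalizer S) (χ j) = ε • (θ i - θ j) := by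
  classical
  haveI : Fintype (Subgroup.normalizer S) := Fintype.ofFinite _
  have hcl : ∀ i, Cfsg.IsClassFunction (Subgroup.normalizer S) (χ i) := fun i =>
    CfsgLib.CharBasic.IsCharacter.isClassFunction (CfsgLib.CharBasic.IsIrrCharacter.isCharacter (hirr i))
  let i₀ : Fin n := ⟨0, by omega⟩
  let τ : Fin n → (G → ℂ) := fun i => Cfsg.indFun (Subgroup.normalizer S) (χ i - χ i₀)
  have hdcl : ∀ i, Cfsg.IsClassFunction (Subgroup.normalizer S) (χ i - χ i₀) := by
    intro i g h
    simp only [Pi.sub_apply]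
    rw [hcl i g h, hcl i₀ g h]
  have hdvan : ∀ i, ∀ x : Subgroup.normalizer S, (x : G) ∉ S → (χ i - χ i₀) x = 0 := by
    intro i x hx
    rw [Pi.sub_apply, hvan i x hx, hvan i₀ x hx, sub_zero]
  have hd1 : ∀ i, (χ i - χ i₀) 1 = 0 := by
    intro i
    rw [Pi.sub_apply, hdeg i i₀, sub_self]
  have hinner : ∀ i j, Cfsg.classInner (τ i) (τ j) = Cfsg.classInner (χ i - χ i₀) (χ j - χ i₀) := by
    intro i j
    exact CfsgLib.CharTI.inner_indFun_ti hTI (hdcl i) (hdvan i) (hdvan j) (hd1 i)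
  have hg : ∀ i j, i ≠ i₀ → j ≠ i₀ → Cfsg.classInner (χ i - χ i₀) (χ j - χ i₀) = if i = j then 2 else 1 := by
    intro i j hi hj
    have e1 : χ i₀ ≠ χ i := fun h => hi (hinj h).symm
    have e2 : χ i₀ ≠ χ j := fun h => hj (hinj h).symm
    rw [CfsgLib.CharBasic.classInner_sub_left, CfsgLib.CharBasic.classInner_sub_right, CfsgLib.CharBasic.classInner_sub_right,
      CfsgLib.CharBasic.IsIrrCharacter.inner_self (hirr i₀), CfsgLib.CharBasic.IsIrrCharacter.inner_eq_zero (hirr i₀) (hirr j) e2,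
      CfsgLib.CharBasic.IsIrrCharacter.inner_eq_zero (hirr i) (hirr i₀) e1.symm]
    by_cases hij : i = j
    · subst hij
      rw [CfsgLib.CharBasic.IsIrrCharacter.inner_self (hirr i), if_pos rfl]; norm_num
    · rw [CfsgLib.CharBasic.IsIrrCharacter.inner_eq_zero (hirr i) (hirr j) (fun h => hij (hinj h)), if_neg hij]; norm_num
  obtain ⟨ε, hε, μ, hμ, hτ⟩ := CfsgLib.CharTI.isometry_family i₀ τ
    (by simp only [τ]; rw [sub_self, CfsgLib.CharInd.indFun_zero])
    (fun i => CfsgLib.CharInd.isGeneralized_indFun _ ⟨_, _, CfsgLib.CharBasic.IsIrrCharacter.isCharacter (hirr i), CfsgLib.CharBasic.IsIrrCharacter.isCharacter (hirr i₀), rfl⟩)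
    (fun i => by simp only [τ]; rw [CfsgLib.CharInd.indFun_one, hd1, mul_zero])
    (fun i hi => by rw [hinner, hg i i hi hi, if_pos rfl])
    (fun i j hi hj hij => by rw [hinner, hg i j hi hj, if_neg hij])
  refine ⟨ε, hε, fun i => μ i, fun i => (μ i).2, fun i j h => hμ (Subtype.ext h), ?_⟩
  intro i j
  have e1 : Cfsg.indFun (Subgroup.normalizer S) (χ i) - Cfsg.indFun (Subgroup.normalizer S) (χ j) = τ i - τ j := by
    simp only [τ, CfsgLib.CharInd.indFun_sub]
    abel
  rw [e1, hτ i, hτ j, ← smul_sub]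
  congr 1
  abel

end Cfsg.Agent.S0170
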