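import Cfsg.Statements.S0172
import Mathlib

set_option autoImplicit false
open Cfsg

namespace Cfsg.Agent.S0172

theorem conj_into {G : Type*} [Group G] [Finite G] (K H : Subgroup G) [hK : K.Normal] (hKH : K ⊓ H = ⊥) (hKH' : K ⊔ H = ⊤) (hfpf : ∀ h ∈ H, h ≠ 1 → ∀ k ∈ K, h * k = k * h → k = 1) (x : G) (hx : x ∉ K) : ∃ k ∈ K, ∃ h ∈ H, h ≠ 1 ∧ x = k * h * k⁻¹ := by
  have hx' : x ∈ K ⊔ H := hKH' ▸ Subgroup.mem_top x
  obtain ⟨k, hk, h, hh, rfl⟩ := Subgroup.mem_sup_of_normal_left.mp hx'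
  have hh1 : h ≠ 1 := by
    rintro rfl
    exact hx (by simpa using hk)
  have hinj : Function.Injective (fun y : K => (⟨(y : G) * (h * (y : G)⁻¹ * h⁻¹), K.mul_mem y.2 (hK.conj_mem _ (K.inv_mem y.2) h)⟩ : K)) := by
    intro y z hyz
    have h1 : (y : G) * (h * (y : G)⁻¹ * h⁻¹) = z * (h * (z : G)⁻¹ * h⁻¹) := congrArg Subtype.val hyz
    have h2 : h * ((z : G)⁻¹ * y) = ((z : G)⁻¹ * y) * h := by
      have h3 : (y : G) * h * (y : G)⁻¹ = z * h * (z : G)⁻¹ := by
        have := congrArg (· * h) h1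
        simpa [mul_assoc] using this
      have h4 : (z : G)⁻¹ * ((y : G) * h * (y : G)⁻¹) * y = h * ((z : G)⁻¹ * y) := by
        rw [h3]; group
      rw [← h4]; group
    have h5 := hfpf h hh hh1 _ (K.mul_mem (K.inv_mem z.2) y.2) h2
    exact Subtype.ext (inv_mul_eq_one.mp h5).symm
  obtain ⟨y, hy⟩ := (Finite.injective_iff_surjective.mp hinj) ⟨k, hk⟩
  have hy' : (y : G) * (h * (y : G)⁻¹ * h⁻¹) = k := congrArg Subtype.val hy
  refine ⟨y, y.2, h, hh, hh1, ?_⟩
  rw [← hy']; group

theorem cent {G : Type*} [Group G] [Finite G] (K H : Subgroup G) [hK : K.Normal] (hKH : K ⊓ H = ⊥) (hKH' : K ⊔ H = ⊤) (hfpf : ∀ h ∈ H, h ≠ 1 → ∀ k ∈ K, h * k = k * h → k = 1) (h : G) (hh : h ∈ H) (h1 : h ≠ 1) (y : G) (hy : h * y = y * h) : y ∈ H := by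
  have hx' : y ∈ K ⊔ H := hKH' ▸ Subgroup.mem_top y
  obtain ⟨k, hk, a, ha, rfl⟩ := Subgroup.mem_sup_of_normal_left.mp hx'
  -- h k a = k a h ; (h k h⁻¹) (h a) = k (a h)
  have h2 : k⁻¹ * (h * k * h⁻¹) = (a * h) * (h * a)⁻¹ := by
    have : h * k * a = k * a * h := by simpa [mul_assoc] using hy
    have h3 : h * k = k * a * h * a⁻¹ := by rw [← this]; group
    rw [h3]; group
  have h3 : k⁻¹ * (h * k * h⁻¹) ∈ K ⊓ H := by
    refine ⟨K.mul_mem (K.inv_mem hk) (hK.conj_mem _ hk h), ?_⟩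
    rw [h2]
    exact H.mul_mem (H.mul_mem ha hh) (H.inv_mem (H.mul_mem hh ha))
  rw [hKH, Subgroup.mem_bot] at h3
  have h4 : h * k = k * h := by
    have := inv_mul_eq_one.mp h3
    have h5 := congrArg (· * h) this
    simpa using h5.symm
  rw [hfpf h hh h1 k hk h4, one_mul]
  exact ha


/-- Class number of a Frobenius group: if G = K H with K normal, K ⊓ H trivial and no non-identity element of H commuting with a non-identity element of K, then |H| * k(G) + 1 = |H| * k(H) + k(K), where k denotes the number of conjugacy classes. -/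
theorem result {G : Type*} [Group G] [Finite G] (K H : Subgroup G) [K.Normal] (hKH : K ⊓ H = ⊥) (hKH' : K ⊔ H = ⊤) (hfpf : ∀ h ∈ H, h ≠ 1 → ∀ k ∈ K, h * k = k * h → k = 1) : Nat.card H * Nat.card (ConjClasses G) + 1 = Nat.card H * Nat.card (ConjClasses H) + Nat.card (ConjClasses K) := by
  have key : Nat.card {p : G × G // Commute p.1 p.2} = Nat.card {p : K × K // Commute p.1 p.2} + Nat.card K * Nat.card {q : {p : H × H // Commute p.1 p.2} // q ≠ ⟨(1, 1), Commute.one_left 1⟩} := by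
    rw [← Nat.card_prod, ← Nat.card_sum]
    symm
    refine Nat.card_eq_of_bijective (fun s => Sum.elim (fun p : {p : K × K // Commute p.1 p.2} => (⟨((p.1.1 : G), (p.1.2 : G)), congrArg Subtype.val p.2⟩ : {p : G × G // Commute p.1 p.2})) (fun r : K × {q : {p : H × H // Commute p.1 p.2} // q ≠ ⟨(1, 1), Commute.one_left 1⟩} => ⟨((r.1 : G) * (r.2.1.1.1 : G) * (r.1 : G)⁻¹, (r.1 : G) * (r.2.1.1.2 : G) * (r.1 : G)⁻¹), ?_⟩) s) ?_
    · have : (r.2.1.1.1 : G) * (r.2.1.1.2 : G) = (r.2.1.1.2 : G) * (r.2.1.1.1 : G) := congrArg Subtype.val r.2.1.2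
      show (r.1 : G) * (r.2.1.1.1 : G) * (r.1 : G)⁻¹ * ((r.1 : G) * (r.2.1.1.2 : G) * (r.1 : G)⁻¹) = (r.1 : G) * (r.2.1.1.2 : G) * (r.1 : G)⁻¹ * ((r.1 : G) * (r.2.1.1.1 : G) * (r.1 : G)⁻¹)
      calc _ = (r.1 : G) * ((r.2.1.1.1 : G) * (r.2.1.1.2 : G)) * (r.1 : G)⁻¹ := by group
        _ = (r.1 : G) * ((r.2.1.1.2 : G) * (r.2.1.1.1 : G)) * (r.1 : G)⁻¹ := by rw [this]
        _ = _ := by group
    · have h1 : ∀ (k : G) (a : G), a ∈ H → k * a * k⁻¹ ∈ K → a = 1 := by
        intro k a haH ha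
        have h2 := (inferInstance : K.Normal).conj_mem _ ha k⁻¹
        have h3 : (a : G) ∈ K ⊓ H := ⟨by simpa [mul_assoc] using h2, haH⟩
        rw [hKH, Subgroup.mem_bot] at h3
        exact h3
      have h2 : ∀ (k l : G) (a b : G), k ∈ K → l ∈ K → a ∈ H → b ∈ H → k * a * k⁻¹ = l * b * l⁻¹ → a = b ∧ a * (l⁻¹ * k) = (l⁻¹ * k) * a := by
        intro k l a b hk hl ha hb h
        have h3 : a * b⁻¹ ∈ K ⊓ H := by
          refine ⟨?_, H.mul_mem ha (H.inv_mem hb)⟩
          have h4 : a * b⁻¹ = k⁻¹ * (l * (b * (l⁻¹ * k) * b⁻¹)) := by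
            have : a = k⁻¹ * (l * b * l⁻¹) * k := by rw [← h]; group
            rw [this]; group
          rw [h4]
          exact K.mul_mem (K.inv_mem hk) (K.mul_mem hl ((inferInstance : K.Normal).conj_mem _ (K.mul_mem (K.inv_mem hl) hk) b))
        rw [hKH, Subgroup.mem_bot] at h3
        have h5 : a = b := mul_inv_eq_one.mp h3
        refine ⟨h5, ?_⟩
        subst h5
        have : l⁻¹ * (k * a * k⁻¹) * k = a * (l⁻¹ * k) := by rw [h]; group
        rw [← this]; group
      have h3 : ∀ (r r' : K × {q : {p : H × H // Commute p.1 p.2} // q ≠ ⟨(1, 1), Commute.one_left 1⟩}), (r.1 : G) * (r.2.1.1.1 : G) * (r.1 : G)⁻¹ = (r'.1 : G) * (r'.2.1.1.1 : G) * (r'.1 : G)⁻¹ → (r.1 : G) * (r.2.1.1.2 : G) * (r.1 : G)⁻¹ = (r'.1 : G) * (r'.2.1.1.2 : G) * (r'.1 : G)⁻¹ → r = r' := by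
        rintro ⟨k, ⟨⟨⟨a, b⟩, hab⟩, hne⟩⟩ ⟨l, ⟨⟨⟨a', b'⟩, hab'⟩, hne'⟩⟩ e1 e2
        simp only at e1 e2
        obtain ⟨f1, f2⟩ := h2 k l a a' k.2 l.2 a.2 a'.2 e1
        obtain ⟨f3, f4⟩ := h2 k l b b' k.2 l.2 b.2 b'.2 e2
        have f1' : a = a' := Subtype.ext f1
        have f3' : b = b' := Subtype.ext f3
        subst f1'; subst f3'
        have hkl : (l : G)⁻¹ * k = 1 := by
          by_cases ha : (a : G) = 1
          · have hb : (b : G) ≠ 1 := by
              intro hb
              apply hne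
              apply Subtype.ext
              exact Prod.ext (Subtype.ext ha) (Subtype.ext hb)
            exact hfpf b b.2 hb _ (K.mul_mem (K.inv_mem l.2) k.2) f4
          · exact hfpf a a.2 ha _ (K.mul_mem (K.inv_mem l.2) k.2) f2
        have : l = k := Subtype.ext (inv_mul_eq_one.mp hkl)
        subst this
        rfl
      constructor
      · rintro (p | r) (p' | r') h
        · have h := (⟨congrArg (fun q => (q : {p : G × G // Commute p.1 p.2}).1.1) h, congrArg (fun q => (q : {p : G × G // Commute p.1 p.2}).1.2) h⟩ : _ ∧ _)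
          simp only [Sum.elim_inl] at h
          congr 1
          apply Subtype.ext
          exact Prod.ext (Subtype.ext h.1) (Subtype.ext h.2)
        · exfalso
          have h := (⟨congrArg (fun q => (q : {p : G × G // Commute p.1 p.2}).1.1) h, congrArg (fun q => (q : {p : G × G // Commute p.1 p.2}).1.2) h⟩ : _ ∧ _)
          simp only [Sum.elim_inl, Sum.elim_inr] at h
          apply r'.2.2
          apply Subtype.ext
          apply Prod.ext
          · exact Subtype.ext (h1 _ _ r'.2.1.1.1.2 (h.1 ▸ p.1.1.2))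
          · exact Subtype.ext (h1 _ _ r'.2.1.1.2.2 (h.2 ▸ p.1.2.2))
        · exfalso
          have h := (⟨congrArg (fun q => (q : {p : G × G // Commute p.1 p.2}).1.1) h, congrArg (fun q => (q : {p : G × G // Commute p.1 p.2}).1.2) h⟩ : _ ∧ _)
          simp only [Sum.elim_inl, Sum.elim_inr] at h
          apply r.2.2
          apply Subtype.ext
          apply Prod.ext
          · exact Subtype.ext (h1 _ _ r.2.1.1.1.2 (h.1.symm ▸ p'.1.1.2))
          · exact Subtype.ext (h1 _ _ r.2.1.1.2.2 (h.2.symm ▸ p'.1.2.2))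
        · have h := (⟨congrArg (fun q => (q : {p : G × G // Commute p.1 p.2}).1.1) h, congrArg (fun q => (q : {p : G × G // Commute p.1 p.2}).1.2) h⟩ : _ ∧ _)
          simp only [Sum.elim_inr] at h
          rw [h3 r r' h.1 h.2]
      · rintro ⟨⟨x, y⟩, hxy⟩
        have hxy' : x * y = y * x := hxy
        by_cases hx : x ∈ K
        · by_cases hy : y ∈ K
          · exact ⟨Sum.inl ⟨(⟨x, hx⟩, ⟨y, hy⟩), Subtype.ext hxy'⟩, rfl⟩
          · obtain ⟨k, hk, h, hh, hh1, rfl⟩ := conj_into K H hKH hKH' hfpf y hy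
            have h4 : k⁻¹ * x * k ∈ H := by
              refine cent K H hKH hKH' hfpf h hh hh1 _ ?_
              calc h * (k⁻¹ * x * k) = k⁻¹ * ((k * h * k⁻¹) * x) * k := by group
                _ = k⁻¹ * (x * (k * h * k⁻¹)) * k := by rw [← hxy']
                _ = _ := by group
            refine ⟨Sum.inr (⟨k, hk⟩, ⟨⟨(⟨_, h4⟩, ⟨h, hh⟩), ?_⟩, ?_⟩), ?_⟩
            · apply Subtype.ext
              show k⁻¹ * x * k * h = h * (k⁻¹ * x * k)
              calc k⁻¹ * x * k * h = k⁻¹ * (x * (k * h * k⁻¹)) * k := by group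
                _ = k⁻¹ * ((k * h * k⁻¹) * x) * k := by rw [← hxy']
                _ = _ := by group
            · intro h5
              have := congrArg (fun q : {p : H × H // Commute p.1 p.2} => (q.1.2 : G)) h5
              exact hh1 this
            · apply Subtype.ext
              apply Prod.ext
              · show k * (k⁻¹ * x * k) * k⁻¹ = x
                group
              · rfl
        · obtain ⟨k, hk, h, hh, hh1, rfl⟩ := conj_into K H hKH hKH' hfpf x hx
          have h4 : k⁻¹ * y * k ∈ H := by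
            refine cent K H hKH hKH' hfpf h hh hh1 _ ?_
            calc h * (k⁻¹ * y * k) = k⁻¹ * ((k * h * k⁻¹) * y) * k := by group
              _ = k⁻¹ * (y * (k * h * k⁻¹)) * k := by rw [hxy']
              _ = _ := by group
          refine ⟨Sum.inr (⟨k, hk⟩, ⟨⟨(⟨h, hh⟩, ⟨_, h4⟩), ?_⟩, ?_⟩), ?_⟩
          · apply Subtype.ext
            show h * (k⁻¹ * y * k) = k⁻¹ * y * k * h
            calc h * (k⁻¹ * y * k) = k⁻¹ * ((k * h * k⁻¹) * y) * k := by group
              _ = k⁻¹ * (y * (k * h * k⁻¹)) * k := by rw [hxy']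
              _ = _ := by group
          · intro h5
            have := congrArg (fun q : {p : H × H // Commute p.1 p.2} => (q.1.1 : G)) h5
            exact hh1 this
          · apply Subtype.ext
            apply Prod.ext
            · rfl
            · show k * (k⁻¹ * y * k) * k⁻¹ = y
              group
  have hopt : Nat.card {q : {p : H × H // Commute p.1 p.2} // q ≠ ⟨(1, 1), Commute.one_left 1⟩} + 1 = Nat.card {p : H × H // Commute p.1 p.2} := by
    classical
    rw [← Finite.card_option]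
    exact Nat.card_congr (Equiv.optionSubtypeNe _)
  rw [card_comm_eq_card_conjClasses_mul_card] at key hopt
  rw [card_comm_eq_card_conjClasses_mul_card] at key
  have hG : Nat.card G = Nat.card K * Nat.card H := by
    have hc : Subgroup.IsComplement' K H := Subgroup.isComplement'_of_disjoint_and_mul_eq_univ (disjoint_iff.mpr hKH) (by
      ext x
      simp only [Set.mem_univ, iff_true]
      have hx' : x ∈ K ⊔ H := hKH' ▸ Subgroup.mem_top x
      obtain ⟨k, hk, a, ha, rfl⟩ := Subgroup.mem_sup_of_normal_left.mp hx'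
      exact Set.mul_mem_mul hk ha)
    exact hc.card_mul.symm
  have hKpos : 0 < Nat.card K := Nat.card_pos
  obtain ⟨m, hm⟩ : ∃ m, m = Nat.card {q : {p : H × H // Commute p.1 p.2} // q ≠ ⟨(1, 1), Commute.one_left 1⟩} := ⟨_, rfl⟩
  rw [← hm] at key hopt
  rw [hG] at key
  apply Nat.eq_of_mul_eq_mul_left hKpos
  have h5 : Nat.card K * (Nat.card H * Nat.card (ConjClasses H)) = Nat.card K * m + Nat.card K := by
    rw [mul_comm (Nat.card H), ← hopt]; ring
  calc Nat.card K * (Nat.card H * Nat.card (ConjClasses G) + 1) = Nat.card (ConjClasses G) * (Nat.card K * Nat.card H) + Nat.card K := by ring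
    _ = Nat.card (ConjClasses K) * Nat.card K + Nat.card K * m + Nat.card K := by rw [key]
    _ = Nat.card K * (Nat.card H * Nat.card (ConjClasses H)) + Nat.card K * Nat.card (ConjClasses K) := by rw [h5]; ring
    _ = _ := by ring

end Cfsg.Agent.S0172
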