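import Cfsg.Statements.S0173
import Mathlib
import Cfsg.Agent.Lib.CharFS

set_option autoImplicit false
open Cfsg

namespace Cfsg.Agent.S0173

/-- Brauer's permutation lemma for a single automorphism: the number of conjugacy classes mapped to themselves equals the number of irreducible complex characters χ with χ ∘ α = χ. -/
theorem result {G : Type*} [Group G] [Finite G] (α : G ≃* G) : Nat.card {C : ConjClasses G // ConjClasses.map α.toMonoidHom C = C} = Nat.card {χ : Cfsg.IrrCharacter G // (χ : G → ℂ) ∘ α = (χ : G → ℂ)} := by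
  classical
  haveI : Fintype G := Fintype.ofFinite G
  have h := CfsgLib.CharFS.permutation_lemma (G := G) (fun g => α g) (fun χ => CfsgLib.CharBasic.irrCongr α χ)
    (fun χ g => rfl)
  have e1 : Nat.card {χ : Cfsg.IrrCharacter G // (χ : G → ℂ) ∘ α = (χ : G → ℂ)} =
      Nat.card {χ : Cfsg.IrrCharacter G // CfsgLib.CharBasic.irrCongr α χ = χ} := by
    apply Nat.card_congr
    apply Equiv.subtypeEquivRight
    intro χ
    rw [Subtype.ext_iff]
    rfl
  rw [e1, h]
  apply Nat.card_congr
  apply Equiv.subtypeEquivRight
  intro C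
  constructor
  · intro h g hg
    subst hg
    have h1 : ConjClasses.mk (α g) = ConjClasses.mk g := h
    exact ConjClasses.mk_eq_mk_iff_isConj.mp h1
  · intro h
    obtain ⟨g, rfl⟩ := ConjClasses.mk_surjective C
    have h1 : ConjClasses.mk (α g) = ConjClasses.mk g := ConjClasses.mk_eq_mk_iff_isConj.mpr (h g rfl)
    exact h1

end Cfsg.Agent.S0173
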