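import Cfsg.Statements.S0178
import Mathlib
import Cfsg.Agent.Lib.CharClifford

set_option autoImplicit false
open Cfsg

namespace Cfsg.Agent.S0178

/-- The degree of an irreducible complex representation of a finite group is at most the index of any abelian subgroup. -/
theorem result {G : Type*} [Group G] [Finite G] {V : Type*} [AddCommGroup V] [Module ℂ V] [FiniteDimensional ℂ V] (ρ : Representation ℂ G V) [ρ.IsIrreducible] (A : Subgroup G) (hA : ∀ a ∈ A, ∀ b ∈ A, a * b = b * a) : Module.finrank ℂ V ≤ A.index := by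
  classical
  haveI : Fintype G := Fintype.ofFinite G
  haveI : Fintype A := Fintype.ofFinite A
  have hχ := CfsgLib.CharBasic.isIrrCharacter_character ρ ‹_›
  have hχc := CfsgLib.CharBasic.IsIrrCharacter.isCharacter hχ
  have hcl := CfsgLib.CharBasic.IsCharacter.isClassFunction hχc
  have hres := CfsgLib.CharBasic.IsCharacter.restrict hχc A
  have hne : (fun a : A => ρ.character a) ≠ 0 := by
    intro h
    have := congrFun h 1
    exact CfsgLib.CharBasic.IsIrrCharacter.one_ne_zero hχ this
  obtain ⟨ψ, hψ⟩ := CfsgLib.CharClifford.exists_constituent hres hne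
  have hψ1 : (ψ : A → ℂ) 1 = 1 := by
    exact CfsgLib.CharBasic.IsIrrCharacter.degree_one_of_comm ψ.2 (fun a b => Subtype.ext (hA a a.2 b b.2))
  have h2 : Cfsg.classInner (Cfsg.indFun A (ψ : A → ℂ)) ρ.character ≠ 0 := by
    rw [CfsgLib.CharInd.frobenius A _ hcl]
    intro h
    apply hψ
    rw [← CfsgLib.CharBasic.classInner_conj_symm, h, map_zero]
  have h3 := (CfsgLib.CharClifford.constituent_degree_le (CfsgLib.CharInd.isCharacter_indFun A (CfsgLib.CharBasic.irr_isCharacter ψ)) hχ h2).1
  rw [CfsgLib.CharInd.indFun_one, hψ1] at h3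
  simp at h3
  exact_mod_cast h3

end Cfsg.Agent.S0178
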