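import Cfsg.Statements.S0180
import Mathlib
import Cfsg.Agent.Lib.CharBasic
import Cfsg.Agent.Lib.CharBasic2
import Cfsg.Agent.Lib.CharGalois

set_option autoImplicit false
open Cfsg

set_option linter.style.haveILetI false
namespace Cfsg.Agent.S0180

open CfsgLib.CharBasic CfsgLib.CharGalois


/-- Every irreducible complex character of a finite group takes only rational values if and only if g is conjugate to g ^ m for every element g and every m coprime to the group order. -/
theorem result {G : Type*} [Group G] [Finite G] : (∀ χ : Cfsg.IrrCharacter G, ∀ g : G, ∃ q : ℚ, (χ : G → ℂ) g = (q : ℂ)) ↔ ∀ m : ℕ, m.Coprime (Nat.card G) → ∀ g : G, IsConj g (g ^ m) := by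
  classical
  haveI : Fintype G := Fintype.ofFinite G
  constructor
  · intro h m hm g
    rw [isConj_iff_forall_irr]
    intro χ
    obtain ⟨τ, hτ⟩ := exists_ringEquiv_pow (Nat.card G) m Nat.card_pos hm
    have h1 := map_apply_eq (irr_isCharacter χ) (τ : ℂ →+* ℂ) hτ (orderOf_dvd_natCard g)
    obtain ⟨q, hq⟩ := h χ g
    rw [← h1, hq]
    simp
  · intro h χ g
    obtain ⟨m, hm⟩ := int_of_forall_pow (IsCharacter.isGeneralized (irr_isCharacter χ)) Nat.card_pos (orderOf_dvd_natCard g) (by
      intro k hk
      exact (IsClassFunction.eq_of_isConj (irr_isClassFunction χ) (h k hk g)).symm)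
    exact ⟨m, by rw [hm]; simp⟩

end Cfsg.Agent.S0180
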