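import Cfsg.Statements.S0181
import Mathlib
import Cfsg.Agent.Lib.CharBasic
import Cfsg.Agent.Lib.CharBasic2
import Cfsg.Agent.Lib.CharClifford
import Cfsg.Agent.Lib.Gallagher
import Cfsg.Agent.Lib.Gallagher2
import Cfsg.Agent.Lib.CharInd

set_option autoImplicit false
open Cfsg

set_option linter.style.haveILetI false
namespace Cfsg.Agent.S0181

open CfsgLib.CharBasic CfsgLib.CharClifford CfsgLib.Gallagher CfsgLib.Gallagher2


/-- Let H be a normal subgroup of a finite group G and ρ an irreducible complex representation whose kernel does not contain H. If g commutes with no non-identity element of H, then the character of ρ vanishes at g. -/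
theorem result {G : Type*} [Group G] [Finite G] {V : Type*} [AddCommGroup V] [Module ℂ V] [FiniteDimensional ℂ V] (ρ : Representation ℂ G V) [ρ.IsIrreducible] (H : Subgroup G) [H.Normal] (hker : ∃ h ∈ H, ρ h ≠ LinearMap.id) (g : G) (hg : ∀ h ∈ H, h * g = g * h → h = 1) : ρ.character g = 0 := by
  classical
  haveI : Fintype G := Fintype.ofFinite G
  haveI : Fintype H := Fintype.ofFinite H
  have hi : ρ.IsIrreducible := inferInstance
  have hχ := isIrrCharacter_character ρ hi
  have hcl := IsCharacter.isClassFunction (IsIrrCharacter.isCharacter hχ)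
  obtain ⟨h₀, hh₀, hne⟩ := hker
  have hnk : ρ.character h₀ ≠ ρ.character 1 := by
    intro h
    apply hne
    rw [← character_eq_finrank_iff ρ h₀, h, Representation.char_one]
  -- the sum over H vanishes
  have hsum : ∑ n : H, ρ.character n = 0 := by
    by_contra h0
    apply hnk
    refine ker_of_ind_one hχ ?_ ⟨h₀, hh₀⟩
    rw [CfsgLib.CharInd.frobenius H _ hcl, ← classInner_conj_symm, classInner]
    simp only [map_one, mul_one]
    intro h1
    apply h0
    have h2 := (map_eq_zero (starRingEnd ℂ)).mp h1
    rcases mul_eq_zero.mp h2 with h3 | h3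
    · exact absurd (inv_eq_zero.mp h3) (by exact_mod_cast Nat.card_pos.ne')
    · exact h3
  have hinj : Function.Injective (fun h : H => (⟨(h : G) * (g * (h : G)⁻¹ * g⁻¹), H.mul_mem h.2 ((inferInstance : H.Normal).conj_mem _ (H.inv_mem h.2) g)⟩ : H)) := by
    intro a b hab
    have h1 : (a : G) * (g * (a : G)⁻¹ * g⁻¹) = b * (g * (b : G)⁻¹ * g⁻¹) := congrArg Subtype.val hab
    have h2 : ((b : G)⁻¹ * a) * g = g * ((b : G)⁻¹ * a) := by
      have h3 : (a : G) * g * (a : G)⁻¹ = b * g * (b : G)⁻¹ := by
        have := congrArg (· * g) h1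
        simpa [mul_assoc] using this
      have h4 : (b : G)⁻¹ * ((a : G) * g * (a : G)⁻¹) * a = g * ((b : G)⁻¹ * a) := by rw [h3]; group
      rw [← h4]; group
    have h5 := hg _ (H.mul_mem (H.inv_mem b.2) a.2) h2
    exact Subtype.ext (inv_mul_eq_one.mp h5).symm
  have hconst : ∀ n : H, ρ.character ((n : G) * g) = ρ.character g := by
    intro n
    obtain ⟨h, hh⟩ := Finite.injective_iff_surjective.mp hinj n
    have h1 : (n : G) * g = h * g * (h : G)⁻¹ := by
      rw [← hh]; group
    rw [h1]
    exact hcl g h
  have h1 := sum_coset hχ (N := H) g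
  rw [hsum, zero_mul, zero_div, Finset.sum_congr rfl (fun n _ => hconst n), Finset.sum_const, nsmul_eq_mul] at h1
  rcases mul_eq_zero.mp h1 with h2 | h2
  · exfalso
    have : (Finset.univ : Finset H).card ≠ 0 := by rw [Finset.card_univ]; exact Fintype.card_ne_zero
    exact this (by exact_mod_cast h2)
  · exact h2

end Cfsg.Agent.S0181
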