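import Cfsg.Statements.S0184
import Mathlib
import Cfsg.Agent.Lib.CharBasic
import Cfsg.Agent.Lib.CharBasic2
import Cfsg.Agent.Lib.Cover
import Cfsg.Agent.Lib.PGrp

set_option autoImplicit false
open Cfsg

open scoped Pointwise
set_option linter.style.haveILetI false
namespace Cfsg.Agent.S0184

open CfsgLib.CharBasic


/-- A finite p-group admits a faithful irreducible complex representation if and only if its centre is cyclic. -/
theorem result {G : Type*} [Group G] [Finite G] (p : ℕ) [Fact p.Prime] (hG : IsPGroup p G) : (∃ (n : ℕ) (ρ : Representation ℂ G (Fin n → ℂ)), ρ.IsIrreducible ∧ Function.Injective ρ) ↔ IsCyclic (Subgroup.center G) := by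
  classical
  haveI : Fintype G := Fintype.ofFinite G
  have hp := (Fact.out : p.Prime)
  constructor
  · rintro ⟨n, ρ, hρ, hinj⟩
    -- the centre acts by scalars
    have hsc : ∀ z : Subgroup.center G, ∃ c : ℂ, ρ (z : G) = c • LinearMap.id := by
      intro z
      apply CfsgLib.Cover.schur hρ
      intro g
      have h1 : (z : G) * g = g * z := (Subgroup.mem_center_iff.mp z.2 g).symm
      have h2 := congrArg ρ h1
      rw [map_mul, map_mul] at h2
      exact h2
    choose c hc using hsc
    -- degree is positive
    haveI := hρ
    haveI hnt : Nontrivial (Fin n → ℂ) := by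
      by_contra hnt
      rw [not_nontrivial_iff_subsingleton] at hnt
      have : (⊥ : Subrepresentation ρ) = ⊤ := by
        apply Subrepresentation.toSubmodule_injective
        exact Subsingleton.elim _ _
      exact bot_ne_top this
    obtain ⟨v, hv⟩ := exists_ne (0 : Fin n → ℂ)
    have hcv : ∀ z, c z • v = ρ (z : G) v := fun z => by rw [hc z]; rfl
    have hinjc : Function.Injective (fun z : Subgroup.center G => c z) := by
      intro a b hab
      have hab' : c a = c b := hab
      have : ρ (a : G) = ρ (b : G) := by rw [hc a, hc b, hab']
      exact Subtype.ext (hinj this)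
    have hc1 : c 1 = 1 := by
      have h1 := hcv 1
      rw [Subgroup.coe_one, map_one] at h1
      have h2 : (c 1 - 1) • v = 0 := by rw [sub_smul, one_smul, h1]; exact sub_self v
      rcases smul_eq_zero.mp h2 with h | h
      · exact sub_eq_zero.mp h
      · exact absurd h hv
    have hcm : ∀ a b, c (a * b) = c a * c b := by
      intro a b
      have h1 := hcv (a * b)
      rw [Subgroup.coe_mul, map_mul, Module.End.mul_apply, ← hcv b, map_smul, ← hcv a, smul_smul] at h1
      have h2 : (c (a * b) - c b * c a) • v = 0 := by rw [sub_smul, h1, sub_self]
      rcases smul_eq_zero.mp h2 with h | h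
      · rw [sub_eq_zero.mp h, mul_comm]
      · exact absurd h hv
    let f : Subgroup.center G →* ℂ := { toFun := c, map_one' := hc1, map_mul' := hcm }
    exact isCyclic_of_subgroup_isDomain f hinjc
  · intro hcyc
    by_cases htriv : Subsingleton G
    · refine ⟨1, (1 : Representation ℂ G (Fin 1 → ℂ)), ?_, fun a b _ => Subsingleton.elim a b⟩
      have h1 : IsIrrCharacter G ((1 : Representation ℂ G (Fin 1 → ℂ)).character) := by
        apply IsCharacter.isIrr_of_one (isCharacter_character _)
        rw [Representation.char_one, Module.finrank_fin_fun]; simp
      -- one-dimensional representations are irreducible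
      haveI : Nontrivial (Subrepresentation (1 : Representation ℂ G (Fin 1 → ℂ))) := ⟨⟨⊥, ⊤, by
        intro h
        have h2 := congrArg Subrepresentation.toSubmodule h
        exact bot_ne_top (α := Submodule ℂ (Fin 1 → ℂ)) h2⟩⟩
      exact { eq_bot_or_eq_top := fun A => by
                have h2 : Module.finrank ℂ A.toSubmodule ≤ 1 := by
                  have := Submodule.finrank_le A.toSubmodule
                  rwa [Module.finrank_fin_fun] at this
                rcases Nat.le_one_iff_eq_zero_or_eq_one.mp h2 with h3 | h3
                · left
                  apply Subrepresentation.toSubmodule_injective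
                  exact Submodule.finrank_eq_zero.mp h3
                · right
                  apply Subrepresentation.toSubmodule_injective
                  apply Submodule.eq_top_of_finrank_eq
                  rw [h3, Module.finrank_fin_fun] }
    · rw [not_subsingleton_iff_nontrivial] at htriv
      haveI := hG.center_nontrivial
      -- an element of order p in the centre
      obtain ⟨z, hz⟩ := exists_prime_orderOf_dvd_card' (G := Subgroup.center G) p (by
        obtain ⟨k, hk⟩ := (hG.to_subgroup (Subgroup.center G)).exists_card_eq
        rw [hk]
        refine dvd_pow_self p ?_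
        rintro rfl
        rw [pow_zero] at hk
        have := Finite.one_lt_card (α := Subgroup.center G)
        omega)
      have hz1 : (z : G) ≠ 1 := by
        intro h
        have : z = 1 := Subtype.ext h
        rw [this, orderOf_one] at hz
        exact hp.one_lt.ne hz
      obtain ⟨χ, hχ⟩ : ∃ χ : IrrCharacter G, (χ : G → ℂ) z ≠ (χ : G → ℂ) 1 := by
        by_contra hcon
        push Not at hcon
        have := (isConj_iff_forall_irr (z : G) 1).mpr hcon
        rw [isConj_one_left] at this
        exact hz1 this
      have hker : charKer (irr_isCharacter χ) = ⊥ := by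
        by_contra hne
        haveI := charKer_normal (irr_isCharacter χ)
        -- the kernel meets the centre
        have h1 : (charKer (irr_isCharacter χ)) ⊓ Subgroup.center G ≠ ⊥ := CfsgLib.PGrp.inf_center_ne_bot hG (charKer_normal (irr_isCharacter χ)) hne
        have h2 : ((charKer (irr_isCharacter χ)).subgroupOf (Subgroup.center G)) ≠ ⊥ := by
          intro h2
          apply h1
          rw [eq_bot_iff]
          rintro x ⟨hx1, hx2⟩
          have h3 : (⟨x, hx2⟩ : Subgroup.center G) ∈ (charKer (irr_isCharacter χ)).subgroupOf (Subgroup.center G) := Subgroup.mem_subgroupOf.mpr hx1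
          rw [h2, Subgroup.mem_bot] at h3
          exact congrArg Subtype.val h3
        haveI : Nontrivial ((charKer (irr_isCharacter χ)).subgroupOf (Subgroup.center G)) := (Subgroup.nontrivial_iff_ne_bot _).mpr h2
        obtain ⟨w, hw⟩ := exists_prime_orderOf_dvd_card' (G := ((charKer (irr_isCharacter χ)).subgroupOf (Subgroup.center G))) p (by
          obtain ⟨k, hk⟩ := ((hG.to_subgroup (Subgroup.center G)).to_subgroup ((charKer (irr_isCharacter χ)).subgroupOf (Subgroup.center G))).exists_card_eq
          rw [hk]
          refine dvd_pow_self p ?_
          rintro rfl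
          rw [pow_zero] at hk
          have := Finite.one_lt_card (α := ((charKer (irr_isCharacter χ)).subgroupOf (Subgroup.center G)))
          omega)
        have hw' : orderOf (w : Subgroup.center G) = p := by rw [Subgroup.orderOf_coe]; exact hw
        -- the subgroup of order p is unique
        have h3 : z ∈ Subgroup.zpowers (w : Subgroup.center G) := by
          haveI : Fintype (Subgroup.center G) := Fintype.ofFinite _
          have h4 := IsCyclic.card_pow_eq_one_le (α := Subgroup.center G) hp.pos
          have h5 : (Finset.univ.filter (fun a : Subgroup.center G => a ∈ Subgroup.zpowers (w : Subgroup.center G))) = Finset.univ.filter (fun a : Subgroup.center G => a ^ p = 1) := by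
            apply Finset.eq_of_subset_of_card_le
            · intro a ha
              rw [Finset.mem_filter] at ha ⊢
              refine ⟨Finset.mem_univ _, ?_⟩
              obtain ⟨k, hk⟩ := ha.2
              have hk' : (w : Subgroup.center G) ^ k = a := hk
              rw [← hk', ← hw', ← zpow_natCast, ← zpow_mul, mul_comm, zpow_mul, zpow_natCast, pow_orderOf_eq_one, one_zpow]
            · refine h4.trans ?_
              have h6 : Nat.card (Subgroup.zpowers (w : Subgroup.center G)) = p := by rw [Nat.card_zpowers, hw']
              rw [← Fintype.card_subtype, ← Nat.card_eq_fintype_card]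
              exact h6.ge
          have h6 : z ∈ Finset.univ.filter (fun a : Subgroup.center G => a ^ p = 1) := by
            rw [Finset.mem_filter]
            exact ⟨Finset.mem_univ _, by rw [← hz, pow_orderOf_eq_one]⟩
          rw [← h5, Finset.mem_filter] at h6
          exact h6.2
        have h7 : Subgroup.zpowers (w : Subgroup.center G) ≤ (charKer (irr_isCharacter χ)).subgroupOf (Subgroup.center G) := by
          rw [Subgroup.zpowers_le]
          exact w.2
        exact hχ ((mem_charKer _).mp (Subgroup.mem_subgroupOf.mp (h7 h3)))
      obtain ⟨n, ρ, hρ, hρχ⟩ := χ.2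
      refine ⟨n, ρ, hρ, ?_⟩
      rw [injective_iff_map_eq_one]
      intro g hg
      have h1 : g ∈ charKer (irr_isCharacter χ) := by
        rw [mem_charKer, ← hρχ, Representation.char_one, character_eq_finrank_iff, hg]
        rfl
      rw [hker] at h1
      exact Subgroup.mem_bot.mp h1

end Cfsg.Agent.S0184
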