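import Cfsg.Statements.S0185
import Mathlib
import Cfsg.Agent.Lib.CharBasic
import Cfsg.Agent.Lib.CharBasic2

set_option autoImplicit false
open Cfsg

open scoped commutatorElement
set_option linter.style.haveILetI false
namespace Cfsg.Agent.S0185

open CfsgLib.CharBasic


/-- If a finite group has a faithful complex representation of degree less than the smallest prime dividing its order, the group is abelian. -/
theorem result {G : Type*} [Group G] [Finite G] {V : Type*} [AddCommGroup V] [Module ℂ V] [FiniteDimensional ℂ V] (ρ : Representation ℂ G V) (hfaithful : Function.Injective ρ) (hdeg : ∀ p : ℕ, p.Prime → p ∣ Nat.card G → Module.finrank ℂ V < p) (a b : G) : a * b = b * a := by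
  classical
  haveI : Fintype G := Fintype.ofFinite G
  have hc := isCharacter_character ρ
  obtain ⟨m, hm⟩ := IsCharacter.exists_nat_coeff hc
  -- constituents are linear
  have hlin : ∀ χ : IrrCharacter G, m χ ≠ 0 → (χ : G → ℂ) 1 = 1 := by
    intro χ hχ
    obtain ⟨d, hd0, hd⟩ := IsIrrCharacter.exists_pos χ.2
    have hle : d ≤ Module.finrank ℂ V := by
      have h1 := congrFun hm 1
      rw [Representation.char_one, Finset.sum_apply] at h1
      have h2 : ∀ ψ : IrrCharacter G, ∃ e : ℕ, (ψ : G → ℂ) 1 = e := fun ψ => by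
        obtain ⟨e, -, he⟩ := IsIrrCharacter.exists_pos ψ.2
        exact ⟨e, he⟩
      choose e he using h2
      have h3 : (Module.finrank ℂ V : ℂ) = ((∑ ψ : IrrCharacter G, m ψ * e ψ : ℕ) : ℂ) := by
        rw [h1]
        push_cast
        exact Finset.sum_congr rfl (fun ψ _ => by rw [Pi.smul_apply, smul_eq_mul, he])
      have h4 : Module.finrank ℂ V = ∑ ψ : IrrCharacter G, m ψ * e ψ := by exact_mod_cast h3
      have h5 : e χ = d := by
        have := (he χ).symm.trans hd
        exact_mod_cast this
      have h6 : m χ * e χ ≤ ∑ ψ : IrrCharacter G, m ψ * e ψ := Finset.single_le_sum (f := fun ψ => m ψ * e ψ) (fun _ _ => Nat.zero_le _) (Finset.mem_univ χ)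
      rw [h4, ← h5]
      refine le_trans ?_ h6
      exact Nat.le_mul_of_pos_left _ (Nat.pos_of_ne_zero hχ)
    have hdvd := IsIrrCharacter.degree_dvd χ.2 hd
    have hd1 : d = 1 := by
      by_contra hd1
      obtain ⟨p, hp, hpd⟩ := Nat.exists_prime_and_dvd hd1
      have h1 := hdeg p hp (hpd.trans hdvd)
      have h2 := Nat.le_of_dvd hd0 hpd
      omega
    rw [hd, hd1, Nat.cast_one]
  have hcomm : ρ.character (a * b * (b * a)⁻¹) = ρ.character 1 := by
    rw [hm, Finset.sum_apply, Finset.sum_apply]
    apply Finset.sum_congr rfl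
    intro χ _
    rw [Pi.smul_apply, Pi.smul_apply]
    by_cases h0 : m χ = 0
    · rw [h0]; simp
    · have h1 := hlin χ h0
      rw [h1]
      congr 1
      refine IsCharacter.eq_one_of_mem_commutator (irr_isCharacter χ) h1 ?_
      have : a * b * (b * a)⁻¹ = ⁅a, b⁆ := by rw [commutatorElement_def]; group
      rw [this]
      exact Subgroup.commutator_mem_commutator (Subgroup.mem_top _) (Subgroup.mem_top _)
  rw [Representation.char_one, character_eq_finrank_iff] at hcomm
  have h1 : a * b * (b * a)⁻¹ = 1 := hfaithful (by rw [hcomm, map_one]; rfl)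
  exact mul_inv_eq_one.mp h1

end Cfsg.Agent.S0185
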