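import Cfsg.Statements.S0186
import Mathlib
import Cfsg.Agent.Lib.CharBasic
import Cfsg.Agent.Lib.CharBasic2

set_option autoImplicit false
open Cfsg

open scoped Pointwise
open scoped commutatorElement
set_option linter.style.haveILetI false
namespace Cfsg.Agent.S0186

open CfsgLib.CharBasic


/-- Let G be a finite simple group of order n and p a prime dividing n. If G has more than n / p^2 conjugacy classes, then every Sylow p-subgroup of G is abelian. -/
theorem result {G : Type*} [Group G] [Finite G] [IsSimpleGroup G] (p : ℕ) [Fact p.Prime] (hp : p ∣ Nat.card G) (hmany : Nat.card G < p ^ 2 * Nat.card (ConjClasses G)) (P : Sylow p G) (a b : G) (ha : a ∈ P) (hb : b ∈ P) : a * b = b * a := by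
  classical
  haveI : Fintype G := Fintype.ofFinite G
  haveI : Fintype (P : Subgroup G) := Fintype.ofFinite _
  have hpp := (Fact.out : p.Prime)
  by_contra hab
  -- a nonprincipal irreducible character has degree at least p
  have hdeg : ∀ χ : IrrCharacter G, χ ≠ irrOne G → ∀ d : ℕ, (χ : G → ℂ) 1 = d → p ≤ d := by
    intro χ hχ d hd
    by_contra hlt
    push Not at hlt
    apply hab
    have hres := IsCharacter.restrict (irr_isCharacter χ) (P : Subgroup G)
    obtain ⟨m, hm⟩ := IsCharacter.exists_nat_coeff hres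
    have hlin : ∀ ψ : IrrCharacter (P : Subgroup G), m ψ ≠ 0 → (ψ : ↥(P : Subgroup G) → ℂ) 1 = 1 := by
      intro ψ hψ
      obtain ⟨e, he0, he⟩ := IsIrrCharacter.exists_pos ψ.2
      have hdvd := IsIrrCharacter.degree_dvd ψ.2 he
      obtain ⟨k, hk⟩ := P.isPGroup'.exists_card_eq
      rw [hk] at hdvd
      obtain ⟨j, -, hj⟩ := (Nat.dvd_prime_pow hpp).mp hdvd
      have hle : e ≤ d := by
        have h2 : ∀ ψ : IrrCharacter (P : Subgroup G), ∃ e : ℕ, (ψ : ↥(P : Subgroup G) → ℂ) 1 = e := fun ψ => by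
          obtain ⟨e, -, he⟩ := IsIrrCharacter.exists_pos ψ.2
          exact ⟨e, he⟩
        choose f hf using h2
        have h1 := congrFun hm 1
        rw [Finset.sum_apply] at h1
        have h3 : (d : ℂ) = ((∑ ψ : IrrCharacter (P : Subgroup G), m ψ * f ψ : ℕ) : ℂ) := by
          rw [← hd]
          refine Eq.trans ?_ (h1.trans ?_)
          · rfl
          · push_cast
            exact Finset.sum_congr rfl (fun ψ _ => by rw [Pi.smul_apply, smul_eq_mul, hf])
        have h4 : d = ∑ ψ : IrrCharacter (P : Subgroup G), m ψ * f ψ := by exact_mod_cast h3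
        have h5 : f ψ = e := by
          have := (hf ψ).symm.trans he
          exact_mod_cast this
        have h6 : m ψ * f ψ ≤ ∑ ψ : IrrCharacter (P : Subgroup G), m ψ * f ψ := Finset.single_le_sum (f := fun ψ => m ψ * f ψ) (fun _ _ => Nat.zero_le _) (Finset.mem_univ ψ)
        rw [h4, ← h5]
        exact le_trans (Nat.le_mul_of_pos_left _ (Nat.pos_of_ne_zero hψ)) h6
      have hj0 : j = 0 := by
        by_contra hj0
        have : p ≤ e := by rw [hj]; exact Nat.le_self_pow hj0 p
        omega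
      rw [he, hj, hj0, pow_zero, Nat.cast_one]
    -- χ is faithful
    have hker : charKer (irr_isCharacter χ) = ⊥ := by
      haveI := charKer_normal (irr_isCharacter χ)
      rcases (inferInstance : (charKer (irr_isCharacter χ)).Normal).eq_bot_or_eq_top with h | h
      · exact h
      · exfalso
        apply hχ
        have h1 : ∀ g, (χ : G → ℂ) g = (χ : G → ℂ) 1 := fun g => (mem_charKer _).mp (h ▸ Subgroup.mem_top g)
        by_contra hne
        have h2 := IsIrrCharacter.inner_eq_zero χ.2 (irrOne G).2 (fun h => hne (Subtype.ext h))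
        have h3 : (χ : G → ℂ) = (χ : G → ℂ) 1 • (irrOne G : G → ℂ) := by
          funext g; rw [Pi.smul_apply, irrOne_apply, smul_eq_mul, mul_one, h1]
        rw [h3, classInner_smul_left, IsIrrCharacter.inner_self (irrOne G).2, mul_one] at h2
        exact IsIrrCharacter.one_ne_zero χ.2 h2
    have hc : (χ : G → ℂ) (a * b * (b * a)⁻¹) = (χ : G → ℂ) 1 := by
      have h1 := congrFun hm (⟨a, ha⟩ * ⟨b, hb⟩ * (⟨b, hb⟩ * ⟨a, ha⟩)⁻¹)
      have h2 := congrFun hm 1
      rw [Finset.sum_apply] at h1 h2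
      refine Eq.trans h1 (Eq.trans ?_ h2.symm)
      apply Finset.sum_congr rfl
      intro ψ _
      rw [Pi.smul_apply, Pi.smul_apply]
      by_cases h0 : m ψ = 0
      · rw [h0]; simp
      · have h1 := hlin ψ h0
        rw [h1]
        congr 1
        refine IsCharacter.eq_one_of_mem_commutator (irr_isCharacter ψ) h1 ?_
        have : ∀ x y : (P : Subgroup G), x * y * (y * x)⁻¹ = ⁅x, y⁆ := by intro x y; rw [commutatorElement_def]; group
        rw [this]
        exact Subgroup.commutator_mem_commutator (Subgroup.mem_top _) (Subgroup.mem_top _)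
    have h3 : a * b * (b * a)⁻¹ ∈ charKer (irr_isCharacter χ) := (mem_charKer _).mpr hc
    rw [hker, Subgroup.mem_bot] at h3
    exact mul_inv_eq_one.mp h3
  -- p ^ 2 divides |G|
  have hp2 : p ^ 2 ∣ Nat.card G := by
    obtain ⟨k, hk⟩ := P.isPGroup'.exists_card_eq
    have hk2 : 2 ≤ k := by
      by_contra hk2
      apply hab
      have hcyc : IsCyclic (P : Subgroup G) := by
        interval_cases k
        · have : Nat.card (P : Subgroup G) = 1 := by rw [hk, pow_zero]
          haveI : Subsingleton (P : Subgroup G) := (Nat.card_eq_one_iff_unique.mp this).1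
          exact isCyclic_of_subsingleton
        · exact isCyclic_of_prime_card (p := p) (by rw [hk, pow_one])
      letI := IsCyclic.commGroup (α := (P : Subgroup G))
      exact congrArg Subtype.val (mul_comm (⟨a, ha⟩ : (P : Subgroup G)) ⟨b, hb⟩)
    calc p ^ 2 ∣ p ^ k := pow_dvd_pow p hk2
      _ = Nat.card (P : Subgroup G) := hk.symm
      _ ∣ Nat.card G := Subgroup.card_subgroup_dvd_card _
  -- degrees
  have h2 : ∀ ψ : IrrCharacter G, ∃ e : ℕ, 0 < e ∧ (ψ : G → ℂ) 1 = e := fun ψ => IsIrrCharacter.exists_pos ψ.2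
  choose f hf0 hf using h2
  have hsum : Nat.card G = ∑ χ : IrrCharacter G, f χ ^ 2 := by
    have h3 := sum_irr_one_sq G
    have h4 : (Nat.card G : ℂ) = ((∑ χ : IrrCharacter G, f χ ^ 2 : ℕ) : ℂ) := by
      rw [← h3]; push_cast
      exact Finset.sum_congr rfl (fun χ _ => by rw [hf])
    exact_mod_cast h4
  have hf1 : f (irrOne G) = 1 := by
    have := hf (irrOne G)
    rw [irrOne_apply] at this
    exact_mod_cast this.symm
  -- split by divisibility by p
  rw [← Finset.sum_filter_add_sum_filter_not Finset.univ (fun χ : IrrCharacter G => p ∣ f χ)] at hsum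
  have hk : Nat.card (ConjClasses G) = (Finset.univ.filter (fun χ : IrrCharacter G => p ∣ f χ)).card + (Finset.univ.filter (fun χ : IrrCharacter G => ¬ p ∣ f χ)).card := by
    rw [← card_irr, Nat.card_eq_fintype_card, ← Finset.card_univ]
    exact (Finset.card_filter_add_card_filter_not _).symm
  have hA : p ^ 2 * (Finset.univ.filter (fun χ : IrrCharacter G => p ∣ f χ)).card ≤ ∑ χ ∈ Finset.univ.filter (fun χ : IrrCharacter G => p ∣ f χ), f χ ^ 2 := by
    rw [mul_comm, ← smul_eq_mul]
    apply Finset.card_nsmul_le_sum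
    intro χ hχ
    exact Nat.pow_le_pow_left (Nat.le_of_dvd (hf0 χ) (Finset.mem_filter.mp hχ).2) 2
  have hAd : p ^ 2 ∣ ∑ χ ∈ Finset.univ.filter (fun χ : IrrCharacter G => p ∣ f χ), f χ ^ 2 := by
    apply Finset.dvd_sum
    intro χ hχ
    exact pow_dvd_pow_of_dvd (Finset.mem_filter.mp hχ).2 2
  have hBd : p ^ 2 ∣ ∑ χ ∈ Finset.univ.filter (fun χ : IrrCharacter G => ¬ p ∣ f χ), f χ ^ 2 := by
    rw [hsum] at hp2
    exact (Nat.dvd_add_right hAd).mp hp2
  have h1mem : irrOne G ∈ Finset.univ.filter (fun χ : IrrCharacter G => ¬ p ∣ f χ) := by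
    rw [Finset.mem_filter]
    refine ⟨Finset.mem_univ _, ?_⟩
    rw [hf1, Nat.dvd_one]
    exact hpp.one_lt.ne'
  have hB : p ^ 2 * ((Finset.univ.filter (fun χ : IrrCharacter G => ¬ p ∣ f χ)).card - 1) < ∑ χ ∈ Finset.univ.filter (fun χ : IrrCharacter G => ¬ p ∣ f χ), f χ ^ 2 := by
    rw [← Finset.add_sum_erase _ _ h1mem, hf1, one_pow, ← Finset.card_erase_of_mem h1mem, mul_comm, ← smul_eq_mul]
    have : ((Finset.univ.filter (fun χ : IrrCharacter G => ¬ p ∣ f χ)).erase (irrOne G)).card • p ^ 2 ≤ ∑ χ ∈ (Finset.univ.filter (fun χ : IrrCharacter G => ¬ p ∣ f χ)).erase (irrOne G), f χ ^ 2 := by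
      apply Finset.card_nsmul_le_sum
      intro χ hχ
      exact Nat.pow_le_pow_left (hdeg χ (Finset.ne_of_mem_erase hχ) _ (hf χ)) 2
    omega
  have hcardpos : 0 < (Finset.univ.filter (fun χ : IrrCharacter G => ¬ p ∣ f χ)).card := Finset.card_pos.mpr ⟨_, h1mem⟩
  obtain ⟨t, ht⟩ := hBd
  rw [ht] at hB hsum
  have hlt := Nat.lt_of_mul_lt_mul_left hB
  have h5 : p ^ 2 * (Finset.univ.filter (fun χ : IrrCharacter G => ¬ p ∣ f χ)).card ≤ p ^ 2 * t := Nat.mul_le_mul_left _ (by omega)
  rw [hk, mul_add] at hmany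
  omega

end Cfsg.Agent.S0186
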