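import Cfsg.Statements.S0187
import Cfsg.Agent.Lib.CharBasic2

set_option autoImplicit false
open Cfsg

namespace Cfsg.Agent.S0187

/-- A finite group is commutative if and only if every irreducible complex character has degree 1. -/
theorem result {G : Type*} [Group G] [Finite G] : (∀ a b : G, a * b = b * a) ↔ ∀ χ : Cfsg.IrrCharacter G, (χ : G → ℂ) 1 = 1 := by
  constructor
  · intro h χ
    exact CfsgLib.CharBasic.IsIrrCharacter.degree_one_of_comm χ.2 h
  · intro h a b
    have h1 : IsConj (a * b * a⁻¹ * b⁻¹) 1 := by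
      rw [CfsgLib.CharBasic.isConj_iff_forall_irr]
      intro χ
      rw [h χ]
      apply CfsgLib.CharBasic.IsCharacter.eq_one_of_mem_commutator (CfsgLib.CharBasic.irr_isCharacter χ) (h χ)
      exact Subgroup.commutator_mem_commutator (Subgroup.mem_top a) (Subgroup.mem_top b)
    have h2 : a * b * a⁻¹ * b⁻¹ = 1 := isConj_one_left.mp h1
    rw [mul_inv_eq_one, mul_inv_eq_iff_eq_mul] at h2
    exact h2

end Cfsg.Agent.S0187
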