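import Cfsg.Statements.S0189
import Mathlib
import Cfsg.Agent.Lib.CharBasic
import Cfsg.Agent.Lib.CharBasic2

set_option autoImplicit false
open Cfsg

set_option linter.style.haveILetI false
namespace Cfsg.Agent.S0189

open CfsgLib.CharBasic


/-- If a complex character of a finite group vanishes at every non-identity element of a Sylow p-subgroup P, then |P| divides its degree. -/
theorem result {G : Type*} [Group G] [Finite G] (p : ℕ) [Fact p.Prime] (P : Sylow p G) (χ : G → ℂ) (hχ : Cfsg.IsCharacter G χ) (hvan : ∀ g : G, g ∈ P → g ≠ 1 → χ g = 0) : ∃ k : ℕ, χ 1 = (Nat.card P : ℂ) * k := by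
  classical
  haveI : Fintype G := Fintype.ofFinite G
  haveI : Fintype (P : Subgroup G) := Fintype.ofFinite _
  have hres := IsCharacter.restrict hχ (P : Subgroup G)
  obtain ⟨k, hk⟩ := IsCharacter.inner_nat hres (IsIrrCharacter.isCharacter (isIrr_one (G := (P : Subgroup G))))
  refine ⟨k, ?_⟩
  rw [classInner] at hk
  have h1 : ∑ g : (P : Subgroup G), χ g * (starRingEnd ℂ) ((1 : ↥(P : Subgroup G) → ℂ) g) = χ 1 := by
    rw [Finset.sum_eq_single 1]
    · simp
    · intro b _ hb
      rw [hvan b b.2 (fun h => hb (Subtype.ext h)), zero_mul]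
    · intro h; exact absurd (Finset.mem_univ _) h
  rw [h1] at hk
  have h2 : (Nat.card (P : Subgroup G) : ℂ) ≠ 0 := by exact_mod_cast Nat.card_pos.ne'
  have h3 : χ 1 = (Nat.card (P : Subgroup G) : ℂ) * k := by
    field_simp at hk
    exact hk
  exact h3

end Cfsg.Agent.S0189
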