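import Cfsg.Statements.S0190
import Mathlib
import Cfsg.Agent.Lib.CharClifford

set_option autoImplicit false
open Cfsg

namespace Cfsg.Agent.S0190

/-- For a transitive action of a finite group on X, the permutation character g ↦ (number of fixed points of g) is the function induced from the principal character of the stabilizer of any point. -/
theorem result {G : Type*} [Group G] [Fintype G] (X : Type*) [MulAction G X] [Finite X] [MulAction.IsPretransitive G X] (x : X) : (fun g : G => (Nat.card (MulAction.fixedBy X g) : ℂ)) = Cfsg.indFun (MulAction.stabilizer G x) (fun _ => 1) := by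
  classical
  funext g
  rw [CfsgLib.CharInd.indFun_apply]
  set H := MulAction.stabilizer G x with hH
  have h1 : ∀ y : G, Cfsg.extendByZero H (fun _ => (1 : ℂ)) (y⁻¹ * g * y) = if g • (y • x) = y • x then (1 : ℂ) else 0 := by
    intro y
    have h2 : y⁻¹ * g * y ∈ H ↔ g • (y • x) = y • x := by
      rw [hH, MulAction.mem_stabilizer_iff, mul_smul, mul_smul, inv_smul_eq_iff]
    split_ifs with h
    · rw [CfsgLib.CharInd.ext_of_mem (h2.mpr h)]
    · rw [CfsgLib.CharInd.ext_of_not_mem (fun h' => h (h2.mp h'))]
  rw [Finset.sum_congr rfl fun y _ => h1 y]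
  haveI : Fintype X := Fintype.ofFinite X
  have h3 : ∑ y : G, (if g • (y • x) = y • x then (1 : ℂ) else 0) = (Nat.card H : ℂ) * ∑ z : X, if g • z = z then (1 : ℂ) else 0 := by
    have h4 : ∑ y : G, (if g • (y • x) = y • x then (1 : ℂ) else 0) =
        ∑ z : X, ∑ y ∈ Finset.univ.filter (fun y : G => y • x = z), (if g • (y • x) = y • x then (1 : ℂ) else 0) := by
      exact (Finset.sum_fiberwise Finset.univ (fun y : G => y • x) _).symm
    rw [h4, Finset.mul_sum]
    apply Finset.sum_congr rfl
    intro z _
    obtain ⟨y₀, hy₀⟩ := MulAction.exists_smul_eq G x z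
    have h5 : ∑ y ∈ Finset.univ.filter (fun y : G => y • x = z), (if g • (y • x) = y • x then (1 : ℂ) else 0) =
        ∑ y ∈ Finset.univ.filter (fun y : G => y • x = z), (if g • z = z then (1 : ℂ) else 0) := by
      apply Finset.sum_congr rfl
      intro y hy
      rw [Finset.mem_filter] at hy
      rw [hy.2]
    rw [h5, Finset.sum_const, nsmul_eq_mul]
    congr 1
    have h6 : Nat.card H = (Finset.univ.filter (fun y : G => y • x = z)).card := by
      rw [← Fintype.card_subtype, ← Nat.card_eq_fintype_card]
      apply Nat.card_congr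
      refine ⟨fun h => ⟨y₀ * h.1, ?_⟩, fun y => ⟨y₀⁻¹ * y.1, ?_⟩, ?_, ?_⟩
      · rw [mul_smul, MulAction.mem_stabilizer_iff.mp h.2, hy₀]
      · rw [MulAction.mem_stabilizer_iff, mul_smul, y.2, ← hy₀, inv_smul_smul]
      · intro h; ext; simp
      · intro h; ext; simp
    rw [h6]
  rw [h3, ← mul_assoc, inv_mul_cancel₀ (CfsgLib.CharInd.card_sub_ne_zero H), one_mul]
  rw [Finset.sum_boole, ← Fintype.card_subtype, ← Nat.card_eq_fintype_card]
  rfl

end Cfsg.Agent.S0190
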