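import Cfsg.Statements.S0191
import Mathlib
import Cfsg.Agent.Lib.CharBasic
import Cfsg.Agent.Lib.CharBasic2
import Cfsg.Agent.Lib.CharAvg

set_option autoImplicit false
open Cfsg

set_option linter.style.haveILetI false
namespace Cfsg.Agent.S0191

open CfsgLib.CharBasic CfsgLib.CharAvg


/-- An irreducible complex representation of a finite group of degree greater than 1 has a character that vanishes somewhere. -/
theorem result {G : Type*} [Group G] [Finite G] {V : Type*} [AddCommGroup V] [Module ℂ V] [FiniteDimensional ℂ V] (ρ : Representation ℂ G V) [ρ.IsIrreducible] (hdeg : 1 < Module.finrank ℂ V) : ∃ g : G, ρ.character g = 0 := by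
  classical
  haveI : Fintype G := Fintype.ofFinite G
  haveI : NeZero (Nat.card G) := ⟨Nat.card_pos.ne'⟩
  by_contra hcon
  push Not at hcon
  have hi : ρ.IsIrreducible := inferInstance
  have hχ := isIrrCharacter_character ρ hi
  have hgen := IsIrrCharacter.isGeneralized hχ
  have hU : (0 : ℝ) < Fintype.card (ZMod (Nat.card G))ˣ := by exact_mod_cast Fintype.card_pos
  have hnorm : ∑ g : G, ‖ρ.character g‖ ^ 2 = Nat.card G := by
    have h1 := IsIrrCharacter.inner_self hχ
    rw [classInner_self] at h1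
    have h2 : (Nat.card G : ℝ)⁻¹ * ∑ g : G, ‖ρ.character g‖ ^ 2 = 1 := by exact_mod_cast h1
    have h3 : (Nat.card G : ℝ) ≠ 0 := by exact_mod_cast Nat.card_pos.ne'
    field_simp at h2
    exact h2
  have hsum : ∑ g : G, ∑ u : (ZMod (Nat.card G))ˣ, ‖ρ.character (g ^ (u : ZMod (Nat.card G)).val)‖ ^ 2 = (Fintype.card (ZMod (Nat.card G))ˣ : ℝ) * Nat.card G := by
    rw [Finset.sum_comm]
    have h1 : ∀ u : (ZMod (Nat.card G))ˣ, ∑ g : G, ‖ρ.character (g ^ (u : ZMod (Nat.card G)).val)‖ ^ 2 = (Nat.card G : ℝ) := by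
      intro u
      rw [← hnorm]
      exact Fintype.sum_bijective _ (pow_val_bijective (fun g => orderOf_dvd_natCard g) u) _ _ (fun g => rfl)
    rw [Finset.sum_congr rfl (fun u _ => h1 u), Finset.sum_const, Finset.card_univ, nsmul_eq_mul]
  have hle : ∀ g : G, (Fintype.card (ZMod (Nat.card G))ˣ : ℝ) ≤ ∑ u : (ZMod (Nat.card G))ˣ, ‖ρ.character (g ^ (u : ZMod (Nat.card G)).val)‖ ^ 2 := fun g =>
    avg hgen (orderOf_dvd_natCard g) (hcon g)
  have hk : ∑ g : G, (Fintype.card (ZMod (Nat.card G))ˣ : ℝ) = (Fintype.card (ZMod (Nat.card G))ˣ : ℝ) * Nat.card G := by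
    rw [Finset.sum_const, Finset.card_univ, nsmul_eq_mul, mul_comm]
    congr 1
    exact_mod_cast (Nat.card_eq_fintype_card (α := G)).symm
  have hall := (Finset.sum_eq_sum_iff_of_le (s := Finset.univ) (fun g _ => hle g)).mp (by rw [hk, hsum]) 1 (Finset.mem_univ _)
  simp only [one_pow, Representation.char_one, Complex.norm_natCast] at hall
  rw [Finset.sum_const, Finset.card_univ, nsmul_eq_mul] at hall
  have h4 : (Module.finrank ℂ V : ℝ) ^ 2 = 1 := mul_left_cancel₀ hU.ne' (hall.symm.trans (mul_one _).symm)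
  have h5 : Module.finrank ℂ V ^ 2 = 1 := by exact_mod_cast h4
  rcases Nat.pow_eq_one.mp h5 with h6 | h6
  · omega
  · exact absurd h6 (by norm_num)

end Cfsg.Agent.S0191
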