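import Cfsg.Statements.S0192
import Mathlib
import Cfsg.Agent.Lib.CharBasic
import Cfsg.Agent.Lib.CharBasic2

set_option autoImplicit false
open Cfsg

open scoped Pointwise
set_option linter.style.haveILetI false
namespace Cfsg.Agent.S0192

open CfsgLib.CharBasic

theorem inner_eq {G : Type*} [Group G] (H : Subgroup G) [Fintype H] {n : ℕ} (ρ : Representation ℂ G (Fin n → ℂ)) :
    (classInner (fun x : H => ρ.character x) (fun _ => 1)).re = Module.finrank ℂ (Representation.invariants (ρ.comp H.subtype)) := by
  have : Invertible (Nat.card H : ℂ) := invertibleOfNonzero card_ne_zero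
  have h := Representation.card_inv_mul_sum_char_eq_finrank (ρ := ρ.comp H.subtype)
  have h2 : classInner (fun x : H => ρ.character x) (fun _ => 1) = (Module.finrank ℂ (Representation.invariants (ρ.comp H.subtype)) : ℂ) := by
    rw [← h, classInner]
    simp only [map_one, mul_one]
    rfl
  rw [h2, Complex.natCast_re]


/-- Brauer's generation criterion. Let G be a finite simple group, H₁ and H₂ subgroups, and χ a non-principal irreducible character. If the multiplicity of the principal character in χ restricted to H₁ ⊓ H₂ is less than the sum of the corresponding multiplicities for H₁ and H₂, then H₁ and H₂ do not generate G. -/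
theorem result {G : Type*} [Group G] [Fintype G] [IsSimpleGroup G] (H₁ H₂ : Subgroup G) [Fintype H₁] [Fintype H₂] [Fintype ↥(H₁ ⊓ H₂)] (χ : G → ℂ) (hχ : Cfsg.IsIrrCharacter G χ) (hχ1 : χ ≠ fun _ => 1) (hlt : (Cfsg.classInner (fun x : ↥(H₁ ⊓ H₂) => χ x) (fun _ => 1)).re < (Cfsg.classInner (fun x : H₁ => χ x) (fun _ => 1)).re + (Cfsg.classInner (fun x : H₂ => χ x) (fun _ => 1)).re) : H₁ ⊔ H₂ ≠ ⊤ := by
  classical
  intro htop
  obtain ⟨n, ρ, hρ, rfl⟩ := hχ
  rw [inner_eq, inner_eq, inner_eq] at hlt
  have hlt' : Module.finrank ℂ (Representation.invariants (ρ.comp (H₁ ⊓ H₂).subtype)) < Module.finrank ℂ (Representation.invariants (ρ.comp H₁.subtype)) + Module.finrank ℂ (Representation.invariants (ρ.comp H₂.subtype)) := by exact_mod_cast hlt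
  have h1 := Submodule.finrank_sup_add_finrank_inf_eq (Representation.invariants (ρ.comp H₁.subtype)) (Representation.invariants (ρ.comp H₂.subtype))
  have h2 : (Representation.invariants (ρ.comp H₁.subtype)) ⊔ (Representation.invariants (ρ.comp H₂.subtype)) ≤ Representation.invariants (ρ.comp (H₁ ⊓ H₂).subtype) := by
    apply sup_le
    · intro v hv g
      exact hv ⟨g, g.2.1⟩
    · intro v hv g
      exact hv ⟨g, g.2.2⟩
  have h3 := Submodule.finrank_mono h2
  have h4 : 0 < Module.finrank ℂ ((Representation.invariants (ρ.comp H₁.subtype)) ⊓ (Representation.invariants (ρ.comp H₂.subtype)) : Submodule ℂ (Fin n → ℂ)) := by omega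
  obtain ⟨v, hv⟩ := (Module.finrank_pos_iff_exists_ne_zero).mp h4
  have hv0 : (v : Fin n → ℂ) ≠ 0 := fun h => hv (Subtype.ext h)
  -- v is fixed by G
  have hfix : ∀ g : G, ρ g v = v := by
    have h5 : H₁ ⊔ H₂ ≤ ({ carrier := {g | ρ g v = v}, one_mem' := by simp, mul_mem' := by
                              intro a b ha hb
                              simp only [Set.mem_setOf_eq] at ha hb ⊢
                              rw [map_mul, Module.End.mul_apply, hb, ha]
                           inv_mem' := by
                              intro a ha
                              simp only [Set.mem_setOf_eq] at ha ⊢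
                              have : ρ a⁻¹ (ρ a v) = v := by rw [← Module.End.mul_apply, ← map_mul, inv_mul_cancel, map_one]; rfl
                              rw [ha] at this
                              exact this } : Subgroup G) := by
      apply sup_le
      · intro g hg
        exact v.2.1 ⟨g, hg⟩
      · intro g hg
        exact v.2.2 ⟨g, hg⟩
    intro g
    rw [htop] at h5
    exact h5 (Subgroup.mem_top g)
  -- hence the representation is trivial
  let W : Subrepresentation ρ :=
    { toSubmodule := Representation.invariants ρ
      apply_mem_toSubmodule := by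
        intro g w hw
        rw [hw g]; exact hw }
  haveI := hρ
  rcases eq_bot_or_eq_top W with hW | hW
  · have h6 : (v : Fin n → ℂ) ∈ W.toSubmodule := hfix
    rw [hW] at h6
    exact hv0 ((Submodule.mem_bot ℂ).mp h6)
  · apply hχ1
    have h6 : ∀ g, ρ g = LinearMap.id := by
      intro g
      apply LinearMap.ext
      intro w
      have h7 : w ∈ W.toSubmodule := by rw [hW]; trivial
      exact h7 g
    have hirr : IsIrrCharacter G ρ.character := ⟨n, ρ, hρ, rfl⟩
    have h7 : ∀ g, ρ.character g = ρ.character 1 := by
      intro g
      rw [Representation.char_one, character_eq_finrank_iff]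
      exact h6 g
    by_contra hne
    have h8 := IsIrrCharacter.inner_eq_zero hirr isIrr_one' hne
    have h9 : ρ.character = ρ.character 1 • (fun _ : G => (1 : ℂ)) := by
      funext g; rw [Pi.smul_apply, smul_eq_mul, mul_one, h7]
    rw [h9, classInner_smul_left, IsIrrCharacter.inner_self isIrr_one', mul_one] at h8
    exact IsIrrCharacter.one_ne_zero hirr h8

end Cfsg.Agent.S0192
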