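import Cfsg.Statements.S0194
import Mathlib
import Cfsg.Agent.Lib.CharClifford
import Cfsg.Agent.Lib.CharFS

set_option autoImplicit false
open scoped ComplexConjugate
open Cfsg

set_option linter.style.haveILetI false
namespace Cfsg.Agent.S0194

/-- Let G have odd order, H be a normal subgroup and θ a non-principal irreducible character of H. Then the function induced from θ is orthogonal to its complex conjugate. -/
theorem result {G : Type*} [Group G] [Fintype G] (hodd : Odd (Nat.card G)) (H : Subgroup G) [H.Normal] (θ : H → ℂ) (hθ : Cfsg.IsIrrCharacter H θ) (hθ1 : θ ≠ fun _ => 1) : Cfsg.classInner (fun g => conj (Cfsg.indFun H θ g)) (Cfsg.indFun H θ) = 0 := by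
  classical
  haveI : Fintype H := Fintype.ofFinite H
  have hθc : Cfsg.IsIrrCharacter H (fun h => conj (θ h)) := CfsgLib.CharBasic.IsIrrCharacter.conj hθ
  have h1 : (fun g => conj (Cfsg.indFun H θ g)) = Cfsg.indFun H (fun h => conj (θ h)) := by
    funext g
    rw [CfsgLib.CharInd.indFun_conj]
  rw [h1]
  rw [CfsgLib.CharClifford.inner_ind_ind_eq_zero_iff hθc hθ]
  intro x hx
  -- θ(x h x⁻¹) conj = θ
  have h2 : CfsgLib.CharClifford.conjFn x θ = fun h => conj (θ h) := by
    funext h
    have := congrFun hx h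
    have h3 : conj (θ ⟨x * h * x⁻¹, _⟩) = θ h := this
    show θ ⟨x * h * x⁻¹, _⟩ = conj (θ h)
    rw [← h3, Complex.conj_conj]
  have h3 : CfsgLib.CharClifford.conjFn (x * x) θ = θ := by
    rw [CfsgLib.CharClifford.conjFn_mul, h2]
    exact hx
  have h4 : x * x ∈ CfsgLib.CharClifford.inertia (G := G) θ := h3
  have h5 : x ∈ CfsgLib.CharClifford.inertia (G := G) θ := by
    have hox : Odd (orderOf x) := Odd.of_dvd_nat hodd (orderOf_dvd_natCard x)
    obtain ⟨k, hk⟩ := hox
    have : x = (x * x) ^ (k + 1) := by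
      have h5 : (x * x) ^ (k + 1) = x ^ (2 * k + 1) * x := by
        rw [← sq, ← pow_mul, ← pow_succ]; congr 1
      rw [h5, ← hk, pow_orderOf_eq_one, one_mul]
    rw [this]
    exact Subgroup.pow_mem _ h4 _
  have h6 : CfsgLib.CharClifford.conjFn x θ = θ := h5
  have h7 : ∀ h : H, (θ h).im = 0 := by
    intro h
    rw [h6] at h2
    have := congrFun h2 h
    exact Complex.conj_eq_iff_im.mp this.symm
  have hoddH : Odd (Nat.card H) := Odd.of_dvd_nat hodd (Subgroup.card_subgroup_dvd_card H)
  exact hθ1 (CfsgLib.CharFS.real_odd hoddH hθ h7)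

end Cfsg.Agent.S0194
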