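import Cfsg.Statements.S0196
import Mathlib

set_option autoImplicit false
open Cfsg

open scoped Pointwise
set_option linter.style.haveILetI false
namespace Cfsg.Agent.S0196

/-- Let A be a subgroup of a finite group G that equals the centralizer of each of its non-identity elements, and let N be its normalizer. Then the index of A in N divides |A| − 1 (N/A permutes the non-identity elements of A in orbits of full length). -/
theorem result {G : Type*} [Group G] [Finite G] (A : Subgroup G) (hA : ∀ x ∈ A, x ≠ 1 → Subgroup.centralizer ({x} : Set G) = A) : (A.subgroupOf (Subgroup.normalizer (A : Set G))).index ∣ Nat.card A - 1 := by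
  classical
  obtain ⟨N, hN⟩ : ∃ N, N = Subgroup.normalizer (A : Set G) := ⟨_, rfl⟩
  rw [← hN]
  have hAN : A ≤ N := by rw [hN]; exact Subgroup.le_normalizer
  -- action of N on the nonidentity elements of A
  have hconj : ∀ n ∈ N, ∀ x ∈ A, n * x * n⁻¹ ∈ A := by
    intro n hn x hx
    rw [hN, Subgroup.mem_normalizer_iff] at hn
    exact (hn x).mp hx
  let act : MulAction N {x : G // x ∈ A ∧ x ≠ 1} :=
    { smul := fun n x => ⟨(n : G) * x * (n : G)⁻¹, hconj n n.2 x x.2.1, fun h => x.2.2 (by
        have : (x : G) = (n : G)⁻¹ * ((n : G) * x * (n : G)⁻¹) * n := by group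
        rw [this, h]; group)⟩
      one_smul := fun x => Subtype.ext (by show (1 : G) * x * (1 : G)⁻¹ = x; group)
      mul_smul := fun a b x => Subtype.ext (by show ((a * b : N) : G) * x * ((a * b : N) : G)⁻¹ = (a : G) * ((b : G) * x * (b : G)⁻¹) * (a : G)⁻¹; rw [Subgroup.coe_mul]; group) }
  letI := act
  have hstab : ∀ x : {x : G // x ∈ A ∧ x ≠ 1}, MulAction.stabilizer N x = A.subgroupOf N := by
    intro x
    ext n
    rw [MulAction.mem_stabilizer_iff, Subgroup.mem_subgroupOf]
    have h1 : (n • x = x) ↔ (n : G) * x * (n : G)⁻¹ = x := Subtype.ext_iff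
    have h2 : (n : G) ∈ A ↔ (n : G) ∈ Subgroup.centralizer ({(x : G)} : Set G) := by rw [hA x x.2.1 x.2.2]
    rw [h1, h2, Subgroup.mem_centralizer_singleton_iff, mul_inv_eq_iff_eq_mul]
  have hcard : Nat.card {x : G // x ∈ A ∧ x ≠ 1} = Nat.card A - 1 := by
    have h1 : Nat.card {x : A // x ≠ 1} + 1 = Nat.card A := by
      rw [← Finite.card_option]
      exact Nat.card_congr (Equiv.optionSubtypeNe _)
    have h2 : Nat.card {x : G // x ∈ A ∧ x ≠ 1} = Nat.card {x : A // x ≠ 1} :=
      Nat.card_congr
        { toFun := fun x => ⟨⟨x, x.2.1⟩, fun h => x.2.2 (congrArg Subtype.val h)⟩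
          invFun := fun y => ⟨y, y.1.2, fun h => y.2 (Subtype.ext h)⟩
          left_inv := fun x => rfl
          right_inv := fun y => rfl }
    omega
  rw [← hcard, Nat.card_congr (MulAction.selfEquivSigmaOrbits N {x : G // x ∈ A ∧ x ≠ 1})]
  haveI : Fintype (Quotient (MulAction.orbitRel N {x : G // x ∈ A ∧ x ≠ 1})) := Fintype.ofFinite _
  rw [Nat.card_sigma]
  apply Finset.dvd_sum
  intro q _
  rw [← hstab (Quotient.out q), MulAction.index_stabilizer]
  rfl

end Cfsg.Agent.S0196
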