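import Cfsg.Statements.S0198
import Mathlib
import Cfsg.Agent.Lib.CharTI

set_option autoImplicit false
open Cfsg

namespace Cfsg.Agent.S0198

/-- The isometry lemma behind exceptional characters. Let τ be a family of generalized characters of a finite group G indexed by Fin n, with τ i₀ = 0, every τ i vanishing at the identity, and inner products ⟨τ i, τ j⟩ = 2 if i = j and 1 otherwise for i, j ≠ i₀. Then there are a sign ε and pairwise distinct irreducible characters μ i with τ i = ε (μ i − μ i₀) for all i. -/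
theorem result {G : Type*} [Group G] [Fintype G] (n : ℕ) (i₀ : Fin n) (τ : Fin n → (G → ℂ)) (h0 : τ i₀ = 0) (hgen : ∀ i, Cfsg.IsGeneralizedCharacter G (τ i)) (hone : ∀ i, τ i 1 = 0) (hgram : ∀ i j, i ≠ i₀ → j ≠ i₀ → Cfsg.classInner (τ i) (τ j) = if i = j then 2 else 1) : ∃ ε : ℂ, (ε = 1 ∨ ε = -1) ∧ ∃ μ : Fin n → (G → ℂ), (∀ i, Cfsg.IsIrrCharacter G (μ i)) ∧ Function.Injective μ ∧ ∀ i, τ i = ε • (μ i - μ i₀) := by
  classical
  by_cases hex : ∃ k, k ≠ i₀
  · obtain ⟨ε, hε, μ, hμ, hτ⟩ := CfsgLib.CharTI.isometry_family i₀ τ h0 hgen hone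
      (fun i hi => by rw [hgram i i hi hi, if_pos rfl])
      (fun i j hi hj hij => by rw [hgram i j hi hj, if_neg hij])
    exact ⟨ε, hε, fun i => μ i, fun i => (μ i).2, fun i j h => hμ (Subtype.ext h), hτ⟩
  · push Not at hex
    refine ⟨1, Or.inl rfl, fun _ => fun _ => 1, fun _ => CfsgLib.CharBasic.isIrr_one', ?_, ?_⟩
    · intro i j _; rw [hex i, hex j]
    · intro i; rw [hex i, h0]; simp

end Cfsg.Agent.S0198
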