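import Cfsg.Statements.S0200
import Cfsg.Agent.Lib.BaerSuzuki

set_option autoImplicit false
open Cfsg

namespace Cfsg.Agent.S0200

/-- An involution lying in no normal 2-subgroup of a finite group inverts a nontrivial element of odd order (a consequence of the Baer–Suzuki Theorem). -/
theorem result {G : Type*} [Group G] [Finite G] (t : G) (ht : orderOf t = 2) (hO : ∀ N : Subgroup G, N.Normal → IsPGroup 2 N → t ∉ N) : ∃ h : G, h ≠ 1 ∧ Odd (orderOf h) ∧ t * h * t⁻¹ = h⁻¹ := by
  have ht' := CfsgLib.Invol.mul_self_of_orderOf ht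
  by_contra hcon
  push Not at hcon
  obtain ⟨N, hN, hN2, htN⟩ := CfsgLib.BaerSuzuki.baer_suzuki_elt (p := 2) t (by
    intro g
    have hv : orderOf (g * t * g⁻¹) = 2 := (CfsgLib.Invol.orderOf_conj g t).trans ht
    have hv' := CfsgLib.Invol.mul_self_of_orderOf hv
    set v := g * t * g⁻¹ with hvdef
    obtain ⟨k, m, hm, hkm⟩ := Nat.exists_eq_two_pow_mul_odd (orderOf_pos (t * v)).ne'
    have hm1 : m = 1 := by
      by_contra hm1
      have hord : orderOf ((t * v) ^ (2 ^ k)) = m := by
        rw [orderOf_pow_of_dvd (by positivity) (by rw [hkm]; exact dvd_mul_right _ _), hkm]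
        exact Nat.mul_div_cancel_left m (by positivity)
      refine hcon ((t * v) ^ (2 ^ k)) ?_ (by rw [hord]; exact hm) ?_
      · intro h1
        rw [h1, orderOf_one] at hord
        exact hm1 hord.symm
      · have := CfsgLib.Invol.conj_mul_zpow ht' hv' ((2 ^ k : ℕ) : ℤ)
        rw [zpow_neg, zpow_natCast] at this
        exact this
    rw [hm1, mul_one] at hkm
    rintro ⟨d, hd⟩
    obtain ⟨i, rfl | rfl⟩ := CfsgLib.Invol.mem_closure_pair ht' hv' hd
    · refine ⟨k, Subtype.ext ?_⟩
      simp only [Subgroup.coe_pow, Subgroup.coe_one]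
      rw [← zpow_natCast, ← zpow_mul, mul_comm, zpow_mul, zpow_natCast, ← hkm, pow_orderOf_eq_one, one_zpow]
    · refine ⟨1, Subtype.ext ?_⟩
      simp only [Subgroup.coe_pow, Subgroup.coe_one]
      have h1 := CfsgLib.Invol.mul_zpow_comm ht' hv' i
      generalize hc : t * v = c at *
      calc (c ^ i * t) ^ 2 ^ 1 = c ^ i * (t * c ^ i) * t := by rw [pow_one, pow_two]; group
        _ = (c ^ i * c ^ (-i)) * (t * t) := by rw [h1]; group
        _ = 1 := by rw [ht', ← zpow_add, add_neg_cancel, zpow_zero, mul_one])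
  exact hO N hN hN2 htN

end Cfsg.Agent.S0200
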