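import Cfsg.Statements.S0201
import Cfsg.Agent.Lib.H8BSRank

set_option autoImplicit false
open Cfsg

set_option linter.style.haveILetI false
namespace Cfsg.Agent.S0201

/-- Brauer–Suzuki Theorem: if a Sylow 2-subgroup of a finite group is generalized quaternion (of order at least 8) and the group has no nontrivial normal subgroup of odd order, then its centre has order 2. -/
theorem result {G : Type*} [Group G] [Finite G] (S : Sylow 2 G) (n : ℕ) (e : (S : Subgroup G) ≃* QuaternionGroup (2 ^ (n + 1))) (hO : ∀ N : Subgroup G, N.Normal → Odd (Nat.card N) → N = ⊥) : Nat.card (Subgroup.center G) = 2 := by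
  classical
  haveI h2p : Fact (Nat.Prime 2) := ⟨Nat.prime_two⟩
  rcases n with _ | n
  · have e' : (S : Subgroup G) ≃* QuaternionGroup 2 := e
    obtain ⟨t, q⟩ := CfsgLib.H8BS.qd_of_equiv e'
    have hc := CfsgLib.H8BS.rank_one (Nat.card G) G le_rfl t q.ot (fun a b ha hb hab => CfsgLib.H8BS.comm_invol q ha hb hab) hO
    have hZ : Subgroup.center G = Subgroup.zpowers t := by
      apply le_antisymm
      · intro z hz
        have hodd : ∀ y ∈ Subgroup.center G, Odd (orderOf y) → y = 1 := by
          intro y hy hyo
          have h1 := hO (Subgroup.zpowers y) ⟨fun m hm g => by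
            have h2 : m ∈ Subgroup.center G := (Subgroup.zpowers_le.mpr hy) hm
            rw [Subgroup.mem_center_iff.mp h2 g, mul_inv_cancel_right]; exact hm⟩ (by rw [Nat.card_zpowers]; exact hyo)
          rwa [Subgroup.zpowers_eq_bot] at h1
        obtain ⟨k, m, hm, hkm⟩ := Nat.exists_eq_two_pow_mul_odd (orderOf_pos z).ne'
        have h1 : z ^ 2 ^ k = 1 := by
          apply hodd _ (Subgroup.pow_mem _ hz _)
          rw [orderOf_pow, hkm]
          have h2 : 0 < 2 ^ k := by positivity
          rw [Nat.gcd_eq_right (Dvd.intro _ rfl), Nat.mul_div_cancel_left _ h2]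
          exact hm
        obtain ⟨j, -, hj⟩ := (Nat.dvd_prime_pow Nat.prime_two).mp (orderOf_dvd_of_pow_eq_one h1)
        obtain ⟨c, -, hcS⟩ := CfsgLib.H8BS.conj_into S (H := ⊤) le_top (Subgroup.mem_top z) ⟨j, hj⟩
        have h3 : c * z * c⁻¹ = z := by rw [Subgroup.mem_center_iff.mp hz c, mul_inv_cancel_right]
        rw [h3] at hcS
        rcases q.sq2 z hcS with h4 | h4
        · rcases q.sq1 z hcS h4 with h5 | h5
          · rw [h5]; exact Subgroup.one_mem _
          · rw [h5]; exact Subgroup.mem_zpowers t
        · exfalso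
          obtain ⟨g, -, hg⟩ := q.inv z hcS h4
          rw [Subgroup.mem_center_iff.mp hz g, mul_inv_cancel_right] at hg
          apply q.t1
          rw [← h4]
          nth_rw 1 [hg]
          exact inv_mul_cancel z
      · rw [Subgroup.zpowers_le, Subgroup.mem_center_iff]
        exact hc
    rw [hZ, Nat.card_zpowers, q.ot]
  · obtain ⟨x, y, c⟩ := CfsgLib.H7BS.exists_cfg S n e
    rw [c.center_eq hO, Nat.card_zpowers, c.zo]

end Cfsg.Agent.S0201
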