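import Cfsg.Statements.S0202
import Cfsg.Agent.Lib.Invol

set_option autoImplicit false
open Cfsg

namespace Cfsg.Agent.S0202

theorem dich {G : Type*} [Group G] [Finite G] (P : Sylow 2 G) (hP : IsKleinFour (P : Subgroup G)) :
    ((∀ a b : G, orderOf a = 2 → orderOf b = 2 → IsConj a b) ∧
      Nat.card {C : ConjClasses G // ∃ t : G, orderOf t = 2 ∧ ConjClasses.mk t = C} = 1) ∨
    (∀ a ∈ P, ∀ b ∈ P, IsConj a b → a = b) := by
  by_cases h : ∀ a ∈ P, ∀ b ∈ P, IsConj a b → a = b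
  · exact Or.inr h
  left
  push Not at h
  obtain ⟨a, ha, b, hb, hab, hne⟩ := h
  have hcomm : IsMulCommutative (P : Subgroup G) := IsKleinFour.isMulCommutative
  have hmulself : ∀ x ∈ P, x * x = 1 := by
    intro x hx
    have := IsKleinFour.mul_self (⟨x, hx⟩ : (P : Subgroup G))
    exact congrArg Subtype.val this
  have hcm : ∀ x ∈ P, ∀ y ∈ P, x * y = y * x := by
    intro x hx y hy
    exact congrArg Subtype.val (hcomm.is_comm.comm (⟨x, hx⟩ : (P : Subgroup G)) ⟨y, hy⟩)
  have ha1 : a ≠ 1 := by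
    rintro rfl
    rw [isConj_one_right] at hab
    exact hne hab.symm
  have hb1 : b ≠ 1 := by
    rintro rfl
    rw [isConj_comm, isConj_one_right] at hab
    exact hne hab
  obtain ⟨c, hc⟩ := isConj_iff.mp hab
  obtain ⟨n', hn', hn'2⟩ := P.conj_eq_normalizer_conj_of_mem a c⁻¹ ha (by rw [inv_inv, hc]; exact hb)
  rw [inv_inv, hc] at hn'2
  obtain ⟨n, hnn⟩ : ∃ n, n = n'⁻¹ := ⟨_, rfl⟩
  have hn : n ∈ Subgroup.normalizer ((P : Subgroup G) : Set G) := by rw [hnn]; exact inv_mem hn'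
  have hnab : n * a * n⁻¹ = b := by rw [hnn, inv_inv]; exact hn'2.symm
  have hfour : ∀ w ∈ P, w ≠ 1 → w ≠ a → w ≠ b → w = a * b := by
    intro w hw hw1 hwa hwb
    have := IsKleinFour.eq_mul_of_ne_all (x := (⟨a, ha⟩ : (P : Subgroup G))) (y := ⟨b, hb⟩) (z := ⟨w, hw⟩)
      (fun h => ha1 (congrArg Subtype.val h)) (fun h => hb1 (congrArg Subtype.val h))
      (fun h => hne (congrArg Subtype.val h)) (fun h => hw1 (congrArg Subtype.val h))
      (fun h => hwa (congrArg Subtype.val h)) (fun h => hwb (congrArg Subtype.val h))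
    exact congrArg Subtype.val this
  have hnbP : n * b * n⁻¹ ∈ P := (Subgroup.mem_normalizer_iff.mp hn b).mp hb
  have hnb1 : n * b * n⁻¹ ≠ 1 := by
    intro h
    apply hb1
    have : b = n⁻¹ * (n * b * n⁻¹) * n := by group
    rw [this, h]; group
  have hnbb : n * b * n⁻¹ ≠ b := by
    intro h
    rw [← hnab] at h
    have h2 := mul_left_cancel (mul_right_cancel h)
    rw [hnab] at h2
    exact hne h2.symm
  have hnba : n * b * n⁻¹ ≠ a := by
    intro hnb
    obtain ⟨k, m, ⟨l, hm⟩, hkm⟩ := Nat.exists_eq_two_pow_mul_odd (orderOf_pos n).ne'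
    have hord : orderOf (n ^ m) = 2 ^ k := by
      rw [orderOf_pow_of_dvd (by omega) (by rw [hkm]; exact dvd_mul_left _ _), hkm]
      exact Nat.mul_div_cancel _ (by omega)
    have hz : IsPGroup 2 (Subgroup.zpowers (n ^ m)) := by
      apply IsPGroup.of_card (n := k)
      rw [Nat.card_zpowers, hord]
    have h1 := CfsgLib.Invol.mem_sylow_of_mem_normalizer P hz (pow_mem hn m)
    have h2 := hcm _ h1 a ha
    have h3 : Commute (n ^ 2) b := by
      have : n ^ 2 * b * (n ^ 2)⁻¹ = n * (n * b * n⁻¹) * n⁻¹ := by rw [pow_two]; group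
      rw [hnb, hnab] at this
      exact mul_inv_eq_iff_eq_mul.mp this
    have h4 : Commute ((n ^ 2) ^ l) b := h3.pow_left l
    have h5 : n ^ m * a * (n ^ m)⁻¹ = b := by
      have : n ^ m * a * (n ^ m)⁻¹ = (n ^ 2) ^ l * (n * a * n⁻¹) * ((n ^ 2) ^ l)⁻¹ := by
        rw [hm, pow_succ, pow_mul]; group
      rw [this, hnab, h4.eq, mul_inv_cancel_right]
    rw [h2, mul_inv_cancel_right] at h5
    exact hne h5
  have hbc : IsConj b (a * b) := isConj_iff.mpr ⟨n, hfour _ hnbP hnb1 hnba hnbb⟩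
  have hall : ∀ u : G, orderOf u = 2 → IsConj a u := by
    intro u hu
    obtain ⟨R, hR⟩ := (CfsgLib.Invol.isPGroup_zpowers hu).exists_le_sylow
    obtain ⟨g, hg⟩ := MulAction.exists_smul_eq G R P
    have hgu : g * u * g⁻¹ ∈ P := by
      rw [← hg, Sylow.smul_def]
      exact Subgroup.smul_mem_pointwise_smul _ (MulAut.conj g) (R : Subgroup G) (hR (Subgroup.mem_zpowers u))
    have h1 : IsConj u (g * u * g⁻¹) := isConj_iff.mpr ⟨g, rfl⟩
    refine IsConj.trans ?_ h1.symm
    have hgu1 : g * u * g⁻¹ ≠ 1 := by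
      intro h
      have h2 := CfsgLib.Invol.orderOf_conj g u
      rw [h, orderOf_one, hu] at h2; omega
    by_cases h2 : g * u * g⁻¹ = a
    · rw [h2]
    by_cases h3 : g * u * g⁻¹ = b
    · rw [h3]; exact hab
    · rw [hfour _ hgu hgu1 h2 h3]; exact hab.trans hbc
  refine ⟨fun u v hu hv => (hall u hu).symm.trans (hall v hv), ?_⟩
  rw [Nat.card_eq_one_iff_unique]
  refine ⟨⟨?_⟩, ⟨⟨ConjClasses.mk a, a, ?_, rfl⟩⟩⟩
  · rintro ⟨_, t, ht, rfl⟩ ⟨_, s, hs, rfl⟩
    apply Subtype.ext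
    exact ConjClasses.mk_eq_mk_iff_isConj.mpr ((hall t ht).symm.trans (hall s hs))
  · exact orderOf_eq_prime (by rw [pow_two]; exact hmulself a ha) ha1

theorem count {G : Type*} [Group G] [Finite G] (P : Sylow 2 G) (hP : IsKleinFour (P : Subgroup G))
    (h : ∀ a ∈ P, ∀ b ∈ P, IsConj a b → a = b) :
    Nat.card {C : ConjClasses G // ∃ t : G, orderOf t = 2 ∧ ConjClasses.mk t = C} = 3 := by
  classical
  have hmulself : ∀ x ∈ P, x * x = 1 := by
    intro x hx
    have := IsKleinFour.mul_self (⟨x, hx⟩ : (P : Subgroup G))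
    exact congrArg Subtype.val this
  have h3 : Nat.card {p : (P : Subgroup G) // p ≠ 1} = 3 := by
    have h4 : Nat.card (P : Subgroup G) = 4 := IsKleinFour.card_four
    haveI := Fintype.ofFinite (P : Subgroup G)
    rw [Nat.card_eq_fintype_card] at h4 ⊢
    rw [Fintype.card_subtype_compl, h4, Fintype.card_subtype_eq]
  rw [← h3]
  symm
  refine Nat.card_congr (Equiv.ofBijective (fun p => ⟨ConjClasses.mk (p.1 : G), (p.1 : G), ?_, rfl⟩) ⟨?_, ?_⟩)
  · refine orderOf_eq_prime (by rw [pow_two]; exact hmulself _ p.1.2) ?_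
    intro h
    exact p.2 (Subtype.ext h)
  · intro p q hpq
    have h1 := congrArg Subtype.val hpq
    simp only at h1
    rw [ConjClasses.mk_eq_mk_iff_isConj] at h1
    exact Subtype.ext (Subtype.ext (h _ p.1.2 _ q.1.2 h1))
  · rintro ⟨_, u, hu, rfl⟩
    obtain ⟨R, hR⟩ := (CfsgLib.Invol.isPGroup_zpowers hu).exists_le_sylow
    obtain ⟨g, hg⟩ := MulAction.exists_smul_eq G R P
    have hgu : g * u * g⁻¹ ∈ P := by
      rw [← hg, Sylow.smul_def]
      exact Subgroup.smul_mem_pointwise_smul _ (MulAut.conj g) (R : Subgroup G) (hR (Subgroup.mem_zpowers u))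
    have hgu1 : g * u * g⁻¹ ≠ 1 := by
      intro h
      have h2 := CfsgLib.Invol.orderOf_conj g u
      rw [h, orderOf_one, hu] at h2; omega
    refine ⟨⟨⟨_, hgu⟩, fun h => hgu1 (congrArg Subtype.val h)⟩, ?_⟩
    apply Subtype.ext
    simp only
    rw [ConjClasses.mk_eq_mk_iff_isConj]
    exact (isConj_iff.mpr ⟨g, rfl⟩ : IsConj u _).symm


/-- If a Sylow 2-subgroup of a finite group is a Klein four-group, the group has one or three conjugacy classes of involutions. -/
theorem result {G : Type*} [Group G] [Finite G] (P : Sylow 2 G) (hP : IsKleinFour (P : Subgroup G)) : Nat.card {C : ConjClasses G // ∃ t : G, orderOf t = 2 ∧ ConjClasses.mk t = C} = 1 ∨ Nat.card {C : ConjClasses G // ∃ t : G, orderOf t = 2 ∧ ConjClasses.mk t = C} = 3 := by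
  rcases dich P hP with h | h
  · exact Or.inl h.2
  · exact Or.inr (count P hP h)

end Cfsg.Agent.S0202
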