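import Cfsg.Statements.S0203
import Cfsg.Agent.Lib.Invol
import Cfsg.Agent.S0202

set_option autoImplicit false
open Cfsg

namespace Cfsg.Agent.S0203

/-- If a Sylow 2-subgroup P of a finite group G is a Klein four-group, then G has three classes of involutions if and only if P has a normal complement in G. -/
theorem result {G : Type*} [Group G] [Finite G] (P : Sylow 2 G) (hP : IsKleinFour (P : Subgroup G)) : Nat.card {C : ConjClasses G // ∃ t : G, orderOf t = 2 ∧ ConjClasses.mk t = C} = 3 ↔ ∃ N : Subgroup G, N.Normal ∧ Subgroup.IsComplement' N (P : Subgroup G) := by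
  have hcomm : IsMulCommutative (P : Subgroup G) := IsKleinFour.isMulCommutative
  have hcm : ∀ x ∈ P, ∀ y ∈ P, x * y = y * x := by
    intro x hx y hy
    exact congrArg Subtype.val (hcomm.is_comm.comm (⟨x, hx⟩ : (P : Subgroup G)) ⟨y, hy⟩)
  constructor
  · intro h3
    rcases Cfsg.Agent.S0202.dich P hP with h | h
    · rw [h.2] at h3; omega
    · have hNC : Subgroup.normalizer ((P : Subgroup G) : Set G) ≤ Subgroup.centralizer ((P : Subgroup G) : Set G) := by
        intro n hn
        rw [Subgroup.mem_centralizer_iff]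
        intro a ha
        have h1 : n * a * n⁻¹ ∈ P := (Subgroup.mem_normalizer_iff.mp hn a).mp ha
        have h2 := h a ha _ h1 (isConj_iff.mpr ⟨n, rfl⟩)
        rw [eq_mul_inv_iff_mul_eq] at h2
        exact h2
      exact ⟨_, MonoidHom.normal_ker _, MonoidHom.ker_transferSylow_isComplement' P hNC⟩
  · rintro ⟨N, hN, hNP⟩
    apply Cfsg.Agent.S0202.count P hP
    intro a ha b hb hab
    obtain ⟨f, hf, hker⟩ := CfsgLib.Invol.exists_surjective_of_isComplement' hN hNP
    obtain ⟨c, hc⟩ := isConj_iff.mp hab
    have h1 : f a = f b := by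
      rw [← hc, map_mul, map_mul, map_inv, hcomm.is_comm.comm (f c) (f a), mul_inv_cancel_right]
    have h2 : a * b⁻¹ ∈ N := by
      rw [← hker, MonoidHom.mem_ker, map_mul, map_inv, h1, mul_inv_cancel]
    have h3 := (Subgroup.disjoint_def.mp hNP.disjoint) h2 (mul_mem ha (inv_mem hb))
    exact mul_inv_eq_one.mp h3

end Cfsg.Agent.S0203
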