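import Cfsg.Statements.S0206
import Cfsg.Agent.Lib.Invol

set_option autoImplicit false
open Cfsg

namespace Cfsg.Agent.S0206

/-- Two distinct involutions x, y of a finite group generate a subgroup isomorphic to the dihedral group of order 2·|xy|. -/
theorem result {G : Type*} [Group G] [Finite G] (x y : G) (hx : orderOf x = 2) (hy : orderOf y = 2) (hxy : x ≠ y) : Nonempty (↥(Subgroup.closure ({x, y} : Set G)) ≃* DihedralGroup (orderOf (x * y))) := by
  have hx' := CfsgLib.Invol.mul_self_of_orderOf hx
  have hy' := CfsgLib.Invol.mul_self_of_orderOf hy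
  let f := CfsgLib.Invol.dihedralHom x y hx' hy'
  have hinj : Function.Injective f := by
    rw [injective_iff_map_eq_one]
    intro d hd
    rcases d with i | i
    · rw [show f (DihedralGroup.r i) = (CfsgLib.Invol.rot (x * y) i).toMul from rfl] at hd
      rw [CfsgLib.Invol.rot_eq_one hd]; rfl
    · exfalso
      rw [show f (DihedralGroup.sr i) = x * (CfsgLib.Invol.rot (x * y) i).toMul from rfl] at hd
      obtain ⟨k, -, hk⟩ := CfsgLib.Invol.exists_rot (x * y) i
      rw [hk] at hd
      apply CfsgLib.Invol.not_mem_zpowers hx hy hxy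
      exact ⟨-k, by simpa using (eq_inv_of_mul_eq_one_left hd).symm⟩
  have hr := CfsgLib.Invol.dihedralHom_range x y hx' hy'
  exact ⟨((MonoidHom.ofInjective hinj).trans (MulEquiv.subgroupCongr hr)).symm⟩

end Cfsg.Agent.S0206
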