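import Cfsg.Statements.S0208
import Cfsg.Agent.Lib.Invol

set_option autoImplicit false
open Cfsg

namespace Cfsg.Agent.S0208

/-- If x, y are involutions and xy has odd order, then some element of the subgroup generated by x and y conjugates x to y. -/
theorem result {G : Type*} [Group G] [Finite G] (x y : G) (hx : orderOf x = 2) (hy : orderOf y = 2) (hodd : Odd (orderOf (x * y))) : ∃ d ∈ Subgroup.closure ({x, y} : Set G), d * x * d⁻¹ = y := by
  have hx' := CfsgLib.Invol.mul_self_of_orderOf hx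
  have hy' := CfsgLib.Invol.mul_self_of_orderOf hy
  obtain ⟨m, hm⟩ := hodd
  have hxm : x ∈ Subgroup.closure ({x, y} : Set G) := Subgroup.subset_closure (by simp)
  have hym : y ∈ Subgroup.closure ({x, y} : Set G) := Subgroup.subset_closure (by simp)
  refine ⟨(x * y) ^ (m : ℤ), zpow_mem (mul_mem hxm hym) _, ?_⟩
  have h1 : (x * y) ^ (m : ℤ) * x * ((x * y) ^ (m : ℤ))⁻¹ = x * (x * y) ^ (-(2 * m : ℤ)) := by
    rw [CfsgLib.Invol.mul_zpow_comm hx' hy', neg_neg, ← zpow_neg, mul_assoc, CfsgLib.Invol.mul_zpow_comm hx' hy', neg_neg,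
      ← mul_assoc, ← zpow_add, two_mul]
  rw [h1]
  have h2 : (x * y) ^ (-(2 * m : ℤ)) = x * y := by
    have h3 : (x * y) ^ (-(2 * m : ℤ) - 1) = 1 := by
      rw [show (-(2 * m : ℤ) - 1) = -((2 * m + 1 : ℕ) : ℤ) by push_cast; ring, zpow_neg, zpow_natCast, ← hm,
        pow_orderOf_eq_one, inv_one]
    rw [zpow_sub, zpow_one, mul_inv_eq_one] at h3
    exact h3
  rw [h2, ← mul_assoc, hx', one_mul]

end Cfsg.Agent.S0208
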