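import Cfsg.Statements.S0209
import Cfsg.Agent.Lib.Invol

set_option autoImplicit false
open Cfsg

namespace Cfsg.Agent.S0209

/-- If x, y are involutions whose product has even order n, the element (xy)^(n/2) is an involution that commutes with x and with y. -/
theorem result {G : Type*} [Group G] [Finite G] (x y : G) (hx : orderOf x = 2) (hy : orderOf y = 2) (heven : Even (orderOf (x * y))) : orderOf ((x * y) ^ (orderOf (x * y) / 2)) = 2 ∧ Commute ((x * y) ^ (orderOf (x * y) / 2)) x ∧ Commute ((x * y) ^ (orderOf (x * y) / 2)) y := by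
  have hx' := CfsgLib.Invol.mul_self_of_orderOf hx
  have hy' := CfsgLib.Invol.mul_self_of_orderOf hy
  obtain ⟨m, hm⟩ := heven
  have hpos : 0 < orderOf (x * y) := orderOf_pos _
  have hm2 : orderOf (x * y) / 2 = m := by omega
  rw [hm2]
  have hz : ((x * y) ^ m) ^ 2 = 1 := by rw [← pow_mul, mul_two, ← hm, pow_orderOf_eq_one]
  have hinv : ((x * y) ^ m)⁻¹ = (x * y) ^ m := by
    rw [pow_two] at hz; exact inv_eq_of_mul_eq_one_left hz
  refine ⟨orderOf_eq_prime hz ?_, ?_, ?_⟩
  · intro h
    have := orderOf_dvd_of_pow_eq_one h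
    have := Nat.le_of_dvd (by omega) this
    omega
  · have h1 := CfsgLib.Invol.conj_mul_zpow hx' hy' (m : ℤ)
    rw [zpow_neg, zpow_natCast, hinv, mul_inv_eq_iff_eq_mul] at h1
    exact h1.symm
  · have h1 := CfsgLib.Invol.conj_mul_zpow' hx' hy' (m : ℤ)
    rw [zpow_neg, zpow_natCast, hinv, mul_inv_eq_iff_eq_mul] at h1
    exact h1.symm

end Cfsg.Agent.S0209
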