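import Cfsg.Statements.S0210
import Cfsg.Agent.Lib.Invol

set_option autoImplicit false
open Cfsg

namespace Cfsg.Agent.S0210

/-- If x, y are involutions whose product has even order, no element of the subgroup generated by x and y conjugates x to y. -/
theorem result {G : Type*} [Group G] [Finite G] (x y : G) (hx : orderOf x = 2) (hy : orderOf y = 2) (heven : Even (orderOf (x * y))) (d : G) (hd : d ∈ Subgroup.closure ({x, y} : Set G)) : d * x * d⁻¹ ≠ y := by
  have hx' := CfsgLib.Invol.mul_self_of_orderOf hx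
  have hy' := CfsgLib.Invol.mul_self_of_orderOf hy
  obtain ⟨m, hm⟩ := heven
  intro h
  have key : ∀ k : ℤ, (x * y) ^ k * x * ((x * y) ^ k)⁻¹ = x * (x * y) ^ (-(2 * k : ℤ)) := by
    intro k
    rw [CfsgLib.Invol.mul_zpow_comm hx' hy', neg_neg, ← zpow_neg, mul_assoc, CfsgLib.Invol.mul_zpow_comm hx' hy', neg_neg,
      ← mul_assoc, ← zpow_add, two_mul]
  have h2 : ∃ k : ℤ, x * (x * y) ^ (-(2 * k : ℤ)) = y := by
    obtain ⟨k, rfl | rfl⟩ := CfsgLib.Invol.mem_closure_pair hx' hy' hd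
    · exact ⟨k, by rw [← key]; exact h⟩
    · refine ⟨k, ?_⟩
      rw [← key]
      rw [mul_inv_rev, mul_assoc ((x * y) ^ k) x x, hx', mul_one, inv_eq_of_mul_eq_one_left hx', ← mul_assoc] at h
      exact h
  obtain ⟨k, hk⟩ := h2
  have h3 : (x * y) ^ (-(2 * k : ℤ) - 1) = 1 := by
    rw [zpow_sub, zpow_one, mul_inv_eq_one]
    calc (x * y) ^ (-(2 * k : ℤ)) = x * (x * (x * y) ^ (-(2 * k : ℤ))) := by rw [← mul_assoc, hx', one_mul]
      _ = x * y := by rw [hk]
  have h4 := orderOf_dvd_iff_zpow_eq_one.mpr h3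
  rw [hm] at h4
  obtain ⟨c, hc⟩ := h4
  push_cast at hc
  have : (m + m : ℤ) * c = 2 * (m * c) := by ring
  omega

end Cfsg.Agent.S0210
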