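import Cfsg.Statements.S0211
import Cfsg.Agent.Lib.Invol

set_option autoImplicit false
open Cfsg

namespace Cfsg.Agent.S0211

/-- Let x, y be involutions with xy of even order n and z = (xy)^(n/2). Then xz is conjugate to x by an element of the subgroup generated by x, y if and only if 4 divides n. -/
theorem result {G : Type*} [Group G] [Finite G] (x y : G) (hx : orderOf x = 2) (hy : orderOf y = 2) (heven : Even (orderOf (x * y))) : (∃ d ∈ Subgroup.closure ({x, y} : Set G), d * x * d⁻¹ = x * (x * y) ^ (orderOf (x * y) / 2)) ↔ 4 ∣ orderOf (x * y) := by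
  have hx' := CfsgLib.Invol.mul_self_of_orderOf hx
  have hy' := CfsgLib.Invol.mul_self_of_orderOf hy
  obtain ⟨m, hm⟩ := heven
  have hpos : 0 < orderOf (x * y) := orderOf_pos _
  have hm2 : orderOf (x * y) / 2 = m := by omega
  rw [hm2]
  have key : ∀ k : ℤ, (x * y) ^ k * x * ((x * y) ^ k)⁻¹ = x * (x * y) ^ (-(2 * k : ℤ)) := by
    intro k
    rw [CfsgLib.Invol.mul_zpow_comm hx' hy', neg_neg, ← zpow_neg, mul_assoc, CfsgLib.Invol.mul_zpow_comm hx' hy', neg_neg,
      ← mul_assoc, ← zpow_add, two_mul]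
  constructor
  · rintro ⟨d, hd, h⟩
    have h2 : ∃ k : ℤ, x * (x * y) ^ (-(2 * k : ℤ)) = x * (x * y) ^ m := by
      obtain ⟨k, rfl | rfl⟩ := CfsgLib.Invol.mem_closure_pair hx' hy' hd
      · exact ⟨k, by rw [← key]; exact h⟩
      · refine ⟨k, ?_⟩
        rw [← key]
        rw [mul_inv_rev, mul_assoc ((x * y) ^ k) x x, hx', mul_one, inv_eq_of_mul_eq_one_left hx', ← mul_assoc] at h
        exact h
    obtain ⟨k, hk⟩ := h2
    have h3 : (x * y) ^ (-(2 * k : ℤ) - m) = 1 := by
      rw [zpow_sub, zpow_natCast, mul_inv_eq_one]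
      exact mul_left_cancel hk
    have h4 := orderOf_dvd_iff_zpow_eq_one.mpr h3
    rw [hm] at h4 ⊢
    obtain ⟨c, hc⟩ := h4
    push_cast at hc
    have h5 : (m + m : ℤ) * c = 2 * (m * c) := by ring
    have h6 : (m : ℤ) = 2 * (-k - m * c) := by linarith
    omega
  · intro h4
    have hxm : x ∈ Subgroup.closure ({x, y} : Set G) := Subgroup.subset_closure (by simp)
    have hym : y ∈ Subgroup.closure ({x, y} : Set G) := Subgroup.subset_closure (by simp)
    obtain ⟨l, hl⟩ : ∃ l : ℕ, m = 2 * l := ⟨m / 2, by omega⟩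
    refine ⟨(x * y) ^ (-(l : ℤ)), zpow_mem (mul_mem hxm hym) _, ?_⟩
    rw [key, hl, ← zpow_natCast]
    congr 2
    push_cast; ring

end Cfsg.Agent.S0211
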