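import Cfsg.Statements.S0236

set_option autoImplicit false
open Cfsg

namespace Cfsg.Agent.S0236

/-- If x is an involution, the number of ordered pairs (u, v) of involutions with uv = x, plus one, equals the number of involutions in the centralizer of x. -/
theorem result {G : Type*} [Group G] [Finite G] (x : G) (hx : orderOf x = 2) : Nat.card {p : G × G // orderOf p.1 = 2 ∧ orderOf p.2 = 2 ∧ p.1 * p.2 = x} + 1 = Nat.card {t : G // orderOf t = 2 ∧ Commute t x} := by
  classical
  have hinv : ∀ u : G, orderOf u = 2 → u * u = 1 := fun u hu => by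
    rw [← pow_two, ← hu]; exact pow_orderOf_eq_one u
  rw [← Finite.card_option]
  refine Nat.card_congr (Equiv.ofBijective (fun o => o.elim ⟨x, hx, Commute.refl x⟩ (fun p => ⟨p.1.1, p.2.1, ?_⟩)) ⟨?_, ?_⟩)
  · obtain ⟨⟨u, v⟩, hu, hv, huv⟩ := p
    simp only at hu hv huv ⊢
    have h1 := hinv x hx
    have h2 : v = u * x := by rw [← huv, ← mul_assoc, hinv u hu, one_mul]
    have h3 := hinv v hv
    rw [h2] at h3
    have h4 : u * x = (u * x)⁻¹ := (inv_eq_of_mul_eq_one_left h3).symm
    rw [mul_inv_rev, inv_eq_of_mul_eq_one_left h1, inv_eq_of_mul_eq_one_left (hinv u hu)] at h4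
    exact h4
  · rintro (_ | ⟨⟨u, v⟩, hu, hv, huv⟩) (_ | ⟨⟨u', v'⟩, hu', hv', huv'⟩) h
    · rfl
    · exfalso
      simp only [Option.elim, Subtype.mk.injEq] at h
      simp only at hu' hv' huv'
      rw [← h] at huv'
      have : v' = 1 := mul_eq_left.mp huv'
      rw [this, orderOf_one] at hv'; omega
    · exfalso
      simp only [Option.elim, Subtype.mk.injEq] at h
      simp only at hu hv huv
      rw [h] at huv
      have : v = 1 := mul_eq_left.mp huv
      rw [this, orderOf_one] at hv; omega
    · simp only [Option.elim, Subtype.mk.injEq] at h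
      simp only at hu hv huv hu' hv' huv'
      subst h
      have : v = v' := mul_left_cancel (huv.trans huv'.symm)
      subst this; rfl
  · rintro ⟨t, ht, htx⟩
    by_cases h : t = x
    · subst h; exact ⟨none, rfl⟩
    · refine ⟨some ⟨(t, t * x), ht, ?_, ?_⟩, rfl⟩
      · simp only
        refine orderOf_eq_prime ?_ ?_
        · rw [htx.mul_pow, pow_two, pow_two, hinv t ht, hinv x hx, one_mul]
        · intro h1
          apply h
          rw [← inv_eq_of_mul_eq_one_left (hinv x hx)]
          exact eq_inv_of_mul_eq_one_left h1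
      · simp only
        rw [← mul_assoc, hinv t ht, one_mul]

end Cfsg.Agent.S0236
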