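import Cfsg.Statements.S0238
import Cfsg.Agent.Lib.Invol
import Cfsg.Agent.S0236

set_option autoImplicit false
open Cfsg

namespace Cfsg.Agent.S0238

/-- For every x in a finite group G, the number c of ordered pairs (u, v) of involutions with uv = x is at most |C_G(x)|; c = 0 when x is not conjugate to x⁻¹; and c + 2 ≤ |C_G(x)| when x is an involution. -/
theorem result {G : Type*} [Group G] [Finite G] (x : G) : Nat.card {p : G × G // orderOf p.1 = 2 ∧ orderOf p.2 = 2 ∧ p.1 * p.2 = x} ≤ Nat.card (Subgroup.centralizer ({x} : Set G)) ∧ (¬ IsConj x x⁻¹ → Nat.card {p : G × G // orderOf p.1 = 2 ∧ orderOf p.2 = 2 ∧ p.1 * p.2 = x} = 0) ∧ (orderOf x = 2 → Nat.card {p : G × G // orderOf p.1 = 2 ∧ orderOf p.2 = 2 ∧ p.1 * p.2 = x} + 2 ≤ Nat.card (Subgroup.centralizer ({x} : Set G))) := by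
  have hinv : ∀ u : G, orderOf u = 2 → u * u = 1 := fun u hu => by
    rw [← pow_two, ← hu]; exact pow_orderOf_eq_one u
  have hreal : ∀ p : {p : G × G // orderOf p.1 = 2 ∧ orderOf p.2 = 2 ∧ p.1 * p.2 = x}, p.1.1 * x * p.1.1⁻¹ = x⁻¹ := by
    rintro ⟨⟨u, v⟩, hu, hv, huv⟩
    simp only at hu hv huv ⊢
    rw [← huv, mul_inv_rev, inv_eq_of_mul_eq_one_left (hinv _ hu), inv_eq_of_mul_eq_one_left (hinv _ hv), ← mul_assoc, hinv _ hu, one_mul]
  have h0 : ¬ IsConj x x⁻¹ → Nat.card {p : G × G // orderOf p.1 = 2 ∧ orderOf p.2 = 2 ∧ p.1 * p.2 = x} = 0 := by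
    intro h
    rw [Nat.card_eq_zero]
    left
    exact ⟨fun p => h (isConj_iff.mpr ⟨_, hreal p⟩)⟩
  refine ⟨?_, h0, ?_⟩
  · by_cases h : IsConj x x⁻¹
    · obtain ⟨c, hc⟩ := isConj_iff.mp h
      have h3 : x * c⁻¹ = c⁻¹ * x⁻¹ := by rw [← hc]; group
      refine Nat.card_le_card_of_injective (fun p => ⟨c⁻¹ * p.1.1, ?_⟩) ?_
      · have h1 := hreal p
        rw [Subgroup.mem_centralizer_singleton_iff]
        have h2 : p.1.1 * x = x⁻¹ * p.1.1 := mul_inv_eq_iff_eq_mul.mp h1
        rw [← mul_assoc, h3, mul_assoc, h2, mul_assoc]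
      · rintro ⟨⟨u, v⟩, hu, hv, huv⟩ ⟨⟨u', v'⟩, hu', hv', huv'⟩ he
        simp only at hu hv huv hu' hv' huv' he
        have he : c⁻¹ * u = c⁻¹ * u' := congrArg Subtype.val he
        have : u = u' := mul_left_cancel he
        subst this
        have : v = v' := mul_left_cancel (huv.trans huv'.symm)
        subst this; rfl
    · rw [h0 h]; exact Nat.zero_le _
  · intro hx
    have h1 := Cfsg.Agent.S0236.result x hx
    have h2 : Nat.card (Option {t : G // orderOf t = 2 ∧ Commute t x}) ≤ Nat.card (Subgroup.centralizer ({x} : Set G)) := by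
      refine Nat.card_le_card_of_injective (fun o => o.elim 1 (fun t => ⟨t.1, Subgroup.mem_centralizer_singleton_iff.mpr t.2.2⟩)) ?_
      rintro (_ | ⟨t, ht, htx⟩) (_ | ⟨s, hs, hsx⟩) he
      · rfl
      · exfalso
        have he : 1 = s := congrArg Subtype.val he
        rw [← he, orderOf_one] at hs; omega
      · exfalso
        have he : t = 1 := congrArg Subtype.val he
        rw [he, orderOf_one] at ht; omega
      · have he : t = s := congrArg Subtype.val he
        subst he; rfl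
    rw [Finite.card_option] at h2
    omega

end Cfsg.Agent.S0238
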