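import Cfsg.Statements.S0233
import Cfsg.Agent.Lib.Invol
import Cfsg.Agent.S0238

set_option autoImplicit false
open Cfsg

namespace Cfsg.Agent.S0233

/-- extended centralizer -/
def cstar {G : Type*} [Group G] (x : G) : Subgroup G where
  carrier := {g | g * x * g⁻¹ = x ∨ g * x * g⁻¹ = x⁻¹}
  one_mem' := by left; simp
  mul_mem' := by
    intro a b ha hb
    have key : a * b * x * (a * b)⁻¹ = a * (b * x * b⁻¹) * a⁻¹ := by group
    have key2 : a * x⁻¹ * a⁻¹ = (a * x * a⁻¹)⁻¹ := by group
    simp only [Set.mem_setOf_eq] at *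
    rw [key]
    rcases hb with hb | hb <;> rcases ha with ha | ha <;> rw [hb]
    · left; exact ha
    · right; exact ha
    · right; rw [key2, ha]
    · left; rw [key2, ha, inv_inv]
  inv_mem' := by
    intro a ha
    simp only [Set.mem_setOf_eq] at *
    rcases ha with ha | ha
    · left
      have : a⁻¹ * (a * x * a⁻¹) * a⁻¹⁻¹ = x := by group
      rw [ha] at this; exact this
    · right
      have : a⁻¹ * (a * x * a⁻¹)⁻¹ * a⁻¹⁻¹ = x⁻¹ := by group
      rw [ha, inv_inv] at this; exact this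

theorem centralizer_le_cstar {G : Type*} [Group G] (x : G) : Subgroup.centralizer ({x} : Set G) ≤ cstar x := by
  intro g hg
  rw [Subgroup.mem_centralizer_singleton_iff] at hg
  left; rw [hg, mul_inv_cancel_right]

theorem card_cstar {G : Type*} [Group G] [Finite G] (x : G) (hx : x * x ≠ 1) (hr : IsConj x x⁻¹) :
    Nat.card (cstar x) = 2 * Nat.card (Subgroup.centralizer ({x} : Set G)) := by
  classical
  obtain ⟨c, hc⟩ := isConj_iff.mp hr
  have hcc : c ∈ cstar x := Or.inr hc
  have hxx : x ≠ x⁻¹ := fun h => hx (by nth_rewrite 1 [h]; exact inv_mul_cancel x)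
  have e : (cstar x) ≃ (Subgroup.centralizer ({x} : Set G)) ⊕ (Subgroup.centralizer ({x} : Set G)) := by
    refine (Equiv.ofBijective (fun s : (Subgroup.centralizer ({x} : Set G)) ⊕ (Subgroup.centralizer ({x} : Set G)) =>
      (s.elim (fun g => ⟨g.1, centralizer_le_cstar x g.2⟩) (fun g => ⟨c * g.1, mul_mem hcc (centralizer_le_cstar x g.2)⟩) : cstar x)) ⟨?_, ?_⟩).symm
    · have h2 : ∀ g h : G, g ∈ Subgroup.centralizer ({x} : Set G) → h ∈ Subgroup.centralizer ({x} : Set G) → g ≠ c * h := by
        intro g h hg hh hgh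
        rw [Subgroup.mem_centralizer_singleton_iff] at hg hh
        have h3 : g * x * g⁻¹ = x := by rw [hg, mul_inv_cancel_right]
        rw [hgh] at h3
        have h4 : c * h * x * (c * h)⁻¹ = c * (h * x * h⁻¹) * c⁻¹ := by group
        rw [h4, hh, mul_inv_cancel_right, hc] at h3
        exact hxx h3.symm
      rintro (⟨g, hg⟩ | ⟨g, hg⟩) (⟨h, hh⟩ | ⟨h, hh⟩) hgh
      · have : g = h := congrArg Subtype.val hgh
        subst this; rfl
      · exact absurd (congrArg Subtype.val hgh) (h2 g h hg hh)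
      · exact absurd (congrArg Subtype.val hgh).symm (h2 h g hh hg)
      · have : c * g = c * h := congrArg Subtype.val hgh
        have : g = h := mul_left_cancel this
        subst this; rfl
    · rintro ⟨g, hg | hg⟩
      · exact ⟨Sum.inl ⟨g, by rw [Subgroup.mem_centralizer_singleton_iff]; exact mul_inv_eq_iff_eq_mul.mp hg⟩, rfl⟩
      · refine ⟨Sum.inr ⟨c⁻¹ * g, ?_⟩, Subtype.ext ?_⟩
        · rw [Subgroup.mem_centralizer_singleton_iff]
          apply mul_inv_eq_iff_eq_mul.mp
          have : c⁻¹ * g * x * (c⁻¹ * g)⁻¹ = c⁻¹ * (g * x * g⁻¹) * c := by group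
          rw [this, hg, ← hc]; group
        · show c * (c⁻¹ * g) = g
          group
  rw [Nat.card_congr e, Nat.card_sum, two_mul]

/-- number of pairs of involutions with product `x` -/
noncomputable def bta {G : Type*} [Group G] (x : G) : ℕ :=
  Nat.card {p : G × G // orderOf p.1 = 2 ∧ orderOf p.2 = 2 ∧ p.1 * p.2 = x}

theorem bta_one {G : Type*} [Group G] [Finite G] : bta (1 : G) = Nat.card {t : G // orderOf t = 2} := by
  refine Nat.card_congr ⟨fun p => ⟨p.1.1, p.2.1⟩, fun t => ⟨(t.1, t.1⁻¹), t.2, by rw [orderOf_inv]; exact t.2, mul_inv_cancel _⟩, ?_, ?_⟩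
  · rintro ⟨⟨u, v⟩, hu, hv, huv⟩
    simp only at huv
    have : v = u⁻¹ := eq_inv_of_mul_eq_one_right huv
    subst this; rfl
  · rintro ⟨t, ht⟩; rfl

theorem sum_bta {G : Type*} [Group G] [Fintype G] : ∑ x : G, bta x = (Nat.card {t : G // orderOf t = 2}) ^ 2 := by
  classical
  have h1 : (Nat.card {t : G // orderOf t = 2}) ^ 2 = Nat.card (Σ x : G, {p : G × G // orderOf p.1 = 2 ∧ orderOf p.2 = 2 ∧ p.1 * p.2 = x}) := by
    rw [pow_two, ← Nat.card_prod]
    refine Nat.card_congr ⟨fun p => ⟨p.1.1 * p.2.1, ⟨(p.1.1, p.2.1), p.1.2, p.2.2, rfl⟩⟩, fun q => (⟨q.2.1.1, q.2.2.1⟩, ⟨q.2.1.2, q.2.2.2.1⟩), ?_, ?_⟩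
    · rintro ⟨⟨a, ha⟩, ⟨b, hb⟩⟩; rfl
    · rintro ⟨x, ⟨⟨a, b⟩, ha, hb, rfl⟩⟩; rfl
  rw [h1, Nat.card_sigma]; rfl

theorem exists_invol {G : Type*} [Group G] [Finite G] (heven : Even (Nat.card G)) : 0 < Nat.card {t : G // orderOf t = 2} := by
  obtain ⟨t, ht⟩ := exists_prime_orderOf_dvd_card' 2 heven.two_dvd
  haveI : Nonempty {t : G // orderOf t = 2} := ⟨⟨t, ht⟩⟩
  exact Nat.card_pos


/-- Let G be a finite group of even order with exactly n involutions whose centre has odd order, and put a = |G|/n. Then G has a proper subgroup H with |G : H| = 2 or |G : H| < a(a+1)/2; over ℕ the latter reads 2·|G:H|·n² < |G|·(|G| + n). -/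
theorem result {G : Type*} [Group G] [Finite G] (heven : Even (Nat.card G)) (hZ : Odd (Nat.card (Subgroup.center G))) : ∃ H : Subgroup G, H ≠ ⊤ ∧ (H.index = 2 ∨ 2 * H.index * (Nat.card {t : G // orderOf t = 2}) ^ 2 < Nat.card G * (Nat.card G + Nat.card {t : G // orderOf t = 2})) := by
  classical
  haveI := Fintype.ofFinite G
  by_contra hcon
  push Not at hcon
  set n := Nat.card {t : G // orderOf t = 2} with hn
  have hnpos : 0 < n := exists_invol heven
  have hGpos : 0 < Nat.card G := Nat.card_pos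
  set A := Nat.card G * (Nat.card G + n) with hA
  have hnc : ∀ x : G, x ≠ 1 → IsConj x x⁻¹ → x ∉ Subgroup.center G := by
    intro x hx hr hxc
    obtain ⟨c, hc⟩ := isConj_iff.mp hr
    have h1 := (Subgroup.mem_center_iff.mp hxc) c
    rw [h1, mul_inv_cancel_right] at hc
    have h2 : x ^ 2 = 1 := by rw [pow_two]; nth_rewrite 1 [hc]; exact inv_mul_cancel x
    have h3 : orderOf (⟨x, hxc⟩ : Subgroup.center G) = 2 := by
      rw [Subgroup.orderOf_mk]; exact orderOf_eq_prime h2 hx
    have h4 := orderOf_dvd_natCard (⟨x, hxc⟩ : Subgroup.center G)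
    rw [h3] at h4
    exact (Nat.not_even_iff_odd.mpr hZ) (even_iff_two_dvd.mpr h4)
  have hcne : ∀ x : G, x ∉ Subgroup.center G → Subgroup.centralizer ({x} : Set G) ≠ ⊤ := by
    intro x hx h
    apply hx
    rw [Subgroup.mem_center_iff]
    intro g
    have : g ∈ Subgroup.centralizer ({x} : Set G) := by rw [h]; trivial
    exact Subgroup.mem_centralizer_singleton_iff.mp this
  have hprop : ∀ H : Subgroup G, H ≠ ⊤ → Nat.card H * A ≤ 2 * n ^ 2 * Nat.card G := by
    intro H hH
    have h1 := (hcon H hH).2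
    have h2 := H.card_mul_index
    calc Nat.card H * A ≤ Nat.card H * (2 * H.index * n ^ 2) := Nat.mul_le_mul_left _ h1
      _ = 2 * n ^ 2 * (Nat.card H * H.index) := by ring
      _ = _ := by rw [h2]
  -- bounds
  have b1 : ∀ x : G, orderOf x = 2 → bta x * A + 2 * A ≤ 2 * n ^ 2 * Nat.card G := by
    intro x hx
    have h1 := (Cfsg.Agent.S0238.result x).2.2 hx
    have hx1 : x ≠ 1 := by rintro rfl; rw [orderOf_one] at hx; omega
    have hxx := CfsgLib.Invol.mul_self_of_orderOf hx
    have h2 := hprop _ (hcne x (hnc x hx1 (by rw [CfsgLib.Invol.inv_eq_of_mul_self hxx])))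
    calc bta x * A + 2 * A = (bta x + 2) * A := by ring
      _ ≤ Nat.card (Subgroup.centralizer ({x} : Set G)) * A := Nat.mul_le_mul_right _ h1
      _ ≤ _ := h2
  have b2 : ∀ x : G, x ≠ 1 → orderOf x ≠ 2 → bta x * A ≤ n ^ 2 * Nat.card G := by
    intro x hx1 hx2
    by_cases hr : IsConj x x⁻¹
    · have hxx : x * x ≠ 1 := fun h => hx2 (orderOf_eq_prime (by rw [pow_two]; exact h) hx1)
      have h1 := (Cfsg.Agent.S0238.result x).1
      have h3 := card_cstar x hxx hr
      have h4 : cstar x ≠ ⊤ := by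
        intro h
        rw [h, Subgroup.card_top] at h3
        have h5 := (Subgroup.centralizer ({x} : Set G)).card_mul_index
        have h6 : (Subgroup.centralizer ({x} : Set G)).index = 2 := by
          rw [h3, mul_comm] at h5
          exact Nat.eq_of_mul_eq_mul_right Nat.card_pos h5
        exact (hcon _ (hcne x (hnc x hx1 hr))).1 h6
      have h5 := hprop _ h4
      rw [h3] at h5
      have h6 : Nat.card (Subgroup.centralizer ({x} : Set G)) * A ≤ n ^ 2 * Nat.card G := by
        have h7 : 2 * (Nat.card (Subgroup.centralizer ({x} : Set G)) * A) ≤ 2 * (n ^ 2 * Nat.card G) := by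
          calc _ = 2 * Nat.card (Subgroup.centralizer ({x} : Set G)) * A := by ring
            _ ≤ 2 * n ^ 2 * Nat.card G := h5
            _ = _ := by ring
        exact Nat.le_of_mul_le_mul_left h7 (by norm_num)
      exact (Nat.mul_le_mul_right _ h1).trans h6
    · have h1 := (Cfsg.Agent.S0238.result x).2.1 hr
      have h2 : bta x = 0 := h1
      rw [h2, zero_mul]; exact Nat.zero_le _
  -- sum
  set I := Finset.univ.filter (fun x : G => orderOf x = 2) with hI
  set R := Finset.univ.filter (fun x : G => x ≠ 1 ∧ orderOf x ≠ 2) with hR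
  have hIc : I.card = n := by rw [hn, Nat.card_eq_fintype_card, Fintype.card_subtype]
  have hun : (Finset.univ : Finset G) = {1} ∪ (I ∪ R) := by
    ext x
    simp only [Finset.mem_univ, Finset.mem_union, Finset.mem_singleton, hI, hR, Finset.mem_filter, true_and, true_iff]
    tauto
  have hd1 : Disjoint ({1} : Finset G) (I ∪ R) := by
    rw [Finset.disjoint_singleton_left]
    rw [Finset.mem_union, hI, hR, Finset.mem_filter, Finset.mem_filter]
    rintro (h | h)
    · have := h.2; rw [orderOf_one] at this; omega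
    · exact h.2.1 rfl
  have hd2 : Disjoint I R := by
    rw [Finset.disjoint_filter]
    intro x _ hx h; exact h.2 hx
  have hcardG : Nat.card G = 1 + (n + R.card) := by
    rw [Nat.card_eq_fintype_card, ← Finset.card_univ, hun, Finset.card_union_of_disjoint hd1, Finset.card_union_of_disjoint hd2,
      Finset.card_singleton, hIc]
  have hsum := sum_bta (G := G)
  rw [hun, Finset.sum_union hd1, Finset.sum_union hd2, Finset.sum_singleton, bta_one, ← hn] at hsum
  have s1 : (∑ x ∈ I, bta x) * A + n * (2 * A) ≤ n * (2 * n ^ 2 * Nat.card G) := by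
    rw [Finset.sum_mul, ← hIc, ← smul_eq_mul, ← Finset.sum_const, ← smul_eq_mul (I.card), ← Finset.sum_const, ← Finset.sum_add_distrib]
    apply Finset.sum_le_sum
    intro x hx
    rw [hI, Finset.mem_filter] at hx
    rw [hIc]
    exact b1 x hx.2
  have s2 : (∑ x ∈ R, bta x) * A ≤ R.card * (n ^ 2 * Nat.card G) := by
    rw [Finset.sum_mul, ← smul_eq_mul (R.card), ← Finset.sum_const]
    apply Finset.sum_le_sum
    intro x hx
    rw [hR, Finset.mem_filter] at hx
    exact b2 x hx.2.1 hx.2.2
  generalize (∑ x ∈ I, bta x) = SI at *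
  generalize (∑ x ∈ R, bta x) = SR at *
  generalize R.card = r at *
  have hApos : 0 < A := by rw [hA]; positivity
  have h1 : n ^ 2 * A + n * A + n ^ 2 * Nat.card G ≤ n ^ 2 * A := by
    have h2 : n ^ 2 * A + 2 * (n * A) ≤ n * A + n * (2 * n ^ 2 * Nat.card G) + r * (n ^ 2 * Nat.card G) := by
      calc n ^ 2 * A + 2 * (n * A) = (n + (SI + SR)) * A + 2 * (n * A) := by rw [hsum]
        _ = n * A + (SI * A + n * (2 * A)) + SR * A := by ring
        _ ≤ n * A + n * (2 * n ^ 2 * Nat.card G) + r * (n ^ 2 * Nat.card G) := by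
          apply Nat.add_le_add _ s2
          exact Nat.add_le_add_left s1 _
    have h3 : n * (2 * n ^ 2 * Nat.card G) + r * (n ^ 2 * Nat.card G) + n ^ 2 * Nat.card G = n ^ 2 * A := by
      calc n * (2 * n ^ 2 * Nat.card G) + r * (n ^ 2 * Nat.card G) + n ^ 2 * Nat.card G
          = n ^ 2 * (Nat.card G * ((1 + (n + r)) + n)) := by ring
        _ = _ := by rw [← hcardG]
    linarith
  have h4 : 0 < n * A := by positivity
  omega

end Cfsg.Agent.S0233
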