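import Cfsg.Statements.S0212
import Cfsg.Agent.Lib.Invol
import Cfsg.Agent.S0233

set_option autoImplicit false
open Cfsg

namespace Cfsg.Agent.S0212

/-- a finite simple group with a proper subgroup of index k has order at most k! -/
theorem card_le_factorial {G : Type*} [Group G] [Finite G] [IsSimpleGroup G] (H : Subgroup G) (hH : H ≠ ⊤) :
    Nat.card G ≤ Nat.factorial H.index := by
  classical
  have hinj : Function.Injective (MulAction.toPermHom G (G ⧸ H)) := by
    rw [← MonoidHom.ker_eq_bot_iff, ← Subgroup.normalCore_eq_ker]
    rcases (inferInstance : H.normalCore.Normal).eq_bot_or_eq_top with h | h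
    · exact h
    · exfalso; apply hH
      rw [eq_top_iff, ← h]; exact H.normalCore_le
  have h1 := Nat.card_le_card_of_injective _ hinj
  rw [Nat.card_perm, ← Subgroup.index_eq_card] at h1
  exact h1


/-- The Brauer–Fowler bound: if G is a finite simple group and t an involution of G whose centralizer has order n, then |G| ≤ (2n^2)!. -/
theorem result {G : Type*} [Group G] [Finite G] [IsSimpleGroup G] (t : G) (ht : orderOf t = 2) : Nat.card G ≤ Nat.factorial (2 * (Nat.card (Subgroup.centralizer ({t} : Set G))) ^ 2) := by
  have hnpos : 0 < Nat.card (Subgroup.centralizer ({t} : Set G)) := Nat.card_pos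
  by_cases hZ : Odd (Nat.card (Subgroup.center G))
  · have heven : Even (Nat.card G) := by
      rw [even_iff_two_dvd, ← ht]; exact orderOf_dvd_natCard t
    obtain ⟨H, hH, h⟩ := Cfsg.Agent.S0233.result heven hZ
    refine (card_le_factorial H hH).trans (Nat.factorial_le ?_)
    have h1 := CfsgLib.Invol.card_conj_mul_card_centralizer t
    have h2 : Nat.card {y : G // IsConj t y} ≤ Nat.card {t : G // orderOf t = 2} := by
      refine Nat.card_le_card_of_injective (fun y => ⟨y.1, ?_⟩) ?_
      · rw [← CfsgLib.Invol.orderOf_of_isConj y.2]; exact ht
      · intro a b hab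
        have h9 : a.1 = b.1 := congrArg (fun z : {t : G // orderOf t = 2} => z.1) hab
        exact Subtype.ext h9
    generalize Nat.card (Subgroup.centralizer ({t} : Set G)) = n at *
    generalize Nat.card {y : G // IsConj t y} = k at *
    have hm0 := Cfsg.Agent.S0233.exists_invol heven
    generalize Nat.card {t : G // orderOf t = 2} = m at *
    rcases h with h | h
    · rw [h]; nlinarith
    · have h3 : Nat.card G ≤ m * n := by rw [← h1]; exact Nat.mul_le_mul_right _ h2
      have h4 : 2 * H.index * m ^ 2 < m ^ 2 * (n * (n + 1)) := by
        calc 2 * H.index * m ^ 2 < Nat.card G * (Nat.card G + m) := h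
          _ ≤ (m * n) * (m * n + m) := Nat.mul_le_mul h3 (Nat.add_le_add_right h3 _)
          _ = _ := by ring
      have h5 : 2 * H.index < n * (n + 1) := by
        by_contra hc
        push Not at hc
        have := Nat.mul_le_mul_left (m ^ 2) hc
        nlinarith
      nlinarith
  · have hc : Subgroup.center G = ⊤ := by
      rcases (inferInstance : (Subgroup.center G).Normal).eq_bot_or_eq_top with h | h
      · exfalso; apply hZ; rw [h, Subgroup.card_bot]; exact odd_one
      · exact h
    have h1 : Subgroup.centralizer ({t} : Set G) = ⊤ := by
      rw [eq_top_iff]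
      intro g _
      rw [Subgroup.mem_centralizer_singleton_iff]
      have : t ∈ Subgroup.center G := by rw [hc]; trivial
      exact (Subgroup.mem_center_iff.mp this) g
    rw [h1, Subgroup.card_top]
    refine le_trans ?_ (Nat.self_le_factorial _)
    have : 0 < Nat.card G := Nat.card_pos
    nlinarith

end Cfsg.Agent.S0212
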