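import Cfsg.Statements.S0213
import Cfsg.Agent.Lib.Invol

set_option autoImplicit false
open Cfsg

namespace Cfsg.Agent.S0213

/-- Thompson Order Formula, two-class case: if every involution of the finite group G is conjugate to exactly one of the non-conjugate involutions x₁, x₂, and nᵢ is the number of pairs (u, v) with u conjugate to x₁, v conjugate to x₂ and xᵢ in the cyclic group generated by uv, then |G| = |C(x₂)| n₁ + |C(x₁)| n₂. -/
theorem result {G : Type*} [Group G] [Finite G] (x₁ x₂ : G) (h₁ : orderOf x₁ = 2) (h₂ : orderOf x₂ = 2) (hnc : ¬ IsConj x₁ x₂) (hall : ∀ t : G, orderOf t = 2 → IsConj x₁ t ∨ IsConj x₂ t) : Nat.card G = Nat.card (Subgroup.centralizer ({x₂} : Set G)) * Nat.card {p : G × G // IsConj x₁ p.1 ∧ IsConj x₂ p.2 ∧ x₁ ∈ Subgroup.zpowers (p.1 * p.2)} + Nat.card (Subgroup.centralizer ({x₁} : Set G)) * Nat.card {p : G × G // IsConj x₁ p.1 ∧ IsConj x₂ p.2 ∧ x₂ ∈ Subgroup.zpowers (p.1 * p.2)} := by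
  classical
  haveI := Fintype.ofFinite G
  have h₁' := CfsgLib.Invol.mul_self_of_orderOf h₁
  have h₂' := CfsgLib.Invol.mul_self_of_orderOf h₂
  have hord : ∀ {x y : G}, IsConj x y → orderOf x = orderOf y := by
    intro x y h
    obtain ⟨c, hc⟩ := isConj_iff.mp h
    rw [← hc, ← MulAut.conj_apply]; exact (MulEquiv.orderOf_eq _ _).symm
  have hev : ∀ u v, IsConj x₁ u → IsConj x₂ v → Even (orderOf (u * v)) := by
    intro u v hu hv
    refine CfsgLib.Invol.even_of_not_isConj (CfsgLib.Invol.mul_self_of_orderOf ((hord hu).symm.trans h₁))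
      (CfsgLib.Invol.mul_self_of_orderOf ((hord hv).symm.trans h₂)) (fun h => hnc ((hu.trans h).trans hv.symm))
  set F : G → ℕ := fun z => Nat.card {p : G × G // IsConj x₁ p.1 ∧ IsConj x₂ p.2 ∧ z ∈ Subgroup.zpowers (p.1 * p.2)} with hF
  have hFinv : ∀ z w, IsConj z w → F w = F z := by
    intro z w h
    obtain ⟨g, rfl⟩ := isConj_iff.mp h
    have hc1 : ∀ x a : G, IsConj x a ↔ IsConj x (g⁻¹ * a * g) := by
      intro x a
      have h1 : IsConj a (g⁻¹ * a * g) := isConj_iff.mpr ⟨g⁻¹, by rw [inv_inv]⟩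
      exact ⟨fun h => h.trans h1, fun h => h.trans h1.symm⟩
    have hc2 : ∀ c a : G, c ∈ Subgroup.zpowers a ↔ g * c * g⁻¹ ∈ Subgroup.zpowers (g * a * g⁻¹) := by
      intro c a
      constructor
      · rintro ⟨k, rfl⟩
        exact ⟨k, by simp only [conj_zpow]⟩
      · rintro ⟨k, hk⟩
        refine ⟨k, ?_⟩
        simp only [conj_zpow] at hk
        exact mul_left_cancel (mul_right_cancel hk)
    refine Nat.card_congr ⟨fun p => ⟨(g⁻¹ * p.1.1 * g, g⁻¹ * p.1.2 * g), (hc1 _ _).mp p.2.1, (hc1 _ _).mp p.2.2.1, ?_⟩,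
      fun p => ⟨(g * p.1.1 * g⁻¹, g * p.1.2 * g⁻¹), ?_, ?_, ?_⟩, ?_, ?_⟩
    · rw [hc2]
      have : g * (g⁻¹ * p.1.1 * g * (g⁻¹ * p.1.2 * g)) * g⁻¹ = p.1.1 * p.1.2 := by group
      simp only [this]; exact p.2.2.2
    · simp only
      rw [hc1]
      have : g⁻¹ * (g * p.1.1 * g⁻¹) * g = p.1.1 := by group
      rw [this]; exact p.2.1
    · simp only
      rw [hc1]
      have : g⁻¹ * (g * p.1.2 * g⁻¹) * g = p.1.2 := by group
      rw [this]; exact p.2.2.1
    · simp only
      have : (g * p.1.1 * g⁻¹ * (g * p.1.2 * g⁻¹)) = g * (p.1.1 * p.1.2) * g⁻¹ := by group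
      rw [this, ← hc2]; exact p.2.2.2
    · rintro ⟨⟨a, b⟩, h⟩
      apply Subtype.ext
      apply Prod.ext <;> simp only <;> group
    · rintro ⟨⟨a, b⟩, h⟩
      apply Subtype.ext
      apply Prod.ext <;> simp only <;> group
  have e1 : Nat.card {p : G × G // IsConj x₁ p.1 ∧ IsConj x₂ p.2} = Nat.card {u : G // IsConj x₁ u} * Nat.card {v : G // IsConj x₂ v} := by
    rw [← Nat.card_prod]
    exact Nat.card_congr Equiv.subtypeProdEquivProd
  have e2 : Nat.card {p : G × G // IsConj x₁ p.1 ∧ IsConj x₂ p.2} = Nat.card (Σ z : {z : G // orderOf z = 2}, {p : G × G // IsConj x₁ p.1 ∧ IsConj x₂ p.2 ∧ z.1 ∈ Subgroup.zpowers (p.1 * p.2)}) := by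
    refine Nat.card_congr ⟨fun p => ⟨⟨CfsgLib.Invol.zi p.1.1 p.1.2, CfsgLib.Invol.orderOf_zi (hev _ _ p.2.1 p.2.2)⟩,
      ⟨p.1, p.2.1, p.2.2, CfsgLib.Invol.zi_mem _ _⟩⟩, fun q => ⟨q.2.1, q.2.2.1, q.2.2.2.1⟩, ?_, ?_⟩
    · intro p; rfl
    · rintro ⟨⟨z, hz⟩, ⟨⟨a, b⟩, ha, hb, hab⟩⟩
      simp only at hab ha hb ⊢
      have := CfsgLib.Invol.zi_unique (hev _ _ ha hb) hz hab
      subst this
      rfl
  rw [Nat.card_sigma] at e2
  have e3 : ∑ z : {z : G // orderOf z = 2}, F z.1 = ∑ z ∈ Finset.univ.filter (fun z : G => orderOf z = 2), F z := by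
    rw [Finset.sum_subtype (p := fun z : G => orderOf z = 2)]
    intro x; simp
  have e4 : (Finset.univ.filter (fun z : G => orderOf z = 2)) = (Finset.univ.filter (fun z : G => IsConj x₁ z)) ∪ (Finset.univ.filter (fun z : G => IsConj x₂ z)) := by
    ext z
    simp only [Finset.mem_filter, Finset.mem_univ, true_and, Finset.mem_union]
    constructor
    · exact hall z
    · rintro (h | h)
      · exact (hord h).symm.trans h₁
      · exact (hord h).symm.trans h₂
  have e5 : Disjoint (Finset.univ.filter (fun z : G => IsConj x₁ z)) (Finset.univ.filter (fun z : G => IsConj x₂ z)) := by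
    rw [Finset.disjoint_filter]
    intro z _ h h'
    exact hnc (h.trans h'.symm)
  have e6 : ∀ x : G, ∑ z ∈ Finset.univ.filter (fun z : G => IsConj x z), F z = Nat.card {z : G // IsConj x z} * F x := by
    intro x
    rw [Finset.sum_congr rfl (g := fun _ => F x)]
    · rw [Finset.sum_const, smul_eq_mul, Nat.card_eq_fintype_card, Fintype.card_subtype]
    · intro z hz
      rw [Finset.mem_filter] at hz
      exact hFinv _ _ hz.2
  have e7 : Nat.card {u : G // IsConj x₁ u} * Nat.card {v : G // IsConj x₂ v} = Nat.card {u : G // IsConj x₁ u} * F x₁ + Nat.card {v : G // IsConj x₂ v} * F x₂ := by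
    rw [← e1, e2, ← e6, ← e6, ← Finset.sum_union e5, ← e4, ← e3]
  have c1 := CfsgLib.Invol.card_conj_mul_card_centralizer x₁
  have c2 := CfsgLib.Invol.card_conj_mul_card_centralizer x₂
  have hpos : 0 < Nat.card G := Nat.card_pos
  show Nat.card G = Nat.card (Subgroup.centralizer ({x₂} : Set G)) * F x₁ + Nat.card (Subgroup.centralizer ({x₁} : Set G)) * F x₂
  generalize Nat.card (Subgroup.centralizer ({x₁} : Set G)) = a₁ at *
  generalize Nat.card (Subgroup.centralizer ({x₂} : Set G)) = a₂ at *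
  generalize Nat.card {u : G // IsConj x₁ u} = b₁ at *
  generalize Nat.card {u : G // IsConj x₂ u} = b₂ at *
  apply Nat.eq_of_mul_eq_mul_left hpos
  calc Nat.card G * Nat.card G = (b₁ * a₁) * (b₂ * a₂) := by rw [c1, c2]
    _ = (b₁ * b₂) * (a₁ * a₂) := by ring
    _ = (b₁ * F x₁ + b₂ * F x₂) * (a₁ * a₂) := by rw [e7]
    _ = (b₁ * a₁) * (a₂ * F x₁) + (b₂ * a₂) * (a₁ * F x₂) := by ring
    _ = _ := by rw [c1, c2]; ring

end Cfsg.Agent.S0213
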