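import Cfsg.Statements.S0216
import Cfsg.Agent.Lib.Invol
import Cfsg.Agent.S0210

set_option autoImplicit false
open Cfsg

namespace Cfsg.Agent.S0216

/-- For an involution u in a Sylow 2-subgroup P of a finite group G, the following are equivalent: no G-conjugate of u other than u lies in P; every commutator of u with an element of G has odd order. -/
theorem result {G : Type*} [Group G] [Finite G] (P : Sylow 2 G) (u : G) (hu : orderOf u = 2) (huP : u ∈ P) : (∀ g : G, g * u * g⁻¹ ∈ P → g * u * g⁻¹ = u) ↔ (∀ g : G, Odd (orderOf (u * g * u⁻¹ * g⁻¹))) := by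
  have hu' := CfsgLib.Invol.mul_self_of_orderOf hu
  constructor
  · intro hiso g
    rw [← Nat.not_even_iff_odd]
    intro heven
    have huinv := CfsgLib.Invol.inv_eq_of_mul_self hu'
    set v := g * u * g⁻¹ with hv
    have h1 : u * g * u⁻¹ * g⁻¹ = u * v := by rw [huinv, hv]; group
    rw [h1] at heven
    have hv2 : orderOf v = 2 := by
      rw [hv, ← MulAut.conj_apply, ← hu]; exact MulEquiv.orderOf_eq _ _
    set D := Subgroup.closure ({u, v} : Set G) with hD
    have huD : u ∈ D := Subgroup.subset_closure (by simp)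
    have hvD : v ∈ D := Subgroup.subset_closure (by simp)
    have hpz : ∀ w : D, orderOf (w : G) = 2 → IsPGroup 2 (Subgroup.zpowers w) := by
      intro w hw
      apply IsPGroup.of_card (n := 1)
      rw [Nat.card_zpowers, ← Subgroup.orderOf_coe, hw, pow_one]
    obtain ⟨Q, hQ⟩ := (hpz ⟨u, huD⟩ hu).exists_le_sylow
    obtain ⟨R, hR⟩ := (hpz ⟨v, hvD⟩ hv2).exists_le_sylow
    obtain ⟨d, hd⟩ := MulAction.exists_smul_eq D R Q
    have huQ : (⟨u, huD⟩ : D) ∈ Q := hQ (Subgroup.mem_zpowers _)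
    have hvR : (⟨v, hvD⟩ : D) ∈ R := hR (Subgroup.mem_zpowers _)
    have hvQ : d * (⟨v, hvD⟩ : D) * d⁻¹ ∈ Q := by
      rw [← hd, Sylow.smul_def]
      exact Subgroup.smul_mem_pointwise_smul _ (MulAut.conj d) (R : Subgroup D) hvR
    have h2 : ((d : G) * g) * u * ((d : G) * g)⁻¹ ∈ (Q : Subgroup D).map D.subtype := by
      refine ⟨_, hvQ, ?_⟩
      simp only [Subgroup.subtype_apply, Subgroup.coe_mul, Subgroup.coe_inv, hv]; group
    have h3 := CfsgLib.Invol.isolated_of_isolated P hiso (Q.2.map D.subtype) ⟨_, huQ, rfl⟩ _ h2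
    refine Cfsg.Agent.S0210.result u v hu hv2 heven (d : G)⁻¹ (inv_mem d.2) ?_
    rw [inv_inv]
    nth_rewrite 1 [← h3]
    rw [hv]; group
  · intro h g hg
    have h1 := h g
    have h2 : u * g * u⁻¹ * g⁻¹ ∈ P := by
      have : u * g * u⁻¹ * g⁻¹ = u * (g * u * g⁻¹)⁻¹ := by group
      rw [this]; exact mul_mem huP (inv_mem hg)
    obtain ⟨k, hk⟩ := (IsPGroup.iff_orderOf.mp P.2) ⟨_, h2⟩
    rw [Subgroup.orderOf_mk] at hk
    rw [hk] at h1
    have hk0 : k = 0 := by
      by_contra hk0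
      exact (Nat.not_even_iff_odd.mpr h1) ((Nat.even_pow).mpr ⟨even_two, hk0⟩)
    rw [hk0, pow_zero, orderOf_eq_one_iff] at hk
    have h3 : u * (g * u * g⁻¹)⁻¹ = 1 := by rw [← hk]; group
    rw [mul_inv_eq_one] at h3
    exact h3.symm

end Cfsg.Agent.S0216
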