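import Cfsg.Statements.S0218

set_option autoImplicit false
open Cfsg

namespace Cfsg.Agent.S0218

/-- The generalized quaternion group of order 2^(n+3) contains exactly one element of order 2. -/
theorem result (n : ℕ) : Nat.card {x : QuaternionGroup (2 ^ (n + 1)) // orderOf x = 2} = 1 := by
  rw [Nat.card_eq_one_iff_unique]
  have hpos : 0 < 2 ^ (n + 1) := by positivity
  haveI : NeZero (2 ^ (n + 1)) := ⟨hpos.ne'⟩
  have key : ∀ x : QuaternionGroup (2 ^ (n + 1)), orderOf x = 2 ↔ x = QuaternionGroup.a ((2 ^ (n + 1) : ℕ) : ZMod (2 * 2 ^ (n + 1))) := by
    generalize 2 ^ (n + 1) = N at *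
    intro x
    rcases x with i | i
    · have hi : i.val < 2 * N := ZMod.val_lt i
      constructor
      · intro h
        have h1 : (QuaternionGroup.a i) * (QuaternionGroup.a i) = 1 := by
          have := pow_orderOf_eq_one (QuaternionGroup.a i)
          rw [h, pow_two] at this; exact this
        have h0 : i ≠ 0 := by
          rintro rfl
          rw [← QuaternionGroup.one_def, orderOf_one] at h; omega
        rw [QuaternionGroup.a_mul_a, QuaternionGroup.one_def] at h1
        have h2 : i + i = 0 := by injection h1
        have h3 : ((i.val + i.val : ℕ) : ZMod (2 * N)) = 0 := by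
          push_cast; rw [ZMod.natCast_zmod_val]; exact h2
        rw [ZMod.natCast_eq_zero_iff] at h3
        have h4 : i.val ≠ 0 := by rwa [Ne, ZMod.val_eq_zero]
        obtain ⟨c, hc⟩ := h3
        have hc1 : c = 1 := by
          rcases c with _ | _ | c
          · omega
          · rfl
          · exfalso
            have : 2 * N * (c + 1 + 1) = 2 * N * c + 2 * (2 * N) := by ring
            have h5 : 0 ≤ 2 * N * c := Nat.zero_le _
            omega
        subst hc1
        have h5 : i.val = N := by omega
        have h6 : i = ((N : ℕ) : ZMod (2 * N)) := by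
          nth_rewrite 1 [← ZMod.natCast_zmod_val i]
          exact congrArg (Nat.cast) h5
        exact congrArg QuaternionGroup.a h6
      · intro h
        rw [h]
        apply orderOf_eq_prime
        · rw [pow_two, QuaternionGroup.a_mul_a, QuaternionGroup.one_def]
          congr 1
          rw [← Nat.cast_add, ← two_mul]
          exact ZMod.natCast_self (2 * N)
        · rw [QuaternionGroup.one_def]
          intro h1
          have h2 : ((N : ℕ) : ZMod (2 * N)) = 0 := by injection h1
          rw [ZMod.natCast_eq_zero_iff] at h2
          have := Nat.le_of_dvd hpos h2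
          omega
    · constructor
      · intro h
        rw [QuaternionGroup.orderOf_xa] at h; omega
      · intro h; cases h
  exact ⟨⟨fun a b => Subtype.ext (((key _).mp a.2).trans ((key _).mp b.2).symm)⟩, ⟨⟨_, (key _).mpr rfl⟩⟩⟩

end Cfsg.Agent.S0218
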