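import Cfsg.Statements.S0220
import Cfsg.Agent.Lib.Invol

set_option autoImplicit false
open Cfsg

namespace Cfsg.Agent.S0220

/-- If x is an involution of a finite group G and a Sylow 2-subgroup of the centralizer of x is cyclic, then G has a subgroup of index 2; in particular G is not simple unless it has order 2. -/
theorem result {G : Type*} [Group G] [Finite G] (x : G) (hx : orderOf x = 2) (S : Sylow 2 ↥(Subgroup.centralizer ({x} : Set G))) (hS : IsCyclic (S : Subgroup ↥(Subgroup.centralizer ({x} : Set G)))) : ∃ H : Subgroup G, H.index = 2 := by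
  revert S
  generalize hC : Subgroup.centralizer ({x} : Set G) = C
  intro S hS
  have hmem : ∀ {c : G}, c ∈ C ↔ c * x = x * c := by intro c; rw [← hC]; exact Subgroup.mem_centralizer_singleton_iff
  obtain ⟨T, hT⟩ := (S.2.map C.subtype).exists_le_sylow
  have heven : Even (Nat.card G) := by
    rw [even_iff_two_dvd, ← hx]; exact orderOf_dvd_natCard x
  have hTC : (T : Subgroup G).subgroupOf C = S := by
    refine S.3 (T.2.comap_of_injective C.subtype Subtype.coe_injective) ?_
    intro s hs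
    exact Subgroup.mem_subgroupOf.mpr (hT ⟨s, hs, rfl⟩)
  have hxC : x ∈ C := hmem.mpr rfl
  -- x in S
  have hxS : (⟨x, hxC⟩ : C) ∈ S := by
    have hn : (Subgroup.zpowers (⟨x, hxC⟩ : C)).Normal := by
      constructor
      rintro _ ⟨k, rfl⟩ g
      have h1 : Commute g ⟨x, hxC⟩ := Subtype.ext (hmem.mp g.2)
      have h2 : g * (⟨x, hxC⟩ : C) ^ k * g⁻¹ = (⟨x, hxC⟩ : C) ^ k := by
        rw [(h1.zpow_right k).eq, mul_inv_cancel_right]
      simp only [h2]
      exact Subgroup.zpow_mem_zpowers _ _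
    have hp : IsPGroup 2 (Subgroup.zpowers (⟨x, hxC⟩ : C)) := by
      apply IsPGroup.of_card (n := 1)
      rw [Nat.card_zpowers, Subgroup.orderOf_mk, hx, pow_one]
    have h3 := IsPGroup.to_sup_of_normal_left hp S.2
    have h4 : (⟨x, hxC⟩ : C) ∈ (S : Subgroup C) := by
      rw [← S.3 h3 le_sup_right]
      exact (le_sup_left : _ ≤ Subgroup.zpowers (⟨x, hxC⟩ : C) ⊔ (S : Subgroup C)) (Subgroup.mem_zpowers _)
    exact h4
  have hxT : x ∈ T := hT ⟨⟨x, hxC⟩, hxS, rfl⟩
  -- central involution of T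
  have hTnt : Nontrivial T := ⟨⟨⟨x, hxT⟩, 1, fun h => by
    have h : x = 1 := congrArg Subtype.val h
    rw [h, orderOf_one] at hx; omega⟩⟩
  have hZ := T.2.center_nontrivial
  obtain ⟨z, hz⟩ : ∃ z : Subgroup.center T, orderOf z = 2 := by
    have h1 : IsPGroup 2 (Subgroup.center T) := T.2.to_subgroup _
    obtain ⟨k, hk⟩ := h1.exists_card_eq
    apply exists_prime_orderOf_dvd_card'
    rw [hk]
    apply dvd_pow_self
    rintro rfl
    have := Finite.one_lt_card (α := Subgroup.center T)
    omega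
  have hzc := z.2
  have hz2 : orderOf (z.1.1 : G) = 2 := by rw [Subgroup.orderOf_coe, Subgroup.orderOf_coe]; exact hz
  have hzx : z.1.1 * x = x * z.1.1 := by
    have := Subgroup.mem_center_iff.mp z.2 ⟨x, hxT⟩
    exact (congrArg Subtype.val this).symm
  have hzC : (z.1.1 : G) ∈ C := hmem.mpr hzx
  have hzS : (⟨z.1.1, hzC⟩ : C) ∈ (S : Subgroup C) := by
    rw [← hTC]; exact Subgroup.mem_subgroupOf.mpr z.1.2
  have hzx' : z.1.1 = x := by
    have h1 : (⟨⟨z.1.1, hzC⟩, hzS⟩ : (S : Subgroup C)) = ⟨⟨x, hxC⟩, hxS⟩ :=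
      CfsgLib.Invol.eq_of_isCyclic (by rw [Subgroup.orderOf_mk, Subgroup.orderOf_mk]; exact hz2)
        (by rw [Subgroup.orderOf_mk, Subgroup.orderOf_mk]; exact hx)
    exact congrArg (fun y => (y.1.1 : G)) h1
  have hTleC : (T : Subgroup G) ≤ C := by
    intro t ht
    rw [hmem]
    have := Subgroup.mem_center_iff.mp z.2 ⟨t, ht⟩
    have h2 : t * z.1.1 = z.1.1 * t := congrArg Subtype.val this
    rw [hzx'] at h2; exact h2
  have hTcyc : IsCyclic (T : Subgroup G) := by
    have e := Subgroup.subgroupOfEquivOfLe hTleC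
    rw [hTC] at e
    exact isCyclic_of_surjective e e.surjective
  exact CfsgLib.Invol.exists_index_two_of_cyclic heven T hTcyc

end Cfsg.Agent.S0220
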