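import Cfsg.Statements.S0226
import Mathlib

set_option autoImplicit false
open Cfsg

namespace Cfsg.Agent.S0226

/-- A finite group of even order has an odd number of involutions. -/
theorem result {G : Type*} [Group G] [Finite G] (heven : Even (Nat.card G)) : Odd (Nat.card {t : G // orderOf t = 2}) := by
  classical
  haveI := Fintype.ofFinite G
  let f : Function.End G := fun g => g⁻¹
  have hf : f ^ 2 ^ 1 = 1 := by
    funext g
    exact inv_inv g
  have h := Equiv.Perm.card_fixedPoints_modEq (p := 2) (n := 1) (f := f) hf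
  rw [← Nat.card_eq_fintype_card, ← Nat.card_eq_fintype_card] at h
  have h2 : Nat.card f.fixedPoints = Nat.card {t : G // orderOf t = 2} + 1 := by
    rw [← Finite.card_option]
    refine Nat.card_congr ⟨fun t => if h : t.1 = 1 then none else some ⟨t.1, ?_⟩, fun o => o.elim ⟨1, ?_⟩ (fun t => ⟨t.1, ?_⟩), ?_, ?_⟩
    · refine orderOf_eq_prime ?_ h
      have h3 : t.1⁻¹ = t.1 := t.2
      rw [pow_two]; nth_rewrite 1 [← h3]; exact inv_mul_cancel _
    · show (1 : G)⁻¹ = 1; simp
    · have h3 := pow_orderOf_eq_one t.1
      rw [t.2, pow_two] at h3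
      show (t.1)⁻¹ = t.1
      exact inv_eq_of_mul_eq_one_left h3
    · intro t
      by_cases h : t.1 = 1
      · simp only [h, dif_pos]; exact Subtype.ext h.symm
      · simp only [h, dif_neg, not_false_eq_true]; rfl
    · intro o
      rcases o with _ | t
      · simp
      · have h3 : t.1 ≠ 1 := by
          intro h4; have h5 := t.2; rw [h4, orderOf_one] at h5; omega
        simp [h3]
  rw [h2] at h
  have h5 : (Nat.card {t : G // orderOf t = 2} + 1) % 2 = 0 := by
    rw [← h]; exact Nat.even_iff.mp heven
  rw [Nat.odd_iff]; omega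

end Cfsg.Agent.S0226
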