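import Cfsg.Statements.S0228
import Cfsg.Agent.Lib.Invol

set_option autoImplicit false
open Cfsg

namespace Cfsg.Agent.S0228

/-- A group of order 12 in which no involution is central is isomorphic to the alternating group on four letters. -/
theorem result {G : Type*} [Group G] [Finite G] (hG : Nat.card G = 12) (hz : ∀ z : G, orderOf z = 2 → z ∉ Subgroup.center G) : Nonempty (G ≃* alternatingGroup (Fin 4)) := by
  classical
  haveI : Fact (Nat.Prime 3) := ⟨Nat.prime_three⟩
  let P : Sylow 3 G := default
  have hP3 : Nat.card (P : Subgroup G) = 3 := by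
    have := CfsgLib.Invol.sylow_card (p := 3) (k := 1) (m := 4) (by rw [hG]; norm_num) (by norm_num) P
    rw [this, pow_one]
  have hidx : (P : Subgroup G).index = 4 := by
    have := (P : Subgroup G).card_mul_index
    rw [hP3, hG] at this; omega
  by_cases hcore : (P : Subgroup G).normalCore = ⊥
  · have hinj : Function.Injective (MulAction.toPermHom G (G ⧸ (P : Subgroup G))) := by
      rw [← MonoidHom.ker_eq_bot_iff, ← Subgroup.normalCore_eq_ker, hcore]
    have e1 := MonoidHom.ofInjective hinj
    have hc4 : Nat.card (G ⧸ (P : Subgroup G)) = 4 := by rw [← Subgroup.index_eq_card]; exact hidx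
    obtain ⟨e⟩ : Nonempty ((G ⧸ (P : Subgroup G)) ≃ Fin 4) := by
      rw [← hc4]; exact ⟨Finite.equivFin _⟩
    let f : G →* Equiv.Perm (Fin 4) := (Equiv.permCongrHom e).toMonoidHom.comp (MulAction.toPermHom G (G ⧸ (P : Subgroup G)))
    have hf : Function.Injective f := (Equiv.permCongrHom e).injective.comp hinj
    have hfr : f.range = alternatingGroup (Fin 4) := by
      apply Equiv.Perm.eq_alternatingGroup_of_index_eq_two
      have h1 := f.range.card_mul_index
      have h2 : Nat.card f.range = 12 := by
        rw [← hG]; exact (Nat.card_congr (MonoidHom.ofInjective hf).toEquiv).symm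
      have h3 : Nat.card (Equiv.Perm (Fin 4)) = 24 := by
        rw [Nat.card_eq_fintype_card, Fintype.card_perm, Fintype.card_fin]; rfl
      rw [h2, h3] at h1; omega
    exact ⟨(MonoidHom.ofInjective hf).trans (MulEquiv.subgroupCongr hfr)⟩
  · exfalso
    have hPn : (P : Subgroup G).Normal := by
      have hle := (P : Subgroup G).normalCore_le
      have h1 : Nat.card (P : Subgroup G).normalCore = 3 := by
        have h2 := Subgroup.card_dvd_of_le hle
        rw [hP3] at h2
        rcases (Nat.dvd_prime Nat.prime_three).mp h2 with h3 | h3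
        · exact absurd (Subgroup.card_eq_one.mp h3) hcore
        · exact h3
      have h2 : (P : Subgroup G).normalCore = P := Subgroup.eq_of_le_of_card_ge hle (by rw [h1, hP3])
      rw [← h2]; infer_instance
    haveI := hPn
    have hcyc : IsCyclic (P : Subgroup G) := isCyclic_of_prime_card hP3
    have haut : Nat.card (MulAut (P : Subgroup G)) = 2 := by
      rw [hcyc.card_mulAut, hP3]; rfl
    set f : G →* MulAut (P : Subgroup G) := MulAut.conjNormal with hf
    have hker : 2 ∣ Nat.card f.ker := by
      have h1 := f.ker.card_mul_index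
      rw [Subgroup.index_ker, hG] at h1
      have h2 : Nat.card f.range ∣ 2 := by rw [← haut]; exact Subgroup.card_subgroup_dvd_card _
      rcases (Nat.dvd_prime Nat.prime_two).mp h2 with h3 | h3
      · rw [h3] at h1; omega
      · rw [h3] at h1; omega
    obtain ⟨z, hz'⟩ := exists_prime_orderOf_dvd_card' 2 hker
    have hz2 : orderOf (z : G) = 2 := by rw [Subgroup.orderOf_coe]; exact hz'
    have hzP : ∀ x ∈ (P : Subgroup G), x * z = z * x := by
      intro x hx
      have h1 : f z = 1 := z.2
      have h2 : f z ⟨x, hx⟩ = ⟨x, hx⟩ := by rw [h1]; rfl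
      have h3 : (z : G) * x * (z : G)⁻¹ = x := by
        have := congrArg Subtype.val h2
        have h5 := MulAut.conjNormal_apply (z : G) (⟨x, hx⟩ : (P : Subgroup G))
        exact h5.symm.trans this
      rw [mul_inv_eq_iff_eq_mul] at h3
      exact h3.symm
    obtain ⟨T, hT⟩ := (CfsgLib.Invol.isPGroup_zpowers hz2).exists_le_sylow
    have hT4 : Nat.card (T : Subgroup G) = 4 := by
      have := CfsgLib.Invol.sylow_card (p := 2) (k := 2) (m := 3) (by rw [hG]; norm_num) (by norm_num) T
      rw [this]; norm_num
    have hTc : ∀ a b : (T : Subgroup G), a * b = b * a := by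
      have h4 : Nat.card (T : Subgroup G) = 2 ^ 2 := by rw [hT4]; norm_num
      haveI : Fact (Nat.Prime 2) := ⟨Nat.prime_two⟩
      exact (IsPGroup.isMulCommutative_of_card_eq_prime_sq h4).is_comm.comm
    have hzT : (z : G) ∈ (T : Subgroup G) := hT (Subgroup.mem_zpowers _)
    apply hz (z : G) hz2
    have hc3 : (P : Subgroup G) ≤ Subgroup.centralizer ({(z : G)} : Set G) := by
      intro x hx
      rw [Subgroup.mem_centralizer_singleton_iff]; exact hzP x hx
    have hc4 : (T : Subgroup G) ≤ Subgroup.centralizer ({(z : G)} : Set G) := by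
      intro x hx
      rw [Subgroup.mem_centralizer_singleton_iff]
      exact congrArg Subtype.val (hTc ⟨x, hx⟩ ⟨z, hzT⟩)
    have h3 := Subgroup.card_dvd_of_le hc3
    have h4 := Subgroup.card_dvd_of_le hc4
    rw [hP3] at h3
    rw [hT4] at h4
    have h12 : 12 ∣ Nat.card (Subgroup.centralizer ({(z : G)} : Set G)) := by
      exact Nat.Coprime.mul_dvd_of_dvd_of_dvd (by norm_num : Nat.Coprime 3 4) h3 h4
    have h5 : Subgroup.centralizer ({(z : G)} : Set G) = ⊤ := by
      apply Subgroup.eq_top_of_le_card
      rw [hG]; exact Nat.le_of_dvd Nat.card_pos h12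
    rw [Subgroup.mem_center_iff]
    intro g
    have : g ∈ Subgroup.centralizer ({(z : G)} : Set G) := by rw [h5]; trivial
    exact Subgroup.mem_centralizer_singleton_iff.mp this

end Cfsg.Agent.S0228
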