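import Cfsg.Statements.S0229
import Cfsg.Agent.Lib.Invol
import Cfsg.Agent.S0211

set_option autoImplicit false
open Cfsg

namespace Cfsg.Agent.S0229

/-- Let t be an involution of a Sylow 2-subgroup S of a finite group G, conjugate in G to no other element of S, and let s be an involution of G not conjugate to t. Then the order of st is twice an odd number. -/
theorem result {G : Type*} [Group G] [Finite G] (S : Sylow 2 G) (t : G) (ht : orderOf t = 2) (htS : t ∈ S) (hiso : ∀ g : G, g * t * g⁻¹ ∈ S → g * t * g⁻¹ = t) (s : G) (hs : orderOf s = 2) (hns : ¬ IsConj s t) : orderOf (s * t) % 4 = 2 := by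
  have ht' := CfsgLib.Invol.mul_self_of_orderOf ht
  have hs' := CfsgLib.Invol.mul_self_of_orderOf hs
  have hev : Even (orderOf (s * t)) := CfsgLib.Invol.even_of_not_isConj hs' ht' hns
  have hcomm : orderOf (t * s) = orderOf (s * t) := by
    have : t * s = (s * t)⁻¹ := by
      rw [mul_inv_rev, CfsgLib.Invol.inv_eq_of_mul_self ht', CfsgLib.Invol.inv_eq_of_mul_self hs']
    rw [this, orderOf_inv]
  rw [← hcomm] at hev ⊢
  by_contra hne
  have h4 : 4 ∣ orderOf (t * s) := by
    obtain ⟨m, hm⟩ := hev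
    omega
  obtain ⟨d, -, hd⟩ := (Cfsg.Agent.S0211.result t s ht hs hev).mpr h4
  have hz2 := CfsgLib.Invol.orderOf_zi hev
  have hzc := CfsgLib.Invol.zi_comm_left ht' hs' hev
  set z := CfsgLib.Invol.zi t s with hz
  have hd : d * t * d⁻¹ = t * z := hd
  have hpz : ∀ w : G, orderOf (w : G) = 2 → IsPGroup 2 (Subgroup.zpowers w) := by
    intro w hw
    apply IsPGroup.of_card (n := 1)
    rw [Nat.card_zpowers, hw, pow_one]
  have hQ : IsPGroup 2 (Subgroup.zpowers t ⊔ Subgroup.zpowers z : Subgroup G) := by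
    apply IsPGroup.to_sup_of_normal_left' (hpz t ht) (hpz z hz2)
    rw [Subgroup.zpowers_le]
    rw [Subgroup.mem_normalizer_iff]
    intro h
    have key : ∀ k ∈ Subgroup.zpowers t, z * k * z⁻¹ = k := by
      rintro _ ⟨k, rfl⟩
      show z * t ^ k * z⁻¹ = t ^ k
      rw [(hzc.zpow_right k).eq, mul_inv_cancel_right]
    constructor
    · intro hh; rw [key h hh]; exact hh
    · intro hh
      have h1 := key _ hh
      have h2 : h = z * h * z⁻¹ := by
        have := mul_left_cancel (mul_right_cancel h1)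
        exact this.symm
      rw [h2]; exact hh
  have htQ : t ∈ (Subgroup.zpowers t ⊔ Subgroup.zpowers z : Subgroup G) :=
    (le_sup_left : _ ≤ Subgroup.zpowers t ⊔ Subgroup.zpowers z) (Subgroup.mem_zpowers _)
  have hzQ : z ∈ (Subgroup.zpowers t ⊔ Subgroup.zpowers z : Subgroup G) :=
    (le_sup_right : _ ≤ Subgroup.zpowers t ⊔ Subgroup.zpowers z) (Subgroup.mem_zpowers _)
  have h5 := CfsgLib.Invol.isolated_of_isolated S hiso hQ htQ d (by rw [hd]; exact mul_mem htQ hzQ)
  rw [hd] at h5
  have h6 : z = 1 := mul_eq_left.mp h5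
  rw [h6, orderOf_one] at hz2
  omega

end Cfsg.Agent.S0229
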