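import Cfsg.Statements.S0230
import Cfsg.Agent.Lib.Invol

set_option autoImplicit false
open Cfsg

namespace Cfsg.Agent.S0230

/-- Let G be a finite group with two non-conjugate involutions, and let t be an involution whose centralizer has maximal order among centralizers of involutions. Then |G| < |C_G(t)|^3. -/
theorem result {G : Type*} [Group G] [Finite G] (s t : G) (hs : orderOf s = 2) (ht : orderOf t = 2) (hnc : ¬ IsConj s t) (hmax : ∀ u : G, orderOf u = 2 → Nat.card (Subgroup.centralizer ({u} : Set G)) ≤ Nat.card (Subgroup.centralizer ({t} : Set G))) : Nat.card G < Nat.card (Subgroup.centralizer ({t} : Set G)) ^ 3 := by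
  classical
  haveI := Fintype.ofFinite G
  have ht' := CfsgLib.Invol.mul_self_of_orderOf ht
  have h1 := CfsgLib.Invol.card_conj_mul_card_centralizer s
  have hs2 : ∀ u, IsConj s u → orderOf u = 2 := by
    intro u hu
    obtain ⟨c, hc⟩ := isConj_iff.mp hu
    rw [← hc, ← MulAut.conj_apply, ← hs]; exact MulEquiv.orderOf_eq _ _
  have hev : ∀ u, IsConj s u → Even (orderOf (u * t)) := by
    intro u hu
    exact CfsgLib.Invol.even_of_not_isConj (CfsgLib.Invol.mul_self_of_orderOf (hs2 u hu)) ht' (fun h => hnc (hu.trans h))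
  have h2 : Nat.card {u : G // IsConj s u} ≤ Nat.card (Subgroup.centralizer ({t} : Set G)) * (Finset.univ.filter (fun z : G => orderOf z = 2 ∧ z ∈ Subgroup.centralizer ({t} : Set G))).card := by
    rw [Nat.card_eq_fintype_card, Fintype.card_subtype]
    apply Finset.card_le_mul_card_image_of_maps_to (f := fun u => CfsgLib.Invol.zi u t)
    · intro u hu
      rw [Finset.mem_filter] at hu ⊢
      refine ⟨Finset.mem_univ _, CfsgLib.Invol.orderOf_zi (hev u hu.2), ?_⟩
      rw [Subgroup.mem_centralizer_singleton_iff]
      exact (CfsgLib.Invol.zi_comm_right (CfsgLib.Invol.mul_self_of_orderOf (hs2 u hu.2)) ht' (hev u hu.2)).eq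
    · intro z hz
      rw [Finset.mem_filter] at hz
      refine le_trans ?_ (hmax z hz.2.1)
      rw [← SetLike.coe_sort_coe, Nat.card_eq_card_toFinset]
      apply Finset.card_le_card
      intro u hu
      rw [Finset.mem_filter, Finset.mem_filter] at hu
      rw [Set.mem_toFinset, SetLike.mem_coe, Subgroup.mem_centralizer_singleton_iff, ← hu.2]
      exact (CfsgLib.Invol.zi_comm_left (CfsgLib.Invol.mul_self_of_orderOf (hs2 u hu.1.2)) ht' (hev u hu.1.2)).symm.eq
  have h3 : (Finset.univ.filter (fun z : G => orderOf z = 2 ∧ z ∈ Subgroup.centralizer ({t} : Set G))).card < Nat.card (Subgroup.centralizer ({t} : Set G)) := by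
    rw [← SetLike.coe_sort_coe, Nat.card_eq_card_toFinset]
    apply Finset.card_lt_card
    rw [Finset.ssubset_iff_of_subset]
    · refine ⟨1, ?_, ?_⟩
      · rw [Set.mem_toFinset]; exact one_mem _
      · rw [Finset.mem_filter, orderOf_one]; omega
    · intro z hz
      rw [Finset.mem_filter] at hz
      rw [Set.mem_toFinset]; exact hz.2.2
  have hpos : 0 < Nat.card (Subgroup.centralizer ({t} : Set G)) := Nat.card_pos
  have h4 := hmax s hs
  rw [← h1]
  generalize Nat.card (Subgroup.centralizer ({t} : Set G)) = c at *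
  generalize Nat.card (Subgroup.centralizer ({s} : Set G)) = c' at *
  generalize (Finset.univ.filter (fun z : G => orderOf z = 2 ∧ z ∈ Subgroup.centralizer ({t} : Set G))).card = k at *
  generalize Nat.card {u : G // IsConj s u} = n at *
  calc n * c' ≤ (c * k) * c := Nat.mul_le_mul h2 h4
    _ < (c * c) * c := by
      apply Nat.mul_lt_mul_of_pos_right _ hpos
      exact Nat.mul_lt_mul_of_pos_left h3 hpos
    _ = c ^ 3 := by ring

end Cfsg.Agent.S0230
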