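import Cfsg.Statements.S0231
import Cfsg.Agent.Lib.Invol

set_option autoImplicit false
open scoped Pointwise
open Cfsg

namespace Cfsg.Agent.S0231

/-- Let T be a Sylow 2-subgroup of the finite group G which is not normal and which intersects every other Sylow 2-subgroup trivially. Then G has a single conjugacy class of involutions. -/
theorem result {G : Type*} [Group G] [Finite G] (T : Sylow 2 G) (hnn : ¬ (T : Subgroup G).Normal) (hTI : ∀ g : G, MulAut.conj g • (T : Subgroup G) ≠ T → MulAut.conj g • (T : Subgroup G) ⊓ T = ⊥) (s t : G) (hs : orderOf s = 2) (ht : orderOf t = 2) : IsConj s t := by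
  by_contra hnc
  -- Sylow containing an involution
  have hpz : ∀ w : G, orderOf (w : G) = 2 → IsPGroup 2 (Subgroup.zpowers w) := by
    intro w hw
    apply IsPGroup.of_card (n := 1)
    rw [Nat.card_zpowers, hw, pow_one]
  have hTI' : ∀ A B : Sylow 2 G, A ≠ B → (A : Subgroup G) ⊓ B = ⊥ := by
    intro A B hAB
    obtain ⟨a, rfl⟩ := MulAction.exists_smul_eq G T A
    obtain ⟨b, rfl⟩ := MulAction.exists_smul_eq G T B
    have h1 : MulAut.conj (b⁻¹ * a) • (T : Subgroup G) ≠ T := by
      intro h
      apply hAB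
      apply Sylow.ext
      rw [Sylow.coe_subgroup_smul, Sylow.coe_subgroup_smul]
      have : MulAut.conj b • MulAut.conj (b⁻¹ * a) • (T : Subgroup G) = MulAut.conj b • (T : Subgroup G) := by rw [h]
      rw [smul_smul, ← map_mul, mul_inv_cancel_left] at this
      exact this
    have h2 := hTI _ h1
    rw [Sylow.coe_subgroup_smul, Sylow.coe_subgroup_smul]
    have h3 : MulAut.conj b • (MulAut.conj (b⁻¹ * a) • (T : Subgroup G) ⊓ T) = MulAut.conj b • (⊥ : Subgroup G) := by rw [h2]
    rw [Subgroup.smul_inf, smul_smul, ← map_mul, mul_inv_cancel_left] at h3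
    rw [h3]
    exact Subgroup.smul_bot _
  have huniq : ∀ (A B : Sylow 2 G) (u : G), u ≠ 1 → u ∈ A → u ∈ B → A = B := by
    intro A B u hu hA hB
    by_contra h
    have := hTI' A B h
    have h2 : u ∈ (A : Subgroup G) ⊓ B := ⟨hA, hB⟩
    rw [this, Subgroup.mem_bot] at h2
    exact hu h2
  have hne1 : ∀ u : G, orderOf u = 2 → u ≠ 1 := by
    rintro u hu rfl
    rw [orderOf_one] at hu; omega
  -- z centralizing u in A lies in A
  have hcent : ∀ (A : Sylow 2 G) (u z : G), orderOf u = 2 → orderOf z = 2 → u ∈ A → Commute z u → z ∈ A := by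
    intro A u z hu hz hA hc
    obtain ⟨B, hB⟩ := (hpz z hz).exists_le_sylow
    have h1 : z • A = A := by
      apply huniq _ _ u (hne1 u hu) _ hA
      have h2 : u = z * u * z⁻¹ := by rw [hc.eq, mul_inv_cancel_right]
      rw [h2, Sylow.smul_def]
      exact Subgroup.smul_mem_pointwise_smul _ (MulAut.conj z) (A : Subgroup G) hA
    have h3 : z ∈ Subgroup.normalizer ((A : Subgroup G) : Set G) := by
      exact Sylow.smul_eq_iff_mem_normalizer.mp h1
    have h4 : Subgroup.zpowers z ≤ Subgroup.normalizer ((A : Subgroup G) : Set G) := by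
      rw [Subgroup.zpowers_le]; exact h3
    have h5 : IsPGroup 2 ((A : Subgroup G) ⊔ Subgroup.zpowers z : Subgroup G) := IsPGroup.to_sup_of_normal_left' A.2 (hpz z hz) h4
    have h6 := A.3 h5 le_sup_left
    have h7 : z ∈ (A : Subgroup G) := by
      rw [← h6]; exact (le_sup_right : _ ≤ (A : Subgroup G) ⊔ Subgroup.zpowers z) (Subgroup.mem_zpowers z)
    exact h7
  have key : ∀ (A B : Sylow 2 G) (u v : G), orderOf u = 2 → orderOf v = 2 → ¬ IsConj u v → u ∈ A → v ∈ B → A = B := by
    intro A B u v hu hv huv hA hB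
    have hu' := CfsgLib.Invol.mul_self_of_orderOf hu
    have hv' := CfsgLib.Invol.mul_self_of_orderOf hv
    have hev := CfsgLib.Invol.even_of_not_isConj hu' hv' huv
    have hz := CfsgLib.Invol.orderOf_zi hev
    exact huniq A B _ (hne1 _ hz) (hcent A u _ hu hz hA (CfsgLib.Invol.zi_comm_left hu' hv' hev))
      (hcent B v _ hv hz hB (CfsgLib.Invol.zi_comm_right hu' hv' hev))
  obtain ⟨A, hA⟩ := (hpz s hs).exists_le_sylow
  obtain ⟨B, hB⟩ := (hpz t ht).exists_le_sylow
  have hsA : s ∈ A := hA (Subgroup.mem_zpowers s)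
  have htB : t ∈ B := hB (Subgroup.mem_zpowers t)
  obtain ⟨g, hg⟩ : ∃ g : G, g • A ≠ A := by
    by_contra hall
    push Not at hall
    apply hnn
    obtain ⟨a, ha⟩ := MulAction.exists_smul_eq G A T
    have hAT : A = T := by rw [← ha, hall a]
    rw [← hAT]
    have : Subgroup.normalizer ((A : Subgroup G) : Set G) = ⊤ := by
      rw [eq_top_iff]
      intro g _
      exact Sylow.smul_eq_iff_mem_normalizer.mp (hall g)
    exact Subgroup.normalizer_eq_top_iff.mp this
  have h1 := key A B s t hs ht hnc hsA htB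
  have hs2 : orderOf (g * s * g⁻¹) = 2 := by
    rw [← MulAut.conj_apply, ← hs]; exact MulEquiv.orderOf_eq _ _
  have hsg : g * s * g⁻¹ ∈ g • A := by
    rw [Sylow.smul_def]
    exact Subgroup.smul_mem_pointwise_smul _ (MulAut.conj g) (A : Subgroup G) hsA
  have h2 := key (g • A) B (g * s * g⁻¹) t hs2 ht (fun h => hnc ((isConj_iff.mpr ⟨g, rfl⟩ : IsConj s _).trans h)) hsg htB
  exact hg (h2.trans h1.symm)

end Cfsg.Agent.S0231
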