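import Cfsg.Statements.S0232
import Cfsg.Agent.Lib.Invol
import Cfsg.Agent.S0230
import Cfsg.Agent.S0233

set_option autoImplicit false
open Cfsg

namespace Cfsg.Agent.S0232

theorem aux.{u} (n : ℕ) : ∀ (G : Type u) [Group G] [Finite G], Nat.card G = n → Even n → 2 < n →
    ∃ H : Subgroup G, H ≠ ⊤ ∧ n < (Nat.card H) ^ 3 := by
  induction n using Nat.strong_induction_on with
  | _ n ih =>
  intro G _ _ hG heven hgt
  have ne_top_of_index : ∀ H : Subgroup G, H.index ≠ 1 → H ≠ ⊤ := by
    intro H h h'; rw [h', Subgroup.index_top] at h; exact h rfl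
  have hidx2 : ∀ H : Subgroup G, H.index = 2 → H ≠ ⊤ ∧ n < (Nat.card H) ^ 3 := by
    intro H hH
    refine ⟨ne_top_of_index H (by omega), ?_⟩
    have h1 := H.card_mul_index
    rw [hH, hG] at h1
    rw [← h1] at hgt ⊢
    have : 2 ≤ Nat.card H := by omega
    calc Nat.card H * 2 < Nat.card H * 4 := by omega
      _ ≤ Nat.card H * (Nat.card H * Nat.card H) := Nat.mul_le_mul_left _ (by nlinarith)
      _ = _ := by ring
  by_cases hZ : Odd (Nat.card (Subgroup.center G))
  · obtain ⟨H, hH, h⟩ := Cfsg.Agent.S0233.result (by rw [hG]; exact heven) hZ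
    rcases h with h | h
    · exact ⟨H, hidx2 H h⟩
    · obtain ⟨t, ht, htmax⟩ : ∃ t : G, orderOf t = 2 ∧ ∀ u : G, orderOf u = 2 → Nat.card (Subgroup.centralizer ({u} : Set G)) ≤ Nat.card (Subgroup.centralizer ({t} : Set G)) := by
        have hne := Cfsg.Agent.S0233.exists_invol (G := G) (by rw [hG]; exact heven)
        haveI : Nonempty {t : G // orderOf t = 2} := (Nat.card_pos_iff.mp hne).1
        obtain ⟨t, ht⟩ := Finite.exists_max (fun t : {t : G // orderOf t = 2} => Nat.card (Subgroup.centralizer ({t.1} : Set G)))
        exact ⟨t.1, t.2, fun u hu => ht ⟨u, hu⟩⟩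
      have hct : Subgroup.centralizer ({t} : Set G) ≠ ⊤ := by
        intro hc
        have htc : t ∈ Subgroup.center G := by
          rw [Subgroup.mem_center_iff]
          intro g
          have : g ∈ Subgroup.centralizer ({t} : Set G) := by rw [hc]; trivial
          exact Subgroup.mem_centralizer_singleton_iff.mp this
        have h3 : orderOf (⟨t, htc⟩ : Subgroup.center G) = 2 := by
          rw [Subgroup.orderOf_mk]; exact ht
        have h4 := orderOf_dvd_natCard (⟨t, htc⟩ : Subgroup.center G)
        rw [h3] at h4
        exact (Nat.not_even_iff_odd.mpr hZ) (even_iff_two_dvd.mpr h4)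
      by_cases hs : ∃ s : G, orderOf s = 2 ∧ ¬ IsConj s t
      · obtain ⟨s, hs, hst⟩ := hs
        have := Cfsg.Agent.S0230.result s t hs ht hst htmax
        rw [hG] at this
        exact ⟨_, hct, this⟩
      · push Not at hs
        have h1 := CfsgLib.Invol.card_conj_mul_card_centralizer t
        have h2 : Nat.card {y : G // IsConj t y} = Nat.card {t : G // orderOf t = 2} := by
          refine Nat.card_congr (Equiv.subtypeEquivRight ?_)
          intro y
          constructor
          · intro hy; rw [← CfsgLib.Invol.orderOf_of_isConj hy]; exact ht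
          · intro hy; exact (hs y hy).symm
        rw [h2] at h1
        have h3 := H.card_mul_index
        have hc0 : 0 < Nat.card (Subgroup.centralizer ({t} : Set G)) := Nat.card_pos
        have hH0 : 0 < Nat.card H := Nat.card_pos
        have hm0 := Cfsg.Agent.S0233.exists_invol (G := G) (by rw [hG]; exact heven)
        rw [hG] at h1 h3 h
        rcases le_total (Nat.card H) (Nat.card (Subgroup.centralizer ({t} : Set G))) with hle | hle
        · refine ⟨_, hct, ?_⟩
          generalize Nat.card (Subgroup.centralizer ({t} : Set G)) = c at *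
          generalize Nat.card {t : G // orderOf t = 2} = m at *
          generalize H.index = i at *
          generalize Nat.card H = k at *
          have h5 : 2 * i < c * (c + 1) := by
            by_contra hcon
            push Not at hcon
            have := Nat.mul_le_mul_left (m ^ 2) hcon
            rw [← h1] at h
            nlinarith
          have h6 : 2 * n < 2 * c ^ 3 := by
            calc 2 * n = k * (2 * i) := by rw [← h3]; ring
              _ < k * (c * (c + 1)) := Nat.mul_lt_mul_of_pos_left h5 hH0
              _ ≤ c * (c * (c + 1)) := Nat.mul_le_mul_right _ hle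
              _ ≤ c * (c * (c + c)) := by
                  apply Nat.mul_le_mul_left; apply Nat.mul_le_mul_left; omega
              _ = 2 * c ^ 3 := by ring
          omega
        · refine ⟨H, hH, ?_⟩
          generalize Nat.card (Subgroup.centralizer ({t} : Set G)) = c at *
          generalize Nat.card {t : G // orderOf t = 2} = m at *
          generalize H.index = i at *
          generalize Nat.card H = k at *
          have h5 : 2 * i < c * (c + 1) := by
            by_contra hcon
            push Not at hcon
            have := Nat.mul_le_mul_left (m ^ 2) hcon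
            rw [← h1] at h
            nlinarith
          have h6 : 2 * n < 2 * k ^ 3 := by
            calc 2 * n = k * (2 * i) := by rw [← h3]; ring
              _ < k * (c * (c + 1)) := Nat.mul_lt_mul_of_pos_left h5 hH0
              _ ≤ k * (k * (k + 1)) := by
                  apply Nat.mul_le_mul_left; apply Nat.mul_le_mul hle; omega
              _ ≤ k * (k * (k + k)) := by
                  apply Nat.mul_le_mul_left; apply Nat.mul_le_mul_left; omega
              _ = 2 * k ^ 3 := by ring
          omega
  · rw [Nat.not_odd_iff_even, even_iff_two_dvd] at hZ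
    obtain ⟨z, hz⟩ := exists_prime_orderOf_dvd_card' 2 hZ
    have hz2 : orderOf (z : G) = 2 := by rw [Subgroup.orderOf_coe]; exact hz
    have hN : (Subgroup.zpowers (z : G)).Normal := by
      constructor
      rintro _ ⟨k, rfl⟩ g
      have h1 : Commute g (z : G) := (Subgroup.mem_center_iff.mp z.2 g)
      have h2 : g * (z : G) ^ k * g⁻¹ = (z : G) ^ k := by
        rw [(h1.zpow_right k).eq, mul_inv_cancel_right]
      simp only [h2]
      exact Subgroup.zpow_mem_zpowers _ _
    have hNc : Nat.card (Subgroup.zpowers (z : G)) = 2 := by rw [Nat.card_zpowers, hz2]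
    have hQ : Nat.card (G ⧸ Subgroup.zpowers (z : G)) * 2 = n := by
      rw [← hG, ← hNc]; exact (Subgroup.card_eq_card_quotient_mul_card_subgroup _).symm
    by_cases hodd : Even (n / 2)
    · by_cases h2 : n / 2 = 2
      · refine ⟨Subgroup.zpowers (z : G), ?_, ?_⟩
        · intro h
          rw [h, Subgroup.card_top] at hNc; omega
        · rw [hNc]; omega
      · obtain ⟨H, hH, hHc⟩ := ih (n / 2) (by omega) (G ⧸ Subgroup.zpowers (z : G)) (by omega) hodd (by
          obtain ⟨r, hr⟩ := hodd; omega)
        have hsurj := QuotientGroup.mk'_surjective (Subgroup.zpowers (z : G))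
        have hidx := Subgroup.index_comap_of_surjective H hsurj
        refine ⟨H.comap (QuotientGroup.mk' (Subgroup.zpowers (z : G))), ?_, ?_⟩
        · apply ne_top_of_index
          rw [hidx]
          intro h; exact hH (Subgroup.index_eq_one.mp h)
        · have h3 := (H.comap (QuotientGroup.mk' (Subgroup.zpowers (z : G)))).card_mul_index
          rw [hidx, hG] at h3
          have h4 := H.card_mul_index
          have h5 : 0 < H.index := Nat.pos_of_ne_zero Subgroup.index_ne_zero_of_finite
          have h6 : Nat.card (H.comap (QuotientGroup.mk' (Subgroup.zpowers (z : G)))) = 2 * Nat.card H := by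
            apply Nat.eq_of_mul_eq_mul_right h5
            rw [h3, mul_assoc, h4, ← hQ]; ring
          rw [h6]
          have h7 : n = 2 * (n / 2) := by obtain ⟨r, hr⟩ := heven; omega
          have h8 : (2 * Nat.card H) ^ 3 = 8 * (Nat.card H) ^ 3 := by ring
          rw [h8]; omega
    · rw [Nat.not_even_iff_odd] at hodd
      let T : Sylow 2 G := default
      have hT : Nat.card (T : Subgroup G) = 2 ^ 1 := by
        apply CfsgLib.Invol.sylow_card (m := n / 2)
        · rw [hG]; obtain ⟨r, hr⟩ := heven; omega
        · intro h; exact (Nat.not_even_iff_odd.mpr hodd) (even_iff_two_dvd.mpr h)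
      rw [pow_one] at hT
      haveI : Fact (Nat.Prime 2) := ⟨Nat.prime_two⟩
      obtain ⟨H, hH⟩ := CfsgLib.Invol.exists_index_two_of_cyclic (by rw [hG]; exact heven) T (isCyclic_of_prime_card hT)
      exact ⟨H, hidx2 H hH⟩


/-- A finite group G of even order greater than 2 has a proper subgroup H with |G| < |H|^3. -/
theorem result {G : Type*} [Group G] [Finite G] (heven : Even (Nat.card G)) (hgt : 2 < Nat.card G) : ∃ H : Subgroup G, H ≠ ⊤ ∧ Nat.card G < (Nat.card H) ^ 3 := by
  exact aux _ G rfl heven hgt

end Cfsg.Agent.S0232
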