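import Cfsg.Statements.S0235

set_option autoImplicit false
open Cfsg

namespace Cfsg.Agent.S0235

/-- If x² ≠ 1, the ordered pairs (u, v) of involutions with uv = x correspond bijectively to the involutions t with t x t⁻¹ = x⁻¹ (via (u, v) ↦ u), so the two counts agree. -/
theorem result {G : Type*} [Group G] [Finite G] (x : G) (hx : x ^ 2 ≠ 1) : Nat.card {p : G × G // orderOf p.1 = 2 ∧ orderOf p.2 = 2 ∧ p.1 * p.2 = x} = Nat.card {t : G // orderOf t = 2 ∧ t * x * t⁻¹ = x⁻¹} := by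
  have hx' : x * x ≠ 1 := by rwa [pow_two] at hx
  have hinv : ∀ u : G, orderOf u = 2 → u * u = 1 := fun u hu => by
    rw [← pow_two, ← hu]; exact pow_orderOf_eq_one u
  refine Nat.card_congr ⟨fun p => ⟨p.1.1, p.2.1, ?_⟩, fun t => ⟨(t.1, t.1 * x), t.2.1, ?_, ?_⟩, ?_, ?_⟩
  · obtain ⟨⟨u, v⟩, hu, hv, huv⟩ := p
    simp only at hu hv huv ⊢
    rw [← huv, mul_inv_rev, inv_eq_of_mul_eq_one_left (hinv _ hu), inv_eq_of_mul_eq_one_left (hinv _ hv), ← mul_assoc, hinv _ hu, one_mul]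
  · obtain ⟨t, ht, htx⟩ := t
    simp only
    have h1 : t * x * (t * x) = 1 := by
      have := inv_eq_of_mul_eq_one_left (hinv _ ht)
      rw [this] at htx
      rw [← mul_assoc, htx, inv_mul_cancel]
    refine orderOf_eq_prime (by rw [pow_two]; exact h1) ?_
    intro h2
    apply hx'
    have h3 : x = t⁻¹ := eq_inv_of_mul_eq_one_right h2
    rw [h3, ← mul_inv_rev, hinv _ ht, inv_one]
  · obtain ⟨t, ht, htx⟩ := t
    simp only
    rw [← mul_assoc, hinv _ ht, one_mul]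
  · rintro ⟨⟨u, v⟩, hu, hv, huv⟩
    simp only at hu hv huv ⊢
    simp only [Subtype.mk.injEq, Prod.mk.injEq, true_and]
    rw [← huv, ← mul_assoc, hinv _ hu, one_mul]
  · rintro ⟨t, ht, htx⟩
    rfl

end Cfsg.Agent.S0235
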