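import Cfsg.Statements.S0237
import Mathlib

set_option autoImplicit false
open Cfsg

namespace Cfsg.Agent.S0237

/-- If x is real (conjugate to x⁻¹) in a finite group G, the number of g with g x g⁻¹ = x⁻¹ equals |C_G(x)|. -/
theorem result {G : Type*} [Group G] [Finite G] (x : G) (hreal : IsConj x x⁻¹) : Nat.card {g : G // g * x * g⁻¹ = x⁻¹} = Nat.card (Subgroup.centralizer ({x} : Set G)) := by
  obtain ⟨c, hc⟩ := isConj_iff.mp hreal
  have h3 : x * c⁻¹ = c⁻¹ * x⁻¹ := by rw [← hc]; group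
  refine Nat.card_congr ⟨fun g => ⟨c⁻¹ * g.1, ?_⟩, fun g => ⟨c * g.1, ?_⟩, ?_, ?_⟩
  · obtain ⟨g, h1⟩ := g
    rw [Subgroup.mem_centralizer_singleton_iff]
    have h2 : g * x = x⁻¹ * g := by rw [← h1]; group
    simp only
    rw [← mul_assoc, h3, mul_assoc, h2, mul_assoc]
  · obtain ⟨g, h1⟩ := g
    rw [Subgroup.mem_centralizer_singleton_iff] at h1
    simp only
    have : c * g * x * (c * g)⁻¹ = c * (g * x) * g⁻¹ * c⁻¹ := by group
    rw [this, h1, ← hc]; group
  · intro g; simp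
  · intro g; simp

end Cfsg.Agent.S0237
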