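import Cfsg.Statements.S0239
import Mathlib

set_option autoImplicit false
open Cfsg

namespace Cfsg.Agent.S0239

/-- If some nontrivial element x of a finite group G is conjugate to x⁻¹, then |G| is even. -/
theorem result {G : Type*} [Group G] [Finite G] (x : G) (hx : x ≠ 1) (hreal : IsConj x x⁻¹) : Even (Nat.card G) := by
  by_contra hodd
  rw [Nat.not_even_iff_odd] at hodd
  obtain ⟨c, hc⟩ := isConj_iff.mp hreal
  have h1 : Commute (c ^ 2) x := by
    have : c ^ 2 * x * (c ^ 2)⁻¹ = x := by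
      have : c ^ 2 * x * (c ^ 2)⁻¹ = c * (c * x * c⁻¹) * c⁻¹ := by rw [pow_two]; group
      rw [this, hc]
      have : c * x⁻¹ * c⁻¹ = (c * x * c⁻¹)⁻¹ := by group
      rw [this, hc, inv_inv]
    exact mul_inv_eq_iff_eq_mul.mp this
  obtain ⟨m, hm⟩ := hodd
  have h2 : Commute c x := by
    have h3 : (c ^ 2) ^ (m + 1) = c := by
      rw [← pow_mul, show 2 * (m + 1) = Nat.card G + 1 by omega, pow_succ, pow_card_eq_one', one_mul]
    rw [← h3]; exact h1.pow_left _
  rw [h2.eq, mul_inv_cancel_right] at hc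
  have h4 : x ^ 2 = 1 := by
    rw [pow_two]; nth_rewrite 2 [hc]; exact mul_inv_cancel x
  have h5 : x ^ (2 * m + 1) = 1 := by rw [← hm]; exact pow_card_eq_one'
  rw [pow_succ, pow_mul, h4, one_pow, one_mul] at h5
  exact hx h5

end Cfsg.Agent.S0239
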