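import Cfsg.Statements.S0240
import Mathlib

set_option autoImplicit false
open Cfsg

namespace Cfsg.Agent.S0240

/-- Let G be a finite group with n involutions and H a subgroup with |H|·(n+1) > |G|. Then some nontrivial h ∈ H is strongly real in G: an involution t of G satisfies t h t⁻¹ = h⁻¹. -/
theorem result {G : Type*} [Group G] [Finite G] (H : Subgroup G) (hH : Nat.card G < Nat.card H * (Nat.card {t : G // orderOf t = 2} + 1)) : ∃ h : G, h ∈ H ∧ h ≠ 1 ∧ ∃ t : G, orderOf t = 2 ∧ t * h * t⁻¹ = h⁻¹ := by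
  classical
  have hinv : ∀ u : G, orderOf u = 2 → u * u = 1 := fun u hu => by
    rw [← pow_two, ← hu]; exact pow_orderOf_eq_one u
  let f : Option {t : G // orderOf t = 2} → G ⧸ H := fun o => o.elim (QuotientGroup.mk 1) (fun t => QuotientGroup.mk t.1)
  have hf : ¬ Function.Injective f := by
    intro hf
    have h1 := Nat.card_le_card_of_injective f hf
    rw [Finite.card_option, ← Subgroup.index_eq_card] at h1
    have h2 := H.card_mul_index
    have h3 := Nat.mul_le_mul_left (Nat.card H) h1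
    omega
  rw [Function.not_injective_iff] at hf
  obtain ⟨a, b, hab, hne⟩ := hf
  rcases a with _ | ⟨t, ht⟩ <;> rcases b with _ | ⟨s, hs⟩
  · exact absurd rfl hne
  · have h1 : (1 : G)⁻¹ * s ∈ H := QuotientGroup.eq.mp hab
    rw [inv_one, one_mul] at h1
    refine ⟨s, h1, ?_, s, hs, by group; rw [zpow_neg_one, inv_eq_of_mul_eq_one_left (hinv s hs)]⟩
    rintro rfl; rw [orderOf_one] at hs; omega
  · have h1 : (1 : G)⁻¹ * t ∈ H := QuotientGroup.eq.mp hab.symm
    rw [inv_one, one_mul] at h1
    refine ⟨t, h1, ?_, t, ht, by group; rw [zpow_neg_one, inv_eq_of_mul_eq_one_left (hinv t ht)]⟩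
    rintro rfl; rw [orderOf_one] at ht; omega
  · have h1 : t⁻¹ * s ∈ H := QuotientGroup.eq.mp hab
    have ht' := inv_eq_of_mul_eq_one_left (hinv t ht)
    have hs' := inv_eq_of_mul_eq_one_left (hinv s hs)
    refine ⟨t⁻¹ * s, h1, ?_, t, ht, ?_⟩
    · intro h2
      apply hne
      rw [inv_mul_eq_one] at h2
      subst h2; rfl
    · rw [mul_inv_rev, inv_inv, hs', ht', ← mul_assoc, hinv t ht, one_mul]

end Cfsg.Agent.S0240
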