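import Cfsg.Statements.S0241
import Mathlib

set_option autoImplicit false
open Cfsg

namespace Cfsg.Agent.S0241

/-- If x ≠ 1 is conjugate to x⁻¹ in a finite group G and |C_G(x)| is odd, then some involution t satisfies t x t⁻¹ = x⁻¹. -/
theorem result {G : Type*} [Group G] [Finite G] (x : G) (hx : x ≠ 1) (hreal : IsConj x x⁻¹) (hodd : Odd (Nat.card (Subgroup.centralizer ({x} : Set G)))) : ∃ t : G, orderOf t = 2 ∧ t * x * t⁻¹ = x⁻¹ := by
  obtain ⟨c, hc⟩ := isConj_iff.mp hreal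
  have h1 : Commute (c ^ 2) x := by
    have : c ^ 2 * x * (c ^ 2)⁻¹ = x := by
      have : c ^ 2 * x * (c ^ 2)⁻¹ = c * (c * x * c⁻¹) * c⁻¹ := by rw [pow_two]; group
      rw [this, hc]
      have : c * x⁻¹ * c⁻¹ = (c * x * c⁻¹)⁻¹ := by group
      rw [this, hc, inv_inv]
    exact mul_inv_eq_iff_eq_mul.mp this
  obtain ⟨m, hm⟩ := hodd
  have h2 : (c ^ 2) ^ (2 * m + 1) = 1 := by
    have h3 : (⟨c ^ 2, Subgroup.mem_centralizer_singleton_iff.mpr h1⟩ : Subgroup.centralizer ({x} : Set G)) ^ (2 * m + 1) = 1 := by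
      rw [← hm]; exact pow_card_eq_one'
    exact congrArg Subtype.val h3
  have h4 : c ^ (2 * m + 1) * x * (c ^ (2 * m + 1))⁻¹ = x⁻¹ := by
    have h5 : Commute (c ^ (2 * m)) x := by rw [pow_mul]; exact h1.pow_left _
    have : c ^ (2 * m + 1) * x * (c ^ (2 * m + 1))⁻¹ = c * (c ^ (2 * m) * x * (c ^ (2 * m))⁻¹) * c⁻¹ := by
      rw [pow_succ']; group
    rw [this, h5.eq, mul_inv_cancel_right, hc]
  refine ⟨c ^ (2 * m + 1), orderOf_eq_prime ?_ ?_, h4⟩
  · rw [← pow_mul, mul_comm, pow_mul, h2]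
  · intro h5
    rw [h5] at h4
    simp only [one_mul, inv_one, mul_one] at h4
    have h6 : x ^ 2 = 1 := by
      rw [pow_two]; nth_rewrite 2 [h4]; exact mul_inv_cancel x
    have h7 : x ^ (2 * m + 1) = 1 := by
      have h3 : (⟨x, Subgroup.mem_centralizer_singleton_iff.mpr rfl⟩ : Subgroup.centralizer ({x} : Set G)) ^ (2 * m + 1) = 1 := by
        rw [← hm]; exact pow_card_eq_one'
      exact congrArg Subtype.val h3
    rw [pow_succ, pow_mul, h6, one_pow, one_mul] at h7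
    exact hx h7

end Cfsg.Agent.S0241
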