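import Cfsg.Statements.S0244

set_option autoImplicit false
open Cfsg

namespace Cfsg.Agent.S0244

/-- Sp_2 = SL_2: a matrix on Fin 1 ⊕ Fin 1 lies in Mathlib's symplectic group iff its determinant is 1. -/
theorem result {R : Type*} [CommRing R] (A : Matrix (Fin 1 ⊕ Fin 1) (Fin 1 ⊕ Fin 1) R) : A ∈ Matrix.symplecticGroup (Fin 1) R ↔ A.det = 1 := by
  rw [SymplecticGroup.mem_iff]
  have h : A * Matrix.J (Fin 1) R * A.transpose = A.det • Matrix.J (Fin 1) R := by
    have hdet : A.det = A (Sum.inl 0) (Sum.inl 0) * A (Sum.inr 0) (Sum.inr 0) -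
        A (Sum.inl 0) (Sum.inr 0) * A (Sum.inr 0) (Sum.inl 0) := by
      rw [← Matrix.det_submatrix_equiv_self (finSumFinEquiv.symm : Fin (1 + 1) ≃ Fin 1 ⊕ Fin 1) A]
      rw [Matrix.det_fin_two]
      rfl
    ext i j
    rw [hdet]
    rcases i with i | i <;> rcases j with j | j <;> (obtain rfl : i = 0 := Subsingleton.elim _ _) <;>
      (obtain rfl : j = 0 := Subsingleton.elim _ _) <;>
      simp [Matrix.mul_apply, Matrix.J, Matrix.fromBlocks, Fintype.sum_sum_type, Matrix.smul_apply] <;> ring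
  rw [h]
  constructor
  · intro h1
    have := congrFun (congrFun h1 (Sum.inr 0)) (Sum.inl 0)
    simpa [Matrix.J, Matrix.fromBlocks] using this
  · intro h1
    rw [h1, one_smul]

end Cfsg.Agent.S0244
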