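import Cfsg.Statements.S0247
import Cfsg.Agent.Lib.SymInSp

set_option autoImplicit false
open Cfsg

namespace Cfsg.Agent.S0247

/-- Sp_4(2) is isomorphic to the symmetric group S_6. -/
theorem result {F : Type*} [Field F] [Fintype F] (hF : Fintype.card F = 2) : Nonempty (Matrix.symplecticGroup (Fin 2) F ≃* Equiv.Perm (Fin 6)) := by
  classical
  have h2 : ∀ x : F, x * x = x := by
    intro x
    have := FiniteField.pow_card x
    rwa [hF, pow_two] at this
  obtain ⟨f, hf⟩ := CfsgLib.SymInSp.exists_embedding h2 3 le_rfl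
  have hcard : Nat.card (Matrix.symplecticGroup (Fin 2) F) = 720 := by
    rw [CfsgLib.Symp.card_symplecticGroup, Nat.card_eq_fintype_card, hF]
    decide
  have hfin : Finite (Matrix.symplecticGroup (Fin 2) F) := Nat.finite_of_card_ne_zero (by rw [hcard]; norm_num)
  have hbij : Function.Bijective f := by
    refine (Nat.bijective_iff_injective_and_card f).mpr ⟨hf, ?_⟩
    change _ = Nat.card (Matrix.symplecticGroup (Fin 2) F)
    rw [hcard, Nat.card_perm, Nat.card_fin]
    decide
  exact ⟨(MulEquiv.ofBijective f hbij).symm⟩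

end Cfsg.Agent.S0247
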