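import Cfsg.Statements.S0250
import Cfsg.Agent.Lib.SL2

set_option autoImplicit false
open Cfsg

namespace Cfsg.Agent.S0250

/-- SL_2(2) is isomorphic to S_3. -/
theorem result {F : Type*} [Field F] [Fintype F] (hF : Fintype.card F = 2) : Nonempty (Matrix.SpecialLinearGroup (Fin 2) F ≃* Equiv.Perm (Fin 3)) := by
  have h1 := CfsgLib.SL2.card_SL2 (F := F)
  have h2 := CfsgLib.SL2.card_projLine (F := F)
  rw [hF] at h1 h2
  have hfin : Finite (Projectivization F (Fin 2 → F)) := inferInstance
  have hcenter : Subgroup.center (Matrix.SpecialLinearGroup (Fin 2) F) = ⊥ := by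
    have h3 := CfsgLib.Linear.card_center_SL (F := F) (ι := Fin 2)
    rw [hF] at h3
    simp at h3
    exact h3
  let e := (Finite.equivFinOfCardEq h2)
  let f : Matrix.SpecialLinearGroup (Fin 2) F →* Equiv.Perm (Fin 3) :=
    (e.permCongrHom).toMonoidHom.comp (MulAction.toPermHom (Matrix.SpecialLinearGroup (Fin 2) F) (Projectivization F (Fin 2 → F)))
  have hf : Function.Injective f := by
    refine e.permCongrHom.injective.comp ?_
    rw [← MonoidHom.ker_eq_bot_iff, Projectivization.SL_mulAction_ker, hcenter]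
  refine ⟨MulEquiv.ofBijective f ?_⟩
  rw [Nat.bijective_iff_injective_and_card]
  refine ⟨hf, ?_⟩
  rw [h1, Nat.card_perm]
  simp [Nat.factorial]

end Cfsg.Agent.S0250
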