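import Cfsg.Statements.S0251
import Cfsg.Agent.Lib.SL2

set_option autoImplicit false
open Cfsg

namespace Cfsg.Agent.S0251

/-- PSL_2(3) is isomorphic to A_4. -/
theorem result {F : Type*} [Field F] [Fintype F] (hF : Fintype.card F = 3) : Nonempty (Matrix.ProjectiveSpecialLinearGroup (Fin 2) F ≃* alternatingGroup (Fin 4)) := by
  exact CfsgLib.SL2.PSL_equiv_alternating_of_card (by rw [hF]) (by rw [hF]; simp [Nat.factorial])

end Cfsg.Agent.S0251
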