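import Cfsg.Statements.S0495
import Cfsg.Agent.Lib.Sm168b

set_option autoImplicit false
open Cfsg

set_option linter.style.haveILetI false
namespace Cfsg.Agent.S0495

theorem flag {G : Type*} [Group G] [Finite G] [IsSimpleGroup G] (h : Nat.card G = 168) (P : Sylow 7 G) :
    ∀ y ∈ Subgroup.normalizer ((P : Subgroup G) : Set G), y ≠ 1 → Subgroup.centralizer ({y} : Set G) ≤ Subgroup.normalizer ((P : Subgroup G) : Set G) := by
  intro y hy hy1
  have hd : orderOf y ∣ 21 := by
    rw [← CfsgLib.SmS.n7 h P]
    have := orderOf_dvd_natCard (⟨y, hy⟩ : Subgroup.normalizer ((P : Subgroup G) : Set G))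
    rwa [Subgroup.orderOf_mk] at this
  have hc : Nat.card (Subgroup.centralizer ({y} : Set G)) = orderOf y := by
    rcases CfsgLib.SmS.orders168 h y with h1 | h1 | h1 | h1 | h1
    · exact absurd (orderOf_eq_one_iff.mp h1) hy1
    · rw [h1] at hd; norm_num at hd
    · rw [h1]; exact CfsgLib.SmS.c3 h h1
    · rw [h1] at hd; norm_num at hd
    · rw [h1]; exact CfsgLib.SmS.c7 h h1
  have h2 : Subgroup.zpowers y = Subgroup.centralizer ({y} : Set G) := by
    apply Subgroup.eq_of_le_of_card_ge
    · rw [Subgroup.zpowers_le, Subgroup.mem_centralizer_singleton_iff]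
    · rw [hc, Nat.card_zpowers]
  rw [← h2, Subgroup.zpowers_le]; exact hy


/-- A simple group of order 168 is isomorphic to the projective special linear group of dimension 2 over the field with
7 elements. -/
theorem result {G : Type*} [Group G] [Finite G] [IsSimpleGroup G]
    (h : Nat.card G = 168) {F : Type*} [Field F] [Fintype F] (hF : Fintype.card F = 7) :
    Nonempty (G ≃* Matrix.ProjectiveSpecialLinearGroup (Fin 2) F) := by
  haveI : IsSimpleGroup (Matrix.ProjectiveSpecialLinearGroup (Fin 2) F) :=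
    Matrix.ProjectiveSpecialLinearGroup.rank_two_simple (by rw [Nat.card_eq_fintype_card, hF]; norm_num)
  have h' : Nat.card (Matrix.ProjectiveSpecialLinearGroup (Fin 2) F) = 168 := by
    rw [CfsgLib.SmS.psl_card (p := 7) (h := 3) (by norm_num) hF]
  obtain ⟨P⟩ : Nonempty (Sylow 7 G) := inferInstance
  obtain ⟨P'⟩ : Nonempty (Sylow 7 (Matrix.ProjectiveSpecialLinearGroup (Fin 2) F)) := inferInstance
  exact CfsgLib.SmS.zas_unique (CfsgLib.SmS.z168 h P) CfsgLib.SmS.zc7 (fun _ => flag h P) (CfsgLib.SmS.z168 h' P') (fun _ => flag h' P')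

end Cfsg.Agent.S0495
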