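import Cfsg.Statements.S0255
import Cfsg.Agent.S0249
import Cfsg.Agent.S0243
import Cfsg.Agent.S0495

set_option autoImplicit false
open Cfsg

set_option linter.style.haveILetI false
namespace Cfsg.Agent.S0255

/-- PSL_2(7) is isomorphic to PSL_3(2). -/
theorem result {F K : Type*} [Field F] [Fintype F] [Field K] [Fintype K] (hF : Fintype.card F = 7) (hK : Fintype.card K = 2) : Nonempty (Matrix.ProjectiveSpecialLinearGroup (Fin 2) F ≃* Matrix.ProjectiveSpecialLinearGroup (Fin 3) K) := by
  haveI : IsSimpleGroup (Matrix.ProjectiveSpecialLinearGroup (Fin 3) K) := Cfsg.Agent.S0249.result 3 le_rfl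
  have h1 := Cfsg.Agent.S0243.result hK 3 (by norm_num)
  rw [Fin.prod_univ_three] at h1
  norm_num at h1
  obtain ⟨e⟩ := Cfsg.Agent.S0495.result (G := Matrix.ProjectiveSpecialLinearGroup (Fin 3) K) (by omega) hF
  exact ⟨e.symm⟩

end Cfsg.Agent.S0255
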