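import Cfsg.Statements.S0257
import Cfsg.Agent.Lib.GLg1

set_option autoImplicit false
open Cfsg CfsgLib.GL2a

namespace Cfsg.Agent.S0257

/-- SL_2(3) has a normal subgroup of index 3 isomorphic to the quaternion group of order 8, and its centre has order 2. -/
theorem result {F : Type*} [Field F] [Fintype F] (hF : Fintype.card F = 3) : (∃ Q : Subgroup (Matrix.SpecialLinearGroup (Fin 2) F), Q.Normal ∧ Q.index = 3 ∧ Nonempty (Q ≃* QuaternionGroup 2)) ∧ Nat.card (Subgroup.center (Matrix.SpecialLinearGroup (Fin 2) F)) = 2 := by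
  obtain ⟨h2, S, i, u, w, h, hN, hcS, -, -, -, -, -, -, -, -, hq⟩ := sl23 hF
  refine ⟨⟨S, hN, ?_, hq⟩, card_center h2⟩
  classical
  have := (S : Subgroup (S2 F)).index_mul_card
  rw [card_S2', hF] at this
  have hcS' : Nat.card (S : Subgroup (S2 F)) = 8 := hcS
  rw [hcS'] at this
  omega

end Cfsg.Agent.S0257
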