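import Cfsg.Statements.S0268
import Cfsg.Agent.Lib.SL2

set_option autoImplicit false
open Cfsg

namespace Cfsg.Agent.S0268

/-- For q odd, -1 is the unique involution of SL_2(q). -/
theorem result {F : Type*} [Field F] [Fintype F] (hF : Odd (Fintype.card F)) (g : Matrix.SpecialLinearGroup (Fin 2) F) (h1 : g ≠ 1) (h2 : g * g = 1) : (g : Matrix (Fin 2) (Fin 2) F) = -1 := by
  refine CfsgLib.SL2.eq_neg_one_of_mul_self ?_ g h1 h2
  intro h
  have h3 : CharP F 2 := by
    have : ringChar F = 2 := by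
      have h5 : (ringChar F) ∣ 2 := (ringChar.spec F 2).mp (by exact_mod_cast h)
      rcases (Nat.dvd_prime Nat.prime_two).mp h5 with h6 | h6
      · exact absurd h6 (CharP.ringChar_ne_one)
      · exact h6
    exact ringChar.of_eq this
  obtain ⟨m, hm⟩ := FiniteField.card F 2
  rw [hm.2] at hF
  have h4 : Even (2 ^ (m : ℕ)) := (Nat.even_pow.mpr ⟨even_two, m.pos.ne'⟩)
  exact (Nat.not_even_iff_odd.mpr hF) h4

end Cfsg.Agent.S0268
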