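import Cfsg.Statements.S0279
import Cfsg.Agent.Lib.Herm6

set_option autoImplicit false
open Cfsg

namespace Cfsg.Agent.S0279

/-- The centre of SU_n(q), n at least 3, has order gcd(n, q+1). -/
theorem result {F : Type*} [Field F] [Fintype F] {q : ℕ} (hF : Fintype.card F = q ^ 2) (n : ℕ) (hn : 3 ≤ n) : Nat.card (Subgroup.center (Cfsg.SU n F q)) = Nat.gcd n (q + 1) := by
  obtain ⟨σ, hq⟩ := CfsgLib.Herm.exists_sigma (F := F) (q := q) (by rw [Nat.card_eq_fintype_card, hF])
  rw [Nat.card_congr (Subgroup.centerCongr (CfsgLib.Herm.SUEquiv hq n)).toEquiv,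
    CfsgLib.Herm.card_center_SUL hq (CfsgLib.Herm.stdH_hform hq n) (by simp; omega)]
  simp

end Cfsg.Agent.S0279
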