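import Cfsg.Statements.S0282
import Cfsg.Agent.S0280
import Cfsg.Agent.Lib.CharBasic3

set_option autoImplicit false
open Cfsg

namespace Cfsg.Agent.S0282

/-- PSU_3(2) is a solvable group of order 72. -/
theorem result {F : Type*} [Field F] [Fintype F] (hF : Fintype.card F = 4) : Nat.card (Cfsg.PSU 3 F 2) = 72 ∧ Group.IsSolvable (Cfsg.PSU 3 F 2) := by
  have h1 := Cfsg.Agent.S0280.result (F := F) (q := 2) (by rw [hF]; norm_num) 3 (by norm_num)
  have hcard : Nat.card (PSU 3 F 2) = 72 := by
    simp [Finset.prod_range_succ] at h1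
    omega
  refine ⟨hcard, ?_⟩
  have : Finite (PSU 3 F 2) := (Nat.card_pos_iff.mp (by rw [hcard]; norm_num)).2
  exact CfsgLib.CharBasic.burnside_pq 72 _ 2 3 3 2 (by norm_num) (by norm_num) (by rw [hcard]; norm_num) hcard

end Cfsg.Agent.S0282
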