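import Cfsg.Statements.S0283
import Cfsg.Agent.Lib.Herm7
import Cfsg.Agent.Lib.Symp2

set_option autoImplicit false
open Cfsg

namespace Cfsg.Agent.S0283

/-- PSU_n(q) is simple for n at least 3 and (n, q) other than (3, 2). -/
theorem result {F : Type*} [Field F] [Fintype F] {q : ℕ} (hF : Fintype.card F = q ^ 2) (n : ℕ) (hn : 3 ≤ n) (h : ¬ (n = 3 ∧ q = 2)) : IsSimpleGroup (Cfsg.PSU n F q) := by
  obtain ⟨σ, hq⟩ := CfsgLib.Herm.exists_sigma (F := F) (q := q) (by rw [Nat.card_eq_fintype_card, hF])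
  have hh := CfsgLib.Herm.stdH_hform hq n
  have h2 := hq.two_le
  have hd : Module.finrank F (Fin n → F) = n := by simp
  have hs := CfsgLib.Herm.isSimpleGroup_SUL hq hh (by rw [hd]; by_cases h3 : n = 3 <;> omega)
  exact (CfsgLib.Symp.quotCenterCongr (CfsgLib.Herm.SUEquiv hq n)).isSimpleGroup

end Cfsg.Agent.S0283
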