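import Cfsg.Statements.S0284
import Cfsg.Agent.Lib.Herm3

set_option autoImplicit false
open Cfsg

namespace Cfsg.Agent.S0284

/-- The standard Hermitian form on F^n, |F| = q^2, has exactly q^(n-1) (q^n - (-1)^n) vectors of norm 1. -/
theorem result {F : Type*} [Field F] [Fintype F] {q : ℕ} (hF : Fintype.card F = q ^ 2) (n : ℕ) : Nat.card {v : Fin n → F // Cfsg.hermForm n F q v v = 1} = (if Even n then q ^ (n - 1) * (q ^ n - 1) else q ^ (n - 1) * (q ^ n + 1)) := by
  obtain ⟨σ, hq⟩ := CfsgLib.Herm.exists_sigma (F := F) (q := q) (by rw [Nat.card_eq_fintype_card, hF])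
  have h1 : Nat.card {v : Fin n → F // hermForm n F q v v = 1} = CfsgLib.Herm.cnt σ n 1 := by
    apply Nat.card_congr
    refine Equiv.subtypeEquivRight fun v => ?_
    rw [hermForm]
    have : ∑ i, v i * v i ^ q = ∑ i, v i * σ (v i) := Finset.sum_congr rfl fun i _ => by rw [hq.pow]
    rw [this]
  rw [h1]
  rcases n with _ | n
  · rw [CfsgLib.Herm.cnt_zero_of_ne σ one_ne_zero]; simp
  · rw [CfsgLib.Herm.cnt_succ_of_ne hq (map_one σ) one_ne_zero, Nat.add_sub_cancel]
    by_cases h : Even n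
    · rw [if_pos h, if_neg (by rw [Nat.even_add_one, not_not]; exact h)]
    · rw [if_neg h, if_pos (by rw [Nat.even_add_one]; exact h)]

end Cfsg.Agent.S0284
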