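import Cfsg.Statements.S0295
import Cfsg.Agent.Lib.Quad13

set_option autoImplicit false
open Cfsg

namespace Cfsg.Agent.S0295

/-- PΩ_{2m+1}(q) is simple for q odd and m at least 3. -/
theorem result {F : Type*} [Field F] [Fintype F] (hodd : Odd (Fintype.card F)) (m : ℕ) (hm : 3 ≤ m) : IsSimpleGroup (Cfsg.POmega F (Cfsg.quadFormOdd m F)) := by
  rw [← Nat.card_eq_fintype_card] at hodd
  exact CfsgLib.Quad.isSimpleGroup_POmega _ _ (CfsgLib.Quad.eOdd m F) (CfsgLib.Quad.eOdd_apply m)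
    (CfsgLib.Quad.hypSum_nondegenerate m
      (CfsgLib.Quad.sqQ_nondegenerate (CfsgLib.Quad.two_ne_zero_of_odd hodd)))
    (by rw [CfsgLib.Quad.finrank_hypSum, Module.finrank_self]; omega)

end Cfsg.Agent.S0295
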