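import Cfsg.Statements.S0305
import Cfsg.Agent.Lib.Quad3

set_option autoImplicit false
open Cfsg

namespace Cfsg.Agent.S0305

/-- GO^+_2(q) is dihedral of order 2(q-1). -/
theorem result {F : Type*} [Field F] [Fintype F] {q : ℕ} (hF : Fintype.card F = q) : Nonempty (Cfsg.isometryGroup F (Cfsg.quadFormPlus 1 F) ≃* DihedralGroup (q - 1)) := by
  subst hF
  rw [← Nat.card_eq_fintype_card]
  let e : (Fin 1 ⊕ Fin 1 → F) ≃ₗ[F] F × F :=
    { toFun := fun v => (v (.inl 0), v (.inr 0))
      invFun := fun x => Sum.elim (fun _ => x.1) (fun _ => x.2)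
      map_add' := fun x y => rfl
      map_smul' := fun c x => rfl
      left_inv := fun v => by
        funext i
        rcases i with i | i
        · rw [Subsingleton.elim i 0]; rfl
        · rw [Subsingleton.elim i 0]; rfl
      right_inv := fun x => rfl }
  obtain ⟨f⟩ := CfsgLib.Quad.O_hypQ_dihedral (F := F)
  refine ⟨(CfsgLib.Quad.isoMat _ (CfsgLib.Quad.hypQ F) e ?_).trans f⟩
  intro v
  rw [CfsgLib.Quad.hypQ_apply, quadFormPlus]
  simp
  rfl

end Cfsg.Agent.S0305
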