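import Cfsg.Statements.S0307
import Cfsg.Agent.Lib.LinearGL

set_option autoImplicit false
open Cfsg

namespace Cfsg.Agent.S0307

/-- PSL_n(q) is normal in PGL_n(q) with cyclic quotient of order gcd(n, q-1): the image of the natural map PSL_n → PGL_n is the kernel of a surjective homomorphism onto the cyclic group of that order. -/
theorem result {F : Type*} [Field F] [Fintype F] {q : ℕ} (hF : Fintype.card F = q) (n : ℕ) (hn : 1 ≤ n) : ∃ g : Matrix.ProjGenLinGroup (Fin n) F →* Multiplicative (ZMod (Nat.gcd n (q - 1))), Function.Surjective g ∧ g.ker = (Matrix.ProjectiveSpecialLinearGroup.toPGL : Matrix.ProjectiveSpecialLinearGroup (Fin n) F →* Matrix.ProjGenLinGroup (Fin n) F).range := by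
  classical
  subst hF
  have hne : Nonempty (Fin n) := ⟨⟨0, hn⟩⟩
  have hcard : Nat.card (Fˣ ⧸ (powMonoidHom (Fintype.card (Fin n)) : Fˣ →* Fˣ).range) =
      Nat.card (Multiplicative (ZMod (Nat.gcd n (Fintype.card F - 1)))) := by
    rw [← Subgroup.index_eq_card, IsCyclic.index_powMonoidHom_range, Nat.card_units,
      Nat.card_eq_fintype_card (α := F), Fintype.card_fin, Nat.gcd_comm]
    exact (Nat.card_zmod _).symm
  have hc : IsCyclic (Fˣ ⧸ (powMonoidHom (Fintype.card (Fin n)) : Fˣ →* Fˣ).range) := inferInstance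
  let e := mulEquivOfCyclicCardEq hcard
  refine ⟨e.toMonoidHom.comp CfsgLib.LinearGL.detMod, ?_, ?_⟩
  · exact e.surjective.comp CfsgLib.LinearGL.detMod_surjective
  · rw [← CfsgLib.LinearGL.ker_detMod]
    ext x
    simp [MonoidHom.mem_ker]

end Cfsg.Agent.S0307
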