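import Cfsg.Statements.S0314
import Cfsg.Agent.Lib.BNP3

set_option autoImplicit false
open Cfsg

namespace Cfsg.Agent.S0314


/-- Distinct sets of distinguished generators give distinct standard parabolic subgroups. -/
theorem result {G : Type*} [Group G] (P : Cfsg.BNPair G) {J K : Set G}
    (hJ : J ⊆ P.S) (hK : K ⊆ P.S) (h : P.parabolic J = P.parabolic K) : J = K := by
  exact CfsgLib.BNP.parabolic_inj hJ hK h

end Cfsg.Agent.S0314
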