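import Cfsg.Statements.S0322
import Cfsg.Agent.Lib.BNP3

set_option autoImplicit false
open Cfsg

namespace Cfsg.Agent.S0322


/-- A group with a (B,N)-pair of rank one acts doubly transitively on the left cosets of `B`. -/
theorem result {G : Type*} [Group G] (P : Cfsg.BNPair G) (h : P.rank = 1) : MulAction.IsMultiplyPretransitive G (G ⧸ P.B) 2 := by
  obtain ⟨s, hs⟩ : ∃ s, P.S = {s} := by
    have h1 : Nat.card P.S = 1 := h
    rw [Nat.card_eq_one_iff_unique] at h1
    obtain ⟨h2, ⟨a⟩⟩ := h1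
    refine ⟨a, ?_⟩
    ext t
    constructor
    · intro ht
      exact congrArg Subtype.val (h2.elim ⟨t, ht⟩ a)
    · rintro rfl
      exact a.2
  have hsS : s ∈ P.S := by rw [hs]; rfl
  have key : ∀ g : G, g ∉ P.B → ∃ b ∈ P.B, ∃ b' ∈ P.B, g = b * s * b' := by
    intro g hg
    have h1 : g ∈ P.parabolic {s} := by
      rw [← hs, CfsgLib.BNP.parabolic_S]; trivial
    rcases (CfsgLib.BNP.mem_parabolic_singleton hsS g).1 h1 with h2 | h2
    · exact absurd h2 hg
    · exact CfsgLib.BNP.mem_C_cls.1 h2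
  rw [MulAction.is_two_pretransitive_iff]
  intro a b c d hab hcd
  induction a using QuotientGroup.induction_on with | H x =>
  induction b using QuotientGroup.induction_on with | H y =>
  induction c using QuotientGroup.induction_on with | H u =>
  induction d using QuotientGroup.induction_on with | H v =>
  rw [Ne, QuotientGroup.eq] at hab hcd
  obtain ⟨b1, h1, b2, h2, h12⟩ := key _ hab
  obtain ⟨b3, h3, b4, h4, h34⟩ := key _ hcd
  refine ⟨u * (b3 * b1⁻¹) * x⁻¹, ?_, ?_⟩
  · change (QuotientGroup.mk (u * (b3 * b1⁻¹) * x⁻¹ * x) : G ⧸ P.B) = QuotientGroup.mk u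
    rw [QuotientGroup.eq]
    have : (u * (b3 * b1⁻¹) * x⁻¹ * x)⁻¹ * u = (b3 * b1⁻¹)⁻¹ := by group
    rw [this]
    exact inv_mem (mul_mem h3 (inv_mem h1))
  · change (QuotientGroup.mk (u * (b3 * b1⁻¹) * x⁻¹ * y) : G ⧸ P.B) = QuotientGroup.mk v
    rw [QuotientGroup.eq]
    have hy : y = x * (b1 * s * b2) := by rw [← h12]; group
    have hv : v = u * (b3 * s * b4) := by rw [← h34]; group
    have : (u * (b3 * b1⁻¹) * x⁻¹ * y)⁻¹ * v = b2⁻¹ * b4 := by rw [hy, hv]; group
    rw [this]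
    exact mul_mem (inv_mem h2) h4

end Cfsg.Agent.S0322
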