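import Cfsg.Statements.S0323

set_option autoImplicit false
open scoped Pointwise
open Cfsg

namespace Cfsg.Agent.S0323


/-- A doubly transitive action on a set with at least three points yields a (B,N)-pair of rank one:
`B` is the stabiliser of a point `x`, `N` the setwise stabiliser of a pair `{x, y}`. -/
theorem result {G Ω : Type*} [Group G] [MulAction G Ω]
    (h2 : MulAction.IsMultiplyPretransitive G Ω 2) {x y z : Ω} (hxy : x ≠ y) (hyz : y ≠ z) (hxz : x ≠ z) :
    ∃ P : Cfsg.BNPair G, P.B = MulAction.stabilizer G x ∧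
      P.N = MulAction.stabilizer G ({x, y} : Set Ω) ∧ P.rank = 1 := by
  rw [MulAction.is_two_pretransitive_iff] at h2
  obtain ⟨s, hs1, hs2⟩ := h2 hxy (Ne.symm hxy)
  have hBmem : ∀ g : G, g ∈ MulAction.stabilizer G x ↔ g • x = x := fun g => Iff.rfl
  have hNmem : ∀ g : G, g ∈ MulAction.stabilizer G ({x, y} : Set Ω) ↔
      (g • x = x ∧ g • y = y) ∨ (g • x = y ∧ g • y = x) := by
    intro g
    rw [MulAction.mem_stabilizer_iff, Set.smul_set_insert, Set.smul_set_singleton]
    constructor
    · intro h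
      exact Set.pair_eq_pair_iff.1 h
    · intro h
      exact Set.pair_eq_pair_iff.2 h
  have hsx : s⁻¹ • x = y := by rw [inv_smul_eq_iff, hs2]
  have hsy : s⁻¹ • y = x := by rw [inv_smul_eq_iff, hs1]
  have hBNmem : ∀ g : G, g ∈ MulAction.stabilizer G x ⊓ MulAction.stabilizer G ({x, y} : Set Ω) ↔
      (g • x = x ∧ g • y = y) := by
    intro g
    rw [Subgroup.mem_inf, hBmem, hNmem]
    constructor
    · rintro ⟨h1, h3 | h3⟩
      · exact h3
      · exact absurd (h1.symm.trans h3.1) hxy
    · intro h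
      exact ⟨h.1, Or.inl h⟩
  have key : ∀ g n : G, g • x ≠ x → n • x ≠ x → ∃ b, b • x = x ∧ ∃ b', b' • x = x ∧ g = b * n * b' := by
    intro g n hg hn
    obtain ⟨b, hb1, hb2⟩ := h2 (Ne.symm hn) (Ne.symm hg)
    refine ⟨b, hb1, n⁻¹ * b⁻¹ * g, ?_, by group⟩
    rw [mul_smul, mul_smul, ← hb2, inv_smul_smul, inv_smul_smul]
  refine ⟨{
    B := MulAction.stabilizer G x
    N := MulAction.stabilizer G ({x, y} : Set Ω)
    S := {s}
    sup_eq_top := ?_
    conj_mem := ?_
    subset := ?_
    sq_mem := ?_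
    inj := ?_
    closure_sup := ?_
    mul_mem_union := ?_
    conj_ne := ?_ }, rfl, rfl, ?_⟩
  · rw [eq_top_iff]
    rintro g -
    by_cases hg : g • x = x
    · exact Subgroup.mem_sup_left hg
    · obtain ⟨b, hb, b', hb', rfl⟩ := key g s hg (by rw [hs1]; exact Ne.symm hxy)
      exact mul_mem (mul_mem (Subgroup.mem_sup_left hb)
        (Subgroup.mem_sup_right ((hNmem s).2 (Or.inr ⟨hs1, hs2⟩)))) (Subgroup.mem_sup_left hb')
  · intro n hn t ht
    rw [hBNmem] at ht
    rw [hBmem]
    rcases (hNmem n⁻¹).1 (inv_mem hn) with h | h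
    · rw [mul_smul, mul_smul, h.1, ht.1]
      exact (inv_smul_eq_iff.1 h.1).symm
    · rw [mul_smul, mul_smul, h.1, ht.2]
      exact (inv_smul_eq_iff.1 h.1).symm
  · rw [Set.singleton_subset_iff]
    exact (hNmem s).2 (Or.inr ⟨hs1, hs2⟩)
  · rintro _ rfl
    rw [hBmem, mul_smul, hs1, hs2]
  · rintro _ rfl _ rfl _
    rfl
  · apply le_antisymm
    · apply sup_le _ inf_le_right
      rw [Subgroup.closure_le, Set.singleton_subset_iff]
      exact (hNmem s).2 (Or.inr ⟨hs1, hs2⟩)
    · intro n hn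
      rcases (hNmem n).1 hn with h | h
      · exact Subgroup.mem_sup_right ((hBNmem n).2 h)
      · have h3 : s⁻¹ * n ∈ MulAction.stabilizer G x ⊓ MulAction.stabilizer G ({x, y} : Set Ω) := by
          rw [hBNmem, mul_smul, mul_smul, h.1, h.2, hsx, hsy]
          exact ⟨rfl, rfl⟩
        have h4 : n = s * (s⁻¹ * n) := by group
        rw [h4]
        exact mul_mem (Subgroup.mem_sup_left (Subgroup.subset_closure rfl)) (Subgroup.mem_sup_right h3)
  · intro s' hs' n hn b hb
    rw [show s' = s from hs']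
    rcases (hNmem n).1 hn with h | h
    · left
      rw [DoubleCoset.mem_doubleCoset]
      refine ⟨1, one_mem _, n⁻¹ * b * n, ?_, by group⟩
      change (n⁻¹ * b * n) • x = x
      rw [mul_smul, mul_smul, h.1, hb, inv_smul_eq_iff, h.1]
    · by_cases hc : (s * b * n) • x = x
      · left
        rw [DoubleCoset.mem_doubleCoset]
        refine ⟨1, one_mem _, (s * n)⁻¹ * (s * b * n), ?_, by group⟩
        change ((s * n)⁻¹ * (s * b * n)) • x = x
        rw [mul_smul, hc, inv_smul_eq_iff, mul_smul, h.1, hs2]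
      · right
        rw [DoubleCoset.mem_doubleCoset]
        obtain ⟨b, hb, b', hb', h5⟩ := key _ n hc (by rw [h.1]; exact Ne.symm hxy)
        exact ⟨b, hb, b', hb', h5⟩
  · intro s' hs' hc
    rw [show s' = s from hs'] at hc
    obtain ⟨b, hb1, hb2⟩ := h2 hxy hxz
    have h3 : s * b * s ∈ (MulAction.stabilizer G x : Set G) := by
      rw [← hc]
      exact ⟨b, hb1, rfl⟩
    have h4 : (s * b * s) • x = x := h3
    rw [mul_smul, mul_smul, hs1, hb2, ← eq_inv_smul_iff, hsx] at h4
    exact hyz h4.symm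
  · change Nat.card ({s} : Set G) = 1
    simp

end Cfsg.Agent.S0323
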