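import Cfsg.Statements.S0325
import Mathlib
import Cfsg.Agent.Lib.H7S5
import Cfsg.Agent.S0338

set_option autoImplicit false
open Cfsg

set_option linter.style.haveILetI false
namespace Cfsg.Agent.S0325

open CfsgLib.H7S


/-- The Suzuki group over a field with `2^(2m+1)` elements, `m ≥ 1`, is a simple group. -/
theorem result {F : Type*} [Field F] [Fintype F] {m : ℕ} (hm : 1 ≤ m)
    (hF : Fintype.card F = 2 ^ (2 * m + 1)) :
    IsSimpleGroup (Cfsg.Sz F m) := by
  obtain ⟨D⟩ := exists_SD hF
  haveI : Fintype (suzukiOvoid F m) := Fintype.ofFinite _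
  refine Cfsg.Agent.S0338.result (D.zassenhaus hm hF) ?_
  rw [← Nat.card_eq_fintype_card, card_ovoid, hF, Nat.odd_add_one, Nat.not_odd_iff_even, ← pow_mul]
  exact (Nat.even_pow.mpr ⟨even_two, by omega⟩)

end Cfsg.Agent.S0325
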