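import Cfsg.Statements.S0328
import Mathlib
import Cfsg.Agent.Lib.H7S5

set_option autoImplicit false
open Cfsg

namespace Cfsg.Agent.S0328

open CfsgLib.H7S


/-- The stabiliser in the Suzuki group of the two ovoid points spanned by `(1,0,0,0)` and `(0,0,0,1)` is
isomorphic to the multiplicative group of the field (cyclic of order `q - 1`). -/
theorem result {F : Type*} [Field F] [Fintype F] {m : ℕ} (hm : 1 ≤ m)
    (hF : Fintype.card F = 2 ^ (2 * m + 1)) :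
    Nonempty (↥(MulAction.stabilizer (Cfsg.Sz F m) (Cfsg.suzukiPointInfinity F) ⊓
        MulAction.stabilizer (Cfsg.Sz F m) (Cfsg.suzukiPointZero F)) ≃* Fˣ) := by
  obtain ⟨D⟩ := exists_SD hF
  have h0 : ∀ μ : Fˣ, D.h μ ∈ MulAction.stabilizer (Cfsg.Sz F m) (Cfsg.suzukiPointInfinity F) ⊓ MulAction.stabilizer (Cfsg.Sz F m) (Cfsg.suzukiPointZero F) := by
    intro μ
    refine ⟨congrArg Subtype.val (D.h_inf μ), ?_⟩
    rw [← pt_zero m]
    have h1 := D.h_pt μ 0 0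
    rw [mul_zero, mul_zero] at h1
    exact congrArg Subtype.val h1
  refine ⟨(MulEquiv.ofBijective (⟨⟨fun μ => (⟨D.h μ, h0 μ⟩ : ↥(MulAction.stabilizer (Cfsg.Sz F m) (Cfsg.suzukiPointInfinity F) ⊓ MulAction.stabilizer (Cfsg.Sz F m) (Cfsg.suzukiPointZero F))),
    Subtype.ext D.h_one⟩, fun μ ν => Subtype.ext (D.h_mul μ ν).symm⟩ : Fˣ →* _) ⟨?_, ?_⟩).symm⟩
  · intro μ ν h
    exact D.h_inj (congrArg Subtype.val h)
  · rintro ⟨g, hg1, hg2⟩
    rw [← pt_zero m] at hg2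
    obtain ⟨μ, hμ⟩ := D.stab2' hm hF (g := g) (Subtype.ext hg1) (Subtype.ext hg2)
    exact ⟨μ, Subtype.ext hμ.symm⟩

end Cfsg.Agent.S0328
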