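import Cfsg.Statements.S0333
import Mathlib
import Cfsg.Agent.Lib.H7SE

set_option autoImplicit false
open Cfsg

namespace Cfsg.Agent.S0333

open CfsgLib.H7S


/-- With `q = 2^(2m+1)` and `r = 2^m`, the Suzuki group has cyclic subgroups of orders `q + 2r + 1` and
`q - 2r + 1`; each is the centraliser of each of its non-identity elements and has index `4` in its normaliser. -/
theorem result {F : Type*} [Field F] [Fintype F] {m : ℕ} (hm : 1 ≤ m)
    (hF : Fintype.card F = 2 ^ (2 * m + 1)) :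
    ∀ k ∈ ({2 ^ (2 * m + 1) + 2 ^ (m + 1) + 1, 2 ^ (2 * m + 1) - 2 ^ (m + 1) + 1} : Set ℕ),
      ∃ U : Subgroup (Cfsg.Sz F m), IsCyclic U ∧ Nat.card U = k ∧
        (∀ u ∈ U, u ≠ 1 → Subgroup.centralizer {u} = U) ∧ Nat.card (Subgroup.normalizer (U : Set (Cfsg.Sz F m))) = 4 * k := by
  obtain ⟨g1, g2, hg1, hg2, h1, h2, -⟩ := tori (F := F) hm hF
  rw [hF] at h1 h2
  intro k hk
  simp only [Set.mem_insert_iff, Set.mem_singleton_iff] at hk
  rcases hk with rfl | rfl
  · refine ⟨CC g1, cent_FP_cyclic hm hF hg1, h1, fun u hu hu1 => cent_FP_cent hm hF hg1 hu hu1, ?_⟩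
    rw [index_four hm hF hg1, h1]
  · refine ⟨CC g2, cent_FP_cyclic hm hF hg2, h2, fun u hu hu1 => cent_FP_cent hm hF hg2 hu hu1, ?_⟩
    rw [index_four hm hF hg2, h2]

end Cfsg.Agent.S0333
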