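import Cfsg.Statements.S0334
import Mathlib
import Cfsg.Agent.Lib.H7S6

set_option autoImplicit false
open Cfsg

namespace Cfsg.Agent.S0334

open CfsgLib.H7S Matrix


/-- Every element of the Suzuki group preserves the alternating form with antidiagonal matrix:
`gᵀ J g = J`. Hence the Suzuki group is a subgroup of a 4-dimensional symplectic group. -/
theorem result {F : Type*} [Field F] [Fintype F] {m : ℕ} (hm : 1 ≤ m)
    (hF : Fintype.card F = 2 ^ (2 * m + 1)) {g : Matrix.SpecialLinearGroup (Fin 4) F}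
    (hg : g ∈ Cfsg.Sz F m) :
    (g : Matrix (Fin 4) (Fin 4) F).transpose * Cfsg.suzukiForm F * (g : Matrix (Fin 4) (Fin 4) F) =
      Cfsg.suzukiForm F := by
  obtain ⟨D⟩ := exists_SD hF
  have hmul : ∀ A B : Matrix (Fin 4) (Fin 4) F, A.transpose * Cfsg.suzukiForm F * A = Cfsg.suzukiForm F → B.transpose * Cfsg.suzukiForm F * B = Cfsg.suzukiForm F →
      (A * B).transpose * Cfsg.suzukiForm F * (A * B) = Cfsg.suzukiForm F := by
    intro A B hA hB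
    rw [Matrix.transpose_mul]
    calc B.transpose * A.transpose * Cfsg.suzukiForm F * (A * B) = B.transpose * (A.transpose * Cfsg.suzukiForm F * A) * B := by
          simp only [Matrix.mul_assoc]
      _ = Cfsg.suzukiForm F := by rw [hA, hB]
  have h2 := D.two
  have h4 := D.four
  have hT : ∀ a b : F, ((D.T a b : Cfsg.Sz F m) : Matrix.SpecialLinearGroup (Fin 4) F).1.transpose * Cfsg.suzukiForm F * ((D.T a b : Cfsg.Sz F m) : Matrix.SpecialLinearGroup (Fin 4) F).1 = Cfsg.suzukiForm F := by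
    intro a b
    show (!![1, a, b + D.t a * a, a * b + D.t a * a ^ 2 + D.t b; 0, 1, D.t a, b; 0, 0, 1, a; 0, 0, 0, 1] : Matrix (Fin 4) (Fin 4) F).transpose * !![0, 0, 0, 1; 0, 0, 1, 0; 0, 1, 0, 0; 1, 0, 0, 0] *
      !![1, a, b + D.t a * a, a * b + D.t a * a ^ 2 + D.t b; 0, 1, D.t a, b; 0, 0, 1, a; 0, 0, 0, 1] = !![0, 0, 0, 1; 0, 0, 1, 0; 0, 1, 0, 0; 1, 0, 0, 0]
    ext i j
    fin_cases i <;> fin_cases j <;> simp [Matrix.mul_apply, Matrix.vecMul, dotProduct, Fin.sum_univ_four]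
    all_goals try ring_nf
    all_goals try simp only [h2, h4, mul_zero, add_zero]
  have hh : ∀ μ : Fˣ, ((D.h μ : Cfsg.Sz F m) : Matrix.SpecialLinearGroup (Fin 4) F).1.transpose * Cfsg.suzukiForm F * ((D.h μ : Cfsg.Sz F m) : Matrix.SpecialLinearGroup (Fin 4) F).1 = Cfsg.suzukiForm F := by
    intro μ
    have h1 : (μ : F) ≠ 0 := μ.ne_zero
    have h2 : D.t μ ≠ 0 := fun h => h1 (D.t_eq_zero.mp h)
    show (!![(μ : F) * D.t μ, 0, 0, 0; 0, (μ : F), 0, 0; 0, 0, (μ : F)⁻¹, 0; 0, 0, 0, ((μ : F) * D.t μ)⁻¹] : Matrix (Fin 4) (Fin 4) F).transpose * !![0, 0, 0, 1; 0, 0, 1, 0; 0, 1, 0, 0; 1, 0, 0, 0] *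
      !![(μ : F) * D.t μ, 0, 0, 0; 0, (μ : F), 0, 0; 0, 0, (μ : F)⁻¹, 0; 0, 0, 0, ((μ : F) * D.t μ)⁻¹] = !![0, 0, 0, 1; 0, 0, 1, 0; 0, 1, 0, 0; 1, 0, 0, 0]
    ext i j
    fin_cases i <;> fin_cases j <;> simp [Matrix.mul_apply, Matrix.vecMul, dotProduct, Fin.sum_univ_four]
    all_goals field_simp
  have hw : ((wS D : Cfsg.Sz F m) : Matrix.SpecialLinearGroup (Fin 4) F).1.transpose * Cfsg.suzukiForm F * ((wS D : Cfsg.Sz F m) : Matrix.SpecialLinearGroup (Fin 4) F).1 = Cfsg.suzukiForm F := by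
    show (!![0, 0, 0, 1; 0, 0, 1, 0; 0, 1, 0, 0; 1, 0, 0, 0] : Matrix (Fin 4) (Fin 4) F).transpose * !![0, 0, 0, 1; 0, 0, 1, 0; 0, 1, 0, 0; 1, 0, 0, 0] *
      !![0, 0, 0, 1; 0, 0, 1, 0; 0, 1, 0, 0; 1, 0, 0, 0] = !![0, 0, 0, 1; 0, 0, 1, 0; 0, 1, 0, 0; 1, 0, 0, 0]
    ext i j
    fin_cases i <;> fin_cases j <;> simp [Matrix.mul_apply, Matrix.vecMul, dotProduct, Fin.sum_univ_four]
  rcases D.bruhat hm hF ⟨g, hg⟩ with ⟨a, b, μ, h⟩ | ⟨a, b, c, d, μ, h⟩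
  · have h1 : g.1 = ((D.T a b : Cfsg.Sz F m) : Matrix.SpecialLinearGroup (Fin 4) F).1 * ((D.h μ : Cfsg.Sz F m) : Matrix.SpecialLinearGroup (Fin 4) F).1 :=
      congrArg (fun k : Cfsg.Sz F m => (k : Matrix.SpecialLinearGroup (Fin 4) F).1) h
    rw [h1]
    exact hmul _ _ (hT a b) (hh μ)
  · have h1 : g.1 = ((D.T a b : Cfsg.Sz F m) : Matrix.SpecialLinearGroup (Fin 4) F).1 * ((wS D : Cfsg.Sz F m) : Matrix.SpecialLinearGroup (Fin 4) F).1 *
        ((D.T c d : Cfsg.Sz F m) : Matrix.SpecialLinearGroup (Fin 4) F).1 * ((D.h μ : Cfsg.Sz F m) : Matrix.SpecialLinearGroup (Fin 4) F).1 :=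
      congrArg (fun k : Cfsg.Sz F m => (k : Matrix.SpecialLinearGroup (Fin 4) F).1) h
    rw [h1]
    exact hmul _ _ (hmul _ _ (hmul _ _ (hT a b) hw) (hT c d)) (hh μ)

end Cfsg.Agent.S0334
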