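import Cfsg.Statements.S0335
import Mathlib
import Cfsg.Agent.Lib.H7S6

set_option autoImplicit false
open Cfsg

open scoped Pointwise
namespace Cfsg.Agent.S0335

open CfsgLib.H7S Matrix


/-- The Suzuki–Tits point set is an ovoid: any three distinct points of it are projectively independent
(no line of projective 3-space meets it in more than two points). -/
theorem result {F : Type*} [Field F] [Fintype F] {m : ℕ} (hm : 1 ≤ m)
    (hF : Fintype.card F = 2 ^ (2 * m + 1)) (p : Fin 3 ↪ Cfsg.suzukiOvoid F m) :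
    Projectivization.Independent (fun i => (p i : Projectivization F (Fin 4 → F))) := by
  obtain ⟨D⟩ := exists_SD hF
  have h01 : p 0 ≠ p 1 := fun h => absurd (p.injective h) (by decide)
  have h12 : p 1 ≠ p 2 := fun h => absurd (p.injective h) (by decide)
  have h02 : p 0 ≠ p 2 := fun h => absurd (p.injective h) (by decide)
  obtain ⟨k, h1, h2⟩ := D.exists_to_std h01
  obtain ⟨x, y, h3⟩ : ∃ x y : F, k • p 2 = opt m x y := by
    rcases oex (k • p 2) with h | h
    · exact absurd (smul_left_cancel k (h1.trans h.symm)) h02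
    · exact h
  have hxy : ¬ (x = 0 ∧ y = 0) := by
    rintro ⟨rfl, rfl⟩
    exact h12 (smul_left_cancel k (h2.trans h3.symm))
  rw [Projectivization.independent_iff, Fintype.linearIndependent_iff]
  intro c hc
  have hrep : ∀ i : Fin 3, ∀ (v : Fin 4 → F) (hv : v ≠ 0), (k : Matrix.SpecialLinearGroup (Fin 4) F) • (p i : Projectivization F (Fin 4 → F)) = Projectivization.mk F v hv →
      ∃ l : F, l ≠ 0 ∧ (k : Matrix.SpecialLinearGroup (Fin 4) F).1 *ᵥ (p i : Projectivization F (Fin 4 → F)).rep = l • v := by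
    intro i v hv h
    have h4 : (k : Matrix.SpecialLinearGroup (Fin 4) F) • Projectivization.mk F (p i : Projectivization F (Fin 4 → F)).rep (Projectivization.rep_nonzero _) = Projectivization.mk F v hv := by
      rw [Projectivization.mk_rep]; exact h
    obtain ⟨hw, h5⟩ := smul_mk' (k : Matrix.SpecialLinearGroup (Fin 4) F) (Projectivization.rep_nonzero (p i : Projectivization F (Fin 4 → F)))
    rw [h5, Projectivization.mk_eq_mk_iff'] at h4
    obtain ⟨l, hl⟩ := h4
    refine ⟨l, ?_, hl.symm⟩
    rintro rfl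
    rw [zero_smul] at hl
    exact hw hl.symm
  obtain ⟨l0, hl0, e0⟩ := hrep 0 ![1, 0, 0, 0] (by simp) (congrArg Subtype.val h1)
  obtain ⟨l1, hl1, e1⟩ := hrep 1 (CfsgLib.H7S.vec m 0 0) (vec_ne m 0 0) (congrArg Subtype.val h2)
  obtain ⟨l2, hl2, e2⟩ := hrep 2 (CfsgLib.H7S.vec m x y) (vec_ne m x y) (congrArg Subtype.val h3)
  have h6 : (k : Matrix.SpecialLinearGroup (Fin 4) F).1 *ᵥ (∑ i, c i • (Projectivization.rep ∘ fun i => (p i : Projectivization F (Fin 4 → F))) i) = 0 := by
    rw [hc, Matrix.mulVec_zero]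
  rw [Fin.sum_univ_three, Matrix.mulVec_add, Matrix.mulVec_add, Matrix.mulVec_smul, Matrix.mulVec_smul, Matrix.mulVec_smul] at h6
  simp only [Function.comp] at h6
  rw [e0, e1, e2] at h6
  have f0 := congrFun h6 0
  have f1 := congrFun h6 1
  have f2 := congrFun h6 2
  have f3 := congrFun h6 3
  simp [CfsgLib.H7S.vec, CfsgLib.H7S.ff] at f0 f1 f2 f3
  have c2 : c 2 = 0 := by
    rcases f1 with h | h | h
    · exact h
    · exact absurd h hl2
    · rcases f2 with h' | h' | h'
      · exact h'
      · exact absurd h' hl2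
      · exact absurd ⟨h', h⟩ hxy
  rw [c2] at f0 f3
  simp [hl0] at f0
  simp [hl1] at f3
  intro i
  fin_cases i
  · exact f0
  · exact f3
  · exact c2

end Cfsg.Agent.S0335
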