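import Cfsg.Statements.S0352
import Cfsg.Agent.Lib.Steiner

set_option autoImplicit false
open Cfsg

namespace Cfsg.Agent.S0352

/-- In a Steiner system S(5, 8, 24), two distinct blocks intersect in 0, 2 or 4 points. -/
theorem result {α : Type*} [Fintype α] [DecidableEq α] (hα : Fintype.card α = 24) {B : Set (Finset α)} (hB : Cfsg.IsSteinerSystem 5 8 B) {b c : Finset α} (hb : b ∈ B) (hc : c ∈ B) (hbc : b ≠ c) : (b ∩ c).card = 0 ∨ (b ∩ c).card = 2 ∨ (b ∩ c).card = 4 := by
  have h := fun j hj => CfsgLib.Steiner.block_eq hB (by norm_num) hb j hj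
  rw [hα] at h
  have h0 := h 0 (by norm_num)
  have h1 := h 1 (by norm_num)
  have h2 := h 2 (by norm_num)
  have h3 := h 3 (by norm_num)
  have h4 := h 4 (by norm_num)
  simp only [Finset.sum_range_succ, Finset.sum_range_zero, Nat.choose, CfsgLib.Steiner.lam] at h0 h1 h2 h3 h4
  norm_num [Nat.choose] at h0 h1 h2 h3 h4
  have hlt := CfsgLib.Steiner.card_inter_lt hB hb hc hbc
  have key : ∀ r, (b ∩ c).card = r → 0 < (((CfsgLib.Steiner.bl B).erase b).filter (fun c => (b ∩ c).card = r)).card := by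
    intro r hr
    apply Finset.card_pos.mpr
    exact ⟨c, by rw [Finset.mem_filter, Finset.mem_erase, CfsgLib.Steiner.mem_bl]; exact ⟨⟨hbc.symm, hc⟩, hr⟩⟩
  have k1 := key 1
  have k3 := key 3
  omega

end Cfsg.Agent.S0352
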