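import Cfsg.Statements.S0353
import Cfsg.Agent.Lib.Steiner

set_option autoImplicit false
open Cfsg

namespace Cfsg.Agent.S0353

/-- In an S(5, 8, 24), the symmetric difference of two blocks meeting in four points is a block. -/
theorem result {α : Type*} [Fintype α] [DecidableEq α] (hα : Fintype.card α = 24) {B : Set (Finset α)} (hB : Cfsg.IsSteinerSystem 5 8 B) {b c : Finset α} (hb : b ∈ B) (hc : c ∈ B) (h4 : (b ∩ c).card = 4) : symmDiff b c ∈ B := by
  classical
  -- number of blocks through 5 points of the symmetric difference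
  set w := symmDiff b c with hw
  have hmemw : ∀ x, x ∈ w ↔ ((x ∈ b ∧ x ∉ c) ∨ (x ∈ c ∧ x ∉ b)) := fun x => Finset.mem_symmDiff
  have hcard : ∀ s t : Finset α, (symmDiff s t).card + 2 * (s ∩ t).card = s.card + t.card := by
    intro s t
    have h1 : symmDiff s t = (s \ t) ∪ (t \ s) := rfl
    rw [h1, Finset.card_union_of_disjoint (disjoint_sdiff_sdiff)]
    have h2 := Finset.card_sdiff_add_card_inter s t
    have h3 := Finset.card_sdiff_add_card_inter t s
    rw [Finset.inter_comm t s] at h3
    omega
  have hwc : w.card = 8 := by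
    have h9 := hcard b c
    rw [hB.1 b hb, hB.1 c hc, h4, ← hw] at h9
    omega
  have hpar : ∀ s t e : Finset α, Even (s ∩ e).card → Even (t ∩ e).card → Even (symmDiff s t ∩ e).card := by
    intro s t e hs ht
    have h1 : symmDiff s t ∩ e = symmDiff (s ∩ e) (t ∩ e) := by
      ext x; simp only [Finset.mem_inter, Finset.mem_symmDiff]; tauto
    rw [h1]
    have h2 := hcard (s ∩ e) (t ∩ e)
    obtain ⟨a, ha⟩ := hs
    obtain ⟨a', ha'⟩ := ht
    rw [Nat.even_iff]; omega
  obtain ⟨s, hsw, hs5⟩ := Finset.exists_subset_card_eq (s := w) (n := 5) (by omega)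
  obtain ⟨d, ⟨hd, hsd⟩, -⟩ := hB.2 s hs5
  have hev : ∀ e ∈ B, Even (w ∩ e).card := fun e he => hpar b c e (CfsgLib.Steiner.even_inter_5_8_24 hα hB hb he) (CfsgLib.Steiner.even_inter_5_8_24 hα hB hc he)
  set u := symmDiff w d with hu
  have hevu : ∀ e ∈ B, Even (u ∩ e).card := fun e he => hpar w d e (hev e he) (CfsgLib.Steiner.even_inter_5_8_24 hα hB hd he)
  have h5 : 5 ≤ (w ∩ d).card := by
    rw [← hs5]; exact Finset.card_le_card (Finset.subset_inter hsw hsd)
  have h6 := hcard w d
  rw [hwc, hB.1 d hd, ← hu] at h6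
  have h7 := hev d hd
  have h8 : u.card = 0 ∨ u.card = 4 := by
    obtain ⟨r, hr⟩ := h7
    omega
  rcases h8 with h8 | h8
  · rw [Finset.card_eq_zero, hu] at h8
    have h9 : w = d := symmDiff_eq_bot.mp h8
    rw [h9]; exact hd
  · exfalso
    obtain ⟨v, hvu, hv3⟩ := Finset.exists_subset_card_eq (s := u) (n := 3) (by omega)
    have c3 := CfsgLib.Steiner.card_containing hB v (by omega) (by norm_num)
    have c4 := CfsgLib.Steiner.card_containing hB u (by omega) (by norm_num)
    rw [hα, hv3] at c3
    rw [hα, h8] at c4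
    norm_num [CfsgLib.Steiner.lam, Nat.choose] at c3 c4
    have h9 : ¬ ((CfsgLib.Steiner.bl B).filter (fun b => v ⊆ b)) ⊆ ((CfsgLib.Steiner.bl B).filter (fun b => u ⊆ b)) := by
      intro h
      have := Finset.card_le_card h
      omega
    rw [Finset.not_subset] at h9
    obtain ⟨e, he, he'⟩ := h9
    rw [Finset.mem_filter, CfsgLib.Steiner.mem_bl] at he he'
    have h10 : ¬ u ⊆ e := fun h => he' ⟨he.1, h⟩
    have h11 : (u ∩ e).card = 3 := by
      apply le_antisymm
      · have : (u ∩ e).card < u.card := by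
          apply Finset.card_lt_card
          rw [Finset.ssubset_iff_subset_ne]
          exact ⟨Finset.inter_subset_left, fun h => h10 (by rw [← h]; exact Finset.inter_subset_right)⟩
        omega
      · rw [← hv3]; exact Finset.card_le_card (Finset.subset_inter hvu he.2)
    have := hevu e he.1
    rw [h11] at this
    exact absurd this (by decide)

end Cfsg.Agent.S0353
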