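import Cfsg.Statements.S0354
import Cfsg.Agent.Lib.Steiner

set_option autoImplicit false
open Cfsg

namespace Cfsg.Agent.S0354

/-- In an S(5, 8, 24), each block is disjoint from exactly 30 blocks. -/
theorem result {α : Type*} [Fintype α] [DecidableEq α] (hα : Fintype.card α = 24) {B : Set (Finset α)} (hB : Cfsg.IsSteinerSystem 5 8 B) {b : Finset α} (hb : b ∈ B) : {c : Finset α | c ∈ B ∧ Disjoint b c}.ncard = 30 := by
  obtain ⟨x, hx, h', h0, -⟩ := CfsgLib.Steiner.x_5_8_24 hα hB hb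
  rw [CfsgLib.Steiner.ncard_filter]
  rw [← h0, hx]
  congr 1
  ext c
  simp only [Finset.mem_filter, Finset.mem_erase, CfsgLib.Steiner.mem_bl, Finset.card_eq_zero, Finset.disjoint_iff_inter_eq_empty]
  constructor
  · rintro ⟨h1, h2⟩
    refine ⟨⟨?_, h1⟩, h2⟩
    rintro rfl
    rw [Finset.inter_self] at h2
    have := hB.1 c hb
    rw [h2] at this; simp at this
  · rintro ⟨⟨h1, h2⟩, h3⟩; exact ⟨h2, h3⟩

end Cfsg.Agent.S0354
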