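import Cfsg.Statements.S0357
import Cfsg.Agent.Lib.Steiner

set_option autoImplicit false
open Cfsg

namespace Cfsg.Agent.S0357

/-- In a Steiner system S(5, 6, 12), the complement of every block is again a block. -/
theorem result {α : Type*} [Fintype α] [DecidableEq α] (hα : Fintype.card α = 12) {B : Set (Finset α)} (hB : Cfsg.IsSteinerSystem 5 6 B) {b : Finset α} (hb : b ∈ B) : bᶜ ∈ B := by
  have h := fun j hj => CfsgLib.Steiner.block_eq hB (by norm_num) hb j hj
  rw [hα] at h
  have h0 := h 0 (by norm_num)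
  have h1 := h 1 (by norm_num)
  have h2 := h 2 (by norm_num)
  have h3 := h 3 (by norm_num)
  have h4 := h 4 (by norm_num)
  simp only [Finset.sum_range_succ, Finset.sum_range_zero, Nat.choose, CfsgLib.Steiner.lam] at h0 h1 h2 h3 h4
  norm_num [Nat.choose] at h0 h1 h2 h3 h4
  have hz : 0 < (((CfsgLib.Steiner.bl B).erase b).filter (fun c => b ∩ c = ∅)).card := by omega
  obtain ⟨c, hc⟩ := Finset.card_pos.mp hz
  rw [Finset.mem_filter, Finset.mem_erase, CfsgLib.Steiner.mem_bl] at hc
  have h5 : c = bᶜ := by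
    apply Finset.eq_of_subset_of_card_le
    · intro x hx
      rw [Finset.mem_compl]
      intro hxb
      have : x ∈ b ∩ c := Finset.mem_inter.mpr ⟨hxb, hx⟩
      rw [hc.2] at this; simp at this
    · rw [Finset.card_compl, hα, hB.1 b hb, hB.1 c hc.1.2]
  rw [← h5]; exact hc.1.2

end Cfsg.Agent.S0357
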