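import Cfsg.Statements.S0362
import Cfsg.Agent.Lib.Golay

set_option autoImplicit false
open Cfsg

namespace Cfsg.Agent.S0362

/-- The length-24 code is self-orthogonal: the dot product over ZMod 2 of any two of its words vanishes (with dimension 12 this makes it self-dual). -/
theorem result (v w : Cfsg.GolayPt → ZMod 2) (hv : v ∈ Cfsg.golayCode) (hw : w ∈ Cfsg.golayCode) : ∑ i, v i * w i = 0 := by
  have h1 : ∑ i, v i * w i = ((support₂ v ∩ support₂ w).card : ZMod 2) := by
    rw [Finset.card_eq_sum_ones, Nat.cast_sum, ← Finset.sum_subset (Finset.subset_univ (support₂ v ∩ support₂ w))]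
    · apply Finset.sum_congr rfl
      intro i hi
      rw [Finset.mem_inter, CfsgLib.Golay.mem_support₂, CfsgLib.Golay.mem_support₂] at hi
      rw [CfsgLib.Golay.zmod2_ne _ hi.1, CfsgLib.Golay.zmod2_ne _ hi.2]; simp
    · intro i _ hi
      rw [Finset.mem_inter, CfsgLib.Golay.mem_support₂, CfsgLib.Golay.mem_support₂] at hi
      by_cases h : v i = 0
      · rw [h, zero_mul]
      · by_cases h' : w i = 0
        · rw [h', mul_zero]
        · exact absurd ⟨h, h'⟩ hi
  rw [h1]
  have hv' := CfsgLib.Golay.supports_card (CfsgLib.Golay.mem_iff_supports.mp hv)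
  have hw' := CfsgLib.Golay.supports_card (CfsgLib.Golay.mem_iff_supports.mp hw)
  have hs := CfsgLib.Golay.supports_card (CfsgLib.Golay.symmDiff_mem (CfsgLib.Golay.mem_iff_supports.mp hv) (CfsgLib.Golay.mem_iff_supports.mp hw))
  have h2 : (symmDiff (support₂ v) (support₂ w)).card = (support₂ v \ support₂ w).card + (support₂ w \ support₂ v).card := by
    rw [symmDiff_def, Finset.sup_eq_union, Finset.card_union_of_disjoint disjoint_sdiff_sdiff]
  have h3 := Finset.card_sdiff_add_card_inter (support₂ v) (support₂ w)
  have h4 := Finset.card_sdiff_add_card_inter (support₂ w) (support₂ v)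
  rw [Finset.inter_comm] at h4
  have h5 : Even (support₂ v ∩ support₂ w).card := by
    rw [Nat.even_iff]; omega
  rw [(ZMod.natCast_eq_zero_iff _ _)]
  exact h5.two_dvd

end Cfsg.Agent.S0362
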