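import Cfsg.Statements.S0366
import Cfsg.Agent.Lib.GolayPerm

set_option autoImplicit false
open Cfsg

namespace Cfsg.Agent.S0366

/-- The permutation group preserving the length-24 code is 5-transitive on the 24 points. -/
theorem result : MulAction.IsMultiplyPretransitive Cfsg.M24 Cfsg.GolayPt 5 := by
  refine ⟨fun x y => ?_⟩
  obtain ⟨g, hg, h⟩ := CfsgLib.Golay.trans_list (l := List.ofFn x) (l' := List.ofFn y)
    (List.nodup_ofFn.mpr x.injective) (List.nodup_ofFn.mpr y.injective) (by simp) (by simp)
  refine ⟨⟨g, hg⟩, ?_⟩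
  ext i : 1
  rw [List.map_ofFn, List.ofFn_inj] at h
  exact congrFun h i

end Cfsg.Agent.S0366
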