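import Cfsg.Statements.S0369
import Cfsg.Agent.Lib.GolayM

set_option autoImplicit false
open Cfsg

open scoped Pointwise
namespace Cfsg.Agent.S0369

/-- The group of the length-24 code coincides with the automorphism group of its octad system. -/
theorem result : Cfsg.M24 = Cfsg.setSystemAut Cfsg.octads := by
  ext g
  constructor
  · intro hg
    show g • octads = octads
    apply Set.eq_of_subset_of_ncard_le
    · rintro _ ⟨s, hs, rfl⟩; exact (CfsgLib.Golay.smul_mem_octads hg).mpr hs
    · rw [Set.ncard_smul_set]
    · exact Set.toFinite _
  · intro hg
    have hg' : g • octads = octads := hg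
    apply CfsgLib.Golay.mem_M24_of_octads
    intro o ho
    rw [← hg']; exact Set.smul_mem_smul_set ho

end Cfsg.Agent.S0369
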