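import Cfsg.Statements.S0371
import Cfsg.Agent.Lib.GolayPerm

set_option autoImplicit false
open Cfsg

namespace Cfsg.Agent.S0371

def mulFun (c : ZMod 23) : GolayPt → GolayPt
  | none => none
  | some x => some (c * x)
def chk (c : ZMod 23) : Bool :=
  and (CfsgLib.Golay.packsCheck (CfsgLib.Golay.packOf (mulFun c) CfsgLib.Golay.ixs) (mulFun c))
    (CfsgLib.Golay.rows.all (fun r => CfsgLib.Golay.isCode (CfsgLib.Golay.act (CfsgLib.Golay.packOf (mulFun c) CfsgLib.Golay.ixs) r)))
theorem all_chk : ∀ r : ZMod 23, r ≠ 0 → chk (r * r) = true := by decide +kernel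


/-- Multiplication by a nonzero square residue modulo 23, fixing the extra point, lies in the group of the length-24 code. -/
theorem result (u : (ZMod 23)ˣ) (hu : IsSquare u) : Equiv.optionCongr (Units.mulLeft u) ∈ Cfsg.M24 := by
  obtain ⟨r, rfl⟩ := hu
  haveI : Fact (Nat.Prime 23) := ⟨by norm_num⟩
  have h1 := all_chk (r : ZMod 23) (Units.ne_zero r)
  rw [chk, Bool.and_eq_true] at h1
  have h2 : ((Equiv.optionCongr (Units.mulLeft (r * r)) : Equiv.Perm GolayPt) : GolayPt → GolayPt) = mulFun ((r : ZMod 23) * r) := by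
    funext p
    rcases p with _ | x
    · rfl
    · simp [mulFun]
  have h3 : CfsgLib.Golay.Packs (CfsgLib.Golay.packOf (mulFun ((r : ZMod 23) * r)) CfsgLib.Golay.ixs) (Equiv.optionCongr (Units.mulLeft (r * r))) :=
    CfsgLib.Golay.packs_of_check (by rw [h2]; exact h1.1)
  exact CfsgLib.Golay.mem_M24_of_packs h3 h1.2

end Cfsg.Agent.S0371
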