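import Cfsg.Statements.S0375
import Cfsg.Agent.Lib.SteinerV
import Cfsg.Agent.S0358

set_option autoImplicit false
open Cfsg

namespace Cfsg.Agent.S0375

section
open CfsgLib.Golay Finset
variable (C : Submodule (ZMod 2) (Fin 24 → ZMod 2))

/-- indicator word -/
def wd (s : Finset (Fin 24)) : Fin 24 → ZMod 2 := fun i => if i ∈ s then 1 else 0

theorem wd_add (s t : Finset (Fin 24)) : wd s + wd t = wd (symmDiff s t) := by
  funext i
  simp only [wd, Pi.add_apply, Finset.mem_symmDiff]
  by_cases h1 : i ∈ s <;> by_cases h2 : i ∈ t <;> simp [h1, h2]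
  decide

theorem wd_inj {s t : Finset (Fin 24)} (h : wd s = wd t) : s = t := by
  ext i
  have := congrFun h i
  simp only [wd] at this
  by_cases h1 : i ∈ s <;> by_cases h2 : i ∈ t <;> simp [h1, h2] at this ⊢

theorem norm_wd (s : Finset (Fin 24)) : hammingNorm (wd s) = s.card := by
  rw [hammingNorm]
  congr 1
  ext i
  simp [wd]

theorem sub_eq_add' (s t : Finset (Fin 24)) : wd s - wd t = wd (symmDiff s t) := by
  rw [← wd_add, sub_eq_add_neg]
  congr 1
  funext i
  simp only [wd, Pi.neg_apply]
  split_ifs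
  · exact (by decide : (-1 : ZMod 2) = 1)
  · exact neg_zero

variable {C} (hdim : Module.finrank (ZMod 2) C = 12) (h4 : ∀ w ∈ C, 4 ∣ hammingNorm w) (hno4 : ∀ w ∈ C, hammingNorm w ≠ 4)
include h4 hno4

theorem small {s : Finset (Fin 24)} (hs : wd s ∈ C) (hc : s.card < 8) : s = ∅ := by
  have h1 := h4 _ hs
  have h2 := hno4 _ hs
  rw [norm_wd] at h1 h2
  rw [← Finset.card_eq_zero]
  omega

theorem card_sd (s t : Finset (Fin 24)) : (symmDiff s t).card + 2 * (s ∩ t).card = s.card + t.card := by
  have h2 : (symmDiff s t).card = (s \ t).card + (t \ s).card := by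
    rw [symmDiff_def, Finset.sup_eq_union, Finset.card_union_of_disjoint disjoint_sdiff_sdiff]
  have h3 := Finset.card_sdiff_add_card_inter s t
  have h4 := Finset.card_sdiff_add_card_inter t s
  rw [Finset.inter_comm t s] at h4
  omega

/-- the class of a subset -/
def cl (C : Submodule (ZMod 2) (Fin 24 → ZMod 2)) (s : Finset (Fin 24)) : (Fin 24 → ZMod 2) ⧸ C := Submodule.Quotient.mk (wd s)

omit h4 hno4 in
theorem cl_eq_iff {s t : Finset (Fin 24)} : cl C s = cl C t ↔ wd (symmDiff s t) ∈ C := by
  rw [cl, cl, Submodule.Quotient.eq, sub_eq_add']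

include hdim in
theorem fiber_six (T : Finset (Fin 24)) (hT : T.card = 4) : ∀ x, ∃ T' : Finset (Fin 24), T'.card = 4 ∧ x ∈ T' ∧ cl C T' = cl C T := by
  classical
  have : Finite ((Fin 24 → ZMod 2) ⧸ C) := inferInstance
  have hft : Fintype ((Fin 24 → ZMod 2) ⧸ C) := Fintype.ofFinite _
  have hQ : Fintype.card ((Fin 24 → ZMod 2) ⧸ C) = 4096 := by
    rw [← Nat.card_eq_fintype_card]
    have h1 := Module.natCard_eq_pow_finrank (K := ZMod 2) (V := (Fin 24 → ZMod 2) ⧸ C)
    have h2 := Submodule.finrank_quotient_add_finrank C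
    rw [hdim, Module.finrank_fin_fun] at h2
    have h3 : Module.finrank (ZMod 2) ((Fin 24 → ZMod 2) ⧸ C) = 12 := by omega
    rw [h3, Nat.card_zmod] at h1
    rw [h1]; norm_num
  let S3 : Finset (Finset (Fin 24)) := univ.filter fun s => s.card ≤ 3
  let S4 : Finset (Finset (Fin 24)) := powersetCard 4 univ
  have hS3 : S3.card = 2325 := by
    have e : S3 = (range 4).biUnion fun k => powersetCard k univ := by
      ext s
      simp only [S3, Finset.mem_filter, Finset.mem_univ, true_and, Finset.mem_biUnion, Finset.mem_range, Finset.mem_powersetCard, Finset.subset_univ]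
      constructor
      · intro h; exact ⟨s.card, by omega, rfl⟩
      · rintro ⟨k, h1, h2⟩; omega
    rw [e, Finset.card_biUnion]
    · simp only [Finset.card_powersetCard, Finset.card_univ, Fintype.card_fin]
      decide
    · intro i _ j _ hij
      rw [Function.onFun, Finset.disjoint_left]
      intro s h1 h2
      rw [Finset.mem_powersetCard] at h1 h2
      exact hij (h1.2.symm.trans h2.2)
  have hS4 : S4.card = 10626 := by
    simp only [S4, Finset.card_powersetCard, Finset.card_univ, Fintype.card_fin]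
    decide
  have hinj3 : Set.InjOn (cl C) S3 := by
    intro s hs t ht hst
    simp only [S3, Finset.coe_filter, Finset.mem_univ, true_and, Set.mem_setOf_eq] at hs ht
    have h1 := small h4 hno4 (cl_eq_iff.mp hst) (by have := card_sd h4 hno4 s t; omega)
    exact symmDiff_eq_bot.mp h1
  have hI3 : (S3.image (cl C)).card = 2325 := by rw [Finset.card_image_of_injOn hinj3, hS3]
  have hdisj : Disjoint (S3.image (cl C)) (S4.image (cl C)) := by
    rw [Finset.disjoint_left]
    intro y h1 h2
    obtain ⟨s, hs, rfl⟩ := Finset.mem_image.mp h1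
    obtain ⟨t, ht, hst⟩ := Finset.mem_image.mp h2
    simp only [S3, Finset.mem_filter, Finset.mem_univ, true_and] at hs
    rw [Finset.mem_powersetCard] at ht
    have h1 := small h4 hno4 (cl_eq_iff.mp hst) (by have := card_sd h4 hno4 t s; omega)
    have h2 : t = s := symmDiff_eq_bot.mp h1
    rw [h2] at ht; omega
  have hI4 : (S4.image (cl C)).card ≤ 1771 := by
    have h1 := Finset.card_union_of_disjoint hdisj
    have h2 := Finset.card_le_univ (S3.image (cl C) ∪ S4.image (cl C))
    omega
  have hpd : ∀ s ∈ S4, ∀ t ∈ S4, cl C s = cl C t → s ≠ t → Disjoint s t := by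
    intro s hs t ht hst hne
    rw [Finset.mem_powersetCard] at hs ht
    rw [Finset.disjoint_iff_inter_eq_empty, ← Finset.card_eq_zero]
    by_contra hcon
    have h1 := small h4 hno4 (cl_eq_iff.mp hst) (by have := card_sd h4 hno4 s t; omega)
    exact hne (symmDiff_eq_bot.mp h1)
  have hfib : ∀ y, (S4.filter fun s => cl C s = y).card ≤ 6 := by
    intro y
    have h1 : ((S4.filter fun s => cl C s = y).biUnion id).card = ∑ s ∈ S4.filter fun s => cl C s = y, s.card := by
      apply Finset.card_biUnion
      intro s hs t ht hne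
      simp only [Finset.coe_filter, Set.mem_setOf_eq] at hs ht
      exact hpd s hs.1 t ht.1 (hs.2.trans ht.2.symm) hne
    have h2 : ∑ s ∈ S4.filter (fun s => cl C s = y), s.card = ∑ s ∈ S4.filter (fun s => cl C s = y), 4 := by
      apply Finset.sum_congr rfl
      intro s hs
      rw [Finset.mem_filter, Finset.mem_powersetCard] at hs
      exact hs.1.2
    rw [h2, Finset.sum_const, smul_eq_mul] at h1
    have h3 := Finset.card_le_univ ((S4.filter fun s => cl C s = y).biUnion id)
    rw [h1, Fintype.card_fin] at h3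
    omega
  have hsum : S4.card = ∑ y ∈ S4.image (cl C), (S4.filter fun s => cl C s = y).card :=
    Finset.card_eq_sum_card_image _ _
  have hTm : cl C T ∈ S4.image (cl C) := Finset.mem_image_of_mem _ (by rw [Finset.mem_powersetCard]; exact ⟨Finset.subset_univ _, hT⟩)
  have hfT : (S4.filter fun s => cl C s = cl C T).card = 6 := by
    have h1 := hfib (cl C T)
    by_contra hcon
    rw [← Finset.add_sum_erase _ _ hTm] at hsum
    have h2 : ∑ y ∈ (S4.image (cl C)).erase (cl C T), (S4.filter fun s => cl C s = y).card ≤ ∑ y ∈ (S4.image (cl C)).erase (cl C T), 6 :=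
      Finset.sum_le_sum (fun y _ => hfib y)
    rw [Finset.sum_const, smul_eq_mul, Finset.card_erase_of_mem hTm] at h2
    omega
  intro x
  have h1 : ((S4.filter fun s => cl C s = cl C T).biUnion id).card = ∑ s ∈ S4.filter fun s => cl C s = cl C T, s.card := by
    apply Finset.card_biUnion
    intro s hs t ht hne
    simp only [Finset.coe_filter, Set.mem_setOf_eq] at hs ht
    exact hpd s hs.1 t ht.1 (hs.2.trans ht.2.symm) hne
  have h2 : ∑ s ∈ S4.filter (fun s => cl C s = cl C T), s.card = ∑ s ∈ S4.filter (fun s => cl C s = cl C T), 4 := by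
    apply Finset.sum_congr rfl
    intro s hs
    rw [Finset.mem_filter, Finset.mem_powersetCard] at hs
    exact hs.1.2
  rw [h2, Finset.sum_const, smul_eq_mul, hfT] at h1
  have h3 : (S4.filter fun s => cl C s = cl C T).biUnion id = univ := by
    rw [← Finset.card_eq_iff_eq_univ, h1, Fintype.card_fin]
  have h5 : x ∈ (S4.filter fun s => cl C s = cl C T).biUnion id := by rw [h3]; exact Finset.mem_univ _
  rw [Finset.mem_biUnion] at h5
  obtain ⟨T', hT', hx⟩ := h5
  rw [Finset.mem_filter, Finset.mem_powersetCard] at hT'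
  exact ⟨T', hT'.1.2, hx, hT'.2⟩

include hdim in
theorem code_steiner : Cfsg.IsSteinerSystem 5 8 {s : Finset (Fin 24) | wd s ∈ C ∧ s.card = 8} := by
  refine ⟨fun b hb => hb.2, ?_⟩
  intro F hF
  obtain ⟨x, hx⟩ : F.Nonempty := by rw [← Finset.card_pos, hF]; norm_num
  have hT : (F.erase x).card = 4 := by rw [Finset.card_erase_of_mem hx, hF]
  obtain ⟨T', hT', hxT', hcl⟩ := fiber_six hdim h4 hno4 _ hT x
  have hne : T' ≠ F.erase x := fun h => (Finset.notMem_erase x F) (h ▸ hxT')
  have hm := cl_eq_iff.mp hcl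
  have hd : (T' ∩ F.erase x).card = 0 := by
    by_contra hcon
    have h1 := small h4 hno4 hm (by have := card_sd h4 hno4 T' (F.erase x); omega)
    exact hne (symmDiff_eq_bot.mp h1)
  have hd' : Disjoint T' (F.erase x) := by
    rw [Finset.disjoint_iff_inter_eq_empty, ← Finset.card_eq_zero, hd]
  have hsd : symmDiff T' (F.erase x) = T' ∪ F.erase x := by
    rw [hd'.symmDiff_eq_sup]; rfl
  refine ⟨T' ∪ F.erase x, ⟨⟨by rw [← hsd]; exact hm, ?_⟩, ?_⟩, ?_⟩
  · rw [Finset.card_union_of_disjoint hd', hT', hT]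
  · intro y hy
    by_cases hyx : y = x
    · rw [hyx]; exact Finset.mem_union_left _ hxT'
    · exact Finset.mem_union_right _ (Finset.mem_erase.mpr ⟨hyx, hy⟩)
  · rintro b ⟨⟨hb1, hb2⟩, hb3⟩
    have hsub : F ⊆ T' ∪ F.erase x := by
      intro y hy
      by_cases hyx : y = x
      · rw [hyx]; exact Finset.mem_union_left _ hxT'
      · exact Finset.mem_union_right _ (Finset.mem_erase.mpr ⟨hyx, hy⟩)
    have h1 : 5 ≤ (b ∩ (T' ∪ F.erase x)).card := by rw [← hF]; exact Finset.card_le_card (Finset.subset_inter hb3 hsub)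
    have h2 := card_sd h4 hno4 b (T' ∪ F.erase x)
    rw [hb2, Finset.card_union_of_disjoint hd', hT', hT] at h2
    have h3 : wd (symmDiff b (T' ∪ F.erase x)) ∈ C := by
      rw [← wd_add]
      exact C.add_mem hb1 (by rw [← hsd]; exact hm)
    exact symmDiff_eq_bot.mp (small h4 hno4 h3 (by omega))

end


/-- A doubly even self-dual binary code of length 24 with no words of weight 4 is equivalent to the length-24 code built from the squares modulo 23. -/
theorem result (C : Submodule (ZMod 2) (Fin 24 → ZMod 2)) (hdim : Module.finrank (ZMod 2) C = 12) (horth : ∀ v ∈ C, ∀ w ∈ C, ∑ i, v i * w i = 0) (h4 : ∀ w ∈ C, 4 ∣ hammingNorm w) (hno4 : ∀ w ∈ C, hammingNorm w ≠ 4) : ∃ e : Fin 24 ≃ Cfsg.GolayPt, ∀ w : Cfsg.GolayPt → ZMod 2, w ∈ Cfsg.golayCode ↔ (fun i => w (e i)) ∈ C := by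
  classical
  have hst := code_steiner hdim h4 hno4
  obtain ⟨f, hf⟩ := CfsgLib.SteinerV.lab24 (by simp) hst
  have hbij : Function.Bijective f := (Fintype.bijective_iff_injective_and_card _).mpr ⟨hf.1, by decide⟩
  have hout : CfsgLib.SteinerV.out f = ∅ := by
    have := CfsgLib.SteinerV.card_out hf.1
    rw [Fintype.card_fin] at this
    rw [← Finset.card_eq_zero]; omega
  let e : Fin 24 ≃ Cfsg.GolayPt := Equiv.ofBijective f hbij
  refine ⟨e, ?_⟩
  -- the pulled back code
  let L : (Cfsg.GolayPt → ZMod 2) ≃ₗ[ZMod 2] (Fin 24 → ZMod 2) := LinearEquiv.funCongrLeft (ZMod 2) (ZMod 2) e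
  have hL : ∀ w, L w = fun i => w (e i) := fun w => rfl
  have hle : C.comap (L : (Cfsg.GolayPt → ZMod 2) →ₗ[ZMod 2] (Fin 24 → ZMod 2)) ≤ Cfsg.golayCode := by
    intro w hw
    rw [Submodule.mem_comap] at hw
    have hw' : (fun i => w (e i)) ∈ C := hw
    rw [CfsgLib.Golay.mem_iff_supports]
    apply CfsgLib.SteinerV.dual_pt (a := CfsgLib.Golay.pt 0)
    intro o ho _
    -- o is the image of a block
    have ho' : o = (o.image e.symm).image f := by
      rw [Finset.image_image]
      have : f ∘ e.symm = id := by funext x; exact e.apply_symm_apply x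
      rw [this, Finset.image_id]
    have hb : o.image e.symm ∈ {s : Finset (Fin 24) | wd s ∈ C ∧ s.card = 8} := by
      rw [hf.2, hout, Finset.union_empty, ← ho']; exact ho
    have h1 := horth _ hw' _ hb.1
    have h2 : ∑ i, w (e i) * wd (o.image e.symm) i = (((Cfsg.support₂ w) ∩ o).card : ZMod 2) := by
      rw [Finset.card_eq_sum_ones]
      push_cast
      rw [← Finset.sum_subset (Finset.subset_univ ((Cfsg.support₂ w ∩ o).image e.symm))]
      · rw [Finset.sum_image (fun x _ y _ h => e.symm.injective h)]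
        apply Finset.sum_congr rfl
        intro x hx
        rw [Finset.mem_inter, CfsgLib.Golay.mem_support₂] at hx
        rw [Equiv.apply_symm_apply, CfsgLib.Golay.zmod2_ne _ hx.1, wd, if_pos (Finset.mem_image_of_mem _ hx.2), mul_one]
      · intro i _ hi
        by_cases h3 : w (e i) = 0
        · rw [h3, zero_mul]
        · rw [wd, if_neg, mul_zero]
          intro h4
          apply hi
          obtain ⟨x, hx, hxi⟩ := Finset.mem_image.mp h4
          rw [Finset.mem_image]
          refine ⟨x, ?_, hxi⟩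
          rw [Finset.mem_inter, CfsgLib.Golay.mem_support₂]
          refine ⟨?_, hx⟩
          have : x = e i := by rw [← hxi, Equiv.apply_symm_apply]
          rw [this]; exact h3
    rw [h2] at h1
    rw [ZMod.natCast_eq_zero_iff] at h1
    exact even_iff_two_dvd.mpr h1
  have hdim1 : Module.finrank (ZMod 2) (C.comap (L : (Cfsg.GolayPt → ZMod 2) →ₗ[ZMod 2] (Fin 24 → ZMod 2))) = 12 := by
    rw [← hdim]
    exact LinearEquiv.finrank_eq (LinearEquiv.ofSubmodule' L C)
  have heq := Submodule.eq_of_le_of_finrank_eq hle (by rw [hdim1, Cfsg.Agent.S0358.result])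
  intro w
  rw [← heq, Submodule.mem_comap]
  rfl

end Cfsg.Agent.S0375
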