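import Cfsg.Statements.S0376
import Cfsg.Agent.Lib.GolayM

set_option autoImplicit false
open Cfsg

namespace Cfsg.Agent.S0376

/-- A point stabiliser in the group of the length-24 code has order 10200960 = 2^7·3^2·5·7·11·23. -/
theorem result (p : Cfsg.GolayPt) : Nat.card (MulAction.stabilizer Cfsg.M24 p) = 10200960 := by
  rw [← CfsgLib.Golay.card_PS_one p]
  refine CfsgLib.Golay.card_subEquiv (L := CfsgLib.Golay.PS [p]) ?_ (fun g hg => hg.1)
  intro g hg
  rw [MulAction.mem_stabilizer_iff, CfsgLib.Golay.mem_PS]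
  constructor
  · intro h; exact ⟨hg, fun q hq => by rw [List.mem_singleton] at hq; rw [hq]; exact h⟩
  · intro h; exact h.2 p (by simp)

end Cfsg.Agent.S0376
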