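import Cfsg.Statements.S0377
import Cfsg.Agent.Lib.GolayM

set_option autoImplicit false
open Cfsg

namespace Cfsg.Agent.S0377

/-- A point stabiliser in the group of the length-24 code is simple. -/
theorem result (p : Cfsg.GolayPt) : IsSimpleGroup (MulAction.stabilizer Cfsg.M24 p) := by
  apply CfsgLib.Golay.isSimple_of_equiv (CfsgLib.Golay.subEquiv _ (CfsgLib.Golay.PS [p]) _ (fun g hg => hg.1)) (CfsgLib.Golay.simple_PS_one p)
  intro g hg
  rw [MulAction.mem_stabilizer_iff, CfsgLib.Golay.mem_PS]
  constructor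
  · intro h; exact ⟨hg, fun q hq => by rw [List.mem_singleton] at hq; rw [hq]; exact h⟩
  · intro h; exact h.2 p (by simp)

end Cfsg.Agent.S0377
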