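import Cfsg.Statements.S0378
import Cfsg.Agent.Lib.GolayM

set_option autoImplicit false
open Cfsg

namespace Cfsg.Agent.S0378

/-- A two-point stabiliser in the group of the length-24 code has order 443520 = 2^7·3^2·5·7·11. -/
theorem result (p q : Cfsg.GolayPt) (hpq : p ≠ q) : Nat.card ↥(MulAction.stabilizer Cfsg.M24 p ⊓ MulAction.stabilizer Cfsg.M24 q) = 443520 := by
  rw [← CfsgLib.Golay.card_PS_two hpq]
  refine CfsgLib.Golay.card_subEquiv (L := CfsgLib.Golay.PS [p, q]) ?_ (fun g hg => hg.1)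
  intro g hg
  rw [Subgroup.mem_inf, MulAction.mem_stabilizer_iff, MulAction.mem_stabilizer_iff, CfsgLib.Golay.mem_PS]
  constructor
  · rintro ⟨h1, h2⟩
    refine ⟨hg, fun r hr => ?_⟩
    simp only [List.mem_cons, List.not_mem_nil, or_false] at hr
    rcases hr with rfl | rfl
    · exact h1
    · exact h2
  · intro h; exact ⟨h.2 p (by simp), h.2 q (by simp)⟩

end Cfsg.Agent.S0378
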