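import Cfsg.Statements.S0381
import Cfsg.Agent.Lib.GolayM

set_option autoImplicit false
open Cfsg

namespace Cfsg.Agent.S0381

/-- The pointwise stabiliser of an octad in the group of the length-24 code has order 16 and every element of it squares to the identity. -/
theorem result (o : Finset Cfsg.GolayPt) (ho : o ∈ Cfsg.octads) : Nat.card ↥(Cfsg.M24 ⊓ fixingSubgroup (Equiv.Perm Cfsg.GolayPt) (o : Set Cfsg.GolayPt)) = 16 ∧ ∀ g ∈ Cfsg.M24 ⊓ fixingSubgroup (Equiv.Perm Cfsg.GolayPt) (o : Set Cfsg.GolayPt), g * g = 1 := by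
  obtain ⟨x0, x1, x2, x3, x4, x5, x6, h0, h1, h2, h3, h4, h5, h, h6⟩ := CfsgLib.Golay.exists_octad_frame ho
  have key : Cfsg.M24 ⊓ fixingSubgroup (Equiv.Perm Cfsg.GolayPt) (o : Set Cfsg.GolayPt) = CfsgLib.Golay.PS [x5, x4, x3, x2, x1, x0] := by
    ext g
    rw [Subgroup.mem_inf, CfsgLib.Golay.mem_PS, mem_fixingSubgroup_iff]
    constructor
    · rintro ⟨k1, k2⟩
      refine ⟨k1, fun p hp => k2 p ?_⟩
      simp only [List.mem_cons, List.not_mem_nil, or_false] at hp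
      rw [Finset.mem_coe]
      rcases hp with rfl | rfl | rfl | rfl | rfl | rfl <;> assumption
    · rintro ⟨k1, k2⟩
      refine ⟨k1, fun p hp => ?_⟩
      exact (CfsgLib.Golay.fix_octad k1 ho h0 h1 h2 h3 h4 h5 h (k2 _ (by simp)) (k2 _ (by simp)) (k2 _ (by simp)) (k2 _ (by simp)) (k2 _ (by simp)) (k2 _ (by simp))).1 p hp
  rw [key]
  refine ⟨CfsgLib.Golay.card_PS_six ho h0 h1 h2 h3 h4 h5 h, ?_⟩
  rintro g ⟨k1, k2⟩
  exact (CfsgLib.Golay.fix_octad k1 ho h0 h1 h2 h3 h4 h5 h (k2 _ (by simp)) (k2 _ (by simp)) (k2 _ (by simp)) (k2 _ (by simp)) (k2 _ (by simp)) (k2 _ (by simp))).2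

end Cfsg.Agent.S0381
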