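import Cfsg.Statements.S0382
import Cfsg.Agent.Lib.GolayDod

set_option autoImplicit false
open scoped Pointwise
open Cfsg

namespace Cfsg.Agent.S0382

/-- A dodecad stabiliser in the group of the length-24 code has order 95040 = 2^6·3^3·5·11. -/
theorem result (d : Finset Cfsg.GolayPt) (hd : d ∈ Cfsg.dodecads) : Nat.card (MulAction.stabilizer Cfsg.M24 d) = 95040 := by
  rw [← CfsgLib.Golay.card_PSd_nil hd]
  refine CfsgLib.Golay.card_subEquiv (L := CfsgLib.Golay.PSd d []) ?_ (fun g hg => hg.1)
  intro g hg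
  rw [MulAction.mem_stabilizer_iff, CfsgLib.Golay.mem_PSd]
  constructor
  · intro h; exact ⟨hg, h, by simp⟩
  · intro h; exact h.2.1

end Cfsg.Agent.S0382
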