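import Cfsg.Statements.S0383
import Cfsg.Agent.Lib.GolayDod

set_option autoImplicit false
open scoped Pointwise
open Cfsg

namespace Cfsg.Agent.S0383

/-- A dodecad stabiliser in the group of the length-24 code is simple. -/
theorem result (d : Finset Cfsg.GolayPt) (hd : d ∈ Cfsg.dodecads) : IsSimpleGroup (MulAction.stabilizer Cfsg.M24 d) := by
  apply CfsgLib.Golay.isSimple_of_equiv (CfsgLib.Golay.subEquiv _ (CfsgLib.Golay.PSd d []) _ (fun g hg => hg.1)) (CfsgLib.Golay.simple_PSd_nil hd)
  intro g hg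
  rw [MulAction.mem_stabilizer_iff, CfsgLib.Golay.mem_PSd]
  constructor
  · intro h; exact ⟨hg, h, by simp⟩
  · intro h; exact h.2.1

end Cfsg.Agent.S0383
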