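import Cfsg.Statements.S0384
import Cfsg.Agent.Lib.GolayDod

set_option autoImplicit false
open scoped Pointwise
open Cfsg

open scoped Pointwise
namespace Cfsg.Agent.S0384

/-- A dodecad stabiliser is sharply 5-transitive on the dodecad. -/
theorem result (d : Finset Cfsg.GolayPt) (hd : d ∈ Cfsg.dodecads) (x y : Fin 5 ↪ Cfsg.GolayPt) (hx : ∀ i, x i ∈ d) (hy : ∀ i, y i ∈ d) : ∃! g : MulAction.stabilizer Cfsg.M24 d, ∀ i, ((g : Cfsg.M24) : Equiv.Perm Cfsg.GolayPt) (x i) = y i := by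
  obtain ⟨g, hg, hgd, hgl⟩ := CfsgLib.Golay.dod_trans hd hd (l := List.ofFn x) (l' := List.ofFn y)
    (List.nodup_ofFn.mpr x.injective) (List.nodup_ofFn.mpr y.injective)
    (by intro p hp; rw [List.mem_ofFn] at hp; obtain ⟨i, rfl⟩ := hp; exact hx i)
    (by intro p hp; rw [List.mem_ofFn] at hp; obtain ⟨i, rfl⟩ := hp; exact hy i) (by simp) (by simp)
  rw [List.map_ofFn, List.ofFn_inj] at hgl
  refine ⟨⟨⟨g, hg⟩, hgd⟩, fun i => congrFun hgl i, ?_⟩
  rintro ⟨⟨k, hk⟩, hkd⟩ hkx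
  have hkd' : k • d = d := hkd
  have h1 : g⁻¹ * k = 1 := by
    apply CfsgLib.Golay.dod_unique hd (l := List.ofFn x) (mul_mem (inv_mem hg) hk)
    · rw [mul_smul, hkd', inv_smul_eq_iff, hgd]
    · exact List.nodup_ofFn.mpr x.injective
    · intro p hp; rw [List.mem_ofFn] at hp; obtain ⟨i, rfl⟩ := hp; exact hx i
    · simp
    · intro p hp; rw [List.mem_ofFn] at hp; obtain ⟨i, rfl⟩ := hp
      have h2 : k (x i) = y i := hkx i
      have h3 : g (x i) = y i := congrFun hgl i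
      rw [Equiv.Perm.mul_apply, h2, ← h3, Equiv.Perm.inv_def, Equiv.symm_apply_apply]
  apply Subtype.ext
  apply Subtype.ext
  exact (inv_mul_eq_one.mp h1).symm

end Cfsg.Agent.S0384
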