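import Cfsg.Statements.S0385
import Cfsg.Agent.Lib.GolayDod

set_option autoImplicit false
open Cfsg

namespace Cfsg.Agent.S0385

/-- The 6-point intersections of octads with a fixed dodecad form a Steiner system S(5, 6, 12) on the dodecad. -/
theorem result (d : Finset Cfsg.GolayPt) (hd : d ∈ Cfsg.dodecads) : Cfsg.IsSteinerSystem 5 6 {h : Finset {p : Cfsg.GolayPt // p ∈ d} | ∃ o ∈ Cfsg.octads, (o ∩ d).card = 6 ∧ h = Finset.subtype (fun p => p ∈ d) o} := by
  have h12 : d.card = 12 := hd.2
  refine ⟨?_, ?_⟩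
  · rintro h ⟨o, ho, h6, rfl⟩
    rw [Finset.card_subtype, ← h6]
    congr 1
  · intro s hs
    have h1 : (s.map (Function.Embedding.subtype (fun p => p ∈ d))).card = 5 := by rw [Finset.card_map, hs]
    obtain ⟨o, ho, hso⟩ := CfsgLib.Golay.octad_through_five h1
    have h2 : s.map (Function.Embedding.subtype (fun p => p ∈ d)) ⊆ o ∩ d := by
      intro p hp
      rw [Finset.mem_inter]
      refine ⟨hso hp, ?_⟩
      rw [Finset.mem_map] at hp
      obtain ⟨q, _, rfl⟩ := hp
      exact q.2
    have h3 := Finset.card_le_card h2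
    have h6 : (o ∩ d).card = 6 := by
      rcases CfsgLib.Golay.octad_inter_dodecad ho hd with h | h | h <;> omega
    refine ⟨Finset.subtype (fun p => p ∈ d) o, ⟨⟨o, ho, h6, rfl⟩, ?_⟩, ?_⟩
    · intro p hp
      rw [Finset.mem_subtype]
      exact hso (Finset.mem_map_of_mem _ hp)
    · rintro h ⟨⟨o', ho', _, rfl⟩, hs'⟩
      have : o' = o := by
        apply CfsgLib.Golay.eq_of_five ho' ho
        rw [← h1]
        apply Finset.card_le_card
        intro p hp
        rw [Finset.mem_inter]
        refine ⟨?_, hso hp⟩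
        rw [Finset.mem_map] at hp
        obtain ⟨q, hq, rfl⟩ := hp
        have := hs' hq
        rwa [Finset.mem_subtype] at this
      rw [this]

end Cfsg.Agent.S0385
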