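import Cfsg.Statements.S0386
import Cfsg.Agent.Lib.GolayDod

set_option autoImplicit false
open Cfsg

namespace Cfsg.Agent.S0386

theorem base (k n : ℕ) (h : CfsgLib.Golay.cntC (fun m => and (Nat.beq (CfsgLib.Golay.pop m) 8) (Nat.beq (CfsgLib.Golay.pop (Nat.land m 0x7a0bf)) k)) CfsgLib.Golay.rows 0 = n) :
    {o : Finset Cfsg.GolayPt | o ∈ Cfsg.octads ∧ (o ∩ CfsgLib.Golay.D0).card = k}.ncard = n := by
  rw [← h, ← CfsgLib.Golay.ncard_code]
  congr 1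
  ext o
  rw [Set.mem_setOf_eq, Set.mem_setOf_eq, CfsgLib.Golay.mem_octads_iff, CfsgLib.Golay.mem_supports_iff,
    CfsgLib.Golay.card_eq_pop (o ∩ _), CfsgLib.Golay.mask_inter, CfsgLib.Golay.mask_D0, Bool.and_eq_true, Nat.beq_eq, Nat.beq_eq, and_assoc]
  rfl
theorem trans (d : Finset Cfsg.GolayPt) (hd : d ∈ Cfsg.dodecads) (k : ℕ) :
    {o : Finset Cfsg.GolayPt | o ∈ Cfsg.octads ∧ (o ∩ d).card = k}.ncard = {o : Finset Cfsg.GolayPt | o ∈ Cfsg.octads ∧ (o ∩ CfsgLib.Golay.D0).card = k}.ncard := by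
  obtain ⟨g, hg, h, _⟩ := CfsgLib.Golay.dod_trans hd CfsgLib.Golay.D0_mem (l := []) (l' := []) (by simp) (by simp) (by simp) (by simp) rfl (by simp)
  apply CfsgLib.Golay.ncard_transfer g
  intro s
  rw [CfsgLib.Golay.smul_mem_octads hg, ← h, ← CfsgLib.Golay.smul_inter', CfsgLib.Golay.card_smul']


/-- For a fixed dodecad, 132 octads meet it in 6 points, 132 in 2 points and 495 in 4 points. -/
theorem result (d : Finset Cfsg.GolayPt) (hd : d ∈ Cfsg.dodecads) : {o : Finset Cfsg.GolayPt | o ∈ Cfsg.octads ∧ (o ∩ d).card = 6}.ncard = 132 ∧ {o : Finset Cfsg.GolayPt | o ∈ Cfsg.octads ∧ (o ∩ d).card = 2}.ncard = 132 ∧ {o : Finset Cfsg.GolayPt | o ∈ Cfsg.octads ∧ (o ∩ d).card = 4}.ncard = 495 := by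
  refine ⟨?_, ?_, ?_⟩
  · rw [trans d hd, base 6 132 (by decide +kernel)]
  · rw [trans d hd, base 2 132 (by decide +kernel)]
  · rw [trans d hd, base 4 495 (by decide +kernel)]

end Cfsg.Agent.S0386
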