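import Cfsg.Statements.S0387
import Cfsg.Agent.Lib.GolayDod

set_option autoImplicit false
open scoped Pointwise
open Cfsg

namespace Cfsg.Agent.S0387

/-- The stabiliser of a dodecad and a point on it has order 7920 = 2^4·3^2·5·11. -/
theorem result (d : Finset Cfsg.GolayPt) (hd : d ∈ Cfsg.dodecads) (p : Cfsg.GolayPt) (hp : p ∈ d) : Nat.card ↥(MulAction.stabilizer Cfsg.M24 d ⊓ MulAction.stabilizer Cfsg.M24 p) = 7920 := by
  rw [← CfsgLib.Golay.card_PSd_one hd hp]
  refine CfsgLib.Golay.card_subEquiv (L := CfsgLib.Golay.PSd d [p]) ?_ (fun g hg => hg.1)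
  intro g hg
  rw [Subgroup.mem_inf, MulAction.mem_stabilizer_iff, MulAction.mem_stabilizer_iff, CfsgLib.Golay.mem_PSd]
  constructor
  · intro h; exact ⟨hg, h.1, by intro q hq; rw [List.mem_singleton] at hq; rw [hq]; exact h.2⟩
  · intro h; exact ⟨h.2.1, h.2.2 p (by simp)⟩

end Cfsg.Agent.S0387
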