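import Cfsg.Statements.S0389
import Cfsg.Agent.Lib.GolayDod

set_option autoImplicit false
open scoped Pointwise
open Cfsg

namespace Cfsg.Agent.S0389

/-- The stabiliser of a dodecad and a point on it is 3-transitive on the complementary dodecad. -/
theorem result (d : Finset Cfsg.GolayPt) (hd : d ∈ Cfsg.dodecads) (p : Cfsg.GolayPt) (hp : p ∈ d) (x y : Fin 3 ↪ Cfsg.GolayPt) (hx : ∀ i, x i ∉ d) (hy : ∀ i, y i ∉ d) : ∃ g ∈ MulAction.stabilizer Cfsg.M24 d ⊓ MulAction.stabilizer Cfsg.M24 p, ∀ i, (g : Equiv.Perm Cfsg.GolayPt) (x i) = y i := by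
  have hdc := CfsgLib.Golay.compl_mem_dodecads hd
  have hnd : ∀ x : Fin 3 ↪ Cfsg.GolayPt, [x 0, x 1, x 2].Nodup := by
    intro x
    simp [x.injective.eq_iff]
  obtain ⟨g, hg, hgd, h0, h1, h2, h3⟩ := CfsgLib.Golay.dod_trans3 hdc hdc (Finset.mem_compl.mpr (hx 0)) (Finset.mem_compl.mpr (hx 1))
    (Finset.mem_compl.mpr (hx 2)) (hnd x) (x := p) (by simpa using hp) (Finset.mem_compl.mpr (hy 0)) (Finset.mem_compl.mpr (hy 1))
    (Finset.mem_compl.mpr (hy 2)) (hnd y) (x' := p) (by simpa using hp)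
  refine ⟨⟨g, hg⟩, ?_, ?_⟩
  · rw [Subgroup.mem_inf, MulAction.mem_stabilizer_iff, MulAction.mem_stabilizer_iff]
    refine ⟨?_, h3⟩
    rw [CfsgLib.Golay.smul_compl, compl_inj_iff] at hgd
    exact hgd
  · intro i
    fin_cases i
    · exact h0
    · exact h1
    · exact h2

end Cfsg.Agent.S0389
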