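import Cfsg.Statements.S0399
import Cfsg.Agent.Lib.Leech25

set_option autoImplicit false
open Cfsg

namespace Cfsg.Agent.S0399

/-- Automorphism group of the lattice modulo its centre is simple of order 4157776806543360000. -/
theorem result : Cfsg.IsCo1 (Cfsg.Co0 ⧸ Subgroup.center Cfsg.Co0) := by
  exact ⟨CfsgLib.Leech.simple_co1, CfsgLib.Leech.card_co1⟩

end Cfsg.Agent.S0399
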