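import Cfsg.Statements.S0402
import Cfsg.Agent.Lib.Leech24

set_option autoImplicit false
open Cfsg

open scoped Pointwise
namespace Cfsg.Agent.S0402

/-- Stabiliser of a minimal vector is simple of order 42305421312000. -/
theorem result (v : Cfsg.leechLattice) (hv : Cfsg.sqNorm (v : Cfsg.GolayPt → ℤ) = 32) : Cfsg.IsCo2 (MulAction.stabilizer Cfsg.Co0 v) := by
  obtain ⟨g, hg⟩ := CfsgLib.Leech.trans32 v hv
  obtain ⟨k, hk⟩ := CfsgLib.Leech.trans32 CfsgLib.Leech.u3 (by rw [CfsgLib.Leech.u3_val, CfsgLib.Leech.norm_uo (CfsgLib.Golay.pt 0)]; norm_num)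
  obtain ⟨e⟩ := CfsgLib.Leech.stab_conj (k⁻¹ * g) (show (k⁻¹ * g) • v = CfsgLib.Leech.u3 by rw [mul_smul, hg, ← hk, inv_smul_smul])
  refine ⟨CfsgLib.Golay.isSimple_of_equiv e CfsgLib.Leech.simple_co2_std, ?_⟩
  rw [CfsgLib.Leech.card_stab32 hv]

end Cfsg.Agent.S0402
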