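import Cfsg.Statements.S0405
import Cfsg.Agent.Lib.Leech22

set_option autoImplicit false
open Cfsg

namespace Cfsg.Agent.S0405

/-- Joint stabiliser of two vectors of sum of squares 48 with coordinate dot product −32 is simple of order 44352000. -/
theorem result (v w : Cfsg.leechLattice) (hv : Cfsg.sqNorm (v : Cfsg.GolayPt → ℤ) = 48) (hw : Cfsg.sqNorm (w : Cfsg.GolayPt → ℤ) = 48) (hvw : Cfsg.dotInt (v : Cfsg.GolayPt → ℤ) (w : Cfsg.GolayPt → ℤ) = -32) : Cfsg.IsHS ↥(MulAction.stabilizer Cfsg.Co0 v ⊓ MulAction.stabilizer Cfsg.Co0 w) := by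
  have hn : sqNorm ((-(v + w) : Cfsg.leechLattice) : Cfsg.GolayPt → ℤ) = 32 := by
    show sqNorm (-((v : Cfsg.GolayPt → ℤ) + (w : Cfsg.GolayPt → ℤ))) = 32
    rw [CfsgLib.Leech.norm_neg, CfsgLib.Leech.norm_add, hv, hw, hvw]; norm_num
  have hd : dotInt ((-(v + w) : Cfsg.leechLattice) : Cfsg.GolayPt → ℤ) (v : Cfsg.GolayPt → ℤ) = -16 := by
    rw [show (((-(v + w) : Cfsg.leechLattice)) : Cfsg.GolayPt → ℤ) = -((v : Cfsg.GolayPt → ℤ) + (w : Cfsg.GolayPt → ℤ)) from rfl, CfsgLib.Leech.dot_neg_left, CfsgLib.Leech.dot_add_left, ← CfsgLib.Leech.sqNorm_eq_dot, hv, CfsgLib.Leech.dot_symm (w : Cfsg.GolayPt → ℤ), hvw]; norm_num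
  have hE : MulAction.stabilizer Cfsg.Co0 v ⊓ MulAction.stabilizer Cfsg.Co0 w = MulAction.stabilizer Cfsg.Co0 v ⊓ MulAction.stabilizer Cfsg.Co0 (-(v + w)) := by
    ext g
    rw [Subgroup.mem_inf, Subgroup.mem_inf, MulAction.mem_stabilizer_iff, MulAction.mem_stabilizer_iff, MulAction.mem_stabilizer_iff, CfsgLib.Leech.co_neg, CfsgLib.Leech.co_add]
    constructor
    · rintro ⟨h1, h2⟩; exact ⟨h1, by rw [h1, h2]⟩
    · rintro ⟨h1, h2⟩
      refine ⟨h1, ?_⟩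
      rw [h1, neg_inj] at h2
      exact add_left_cancel h2
  rw [hE]
  obtain ⟨g, hg, hg'⟩ := CfsgLib.Leech.trans_T4 _ v hn hv hd
  obtain ⟨e⟩ := CfsgLib.Leech.stab_conj_pair g hg' hg
  refine ⟨CfsgLib.Golay.isSimple_of_equiv e CfsgLib.Leech.simple_hs_std, ?_⟩
  rw [CfsgLib.Leech.card_hs hn hv hd]

end Cfsg.Agent.S0405
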