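import Cfsg.Statements.S0406
import Cfsg.Agent.Lib.Leech11

set_option autoImplicit false
open Matrix
open Cfsg

namespace Cfsg.Agent.S0406

section
end


/-- A rank-24 even lattice with no roots and the stated numbers of vectors of norms 4, 6, 8 is isomorphic to the Leech lattice. -/
theorem result (B : Matrix (Fin 24) (Fin 24) ℤ) (hsymm : B.IsSymm) (hpos : ∀ x : Fin 24 → ℤ, x ≠ 0 → 0 < x ⬝ᵥ (B *ᵥ x)) (heven : ∀ x : Fin 24 → ℤ, (2 : ℤ) ∣ x ⬝ᵥ (B *ᵥ x)) (h2 : ∀ x : Fin 24 → ℤ, x ⬝ᵥ (B *ᵥ x) ≠ 2) (h4 : {x : Fin 24 → ℤ | x ⬝ᵥ (B *ᵥ x) = 4}.ncard = 196560) (h6 : {x : Fin 24 → ℤ | x ⬝ᵥ (B *ᵥ x) = 6}.ncard = 16773120) (h8 : {x : Fin 24 → ℤ | x ⬝ᵥ (B *ᵥ x) = 8}.ncard = 398034000) : ∃ f : (Fin 24 → ℤ) ≃+ Cfsg.leechLattice, ∀ x : Fin 24 → ℤ, Cfsg.sqNorm ((f x : Cfsg.leechLattice) : Cfsg.GolayPt → ℤ) = 8 * (x ⬝ᵥ (B *ᵥ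 x)) := by
  classical
  have hE := CfsgLib.Leech.elat_matrix B hsymm hpos heven h2
  have hO := CfsgLib.Leech.ob_matrix B hsymm hpos heven h2
  have hne : {x : Fin 24 → ℤ | x ⬝ᵥ (B *ᵥ x) = 8}.Nonempty := Set.nonempty_of_ncard_ne_zero (by rw [h8]; norm_num)
  obtain ⟨x, hx⟩ := hne
  obtain ⟨-, f, hf, hpi, -⟩ := (CfsgLib.Leech.count_classes hE hO CfsgLib.Leech.piM CfsgLib.Leech.piM_eq CfsgLib.Leech.card_QM h4 h6 h8).2 x hx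
  have hc : ∀ i j, ∃ z, f i - f j = z + z := fun i j => (CfsgLib.Leech.piM_eq _ _).mp ((hpi i).trans (hpi j).symm)
  obtain ⟨φ, σ, c, hφ⟩ := CfsgLib.Leech.frame_iso hE hO f hf hc h4
  refine ⟨φ, fun y => ?_⟩
  rw [hφ, CfsgLib.Leech.spE_norm]
  exact CfsgLib.Leech.cf_norm hE hO f hf y

end Cfsg.Agent.S0406
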