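import Cfsg.Statements.S0412
import Cfsg.Agent.Lib.SteinerAut

set_option autoImplicit false
open Cfsg

namespace Cfsg.Agent.S0412

/-- Aut of an S(5, 8, 24) is simple of order 244823040 and 5-transitive on points. -/
theorem result {α : Type*} [Fintype α] [DecidableEq α] (hα : Fintype.card α = 24) {B : Set (Finset α)} (hB : Cfsg.IsSteinerSystem 5 8 B) : Cfsg.IsM24 (Cfsg.setSystemAut B) ∧ MulAction.IsMultiplyPretransitive (Cfsg.setSystemAut B) α 5 := by
  classical
  obtain ⟨f, hf⟩ := CfsgLib.SteinerV.lab24 hα hB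
  have hc := CfsgLib.SteinerV.card_out hf.1
  rw [hα] at hc
  have hc0 : (CfsgLib.SteinerV.out f).card = 0 := by omega
  have e := CfsgLib.SteinerV.autEquiv hf (by omega)
  rw [Finset.card_eq_zero] at hc0
  rw [hc0, CfsgLib.SteinerV.SetStab_empty] at e
  refine ⟨⟨CfsgLib.Golay.isSimple_of_equiv e.symm CfsgLib.Golay.simple_M24, ?_⟩, CfsgLib.SteinerV.aut_trans hf (by rw [hc0]; rfl)⟩
  rw [← Nat.card_congr e.toEquiv]
  exact CfsgLib.Golay.card_M24

end Cfsg.Agent.S0412
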