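import Cfsg.Statements.S0413
import Cfsg.Agent.Lib.SteinerAut

set_option autoImplicit false
open Cfsg

namespace Cfsg.Agent.S0413

/-- Aut of an S(4, 7, 23) is simple of order 10200960 and 4-transitive. -/
theorem result {α : Type*} [Fintype α] [DecidableEq α] (hα : Fintype.card α = 23) {B : Set (Finset α)} (hB : Cfsg.IsSteinerSystem 4 7 B) : Cfsg.IsM23 (Cfsg.setSystemAut B) ∧ MulAction.IsMultiplyPretransitive (Cfsg.setSystemAut B) α 4 := by
  classical
  obtain ⟨f, hf⟩ := CfsgLib.SteinerV.lab23 hα hB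
  have hc := CfsgLib.SteinerV.card_out hf.1
  rw [hα] at hc
  have hc0 : (CfsgLib.SteinerV.out f).card = 1 := by omega
  have e := CfsgLib.SteinerV.autEquiv hf (by omega)
  have htr := CfsgLib.SteinerV.aut_trans hf (n := 4) (by rw [hc0])
  rw [Finset.card_eq_one] at hc0
  obtain ⟨a, ha⟩ := hc0
  rw [ha, CfsgLib.SteinerV.SetStab_singleton] at e
  refine ⟨⟨CfsgLib.Golay.isSimple_of_equiv e.symm (CfsgLib.Golay.simple_PS_one a), ?_⟩, htr⟩
  rw [← Nat.card_congr e.toEquiv]
  exact CfsgLib.Golay.card_PS_one a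

end Cfsg.Agent.S0413
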