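import Cfsg.Statements.S0414
import Cfsg.Agent.Lib.SteinerAut

set_option autoImplicit false
open Cfsg

open scoped Pointwise
namespace Cfsg.Agent.S0414

/-- Aut of an S(3, 6, 22) has order 887040, is 3-transitive, and contains a simple subgroup of index 2. -/
theorem result {α : Type*} [Fintype α] [DecidableEq α] (hα : Fintype.card α = 22) {B : Set (Finset α)} (hB : Cfsg.IsSteinerSystem 3 6 B) : Nat.card (Cfsg.setSystemAut B) = 887040 ∧ MulAction.IsMultiplyPretransitive (Cfsg.setSystemAut B) α 3 ∧ ∃ H : Subgroup (Cfsg.setSystemAut B), H.index = 2 ∧ Cfsg.IsM22 H := by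
  classical
  obtain ⟨f, hf⟩ := CfsgLib.SteinerV.lab22 hα hB
  have hc := CfsgLib.SteinerV.card_out hf.1
  rw [hα] at hc
  have hc0 : (CfsgLib.SteinerV.out f).card = 2 := by omega
  have e := CfsgLib.SteinerV.autEquiv hf (by omega)
  have htr := CfsgLib.SteinerV.aut_trans hf (n := 3) (by rw [hc0])
  rw [Finset.card_eq_two] at hc0
  obtain ⟨a, b, hab, ha⟩ := hc0
  rw [ha] at e
  have hle : CfsgLib.Golay.PS [a, b] ≤ CfsgLib.SteinerV.SetStab {a, b} := by
    intro g hg
    rw [CfsgLib.Golay.mem_PS] at hg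
    refine CfsgLib.SteinerV.mem_SetStab.mpr ⟨hg.1, CfsgLib.Golay.smul_eq_of_fix ?_⟩
    intro p hp
    apply hg.2
    simpa using hp
  have hrel : (CfsgLib.Golay.PS [a, b]).relIndex (CfsgLib.SteinerV.SetStab {a, b}) = 2 := by
    obtain ⟨s, hs, hsm⟩ := CfsgLib.Golay.trans_list (l := [a, b]) (l' := [b, a]) (by simp [hab]) (by simp [hab.symm]) rfl (by norm_num)
    simp only [List.map_cons, List.map_nil, List.cons.injEq, and_true] at hsm
    obtain ⟨hsa, hsb⟩ := hsm
    rw [Subgroup.relIndex, Subgroup.index_eq_two_iff]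
    have hsm : s ∈ CfsgLib.SteinerV.SetStab {a, b} := by
      refine CfsgLib.SteinerV.mem_SetStab.mpr ⟨hs, ?_⟩
      rw [Finset.smul_finset_insert, Finset.smul_finset_singleton]
      change {s a, s b} = _
      rw [hsa, hsb, Finset.pair_comm]
    refine ⟨⟨s, hsm⟩, ?_⟩
    rintro ⟨g, hg⟩
    obtain ⟨hg1, hg2⟩ := CfsgLib.SteinerV.mem_SetStab.mp hg
    rw [Subgroup.mem_subgroupOf, Subgroup.mem_subgroupOf]
    change Xor' (g * s ∈ CfsgLib.Golay.PS [a, b]) (g ∈ CfsgLib.Golay.PS [a, b])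
    rw [CfsgLib.Golay.mem_PS, CfsgLib.Golay.mem_PS]
    have h1 : g a = a ∨ g a = b := by
      have : g • a ∈ g • ({a, b} : Finset Cfsg.GolayPt) := Finset.smul_mem_smul_finset (by simp)
      rw [hg2] at this
      simpa using this
    have h2 : g b = a ∨ g b = b := by
      have : g • b ∈ g • ({a, b} : Finset Cfsg.GolayPt) := Finset.smul_mem_smul_finset (by simp)
      rw [hg2] at this
      simpa using this
    have h3 : g a ≠ g b := fun h => hab (g.injective h)
    have hgs : g * s ∈ Cfsg.M24 := CfsgLib.Golay.M24_mul hg1 hs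
    simp only [List.mem_cons, List.not_mem_nil, or_false, forall_eq_or_imp, forall_eq, Equiv.Perm.mul_apply, hsa, hsb]
    rcases h1 with h1 | h1 <;> rcases h2 with h2 | h2
    · exact absurd (h1.trans h2.symm) h3
    · right
      exact ⟨⟨hg1, h1, h2⟩, fun h => hab (h1.symm.trans h.2.2)⟩
    · left
      exact ⟨⟨hgs, h2, h1⟩, fun h => hab.symm (h1.symm.trans h.2.1)⟩
    · exact absurd (h1.trans h2.symm) h3
  have hcard : Nat.card (CfsgLib.SteinerV.SetStab {a, b}) = 887040 := by
    have h1 := Subgroup.card_mul_index ((CfsgLib.Golay.PS [a, b]).subgroupOf (CfsgLib.SteinerV.SetStab {a, b}))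
    have h2 : ((CfsgLib.Golay.PS [a, b]).subgroupOf (CfsgLib.SteinerV.SetStab {a, b})).index = 2 := hrel
    rw [h2, Nat.card_congr (Subgroup.subgroupOfEquivOfLe hle).toEquiv, CfsgLib.Golay.card_PS_two hab] at h1
    exact h1.symm
  refine ⟨?_, htr, ?_⟩
  · rw [← Nat.card_congr e.toEquiv, hcard]
  · refine ⟨((CfsgLib.Golay.PS [a, b]).subgroupOf (CfsgLib.SteinerV.SetStab {a, b})).map e.toMonoidHom, ?_, ?_⟩
    · have h2 : ((CfsgLib.Golay.PS [a, b]).subgroupOf (CfsgLib.SteinerV.SetStab {a, b})).index = 2 := hrel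
      rw [← h2]
      exact Subgroup.index_map_equiv _ e
    · have e2 : CfsgLib.Golay.PS [a, b] ≃* ((CfsgLib.Golay.PS [a, b]).subgroupOf (CfsgLib.SteinerV.SetStab {a, b})).map e.toMonoidHom :=
        (Subgroup.subgroupOfEquivOfLe hle).symm.trans (Subgroup.equivMapOfInjective _ _ e.injective)
      exact ⟨CfsgLib.Golay.isSimple_of_equiv e2.symm (CfsgLib.Golay.simple_PS_two hab),
        by rw [← Nat.card_congr e2.toEquiv]; exact CfsgLib.Golay.card_PS_two hab⟩

end Cfsg.Agent.S0414
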