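import Cfsg.Statements.S0426
import Cfsg.Agent.Lib.Steiner12M

set_option autoImplicit false
open Cfsg

namespace Cfsg.Agent.S0426

/-- Aut of an S(4, 5, 11) is simple of order 7920 and sharply 4-transitive on points. -/
theorem result {α : Type*} [Fintype α] [DecidableEq α] (hα : Fintype.card α = 11) {B : Set (Finset α)} (hB : Cfsg.IsSteinerSystem 4 5 B) : Cfsg.IsM11 (Cfsg.setSystemAut B) ∧ MulAction.IsMultiplyPretransitive (Cfsg.setSystemAut B) α 4 ∧ ∀ x : Fin 4 ↪ α, MulAction.stabilizer (Cfsg.setSystemAut B) x = ⊥ := by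
  classical
  obtain ⟨f, hf⟩ := CfsgLib.Steiner12.lab11 hα hB
  have hc := CfsgLib.Steiner12.card_out hf.1 hf.2.1
  rw [hα] at hc
  have hc0 : (CfsgLib.Steiner12.out f).card = 1 := by omega
  have e := CfsgLib.Steiner12.autEquiv hf (by omega)
  have htr := CfsgLib.Steiner12.aut_trans hf (n := 4) (by rw [hc0])
  have hst : ∀ x : Fin 4 ↪ α, MulAction.stabilizer (Cfsg.setSystemAut B) x = ⊥ := by
    intro x
    rw [eq_bot_iff]
    intro g hg
    rw [Subgroup.mem_bot]
    apply Subtype.ext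
    apply CfsgLib.Steiner12.aut_rigid hf (by omega) g.2 (n := 4) (by omega) x
    intro i
    have := MulAction.mem_stabilizer_iff.mp hg
    exact DFunLike.congr_fun this i
  rw [Finset.card_eq_one] at hc0
  obtain ⟨a, ha⟩ := hc0
  have haD : a ∈ CfsgLib.Golay.D0 := CfsgLib.Steiner12.out_sub f (by rw [ha]; simp)
  rw [ha, Finset.toList_singleton] at e
  refine ⟨⟨CfsgLib.Golay.isSimple_of_equiv e.symm (CfsgLib.Golay.simple_PSd_one CfsgLib.Golay.D0_mem haD), ?_⟩, htr, hst⟩
  rw [← Nat.card_congr e.toEquiv]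
  exact CfsgLib.Golay.card_PSd_one CfsgLib.Golay.D0_mem haD

end Cfsg.Agent.S0426
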