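import Cfsg.Statements.S0427
import Cfsg.Agent.Lib.SteinerGraph

set_option autoImplicit false
open Cfsg

namespace Cfsg.Agent.S0427

/-- The block graph (adjacent = disjoint) of an S(3, 6, 22) is strongly regular with parameters (77, 16, 0, 4). -/
theorem result {α : Type*} [Fintype α] (hα : Fintype.card α = 22) {B : Set (Finset α)} (hB : Cfsg.IsSteinerSystem 3 6 B) [Fintype B] [DecidableRel (Cfsg.blockGraph B).Adj] : (Cfsg.blockGraph B).IsSRGWith 77 16 0 4 := by
  classical
  open CfsgLib.Steiner in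
  have hadj : ∀ b c : B, (Cfsg.blockGraph B).Adj b c ↔ b ≠ c ∧ Disjoint b.1 c.1 := by
    intro b c
    rw [Cfsg.blockGraph, SimpleGraph.fromRel_adj]
    constructor
    · rintro ⟨h, h' | h'⟩
      · exact ⟨h, h'⟩
      · exact ⟨h, h'.symm⟩
    · rintro ⟨h, h'⟩; exact ⟨h, Or.inl h'⟩
  have hne : ∀ b : B, ∀ c : Finset α, c ∈ B → Disjoint b.1 c → b.1 ≠ c := by
    rintro b c hc hd h
    rw [← h, disjoint_self, Finset.bot_eq_empty] at hd
    have := hB.1 b.1 b.2
    rw [hd] at this; simp at this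
  have hadj' : ∀ b c : B, (Cfsg.blockGraph B).Adj b c ↔ Disjoint b.1 c.1 := by
    intro b c
    rw [hadj]
    exact ⟨fun h => h.2, fun h => ⟨fun h' => hne b c.1 c.2 h (congrArg Subtype.val h'), h⟩⟩
  have hcn : ∀ b c : B, Fintype.card ((Cfsg.blockGraph B).commonNeighbors b c) = ((CfsgLib.Steiner.bl B).filter (fun d => Disjoint b.1 d ∧ Disjoint c.1 d)).card := by
    intro b c
    rw [← CfsgLib.Steiner.card_filter_block, ← Set.toFinset_card]
    congr 1
    ext d
    rw [Set.mem_toFinset, SimpleGraph.mem_commonNeighbors, hadj', hadj']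
    simp
  refine ⟨?_, ?_, ?_, ?_⟩
  · have h1 := CfsgLib.Steiner.card_filter_block (B := B) (fun _ => True)
    simp only [Finset.filter_true] at h1
    rw [← Finset.card_univ, h1]
    exact CfsgLib.Steiner.card_bl_3_6_22 hα hB
  · intro b
    rw [← CfsgLib.Steiner.card_disjoint hα hB b.2, ← CfsgLib.Steiner.card_filter_block (B := B), ← SimpleGraph.card_neighborFinset_eq_degree]
    congr 1
    ext c
    rw [SimpleGraph.mem_neighborFinset, hadj']
    simp
  · intro b c hbc
    rw [hcn]
    have h := (hadj b c).mp hbc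
    rw [CfsgLib.Steiner.card_disjoint_both hα hB b.2 c.2 (fun h' => h.1 (Subtype.ext h')), Finset.disjoint_iff_inter_eq_empty.mp h.2]
    simp
  · intro b c hbc hnadj
    rw [hcn]
    have hbc' : b.1 ≠ c.1 := fun h' => hbc (Subtype.ext h')
    rw [CfsgLib.Steiner.card_disjoint_both hα hB b.2 c.2 hbc']
    rcases CfsgLib.Steiner.inter_3_6_22 hα hB b.2 c.2 hbc' with h | h
    · exfalso
      apply hnadj
      rw [hadj', Finset.disjoint_iff_inter_eq_empty]
      exact Finset.card_eq_zero.mp h
    · rw [h]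

end Cfsg.Agent.S0427
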