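import Cfsg.Statements.S0428
import Cfsg.Agent.Lib.SteinerGraph

set_option autoImplicit false
open Cfsg

namespace Cfsg.Agent.S0428

/-- counting over Option (α ⊕ β) -/
theorem card_opt {α β : Type*} [Fintype α] [Fintype β] (P : Option (α ⊕ β) → Prop) [DecidablePred P] :
    ((Finset.univ : Finset (Option (α ⊕ β))).filter P).card = (if P none then 1 else 0) +
      ((Finset.univ.filter (fun a : α => P (some (Sum.inl a)))).card + (Finset.univ.filter (fun b : β => P (some (Sum.inr b)))).card) := by
  rw [Finset.card_filter, Fintype.sum_option, Fintype.sum_sum_type, Finset.card_filter, Finset.card_filter]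


/-- The point-block graph of an S(3, 6, 22) is strongly regular with parameters (100, 22, 0, 6). -/
theorem result {α : Type*} [Fintype α] (hα : Fintype.card α = 22) {B : Set (Finset α)} (hB : Cfsg.IsSteinerSystem 3 6 B) [Fintype B] [DecidableRel (Cfsg.pointBlockGraph B).Adj] : (Cfsg.pointBlockGraph B).IsSRGWith 100 22 0 6 := by
  classical
  have hne : ∀ b c : Finset α, b ∈ B → c ∈ B → Disjoint b c → b ≠ c := by
    rintro b c hb hc hd h
    rw [← h, disjoint_self, Finset.bot_eq_empty] at hd
    have := hB.1 b hb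
    rw [hd] at this; simp at this
  have hadj : ∀ x y, (Cfsg.pointBlockGraph B).Adj x y ↔ x ≠ y ∧ (Cfsg.pointBlockRel B x y ∨ Cfsg.pointBlockRel B y x) := by
    intro x y; rw [Cfsg.pointBlockGraph, SimpleGraph.fromRel_adj]
  have a00 : ∀ x : Option (α ⊕ B), (Cfsg.pointBlockGraph B).Adj none x ↔ ∃ a, x = some (Sum.inl a) := by
    rintro (_ | a | b) <;> rw [hadj] <;> simp [Cfsg.pointBlockRel]
  have app : ∀ a a' : α, ¬ (Cfsg.pointBlockGraph B).Adj (some (Sum.inl a)) (some (Sum.inl a')) := by
    intro a a'; rw [hadj]; simp [Cfsg.pointBlockRel]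
  have apb : ∀ (a : α) (b : B), (Cfsg.pointBlockGraph B).Adj (some (Sum.inl a)) (some (Sum.inr b)) ↔ a ∈ b.1 := by
    intro a b; rw [hadj]; simp [Cfsg.pointBlockRel]
  have abb : ∀ (b c : B), (Cfsg.pointBlockGraph B).Adj (some (Sum.inr b)) (some (Sum.inr c)) ↔ Disjoint b.1 c.1 := by
    intro b c; rw [hadj]; simp only [Cfsg.pointBlockRel]
    constructor
    · rintro ⟨-, h | h⟩
      · exact h
      · exact h.symm
    · intro h
      refine ⟨?_, Or.inl h⟩
      intro h'
      simp only [Option.some.injEq, Sum.inr.injEq] at h'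
      exact hne b.1 c.1 b.2 c.2 h (congrArg Subtype.val h')
  have ap0 : ∀ a : α, (Cfsg.pointBlockGraph B).Adj (some (Sum.inl a)) none := by
    intro a; rw [SimpleGraph.adj_comm, a00]; exact ⟨a, rfl⟩
  have ab0 : ∀ b : B, ¬ (Cfsg.pointBlockGraph B).Adj (some (Sum.inr b)) none := by
    intro b; rw [SimpleGraph.adj_comm, a00]; simp
  have a0b : ∀ b : B, ¬ (Cfsg.pointBlockGraph B).Adj none (some (Sum.inr b)) := by
    intro b; rw [a00]; simp
  have a0p : ∀ a : α, (Cfsg.pointBlockGraph B).Adj none (some (Sum.inl a)) := by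
    intro a; rw [a00]; exact ⟨a, rfl⟩
  have abp : ∀ (a : α) (b : B), (Cfsg.pointBlockGraph B).Adj (some (Sum.inr b)) (some (Sum.inl a)) ↔ a ∈ b.1 := by
    intro a b; rw [SimpleGraph.adj_comm, apb]
  have hcn : ∀ x y : Option (α ⊕ B), Fintype.card ((Cfsg.pointBlockGraph B).commonNeighbors x y) = 
      ((Finset.univ : Finset (Option (α ⊕ B))).filter (fun z => (Cfsg.pointBlockGraph B).Adj x z ∧ (Cfsg.pointBlockGraph B).Adj y z)).card := by
    intro x y
    rw [← Set.toFinset_card]
    congr 1
    ext d
    rw [Set.mem_toFinset, SimpleGraph.mem_commonNeighbors]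
    simp
  have hcnsymm : ∀ x y : Option (α ⊕ B), Fintype.card ((Cfsg.pointBlockGraph B).commonNeighbors x y) = Fintype.card ((Cfsg.pointBlockGraph B).commonNeighbors y x) := by
    intro x y
    rw [hcn, hcn]
    congr 1
    ext z
    simp only [Finset.mem_filter, and_comm]
  have f1 : ∀ (b : Finset α) (d : DecidablePred (fun a : α => a ∈ b)), (@Finset.filter α (fun a : α => a ∈ b) d Finset.univ).card = b.card := by
    intro b d; congr 1; ext a; simp
  have hdeg : ∀ x : Option (α ⊕ B), (Cfsg.pointBlockGraph B).degree x = 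
      ((Finset.univ : Finset (Option (α ⊕ B))).filter (fun z => (Cfsg.pointBlockGraph B).Adj x z)).card := by
    intro x
    rw [← SimpleGraph.card_neighborFinset_eq_degree]
    congr 1
    ext d
    rw [SimpleGraph.mem_neighborFinset]
    simp
  have fB : ∀ (P : Finset α → Prop) (d1 : DecidablePred (fun c : B => P c.1)) (d2 : DecidablePred P), (@Finset.filter B (fun c => P c.1) d1 (Finset.univ : Finset B)).card = (@Finset.filter _ P d2 (CfsgLib.Steiner.bl B)).card := by
    intro P d1 d2
    rw [← CfsgLib.Steiner.card_filter_block P]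
    congr 1
    ext c; simp only [Finset.mem_filter]
  refine ⟨?_, ?_, ?_, ?_⟩
  · have h1 := card_opt (α := α) (β := B) (fun _ => True)
    simp only [Finset.filter_true, if_true] at h1
    have h2 := fB (fun _ => True) inferInstance inferInstance
    simp only [Finset.filter_true] at h2
    rw [← Finset.card_univ, h1, h2, Finset.card_univ, hα, CfsgLib.Steiner.card_bl_3_6_22 hα hB]
  · rintro (_ | a | b)
    · rw [hdeg, card_opt]
      simp only [SimpleGraph.irrefl, if_false, a0p, a0b, Finset.filter_true, Finset.filter_false, Finset.card_univ, Finset.card_empty, hα]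
    · rw [hdeg, card_opt]
      simp only [ap0, if_true, app, apb, Finset.filter_false, Finset.card_empty]
      rw [fB (fun b => a ∈ b), CfsgLib.Steiner.card_thru_pt hα hB]
    · rw [hdeg, card_opt]
      simp only [ab0, if_false, abp, abb]
      rw [fB (fun c => Disjoint b.1 c), f1, CfsgLib.Steiner.card_disjoint hα hB b.2, hB.1 b.1 b.2]
  · -- adjacent
    have k0p : ∀ a, Fintype.card ((Cfsg.pointBlockGraph B).commonNeighbors none (some (Sum.inl a))) = 0 := by
      intro a
      rw [hcn, card_opt]
      simp [a0b, app, ap0, a0p]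
    have kpb : ∀ a (b : B), a ∈ b.1 → Fintype.card ((Cfsg.pointBlockGraph B).commonNeighbors (some (Sum.inl a)) (some (Sum.inr b))) = 0 := by
      intro a b hab
      rw [hcn, card_opt]
      simp only [ab0, and_false, if_false, app, false_and, apb, abb, Finset.filter_false, Finset.card_empty, zero_add, Finset.card_eq_zero]
      rw [Finset.filter_eq_empty_iff]
      intro c _ h
      exact (Finset.disjoint_left.mp h.2 hab) h.1
    rintro (_ | a | b) (_ | a' | b') h
    · exact absurd h (SimpleGraph.irrefl _)
    · exact k0p a'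
    · exact absurd h (a0b b')
    · rw [hcnsymm]; exact k0p a
    · exact absurd h (app a a')
    · exact kpb a b' ((apb _ _).mp h)
    · exact absurd h (ab0 b)
    · rw [hcnsymm]; exact kpb a' b ((abp _ _).mp h)
    · rw [hcn, card_opt]
      simp only [ab0, and_false, if_false, abp, abb, zero_add]
      rw [fB (fun c => Disjoint b.1 c ∧ Disjoint b'.1 c)]
      have hd := (abb _ _).mp h
      rw [CfsgLib.Steiner.card_disjoint_both hα hB b.2 b'.2 (hne _ _ b.2 b'.2 hd), Finset.disjoint_iff_inter_eq_empty.mp hd]
      simp only [Finset.card_empty, mul_zero, add_zero, Finset.card_eq_zero]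
      rw [Finset.filter_eq_empty_iff]
      intro a _ h
      exact (Finset.disjoint_left.mp hd h.1) h.2
  · have k0b : ∀ b, Fintype.card ((Cfsg.pointBlockGraph B).commonNeighbors none (some (Sum.inr b))) = 6 := by
      intro b
      rw [hcn, card_opt]
      simp only [SimpleGraph.irrefl, false_and, if_false, a0p, true_and, abp, a0b, Finset.filter_false, Finset.card_empty, f1, hB.1 b.1 b.2]
    have kpb : ∀ a (b : B), a ∉ b.1 → Fintype.card ((Cfsg.pointBlockGraph B).commonNeighbors (some (Sum.inl a)) (some (Sum.inr b))) = 6 := by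
      intro a b hab
      rw [hcn, card_opt]
      simp only [ab0, and_false, if_false, app, false_and, apb, abb, Finset.filter_false, Finset.card_empty, zero_add]
      rw [fB (fun c => a ∈ c ∧ Disjoint b.1 c), CfsgLib.Steiner.card_disjoint_thru hα hB b.2 hab]
    rintro (_ | a | b) (_ | a' | b') hne' h
    · exact absurd rfl hne'
    · exact absurd (a0p a') h
    · exact k0b b'
    · exact absurd (ap0 a) h
    · rw [hcn, card_opt]
      simp only [ap0, and_true, if_true, app, apb, and_false, Finset.filter_false, Finset.card_empty, zero_add]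
      rw [fB (fun c => a ∈ c ∧ a' ∈ c), CfsgLib.Steiner.card_thru_pts hα hB (fun h => hne' (by rw [h]))]
    · exact kpb a b' (fun h' => h ((apb _ _).mpr h'))
    · rw [hcnsymm]; exact k0b b
    · rw [hcnsymm]; exact kpb a' b (fun h' => h ((abp _ _).mpr h'))
    · rw [hcn, card_opt]
      simp only [ab0, and_false, if_false, abp, abb, zero_add]
      have hbc : b.1 ≠ b'.1 := fun h' => hne' (by rw [Subtype.ext h'])
      rw [fB (fun c => Disjoint b.1 c ∧ Disjoint b'.1 c), CfsgLib.Steiner.card_disjoint_both hα hB b.2 b'.2 hbc]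
      have h2 : ∀ (d : DecidablePred (fun a : α => a ∈ b.1 ∧ a ∈ b'.1)), (@Finset.filter α (fun a : α => a ∈ b.1 ∧ a ∈ b'.1) d Finset.univ).card = (b.1 ∩ b'.1).card := by
        intro d; congr 1; ext a; simp
      rw [h2]
      rcases CfsgLib.Steiner.inter_3_6_22 hα hB b.2 b'.2 hbc with h3 | h3
      · exfalso
        apply h
        rw [abb, Finset.disjoint_iff_inter_eq_empty]
        exact Finset.card_eq_zero.mp h3
      · rw [h3]

end Cfsg.Agent.S0428
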