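import Cfsg.Statements.S0430
import Cfsg.Agent.Lib.SrgHS
import Cfsg.Agent.Lib.SteinerV

set_option autoImplicit false
open Cfsg

namespace Cfsg.Agent.S0430

/-- Uniqueness of the strongly regular graph with parameters (100, 22, 0, 6). -/
theorem result {V W : Type*} [Fintype V] [Fintype W] {G : SimpleGraph V} {H : SimpleGraph W} [DecidableRel G.Adj] [DecidableRel H.Adj] (hG : G.IsSRGWith 100 22 0 6) (hH : H.IsSRGWith 100 22 0 6) : Nonempty (G ≃g H) := by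
  classical
  obtain ⟨v⟩ : Nonempty V := Fintype.card_pos_iff.mp (by rw [hG.card]; norm_num)
  obtain ⟨w⟩ : Nonempty W := Fintype.card_pos_iff.mp (by rw [hH.card]; norm_num)
  have hG' : G.IsSRGWith 100 22 0 6 := by convert hG
  have hH' : H.IsSRGWith 100 22 0 6 := by convert hH
  obtain ⟨f, hf⟩ := CfsgLib.SteinerV.lab22 (CfsgLib.SrgHS.card_sub hG' v) (CfsgLib.SrgHS.steiner_blocks hG' v)
  obtain ⟨f', hf'⟩ := CfsgLib.SteinerV.lab22 (CfsgLib.SrgHS.card_sub hH' w) (CfsgLib.SrgHS.steiner_blocks hH' w)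
  have h1 := CfsgLib.SteinerV.unique_of_lab hf hf' (by rw [CfsgLib.SrgHS.card_sub hG', CfsgLib.SrgHS.card_sub hH']) (by rw [CfsgLib.SrgHS.card_sub hG']; norm_num)
  obtain ⟨e1⟩ := CfsgLib.SrgHS.exists_iso hG' v
  obtain ⟨e2⟩ := CfsgLib.SrgHS.exists_iso hH' w
  obtain ⟨e3⟩ := CfsgLib.SrgHS.pb_iso h1
  exact ⟨(e1.symm.trans e3).trans e2⟩

end Cfsg.Agent.S0430
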