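import Cfsg.Statements.S0431
import Cfsg.Agent.Lib.Leech33

set_option autoImplicit false
open Cfsg

namespace Cfsg.Agent.S0431

/-- Aut of the point-block graph of an S(3, 6, 22) contains a simple subgroup of order 44352000. -/
theorem result {α : Type*} [Fintype α] (hα : Fintype.card α = 22) {B : Set (Finset α)} (hB : Cfsg.IsSteinerSystem 3 6 B) : ∃ H : Subgroup (Cfsg.pointBlockGraph B ≃g Cfsg.pointBlockGraph B), Cfsg.IsHS H := by
  classical
  obtain ⟨f, hf, ho⟩ := CfsgLib.Leech.lab_std hα hB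
  obtain ⟨a⟩ : Nonempty α := Fintype.card_pos_iff.mp (by omega)
  refine ⟨(CfsgLib.Leech.hsAut hf ho).range, CfsgLib.Golay.isSimple_of_equiv (MonoidHom.ofInjective (CfsgLib.Leech.hsAut_inj hf ho a)).symm CfsgLib.Leech.simple_hs_std, ?_⟩
  rw [← Nat.card_congr (MonoidHom.ofInjective (CfsgLib.Leech.hsAut_inj hf ho a)).toEquiv]
  exact CfsgLib.Leech.card_hs CfsgLib.Leech.norm_uD CfsgLib.Leech.norm_u5 CfsgLib.Leech.dot_D5

end Cfsg.Agent.S0431
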