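import Cfsg.Statements.S0439
import Mathlib

set_option autoImplicit false
open Cfsg

namespace Cfsg.Agent.S0439

/-- In the symmetric group of degree n ≥ 2, the set of transpositions is a conjugacy class of 3-transpositions which generates the group. -/
theorem result (n : ℕ) (hn : 2 ≤ n) : Cfsg.IsThreeTranspositionClass {σ : Equiv.Perm (Fin n) | σ.IsSwap} := by
  classical
  have hne : ∀ a b : Fin n, a ≠ b → orderOf (Equiv.swap a b) = 2 := fun a b hab =>
    (Equiv.Perm.IsSwap.orderOf ⟨a, b, hab, rfl⟩)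
  have h3 : ∀ a b c : Fin n, a ≠ b → a ≠ c → b ≠ c → (Equiv.swap a b * Equiv.swap a c) ^ 3 = 1 := by
    intro a b c hab hac hbc
    have := (Equiv.Perm.isThreeCycle_swap_mul_swap_same hab hac hbc).orderOf
    rw [← this]; exact pow_orderOf_eq_one _
  refine ⟨⟨?_, ?_⟩, ?_, ?_⟩
  · rintro d ⟨a, b, hab, rfl⟩
    exact hne a b hab
  · rintro _ ⟨a, b, hab, rfl⟩ _ ⟨c, d, hcd, rfl⟩
    by_cases hac : a = c
    · subst hac
      by_cases hbd : b = d
      · subst hbd; left; simp
      · right; exact h3 a b d hab hcd hbd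
    by_cases had : a = d
    · subst had
      by_cases hbc : b = c
      · subst hbc; left; rw [Equiv.swap_comm b a]; simp
      · right; rw [Equiv.swap_comm c a]; exact h3 a b c hab (Ne.symm hcd) hbc
    by_cases hbc : b = c
    · subst hbc
      right
      rw [Equiv.swap_comm a b]; exact h3 b a d (Ne.symm hab) hcd had
    by_cases hbd : b = d
    · subst hbd
      right
      rw [Equiv.swap_comm a b, Equiv.swap_comm c b]; exact h3 b a c (Ne.symm hab) hbc hac
    · left
      have hdis : Equiv.Perm.Disjoint (Equiv.swap a b) (Equiv.swap c d) := by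
        intro x
        by_cases h1 : x = a
        · right; subst h1; exact Equiv.swap_apply_of_ne_of_ne hac had
        by_cases h2 : x = b
        · right; subst h2; exact Equiv.swap_apply_of_ne_of_ne hbc hbd
        · left; exact Equiv.swap_apply_of_ne_of_ne h1 h2
      have hc := hdis.commute
      rw [hc.mul_pow, sq, sq]; simp
  · have h01 : (⟨0, by omega⟩ : Fin n) ≠ ⟨1, by omega⟩ := by simp
    refine ⟨Equiv.swap ⟨0, by omega⟩ ⟨1, by omega⟩, ⟨_, _, h01, rfl⟩, ?_⟩
    ext σ
    show σ.IsSwap ↔ IsConj _ σ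
    constructor
    · rintro ⟨a, b, hab, rfl⟩
      exact Equiv.Perm.isConj_swap h01 hab
    · intro h
      rw [isConj_iff] at h
      obtain ⟨c, rfl⟩ := h
      refine ⟨c ⟨0, by omega⟩, c ⟨1, by omega⟩, fun h => h01 (c.injective h), ?_⟩
      rw [mul_inv_eq_iff_eq_mul]
      exact Equiv.mul_swap_eq_swap_mul c _ _
  · exact Equiv.Perm.closure_isSwap

end Cfsg.Agent.S0439
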