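import Cfsg.Statements.S0442
import Mathlib

set_option autoImplicit false
open Cfsg

namespace Cfsg.Agent.S0442

theorem inv_pow_conj {G : Type*} [Group G] (a x : G) (ha : a * a = 1) (h : a * x * a = x⁻¹) (m : ℕ)
    (hm : x ^ (2 * m) = 1) : Commute (x ^ m) a := by
  have hai : a⁻¹ = a := inv_eq_of_mul_eq_one_left ha
  have h1 : a * x ^ m * a = x ^ m := by
    calc a * x ^ m * a = a * x ^ m * a⁻¹ := by rw [hai]
      _ = (a * x * a⁻¹) ^ m := by rw [conj_pow]
      _ = (x⁻¹) ^ m := by rw [hai, h]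
      _ = (x ^ m)⁻¹ := by rw [inv_pow]
      _ = x ^ m := inv_eq_of_mul_eq_one_left (by rw [← pow_add, ← two_mul, hm])
  show x ^ m * a = a * x ^ m
  calc x ^ m * a = (a * x ^ m * a) * a := by rw [h1]
    _ = a * x ^ m * (a * a) := by group
    _ = a * x ^ m := by rw [ha, mul_one]

/-- A standard trick for producing elements of an involution centraliser: for an involution a and an element g, let b be the conjugate g⁻¹ * a * g. If a * b has odd order 2m + 1 then g * (a * b) ^ m commutes with a; if a * b has even order 2m then (a * b) ^ m and (a * (g * a * g⁻¹)) ^ m commute with a. -/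
theorem result {G : Type*} [Group G] (a g : G) (ha : orderOf a = 2) : (∀ m : ℕ, orderOf (a * (g⁻¹ * a * g)) = 2 * m + 1 → Commute (g * (a * (g⁻¹ * a * g)) ^ m) a) ∧ (∀ m : ℕ, orderOf (a * (g⁻¹ * a * g)) = 2 * m → Commute ((a * (g⁻¹ * a * g)) ^ m) a ∧ Commute ((a * (g * a * g⁻¹)) ^ m) a) := by
  have haa : a * a = 1 := by rw [← sq, ← ha]; exact pow_orderOf_eq_one a
  have hai : a⁻¹ = a := inv_eq_of_mul_eq_one_left haa
  set b := g⁻¹ * a * g with hb
  have hbb : b * b = 1 := by
    rw [hb, show g⁻¹ * a * g * (g⁻¹ * a * g) = g⁻¹ * (a * a) * g by group, haa]; group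
  have hbi : b⁻¹ = b := inv_eq_of_mul_eq_one_left hbb
  have hinv : a * (a * b) * a = (a * b)⁻¹ := by
    rw [mul_inv_rev, hai, hbi, ← mul_assoc, haa, one_mul]
  constructor
  · intro m hm
    have h1 : (a * b) ^ (2 * m + 1) = 1 := by rw [← hm]; exact pow_orderOf_eq_one _
    -- a g = g b
    have hag : a * g = g * b := by rw [hb]; group
    show g * (a * b) ^ m * a = a * (g * (a * b) ^ m)
    have h2 : b * (a * b) ^ m * b = ((a * b) ^ m)⁻¹ := by
      calc b * (a * b) ^ m * b = b * (a * b) ^ m * b⁻¹ := by rw [hbi]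
        _ = (b * (a * b) * b⁻¹) ^ m := by rw [conj_pow]
        _ = ((a * b)⁻¹) ^ m := by
            rw [hbi, mul_inv_rev, hai, hbi, show b * (a * b) * b = b * a * (b * b) by simp only [mul_assoc], hbb, mul_one]
        _ = ((a * b) ^ m)⁻¹ := by rw [inv_pow]
    have h3 : (a * b) ^ m * (a * b) * (a * b) ^ m = 1 := by
      rw [← pow_succ, ← pow_add]; rw [← h1]; congr 1; ring
    have h4 : (a * b) ^ m * a = b * (a * b) ^ m := by
      have h5 : (a * b) ^ m * a = ((a * b) ^ m)⁻¹ * b := by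
        have h6 : (a * b) ^ m * (a * b) = ((a * b) ^ m)⁻¹ := eq_inv_of_mul_eq_one_left h3
        calc (a * b) ^ m * a = (a * b) ^ m * a * (b * b) := by rw [hbb, mul_one]
          _ = (a * b) ^ m * (a * b) * b := by group
          _ = _ := by rw [h6]
      rw [h5, ← h2, mul_assoc _ b b, hbb, mul_one]
    rw [mul_assoc, h4, ← mul_assoc, ← hag, mul_assoc]
  · intro m hm
    have h1 : (a * b) ^ (2 * m) = 1 := by rw [← hm]; exact pow_orderOf_eq_one _
    refine ⟨inv_pow_conj a _ haa hinv m h1, ?_⟩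
    set c := g * a * g⁻¹ with hc
    have hcc : c * c = 1 := by
      rw [hc, show g * a * g⁻¹ * (g * a * g⁻¹) = g * (a * a) * g⁻¹ by group, haa]; group
    have hci : c⁻¹ = c := inv_eq_of_mul_eq_one_left hcc
    apply inv_pow_conj a _ haa
    · rw [mul_inv_rev, hai, hci, ← mul_assoc, haa, one_mul]
    · have h7 : (a * c)⁻¹ = g * (a * b) * g⁻¹ := by
        rw [mul_inv_rev, hai, hci, hb, hc]; group
      have h8 : ((a * c)⁻¹) ^ (2 * m) = 1 := by
        rw [h7, conj_pow, h1]; group
      rw [inv_pow] at h8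
      exact inv_eq_one.mp h8

end Cfsg.Agent.S0442
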