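import Cfsg.Statements.S0443
import Mathlib

set_option autoImplicit false
open Cfsg

namespace Cfsg.Agent.S0443

/-- Two definitions of a 2-central involution agree: an element t of order 2 of a finite group lies in the centre of some Sylow 2-subgroup if and only if its centraliser contains some Sylow 2-subgroup. -/
theorem result {G : Type*} [Group G] [Finite G] (t : G) (ht : orderOf t = 2) : Cfsg.IsTwoCentralInvolution t ↔ ∃ P : Sylow 2 G, (P : Subgroup G) ≤ Subgroup.centralizer ({t} : Set G) := by
  have : Fact (Nat.Prime 2) := ⟨Nat.prime_two⟩
  constructor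
  · rintro ⟨_, P, _, hP⟩
    refine ⟨P, fun x hx => ?_⟩
    rw [Subgroup.mem_centralizer_singleton_iff]
    exact hP x hx
  · rintro ⟨P, hP⟩
    refine ⟨ht, P, ?_, fun x hx => ?_⟩
    · have h2 : IsPGroup 2 (Subgroup.zpowers t) := by
        rw [IsPGroup.iff_card]
        exact ⟨1, by rw [Nat.card_zpowers, ht, pow_one]⟩
      have h3 := h2.inf_normalizer_sylow P
      have h4 : t ∈ Subgroup.normalizer ((P : Subgroup G) : Set G) := by
        rw [Subgroup.mem_normalizer_iff]
        intro x
        have hcomm : ∀ y ∈ (P : Subgroup G), t * y * t⁻¹ = y := by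
          intro y hy
          have := (Subgroup.mem_centralizer_singleton_iff.mp (hP hy))
          rw [← this, mul_inv_cancel_right]
        constructor
        · intro hx; have := hcomm x hx; show t * x * t⁻¹ ∈ (P : Subgroup G); rw [this]; exact hx
        · intro hx
          have h5 := (Subgroup.mem_centralizer_singleton_iff.mp (hP hx))
          have h6 : t * x * t⁻¹ = x := by
            have h7 : t * x = t * (t * x * t⁻¹) := by
              rw [← h5]; group
            have := mul_left_cancel h7
            exact this.symm
          rw [h6] at hx; exact hx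
      have h5 : t ∈ Subgroup.zpowers t ⊓ Subgroup.normalizer ((P : Subgroup G) : Set G) :=
        ⟨Subgroup.mem_zpowers t, h4⟩
      have h6 : t ∈ Subgroup.zpowers t ⊓ (P : Subgroup G) := by rw [← h3]; exact h5
      exact h6.2
    · exact Subgroup.mem_centralizer_singleton_iff.mp (hP hx)

end Cfsg.Agent.S0443
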