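import Cfsg.Statements.S0444
import Cfsg.Agent.Lib.DihLift

set_option autoImplicit false
open Cfsg

namespace Cfsg.Agent.S0444

/-- Two members of a set of 3-transpositions which do not commute generate a subgroup isomorphic to the symmetric group on three letters. -/
theorem result {G : Type*} [Group G] {E : Set G} (hE : Cfsg.IsThreeTranspositionSet E) {d e : G} (hd : d ∈ E) (he : e ∈ E) (h : ¬ Commute d e) : Nonempty (Subgroup.closure ({d, e} : Set G) ≃* Equiv.Perm (Fin 3)) := by
  apply CfsgLib.DihLift.closure_pair_equiv_perm_three d e (hE.1 d hd) (hE.1 e he)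
  have hdd : d * d = 1 := by rw [← sq, ← hE.1 d hd]; exact pow_orderOf_eq_one d
  have hee : e * e = 1 := by rw [← sq, ← hE.1 e he]; exact pow_orderOf_eq_one e
  have hdi : d⁻¹ = d := inv_eq_of_mul_eq_one_left hdd
  have hei : e⁻¹ = e := inv_eq_of_mul_eq_one_left hee
  have : Fact (Nat.Prime 3) := ⟨Nat.prime_three⟩
  rcases hE.2 d hd e he with h2 | h3
  · exfalso; apply h
    have : (d * e) * (d * e) = 1 := by rw [← sq]; exact h2
    have h4 : d * e = (d * e)⁻¹ := (inv_eq_of_mul_eq_one_left this).symm
    rw [mul_inv_rev, hdi, hei] at h4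
    exact h4
  · apply orderOf_eq_prime h3
    intro h1
    apply h
    have : d = e := by
      have := eq_inv_of_mul_eq_one_left h1
      rwa [hei] at this
    rw [this]

end Cfsg.Agent.S0444
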