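import Cfsg.Statements.S0446
import Mathlib

set_option autoImplicit false
open Cfsg

namespace Cfsg.Agent.S0446

/-- Every finite group of even order contains a 2-central involution, i.e. an element of order 2 in the centre of some Sylow 2-subgroup. -/
theorem result {G : Type*} [Group G] [Finite G] (h : Even (Nat.card G)) : ∃ t : G, Cfsg.IsTwoCentralInvolution t := by
  have : Fact (Nat.Prime 2) := ⟨Nat.prime_two⟩
  let P : Sylow 2 G := default
  have h2 : 2 ∣ Nat.card P := P.dvd_card_of_dvd_card h.two_dvd
  have hP1 : Nontrivial P := by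
    rw [← Finite.one_lt_card_iff_nontrivial]
    exact Nat.lt_of_lt_of_le one_lt_two (Nat.le_of_dvd Nat.card_pos h2)
  have hPc : Nontrivial (Subgroup.center P) := P.isPGroup'.center_nontrivial
  have hcp : IsPGroup 2 (Subgroup.center P) := P.isPGroup'.to_subgroup _
  obtain ⟨k, hk⟩ := IsPGroup.iff_card.mp hcp
  have hk0 : k ≠ 0 := by
    rintro rfl
    have := Finite.one_lt_card_iff_nontrivial.mpr hPc
    rw [hk] at this; simp at this
  have hd : 2 ∣ Nat.card (Subgroup.center P) := by rw [hk]; exact dvd_pow_self 2 hk0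
  obtain ⟨x, hx⟩ := exists_prime_orderOf_dvd_card' 2 hd
  refine ⟨((x : P) : G), ?_, P, (x : P).2, ?_⟩
  · have h1 : orderOf ((x : P) : G) = orderOf (x : P) := Subgroup.orderOf_coe (x : P)
    have h3 : orderOf (x : P) = orderOf x := Subgroup.orderOf_coe x
    rw [h1, h3, hx]
  · intro y hy
    have := Subgroup.mem_center_iff.mp x.2 ⟨y, hy⟩
    exact congrArg (fun z : P => (z : G)) this

end Cfsg.Agent.S0446
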