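import Cfsg.Statements.S0481
import Mathlib

set_option autoImplicit false
open Cfsg

namespace Cfsg.Agent.S0481

/-- Large extraspecial subgroups: let z be an involution of a finite group G whose centraliser C contains a normal 2-subgroup Q with centre of order 2 and all squares central, such that every element of G centralising Q lies in Q. Then C contains a Sylow 2-subgroup of G, and any involution of G whose centraliser contains a Sylow 2-subgroup of G is conjugate to z. -/
theorem result {G : Type*} [Group G] [Finite G] (z : G) (hz : orderOf z = 2) (Q : Subgroup G) (hQC : Q ≤ Subgroup.centralizer ({z} : Set G)) (hQn : ∀ g ∈ Subgroup.centralizer ({z} : Set G), ∀ q ∈ Q, g * q * g⁻¹ ∈ Q) (hQ2 : IsPGroup 2 Q) (hZ : Nat.card (Subgroup.center Q) = 2) (hsq : ∀ x : Q, x ^ 2 ∈ Subgroup.center Q) (hlarge : Subgroup.centralizer (Q : Set G) ≤ Q) : (∃ P : Sylow 2 G, (P : Subgroup G) ≤ Subgroup.centralizer ({z} : Set G)) ∧ ∀ u : G, orderOf u = 2 → (∃ P : Sylow 2 G, (P : Subgroup G) ≤ Subgroup.centralizer ({u} : Set G)) → IsConj z u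 := by
  have : Fact (Nat.Prime 2) := ⟨Nat.prime_two⟩
  have hzz : z ≠ 1 := by rintro rfl; simp at hz
  -- z ∈ Q
  have hzc : z ∈ Subgroup.centralizer (Q : Set G) := by
    rw [Subgroup.mem_centralizer_iff]
    intro q hq
    exact Subgroup.mem_centralizer_singleton_iff.mp (hQC hq)
  have hzQ : z ∈ Q := hlarge hzc
  -- elements centralizing Q are 1 or z
  have hkey : ∀ y ∈ Subgroup.centralizer (Q : Set G), y = 1 ∨ y = z := by
    intro y hy
    have hyQ := hlarge hy
    have hyZ : (⟨y, hyQ⟩ : Q) ∈ Subgroup.center Q := by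
      rw [Subgroup.mem_center_iff]
      intro q
      exact Subtype.ext (Subgroup.mem_centralizer_iff.mp hy q q.2)
    have hzZ : (⟨z, hzQ⟩ : Q) ∈ Subgroup.center Q := by
      rw [Subgroup.mem_center_iff]
      intro q
      exact Subtype.ext (Subgroup.mem_centralizer_iff.mp hzc q q.2)
    obtain ⟨a, b, hab, huniv⟩ := Nat.card_eq_two_iff.mp hZ
    have m1 : (1 : Subgroup.center Q) ∈ ({a, b} : Set _) := by rw [huniv]; trivial
    have mz : (⟨_, hzZ⟩ : Subgroup.center Q) ∈ ({a, b} : Set _) := by rw [huniv]; trivial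
    have my : (⟨_, hyZ⟩ : Subgroup.center Q) ∈ ({a, b} : Set _) := by rw [huniv]; trivial
    have hz1 : (⟨_, hzZ⟩ : Subgroup.center Q) ≠ 1 := by
      intro h
      apply hzz
      have := congrArg (fun t : Subgroup.center Q => ((t : Q) : G)) h
      simpa using this
    have : (⟨_, hyZ⟩ : Subgroup.center Q) = 1 ∨ (⟨_, hyZ⟩ : Subgroup.center Q) = ⟨_, hzZ⟩ := by
      simp only [Set.mem_insert_iff, Set.mem_singleton_iff] at m1 mz my
      rcases m1 with m1 | m1 <;> rcases mz with mz | mz <;> rcases my with my | my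
      · exact absurd (mz.trans m1.symm) hz1
      · exact absurd (mz.trans m1.symm) hz1
      · left; rw [my, m1]
      · right; rw [my, mz]
      · right; rw [my, mz]
      · left; rw [my, m1]
      · exact absurd (mz.trans m1.symm) hz1
      · exact absurd (mz.trans m1.symm) hz1
    rcases this with h | h
    · left
      have := congrArg (fun t : Subgroup.center Q => ((t : Q) : G)) h
      simpa using this
    · right
      have := congrArg (fun t : Subgroup.center Q => ((t : Q) : G)) h
      simpa using this
  -- a Sylow 2-subgroup of G containing Q ... contained in C(z)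
  obtain ⟨S, hS⟩ := hQ2.exists_le_sylow
  have hSz : (S : Subgroup G) ≤ Subgroup.centralizer ({z} : Set G) := by
    have hSn : Nontrivial S := by
      rw [Subgroup.nontrivial_iff_exists_ne_one]
      exact ⟨z, hS hzQ, hzz⟩
    have hcn : Nontrivial (Subgroup.center S) := S.isPGroup'.center_nontrivial
    obtain ⟨c, hc, hc1⟩ := (Subgroup.nontrivial_iff_exists_ne_one _).mp hcn
    have hcQ : (c : G) ∈ Subgroup.centralizer (Q : Set G) := by
      rw [Subgroup.mem_centralizer_iff]
      intro q hq
      have := Subgroup.mem_center_iff.mp hc ⟨q, hS hq⟩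
      exact congrArg (fun t : S => (t : G)) this
    rcases hkey c hcQ with h | h
    · exact absurd (Subtype.ext h) hc1
    · intro s hs
      rw [Subgroup.mem_centralizer_singleton_iff]
      rw [← h]
      have := Subgroup.mem_center_iff.mp hc ⟨s, hs⟩
      exact congrArg (fun t : S => (t : G)) this
  refine ⟨⟨S, hSz⟩, ?_⟩
  rintro u hu ⟨P, hP⟩
  obtain ⟨g, hg⟩ := MulAction.exists_smul_eq G P S
  have huS : g * u * g⁻¹ ∈ Subgroup.centralizer (Q : Set G) := by
    rw [Subgroup.mem_centralizer_iff]
    intro q hq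
    have hqS : q ∈ (S : Subgroup G) := hS hq
    rw [← hg, Sylow.coe_subgroup_smul, Subgroup.mem_pointwise_smul_iff_inv_smul_mem] at hqS
    have hqS' : g⁻¹ * q * g ∈ (P : Subgroup G) := by
      have : (MulAut.conj g)⁻¹ • q = g⁻¹ * q * g := by
        rw [← map_inv, MulAut.smul_def, MulAut.conj_apply, inv_inv]
      rwa [this] at hqS
    have h1 := Subgroup.mem_centralizer_singleton_iff.mp (hP hqS')
    calc q * (g * u * g⁻¹) = g * ((g⁻¹ * q * g) * u) * g⁻¹ := by group
      _ = g * (u * (g⁻¹ * q * g)) * g⁻¹ := by rw [h1]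
      _ = g * u * g⁻¹ * q := by group
  rcases hkey _ huS with h | h
  · exfalso
    have : u = 1 := by
      have := congrArg (fun t => g⁻¹ * t * g) h
      simpa [mul_assoc] using this
    rw [this] at hu; simp at hu
  · rw [isConj_comm, isConj_iff]
    exact ⟨g, h⟩

end Cfsg.Agent.S0481
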