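import Cfsg.Statements.S0494
import Cfsg.Agent.Lib.SmS1
import Cfsg.Agent.Lib.SmS4

set_option autoImplicit false
open Cfsg

set_option linter.style.haveILetI false
namespace Cfsg.Agent.S0494

/-- A simple group of order 60 is isomorphic to the alternating group of degree 5. -/
theorem result {G : Type*} [Group G] [Finite G] [IsSimpleGroup G]
    (h : Nat.card G = 60) : Nonempty (G ≃* alternatingGroup (Fin 5)) := by
  haveI : Fact (Nat.Prime 2) := ⟨Nat.prime_two⟩
  have hG : ¬ IsMulCommutative G := CfsgLib.SmS.nonab (by rw [h]; norm_num)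
  obtain ⟨P⟩ : Nonempty (Sylow 2 G) := inferInstance
  obtain ⟨h1, h2, h3, h4, h5, h6⟩ := CfsgLib.SmS.syl hG (by rw [h]; norm_num) P
  have hP : Nat.card P = 4 := CfsgLib.SmS.card_sylow_pow 2 (by rw [h]; norm_num) (by rw [h]; norm_num) P
  have hPN : (P : Subgroup G) ≤ Subgroup.normalizer ((P : Subgroup G) : Set G) := Subgroup.le_normalizer
  have hd : 4 ∣ Nat.card (Subgroup.normalizer ((P : Subgroup G) : Set G)) := by
    rw [← hP]; exact Subgroup.card_dvd_of_le hPN
  rw [h] at h2 h4
  generalize hn : Nat.card (Sylow 2 G) = n at *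
  obtain ⟨k, hk⟩ := hd
  rw [hk] at h2
  have h15 : n * k = 15 := by
    have : 4 * (n * k) = 60 := by rw [← h2]; ring
    omega
  have hn5 : n = 5 := by
    have hnd : n ∣ 15 := ⟨k, h15.symm⟩
    have hnl : n ≤ 15 := Nat.le_of_dvd (by norm_num) hnd
    have hc : n = 3 ∨ n = 5 ∨ n = 15 := by
      interval_cases n <;> first | omega | simp_all
    rcases hc with h | h | h
    · subst h
      norm_num [Nat.factorial] at h4
    · exact h
    · exfalso
      subst h
      have hk1 : k = 1 := by omega
      subst hk1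
      apply CfsgLib.SmS.not_le_centralizer hG (by rw [‹Nat.card G = 60›]; norm_num) P
      have hPe : (P : Subgroup G) = Subgroup.normalizer ((P : Subgroup G) : Set G) :=
        Subgroup.eq_of_le_of_card_ge hPN (by rw [hk]; exact hP.ge)
      rw [← hPe]
      haveI := IsPGroup.isMulCommutative_of_card_eq_prime_sq (p := 2) (G := P) (by rw [hP]; rfl)
      intro x hx y hy
      exact congrArg Subtype.val (mul_comm' (⟨y, hy⟩ : (P : Subgroup G)) ⟨x, hx⟩)
  rw [hn5] at h5
  obtain ⟨f, hf⟩ := CfsgLib.SmS.exists_alt hG _ h6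
  have key : ∀ m : ℕ, m = 5 → (∃ f : G →* ↥(alternatingGroup (Fin m)), Function.Injective f) → Nonempty (G ≃* alternatingGroup (Fin 5)) := by
    rintro m rfl ⟨f, hf⟩
    haveI : Fintype G := Fintype.ofFinite G
    have hb : Function.Bijective f := by
      rw [Fintype.bijective_iff_injective_and_card]
      refine ⟨hf, ?_⟩
      rw [← Nat.card_eq_fintype_card, h]
      have : Fintype.card (alternatingGroup (Fin 5)) = 60 := by decide +kernel
      rw [this]
    exact ⟨MulEquiv.ofBijective f hb⟩
  exact key _ h5.symm ⟨f, hf⟩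

end Cfsg.Agent.S0494
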