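import Cfsg.Statements.S0499
import Mathlib
import Cfsg.Agent.Lib.H7Npc

set_option autoImplicit false
open Cfsg

set_option linter.style.haveILetI false
namespace Cfsg.Agent.S0499

open CfsgLib.H7Npc CfsgLib.NPC Subgroup


/-- A non-abelian finite simple group of even order has order divisible by 12, 16 or 56. -/
theorem result {G : Type*} [Group G] [Finite G] [IsSimpleGroup G]
    (hG : ¬ IsMulCommutative G) (h2 : Even (Nat.card G)) :
    12 ∣ Nat.card G ∨ 16 ∣ Nat.card G ∨ 56 ∣ Nat.card G := by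
  haveI : Fact (Nat.Prime 2) := ⟨Nat.prime_two⟩
  by_contra hcon
  push Not at hcon
  obtain ⟨h12, h16, h56⟩ := hcon
  obtain ⟨S⟩ : Nonempty (Sylow 2 G) := inferInstance
  obtain ⟨k, hk⟩ := IsPGroup.iff_card.1 S.isPGroup'
  have hSd : Nat.card (S : Subgroup G) ∣ Nat.card G := Subgroup.card_subgroup_dvd_card _
  have hk3 : k ≤ 3 := by
    by_contra h
    apply h16
    have h1 : 2 ^ 4 ∣ Nat.card G := (pow_dvd_pow 2 (by omega)).trans (hk ▸ hSd)
    exact h1
  have hnpc : NPC 2 G := by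
    refine npc_iff_frobCond.2 (frobCond_of_sylow S ?_)
    intro Q hQ g hg hgo
    refine centralize_of hg ?_
    intro φ m hm hmg hφ
    by_contra h1
    obtain ⟨a, ha⟩ := IsPGroup.iff_card.1 (S.2.to_le hQ)
    have hak : a ≤ k := by
      have h3 := Subgroup.card_dvd_of_le hQ
      have h4 : 2 ^ a ∣ 2 ^ k := by rw [← ha, ← hk]; exact h3
      exact (Nat.pow_dvd_pow_iff_le_right (by norm_num)).1 h4
    have hod : orderOf φ ∣ orderOf g := hmg ▸ orderOf_dvd_of_pow_eq_one hm
    have hog : orderOf g ∣ Nat.card G := orderOf_dvd_natCard g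
    have h4 : 2 ^ a ∣ Nat.card G := ha ▸ Subgroup.card_subgroup_dvd_card Q
    rcases small_aut ha (hak.trans hk3) h1 (Nat.Coprime.of_dvd_left hod hgo) (orderOf_pos φ).ne' with ⟨h3, ha2⟩ | ⟨h3, ha3⟩
    · apply h12
      have h5 : 2 ^ 2 ∣ Nat.card G := (pow_dvd_pow 2 ha2).trans h4
      exact Nat.Coprime.mul_dvd_of_dvd_of_dvd (m := 4) (n := 3) (by norm_num) h5 (h3.trans (hod.trans hog))
    · apply h56
      have h5 : 2 ^ 3 ∣ Nat.card G := by rw [← ha3]; exact h4
      exact Nat.Coprime.mul_dvd_of_dvd_of_dvd (m := 8) (n := 7) (by norm_num) h5 (h3.trans (hod.trans hog))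
  obtain ⟨N, hN, hc, j, hj⟩ := hnpc
  rcases hN.eq_bot_or_eq_top with h | h
  · rw [h, Subgroup.index_bot] at hj
    have h1 : IsPGroup 2 G := IsPGroup.of_card hj
    apply hG
    haveI := h1.isNilpotent
    have h2 : Group.IsSolvable G := inferInstance
    have h3 := (IsSimpleGroup.comm_iff_isSolvable (G := G)).2 h2
    exact ⟨⟨fun a b => h3 a b⟩⟩
  · rw [h, Subgroup.card_top] at hc
    have h1 : 2 ∣ Nat.card G := h2.two_dvd
    have := Nat.Coprime.eq_one_of_dvd hc.symm h1
    norm_num at this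

end Cfsg.Agent.S0499
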