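import Cfsg.Statements.S0505
import Mathlib
import Cfsg.Agent.Lib.H9Sig
import Cfsg.Agent.Lib.PSolv
import Cfsg.Agent.Lib.PChain
import Cfsg.Agent.Lib.Core

set_option autoImplicit false
open Cfsg

set_option linter.style.haveILetI false
namespace Cfsg.Agent.S0505

/-- Let G be a finite group of even order in which the centralizer of every involution is solvable and has trivial
core (no nontrivial normal subgroup of odd order). Then G is of characteristic 2 type. -/
theorem result {G : Type*} [Group G] [Finite G]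
    (h2 : Even (Nat.card G))
    (hs : ∀ t : G, orderOf t = 2 → Group.IsSolvable (Subgroup.centralizer ({t} : Set G)))
    (hc : ∀ t : G, orderOf t = 2 → Cfsg.oddCore (Subgroup.centralizer ({t} : Set G)) = ⊥) :
    Cfsg.IsCharacteristicTwoType G := by
  haveI hp2 : Fact (Nat.Prime 2) := ⟨Nat.prime_two⟩
  refine ⟨h2, ?_⟩
  intro T hT hT1
  -- an involution in the centre of T
  haveI : Nontrivial T := (Subgroup.nontrivial_iff_ne_bot T).2 hT1
  haveI hcn : Nontrivial (Subgroup.center T) := hT.center_nontrivial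
  obtain ⟨t, htT, htc, hto⟩ : ∃ t : G, t ∈ T ∧ (∀ u ∈ T, u * t = t * u) ∧ orderOf t = 2 := by
    have hpc : IsPGroup 2 (Subgroup.center T) := hT.to_subgroup _
    obtain ⟨k, hk⟩ := hpc.exists_card_eq
    have hk0 : k ≠ 0 := by
      rintro rfl
      rw [pow_zero] at hk
      have := Finite.one_lt_card (α := Subgroup.center T)
      omega
    obtain ⟨z, hz⟩ := exists_prime_orderOf_dvd_card' (G := Subgroup.center T) 2 (by rw [hk]; exact dvd_pow_self 2 hk0)
    refine ⟨((z : T) : G), (z : T).2, ?_, ?_⟩
    · intro u hu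
      exact congrArg Subtype.val ((Subgroup.mem_center_iff.1 z.2) ⟨u, hu⟩)
    · rw [Subgroup.orderOf_coe, Subgroup.orderOf_coe, hz]
  have hsol := hs t hto
  have hcore := hc t hto
  set C : Subgroup G := Subgroup.centralizer ({t} : Set G) with hC
  set N : Subgroup G := Subgroup.normalizer (T : Set G) with hN
  have hTC : T ≤ C := by
    intro u hu
    rw [hC, Subgroup.mem_centralizer_singleton_iff]
    exact htc u hu
  have hTN : T ≤ N := Subgroup.le_normalizer
  have hCT : Subgroup.centralizer (T : Set G) ≤ C := by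
    intro g hg
    rw [hC, Subgroup.mem_centralizer_singleton_iff]
    exact ((Subgroup.mem_centralizer_iff.1 hg) t htT).symm
  -- (1)
  have h1 : Cfsg.pPrimeCore 2 N = ⊥ := by
    set K0 := Cfsg.pPrimeCore 2 N with hK0
    haveI hK0n : K0.Normal := CfsgLib.Core.pPrimeCore_normal 2 N
    have hK0c : (Nat.card K0).Coprime 2 := CfsgLib.Core.card_pPrimeCore_coprime 2 N
    have hK0T : ∀ k : N, k ∈ K0 → ∀ u : G, u ∈ T → u * (k : G) = k * u := by
      intro k hk u hu
      have hcomT : (k : G) * u * (k : G)⁻¹ * u⁻¹ ∈ T :=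
        T.mul_mem ((Subgroup.mem_normalizer_iff.1 k.2 u).1 hu) (T.inv_mem hu)
      have hcomK : k * ⟨u, hTN hu⟩ * k⁻¹ * (⟨u, hTN hu⟩ : N)⁻¹ ∈ K0 := by
        have h3 := hK0n.conj_mem k⁻¹ (K0.inv_mem hk) ⟨u, hTN hu⟩
        have h4 := K0.mul_mem hk h3
        have h5 : k * ((⟨u, hTN hu⟩ : N) * k⁻¹ * (⟨u, hTN hu⟩ : N)⁻¹) = k * ⟨u, hTN hu⟩ * k⁻¹ * (⟨u, hTN hu⟩ : N)⁻¹ := by group
        rwa [h5] at h4
      set w : N := k * ⟨u, hTN hu⟩ * k⁻¹ * (⟨u, hTN hu⟩ : N)⁻¹ with hw
      have hw1 : (w : G) = (k : G) * u * (k : G)⁻¹ * u⁻¹ := rfl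
      have hwT : (w : G) ∈ T := by rw [hw1]; exact hcomT
      have ho1 : orderOf w ∣ Nat.card K0 := by
        have := orderOf_dvd_natCard (⟨w, hcomK⟩ : K0)
        rwa [Subgroup.orderOf_mk] at this
      obtain ⟨j, hj⟩ := (IsPGroup.iff_orderOf.1 hT) ⟨(w : G), hwT⟩
      have ho2 : orderOf w = 2 ^ j := by
        have e1 : orderOf (⟨(w : G), hwT⟩ : T) = orderOf (w : G) := Subgroup.orderOf_mk (w : G) hwT
        have e2 : orderOf (w : G) = orderOf w := Subgroup.orderOf_coe w
        rw [← hj, e1, e2]
      have hw0 : orderOf w = 1 := by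
        rw [ho2] at ho1 ⊢
        rcases Nat.eq_zero_or_pos j with rfl | hj0
        · rfl
        · exfalso
          have h6 : 2 ∣ Nat.card K0 := dvd_trans (dvd_pow_self 2 hj0.ne') ho1
          have h7 := Nat.Coprime.eq_one_of_dvd hK0c.symm h6
          omega
      have hw2 : w = 1 := orderOf_eq_one_iff.1 hw0
      have hw3 : (k : G) * u * (k : G)⁻¹ * u⁻¹ = 1 := by rw [← hw1, hw2]; rfl
      have hw4 : (k : G) * u = u * k := by
        have := mul_inv_eq_one.1 hw3
        rw [mul_inv_eq_iff_eq_mul] at this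
        exact this
      exact hw4.symm
    set TC : Subgroup C := T.subgroupOf C with hTCd
    have hTCp : IsPGroup 2 TC := hT.of_injective (Subgroup.subgroupOfEquivOfLe hTC).toMonoidHom (Subgroup.subgroupOfEquivOfLe hTC).injective
    have hB := CfsgLib.H9Sig.core_centralizer_le (p := 2) hsol hTCp
    have hcore' : Cfsg.pPrimeCore 2 C = ⊥ := hcore
    rw [hcore', le_bot_iff, Subgroup.map_eq_bot_iff_of_injective _ (Subgroup.subtype_injective _)] at hB
    -- K0 embeds in the core of the centralizer
    set CC : Subgroup C := Subgroup.centralizer (TC : Set C) with hCC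
    have hKC : ∀ k : N, k ∈ K0 → (k : G) ∈ Subgroup.centralizer (T : Set G) := by
      intro k hk
      rw [Subgroup.mem_centralizer_iff]
      intro u hu
      exact hK0T k hk u hu
    let L : Subgroup CC := (((K0.map N.subtype).subgroupOf C).subgroupOf CC)
    have hmemL : ∀ x : CC, x ∈ L ↔ ((x : C) : G) ∈ K0.map N.subtype := fun x => Iff.rfl
    have hLn : L.Normal := by
      refine ⟨fun x hx g => ?_⟩
      rw [hmemL] at hx ⊢
      obtain ⟨k, hk, hkx⟩ := hx
      have hgT : ((g : C) : G) ∈ N := by
        apply Subgroup.centralizer_le_normalizer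
        rw [Subgroup.mem_centralizer_iff]
        intro u hu
        have h3 := (Subgroup.mem_centralizer_iff.1 g.2) ⟨u, hTC hu⟩ (by
          show (⟨u, hTC hu⟩ : C) ∈ TC
          exact hu)
        exact congrArg Subtype.val h3
      refine ⟨⟨_, hgT⟩ * k * ⟨_, hgT⟩⁻¹, hK0n.conj_mem k hk _, ?_⟩
      have hkx' : (k : G) = ((x : C) : G) := hkx
      show ((g : C) : G) * (k : G) * ((g : C) : G)⁻¹ = ((g : C) : G) * ((x : C) : G) * ((g : C) : G)⁻¹
      rw [hkx']
    have hLc : (Nat.card L).Coprime 2 := by
      have h3 : Nat.card L ∣ Nat.card (K0.map N.subtype) := by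
        have h4 : Function.Injective (fun x : L => (((x : CC) : C) : G)) := by
          intro a b hab
          apply Subtype.ext; apply Subtype.ext; apply Subtype.ext
          exact hab
        let f : L →* (K0.map N.subtype) :=
          { toFun := fun x => ⟨(((x : CC) : C) : G), x.2⟩
            map_one' := rfl
            map_mul' := fun _ _ => rfl }
        have hf : Function.Injective f := by
          intro a b hab
          have hab' := congrArg (fun x : (K0.map N.subtype) => (x : G)) hab
          exact h4 hab'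
        exact Subgroup.card_dvd_of_injective f hf
      have h5 : Nat.card (K0.map N.subtype) = Nat.card K0 :=
        (Nat.card_congr (K0.equivMapOfInjective _ N.subtype_injective).toEquiv).symm
      rw [h5] at h3
      exact Nat.Coprime.coprime_dvd_left h3 hK0c
    have hLb : L ≤ Cfsg.pPrimeCore 2 CC := CfsgLib.Core.le_pPrimeCore hLn hLc
    rw [hB, le_bot_iff] at hLb
    rw [eq_bot_iff]
    intro k hk
    have hkT := hKC k hk
    have hkC : (k : G) ∈ C := hCT hkT
    have hkCC : (⟨(k : G), hkC⟩ : C) ∈ CC := by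
      rw [hCC, Subgroup.mem_centralizer_iff]
      intro u hu
      apply Subtype.ext
      exact (Subgroup.mem_centralizer_iff.1 hkT) (u : G) hu
    have hkL : (⟨⟨(k : G), hkC⟩, hkCC⟩ : CC) ∈ L := ⟨k, hk, rfl⟩
    rw [hLb, Subgroup.mem_bot] at hkL
    rw [Subgroup.mem_bot]
    apply Subtype.ext
    exact congrArg (fun x : CC => (((x : CC) : C) : G)) hkL
  -- (2)
  have h2' : Cfsg.IsPSolvable 2 (Subgroup.centralizer (Cfsg.pCore 2 N : Set N)) := by
    have hTle : T.subgroupOf N ≤ Cfsg.pCore 2 N := by
      apply CfsgLib.Core.le_pCore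
      · exact Subgroup.normal_subgroupOf_iff_le_normalizer hTN |>.2 (le_refl _)
      · exact hT.of_injective (Subgroup.subgroupOfEquivOfLe hTN).toMonoidHom (Subgroup.subgroupOfEquivOfLe hTN).injective
    let f : Subgroup.centralizer (Cfsg.pCore 2 N : Set N) →* C :=
      { toFun := fun x => ⟨((x : N) : G), by
          rw [hC, Subgroup.mem_centralizer_singleton_iff]
          have h3 := (Subgroup.mem_centralizer_iff.1 x.2) ⟨t, hTN htT⟩ (hTle (show (⟨t, hTN htT⟩ : N) ∈ T.subgroupOf N from htT))
          exact (congrArg Subtype.val h3).symm⟩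
        map_one' := rfl
        map_mul' := fun _ _ => rfl }
    have hf : Function.Injective f := by
      intro a b hab
      apply Subtype.ext; apply Subtype.ext
      have hab' := congrArg (fun x : C => (x : G)) hab
      exact hab'
    exact CfsgLib.PSolv.isPSolvable_of_injective f hf (CfsgLib.PChain.of_solvable Nat.prime_two hsol)
  exact CfsgLib.PSolv.centralizer_le_of_psolvable h1 h2'

end Cfsg.Agent.S0505
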