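import Cfsg.Statements.S0514
import Mathlib
import Cfsg.Agent.Lib.H7Npc

set_option autoImplicit false
open Cfsg

set_option linter.style.haveILetI false
namespace Cfsg.Agent.S0514

open CfsgLib.H7Npc CfsgLib.NPC Subgroup


/-- In a finite group whose Sylow 2-subgroups are dihedral of order at least 4, the centralizer of any involution has a
normal subgroup of odd order whose index in the centralizer is a power of 2. -/
theorem result {X : Type*} [Group X] [Finite X]
    (S : Sylow 2 X) (n : ℕ) (hn : 2 ≤ n) (hS : Nonempty ((S : Subgroup X) ≃* DihedralGroup n)) (t : X)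
    (ht : orderOf t = 2) :
    ∃ N : Subgroup (Subgroup.centralizer ({t} : Set X)), N.Normal ∧ Odd (Nat.card N) ∧ ∃ k : ℕ, N.index = 2 ^ k := by
  suffices H : NPC 2 (Subgroup.centralizer ({t} : Set X)) by
    obtain ⟨N, h1, h2, h3⟩ := H
    exact ⟨N, h1, Nat.coprime_two_right.1 h2, h3⟩
  haveI : Fact (Nat.Prime 2) := ⟨Nat.prime_two⟩
  obtain ⟨T, hT⟩ : ∃ T : Subgroup.centralizer ({t} : Set X), (T : X) = t := ⟨⟨t, by rw [mem_centralizer_singleton_iff]⟩, rfl⟩
  have hTo : orderOf T = 2 := (Subgroup.orderOf_coe T).symm.trans ((congrArg orderOf hT).trans ht)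
  have hTc : ∀ x : Subgroup.centralizer ({t} : Set X), T * x = x * T := by
    intro x
    apply Subtype.ext
    rw [Subgroup.coe_mul, Subgroup.coe_mul, hT]
    exact (mem_centralizer_singleton_iff.1 x.2).symm
  obtain ⟨P⟩ : Nonempty (Sylow 2 (Subgroup.centralizer ({t} : Set X))) := inferInstance
  refine npc_iff_frobCond.2 (frobCond_of_sylow P ?_)
  intro Q hQ g hg hgo
  have hTP : T ∈ (P : Subgroup _) := by
    have h1 : IsPGroup 2 (zpowers T) := by
      refine IsPGroup.of_card (n := 1) ?_
      rw [Nat.card_zpowers, hTo, pow_one]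
    haveI : (zpowers T).Normal := by
      constructor
      rintro _ ⟨i, rfl⟩ g
      simp only
      have : Commute T g := hTc g
      rw [← (this.zpow_left i).eq, mul_inv_cancel_right]
      exact zpow_mem (mem_zpowers T) i
    exact (h1.le_sylow_of_normal P) (mem_zpowers T)
  obtain ⟨R, hR⟩ : ∃ R, R = Q ⊔ zpowers T := ⟨_, rfl⟩
  have hRP : R ≤ (P : Subgroup _) := by
    rw [hR, sup_le_iff]
    exact ⟨hQ, by rw [zpowers_le]; exact hTP⟩
  have hgR : g ∈ normalizer (R : Set _) := by
    rw [hR]
    refine CfsgLib.H7Npc.normalizer_inf_le_sup hg ?_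
    rw [Subgroup.mem_normalizer_iff]
    intro y
    have hz : ∀ w : Subgroup.centralizer ({t} : Set X), ∀ i : ℤ, w * T ^ i * w⁻¹ = T ^ i := by
      intro w i
      have : Commute T w := hTc w
      rw [← (this.zpow_left i).eq, mul_inv_cancel_right]
    constructor
    · rintro ⟨i, rfl⟩
      simp only
      rw [hz]
      exact zpow_mem (mem_zpowers T) i
    · rintro ⟨i, hi⟩
      simp only at hi
      have : y = g⁻¹ * T ^ i * g⁻¹⁻¹ := by rw [hi]; group
      rw [this, hz]
      exact zpow_mem (mem_zpowers T) i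
  have hR2 : IsPGroup 2 R := P.2.to_le hRP
  have h3 : g ∈ centralizer (R : Set _) := by
    refine centralize_of hgR ?_
    intro φ m hm hmg hφ
    -- embed `R` into a Sylow subgroup of `X`
    have hRX : IsPGroup 2 (R.map (Subgroup.subtype _)) := hR2.map _
    obtain ⟨S', hS'⟩ := hRX.exists_le_sylow
    obtain ⟨e⟩ := hS
    have e2 : (S' : Subgroup X) ≃* DihedralGroup n := (Sylow.equiv S' S).trans e
    let f : R →* (S' : Subgroup X) := ((Subgroup.subtype _).comp R.subtype).codRestrict _
      (fun x => hS' ⟨(x : Subgroup.centralizer ({t} : Set X)), x.2, rfl⟩)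
    have hTR : T ∈ R := by rw [hR]; exact (le_sup_right : zpowers T ≤ _) (mem_zpowers T)
    refine sub_dihedral hR2 hn (e2.toMonoidHom.comp f) ?_ (t := ⟨T, hTR⟩) ?_ hm (by rw [hmg]; exact hgo) ?_
    · refine e2.injective.comp ?_
      intro x y hxy
      have := congrArg Subtype.val hxy
      exact Subtype.ext (Subtype.ext this)
    · rw [← hTo, ← Subgroup.orderOf_coe]
    · apply Subtype.ext
      rw [hφ]
      change g * T * g⁻¹ = T
      rw [← hTc g, mul_inv_cancel_right]
  have hQR : Q ≤ R := by rw [hR]; exact le_sup_left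
  exact centralizer_le hQR h3

end Cfsg.Agent.S0514
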