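import Cfsg.Statements.S0532
import Cfsg.Agent.Lib.H6Super5
import Cfsg.Agent.Lib.H6Super7

set_option autoImplicit false
open Cfsg

open scoped Pointwise
namespace Cfsg.Agent.S0532

/-- If each subgroup of a finite group satisfies the converse of Lagrange's theorem, then a Sylow subgroup for the largest prime dividing the group order is normal. -/
theorem result {G : Type*} [Group G] [Finite G] (h : ∀ H : Subgroup G, Cfsg.HasSubgroupOfEveryOrder H) (p : ℕ) [Fact p.Prime] (hdvd : p ∣ Nat.card G) (hmax : ∀ q : ℕ, q.Prime → q ∣ Nat.card G → q ≤ p) (P : Sylow p G) : (P : Subgroup G).Normal := by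
  obtain ⟨N, hN, h1, h2⟩ := CfsgLib.H6Super.exists_normal_largest (CfsgLib.H6Super.s0533_aux _ le_rfl h) (Fact.out : p.Prime) hmax
  have h3 : N = (P : Subgroup G) := by
    have h4 : N ≤ (P : Subgroup G) := by
      obtain ⟨Q, hQ⟩ := h1.exists_le_sylow
      obtain ⟨g, hg⟩ := MulAction.exists_smul_eq G Q P
      have h5 : MulAut.conj g • N ≤ MulAut.conj g • (Q : Subgroup G) := Subgroup.pointwise_smul_le_pointwise_smul_iff.2 hQ
      rw [Subgroup.Normal.conj_smul_eq_self g N] at h5
      rw [← hg]
      exact h5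
    exact (Subgroup.eq_of_le_of_card_ge h4 (by
      have h6 : Nat.card (P : Subgroup G) ∣ Nat.card N := by
        have h7 : Nat.card (P : Subgroup G) ∣ Nat.card N * N.index := by
          rw [Subgroup.card_mul_index]; exact Subgroup.card_subgroup_dvd_card _
        obtain ⟨k, hk⟩ := IsPGroup.iff_card.1 P.isPGroup'
        rw [hk] at h7 ⊢
        exact (Nat.Coprime.pow_left k ((Nat.Prime.coprime_iff_not_dvd Fact.out).2 h2)).dvd_of_dvd_mul_right h7
      exact Nat.le_of_dvd Nat.card_pos h6))
  rw [← h3]
  exact hN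

end Cfsg.Agent.S0532
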