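import Cfsg.Statements.S0554
import Cfsg.Agent.Lib.SolvStr

set_option autoImplicit false
open Cfsg

set_option linter.style.haveILetI false
namespace Cfsg.Agent.S0554

/-- Let G be a finite solvable group and let S assign to each of t distinct primes, including every prime divisor of the order of G, a Sylow subgroup of G. Then every element of G is a product s_0 s_1 ⋯ s_(t-1) with s_i in S i, the factors taken in the given order. -/
theorem result {G : Type*} [Group G] [Finite G] [Group.IsSolvable G] (t : ℕ) (p : Fin t → ℕ) (hp : ∀ i, (p i).Prime) (hinj : Function.Injective p) (hall : ∀ q : ℕ, q.Prime → q ∣ Nat.card G → ∃ i, p i = q) (S : (i : Fin t) → Sylow (p i) G) : ∀ g : G, ∃ s : (i : Fin t) → G, (∀ i, s i ∈ (S i : Subgroup G)) ∧ g = (List.ofFn s).prod := by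
  exact CfsgLib.SolvStr.product_of_sylows _ le_rfl inferInstance t p hp hinj hall (fun i => (S i : Subgroup G)) (fun i => by
    haveI : Fact (p i).Prime := ⟨hp i⟩
    exact CfsgLib.Transfer.isSyl_top (S i))

end Cfsg.Agent.S0554
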