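import Cfsg.Statements.S0572
import Cfsg.Agent.Lib.Ito

set_option autoImplicit false
open Cfsg

open scoped commutatorElement
namespace Cfsg.Agent.S0572

/-- Itô's Theorem: if a group G is the product AB of two abelian subgroups, then the commutator subgroup of G is abelian, i.e. the second term of the derived series is trivial. -/
theorem result {G : Type*} [Group G] (A B : Subgroup G) [IsMulCommutative A] [IsMulCommutative B] (hAB : ∀ g : G, ∃ a ∈ A, ∃ b ∈ B, g = a * b) : derivedSeries G 2 = ⊥ := by
  have h := CfsgLib.Ito.ito A B inferInstance inferInstance hAB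
  have h2 : derivedSeries G 2 = ⁅commutator G, commutator G⁆ := by
    rw [derivedSeries_succ, derivedSeries_one]
  rw [h2, Subgroup.commutator_eq_bot_iff_le_centralizer]
  intro x hx
  rw [Subgroup.mem_centralizer_iff]
  intro y hy
  exact congrArg Subtype.val (h.is_comm.comm (⟨y, hy⟩ : commutator G) ⟨x, hx⟩)

end Cfsg.Agent.S0572
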