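import Cfsg.Statements.S0576
-- import your own Cfsg.Agent.* helpers here

set_option autoImplicit false
open Cfsg

namespace Cfsg.Agent.S0576

/-- Let H be a normal subgroup of a finite group G with H contained in the Frattini subgroup of G. Then the group of inner automorphisms of H is contained in the Frattini subgroup of the automorphism group of H. -/
theorem result {G : Type*} [Group G] [Finite G] (H : Subgroup G) [H.Normal] (hH : H ≤ frattini G) : (MulAut.conj : ↥H →* MulAut ↥H).range ≤ frattini (MulAut ↥H) := by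
  apply le_iInf₂
  intro M hM
  have hM' : IsCoatom M := hM
  by_contra hcon
  have hn : ((MulAut.conj : ↥H →* MulAut ↥H).range).Normal := by
    refine ⟨?_⟩
    rintro _ ⟨h, rfl⟩ α
    refine ⟨α h, ?_⟩
    ext x
    simp [MulAut.conj_apply]
  have hsup : M ⊔ (MulAut.conj : ↥H →* MulAut ↥H).range = ⊤ := by
    rcases hM'.le_iff.1 (le_sup_left : M ≤ M ⊔ (MulAut.conj : ↥H →* MulAut ↥H).range) with h | h
    · exact h
    · exact absurd (h ▸ le_sup_right) hcon
  let φ : G →* MulAut ↥H := MulAut.conjNormal
  have hφ : ∀ h : H, φ (h : G) = MulAut.conj h := by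
    intro h
    ext x
    simp [φ, MulAut.conjNormal_apply, MulAut.conj_apply]
  have hK : M.comap φ ⊔ H = ⊤ := by
    rw [eq_top_iff]
    intro g _
    have h1 : φ g ∈ M ⊔ (MulAut.conj : ↥H →* MulAut ↥H).range := by rw [hsup]; trivial
    rw [Subgroup.mem_sup_of_normal_right] at h1
    obtain ⟨m, hm, i, ⟨h, rfl⟩, hmi⟩ := h1
    have h2 : g * (h : G)⁻¹ ∈ M.comap φ := by
      rw [Subgroup.mem_comap, map_mul, map_inv, hφ, ← hmi, mul_inv_cancel_right]
      exact hm
    have h3 : g = (g * (h : G)⁻¹) * h := by group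
    rw [h3]
    exact mul_mem (Subgroup.mem_sup_left h2) (Subgroup.mem_sup_right h.2)
  have hK2 : M.comap φ = ⊤ := by
    apply frattini_nongenerating
    rw [eq_top_iff, ← hK]
    exact sup_le_sup_left hH _
  apply hcon
  rintro _ ⟨h, rfl⟩
  have h1 : (h : G) ∈ M.comap φ := by rw [hK2]; trivial
  rw [Subgroup.mem_comap, hφ] at h1
  exact h1

end Cfsg.Agent.S0576
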