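import Cfsg.Statements.S0606
import Cfsg.Agent.Lib.PL2

set_option autoImplicit false
open Cfsg

open scoped commutatorElement
namespace Cfsg.Agent.S0606

/-- Elementary abelian p-subgroups of maximal order are best offenders on any normal elementary abelian p-subgroup. -/
theorem result {G : Type*} [Group G] [Finite G] {p : ℕ} [Fact p.Prime] (V : Subgroup G) [V.Normal] (hV : Cfsg.IsElementaryAbelian p V) (A : Subgroup G) (hA : A ∈ Cfsg.maxElementaryAbelianSubgroups p G) : Cfsg.IsBestOffenderOn p V A := by
  have h1 := (CfsgLib.PL2.maxEA_top p A).mp hA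
  refine ⟨CfsgLib.PL2.bestOffender_of_maxEA (CfsgLib.JSub.EA_iff.mpr hV) h1, ?_, fun a ha => ?_⟩
  · have h2 : ⁅A, A⁆ = ⊥ := by
      rw [Subgroup.commutator_eq_bot_iff_le_centralizer]
      intro a ha
      rw [Subgroup.mem_centralizer_iff]
      intro b hb
      exact h1.2.1.1 b hb a ha
    rw [h2]; exact bot_le
  · rw [h1.2.1.2 a ha]; exact one_mem _

end Cfsg.Agent.S0606
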