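import Cfsg.Statements.S0618
import Cfsg.Agent.Lib.BO16

set_option autoImplicit false
open Cfsg

namespace Cfsg.Agent.S0618

/-- A p-separable group with trivial p'-core in which the Thompson factorization fails has p = 2 or 3, and J(G) induces on the normal closure of Ω₁(Z(S)) a group containing a normal SL(2, p). -/
theorem result {G : Type*} [Group G] [Finite G] {p : ℕ} [Fact p.Prime] (hsep : Cfsg.IsPSolvable p G) (hO : Cfsg.pPrimeCore p G = ⊥) (hnf : ¬ Cfsg.IsThompsonFactorizable p G) : (p = 2 ∨ p = 3) ∧ ∃ E : Subgroup G, Subgroup.centralizer ((⨆ S : Sylow p G, Cfsg.omegaOne p ((S : Subgroup G) ⊓ Subgroup.centralizer ((S : Subgroup G) : Set G))) : Set G) ≤ E ∧ E ≤ Cfsg.thompsonSubgroup p G ⊔ Subgroup.centralizer ((⨆ S : Sylow p G, Cfsg.omegaOne p ((S : Subgroup G) ⊓ Subgroup.centralizer ((S : Subgroup G) : Set G))) : Set G) ∧ Cfsg.thompsonSubgroup p G ⊔ Subgroup.centralizer ((⨆ S : Sylow p G, Cfsg.omegaOne p ((S : Subgroup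 G) ⊓ Subgroup.centralizer ((S : Subgroup G) : Set G))) : Set G) ≤ Subgroup.normalizer (E : Set G) ∧ ∃ hn : ((Subgroup.centralizer ((⨆ S : Sylow p G, Cfsg.omegaOne p ((S : Subgroup G) ⊓ Subgroup.centralizer ((S : Subgroup G) : Set G))) : Set G)).subgroupOf E).Normal, Nonempty ((↥E ⧸ (Subgroup.centralizer ((⨆ S : Sylow p G, Cfsg.omegaOne p ((S : Subgroup G) ⊓ Subgroup.centralizer ((S : Subgroup G) : Set G))) : Set G)).subgroupOf E) ≃* Matrix.SpecialLinearGroup (Fin 2) (ZMod p)) := by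
  have hc := CfsgLib.PSolvL.hall_higman hO hsep
  have hVn : (⨆ S : Sylow p G, CfsgLib.PL3.OZ p (S : Subgroup G)).Normal := CfsgLib.PL3.iSup_OZ_normal p G
  have hVe : Cfsg.IsElementaryAbelian p (⨆ S : Sylow p G, CfsgLib.PL3.OZ p (S : Subgroup G)) := CfsgLib.JSub.EA_iff.mp (CfsgLib.PL3.iSup_OZ_EA hc)
  have hq := CfsgLib.BO.pCore_quot_bot (p := p) (⨆ S : Sylow p G, CfsgLib.PL3.OZ p (S : Subgroup G)) rfl
  have hcen : Subgroup.centralizer ((⨆ S : Sylow p G, Cfsg.omegaOne p ((S : Subgroup G) ⊓ Subgroup.centralizer ((S : Subgroup G) : Set G))) : Set G) =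
      Subgroup.centralizer ((⨆ S : Sylow p G, CfsgLib.PL3.OZ p (S : Subgroup G) : Subgroup G) : Set G) := by
    rw [Subgroup.iSup_eq_closure, Subgroup.centralizer_closure]
    rfl
  rw [hcen]
  refine CfsgLib.BO.s0618_core (⨆ S : Sylow p G, CfsgLib.PL3.OZ p (S : Subgroup G)) hVe hsep hq ?_
  intro h
  apply hnf
  rw [CfsgLib.PL3.factorizable_iff hO, ← CfsgLib.PL2.thompson_eq]
  exact h

end Cfsg.Agent.S0618
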