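import Cfsg.Statements.S0638
import Cfsg.Agent.Lib.PL5

set_option autoImplicit false
open Cfsg

namespace Cfsg.Agent.S0638

/-- For odd p, in a non-cyclic metacyclic p-group the elements of order dividing p generate an elementary abelian subgroup of order p². -/
theorem result {R : Type*} [Group R] [Finite R] {p : ℕ} [Fact p.Prime] (hp : p ≠ 2) (hR : IsPGroup p R) (hm : Cfsg.IsMetacyclic R) (hnc : ¬ IsCyclic R) : Cfsg.IsElementaryAbelian p (Cfsg.omegaOne p (⊤ : Subgroup R)) ∧ Nat.card ↥(Cfsg.omegaOne p (⊤ : Subgroup R)) = p ^ 2 := by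
  obtain ⟨N, hN, h1, h2⟩ := hm
  obtain ⟨Ω, hab, hmem, hcard⟩ := CfsgLib.PL5.metacyclic_omega hp hR hnc _ N le_rfl h1 h2
  have h3 : Cfsg.omegaOne p (⊤ : Subgroup R) = Ω := by
    apply le_antisymm
    · unfold Cfsg.omegaOne
      rw [Subgroup.closure_le]
      exact fun x hx => (hmem x).mpr hx.2
    · intro x hx
      exact Subgroup.subset_closure ⟨Subgroup.mem_top x, (hmem x).mp hx⟩
  rw [h3]
  exact ⟨⟨hab, fun x hx => (hmem x).mp hx⟩, hcard⟩

end Cfsg.Agent.S0638
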