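import Cfsg.Statements.S0668
import Cfsg.Agent.Lib.PermG1

set_option autoImplicit false
open Cfsg

open scoped Pointwise
set_option linter.style.haveILetI false
namespace Cfsg.Agent.S0668

/-- The equivariant linear maps between the permutation modules of two finite `G`-sets form a space whose dimension is the number of `G`-orbits on the product of the two sets. -/
theorem result {G : Type*} [Group G] {K : Type*} [Field K] {Ω₁ Ω₂ : Type*} [Fintype Ω₁] [Fintype Ω₂] [MulAction G Ω₁] [MulAction G Ω₂] : Module.finrank K ((Cfsg.permRep K G Ω₁).linHom (Cfsg.permRep K G Ω₂)).invariants = Nat.card (MulAction.orbitRel.Quotient G (Ω₁ × Ω₂)) := by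
  classical
  -- invariants ≃ functions on the orbit space
  let φ : (MulAction.orbitRel.Quotient G (Ω₁ × Ω₂) → K) →ₗ[K] ((permRep K G Ω₁).linHom (permRep K G Ω₂)).invariants :=
    { toFun := fun c => ⟨
        { toFun := fun v y => ∑ x, c (Quotient.mk (MulAction.orbitRel G (Ω₁ × Ω₂)) (x, y)) * v x
          map_add' := by
            intro v w; funext y
            simp only [Pi.add_apply, mul_add, Finset.sum_add_distrib]
          map_smul' := by
            intro r v; funext y
            simp only [Pi.smul_apply, smul_eq_mul, RingHom.id_apply, Finset.mul_sum]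
            exact Finset.sum_congr rfl (fun x _ => by ring) }, by
        rw [Representation.mem_invariants]
        intro g
        apply LinearMap.ext
        intro v
        funext y
        change ∑ x, c (Quotient.mk (MulAction.orbitRel G (Ω₁ × Ω₂)) (x, g⁻¹ • y)) * v ((g⁻¹)⁻¹ • x) = ∑ x, c (Quotient.mk (MulAction.orbitRel G (Ω₁ × Ω₂)) (x, y)) * v x
        apply Fintype.sum_equiv (MulAction.toPerm g)
        intro x
        have h1 : (Quotient.mk (MulAction.orbitRel G (Ω₁ × Ω₂)) (x, g⁻¹ • y)) = Quotient.mk (MulAction.orbitRel G (Ω₁ × Ω₂)) (g • x, y) := by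
          apply Quotient.sound
          refine MulAction.orbitRel_apply.2 ⟨g⁻¹, ?_⟩
          change g⁻¹ • (g • x, y) = (x, g⁻¹ • y)
          rw [Prod.smul_mk, inv_smul_smul]
        change c _ * v ((g⁻¹)⁻¹ • x) = c (Quotient.mk (MulAction.orbitRel G (Ω₁ × Ω₂)) (g • x, y)) * v (g • x)
        rw [h1, inv_inv]⟩
      map_add' := by
        intro c d
        apply Subtype.ext
        apply LinearMap.ext
        intro v
        funext y
        change ∑ x, (c _ + d _) * v x = ∑ x, c _ * v x + ∑ x, d _ * v x
        rw [← Finset.sum_add_distrib]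
        exact Finset.sum_congr rfl (fun x _ => by ring)
      map_smul' := by
        intro r c
        apply Subtype.ext
        apply LinearMap.ext
        intro v
        funext y
        change ∑ x, (r * c _) * v x = r * ∑ x, c _ * v x
        rw [Finset.mul_sum]
        exact Finset.sum_congr rfl (fun x _ => by ring) }
  have hφ : ∀ c (x : Ω₁) (y : Ω₂), (φ c : (Ω₁ → K) →ₗ[K] (Ω₂ → K)) (Pi.single x 1) y = c (Quotient.mk (MulAction.orbitRel G (Ω₁ × Ω₂)) (x, y)) := by
    intro c x y
    change ∑ x', c (Quotient.mk (MulAction.orbitRel G (Ω₁ × Ω₂)) (x', y)) * (Pi.single x 1 : Ω₁ → K) x' = _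
    rw [Finset.sum_eq_single x]
    · rw [Pi.single_eq_same, mul_one]
    · intro b _ hb
      rw [Pi.single_eq_of_ne hb, mul_zero]
    · intro h; exact absurd (Finset.mem_univ _) h
  have hbij : Function.Bijective φ := by
    constructor
    · intro c d h
      funext q
      refine Quotient.inductionOn q ?_
      rintro ⟨x, y⟩
      rw [← hφ c x y, ← hφ d x y, h]
    · rintro ⟨T, hT⟩
      rw [Representation.mem_invariants] at hT
      have hTg : ∀ (g : G) (x : Ω₁) (y : Ω₂), T (Pi.single (g • x) 1) (g • y) = T (Pi.single x 1) y := by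
        intro g x y
        have h1 := congrFun (LinearMap.congr_fun (hT g⁻¹) (Pi.single x 1)) y
        change T (permRep K G Ω₁ ((g⁻¹)⁻¹) (Pi.single x 1)) ((g⁻¹)⁻¹ • y) = T (Pi.single x 1) y at h1
        rw [← h1]
        have h2 : permRep K G Ω₁ ((g⁻¹)⁻¹) (Pi.single x (1 : K)) = Pi.single (g • x) 1 := by
          funext z
          change (Pi.single x (1 : K) : Ω₁ → K) (((g⁻¹)⁻¹)⁻¹ • z) = _
          rw [inv_inv]
          by_cases hz : z = g • x
          · rw [hz, inv_smul_smul, Pi.single_eq_same, Pi.single_eq_same]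
          · rw [Pi.single_eq_of_ne hz, Pi.single_eq_of_ne]
            intro h
            apply hz
            rw [← h, smul_inv_smul]
        rw [h2, inv_inv]
      refine ⟨Quotient.lift (fun p : Ω₁ × Ω₂ => T (Pi.single p.1 1) p.2) ?_, ?_⟩
      · rintro ⟨x, y⟩ ⟨x', y'⟩ h
        obtain ⟨g, hg⟩ := MulAction.orbitRel_apply.1 h
        have hg' : g • (x', y') = (x, y) := hg
        rw [Prod.smul_mk, Prod.mk.injEq] at hg'
        change T (Pi.single x 1) y = T (Pi.single x' 1) y'
        rw [← hg'.1, ← hg'.2]
        exact hTg g x' y'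
      · apply Subtype.ext
        apply LinearMap.pi_ext
        intro x r
        funext y
        have h3 : (Pi.single x r : Ω₁ → K) = r • Pi.single x 1 := by
          rw [← Pi.single_smul, smul_eq_mul, mul_one]
        rw [h3, map_smul, map_smul, Pi.smul_apply, Pi.smul_apply, hφ]
        rfl
  haveI : Finite (MulAction.orbitRel.Quotient G (Ω₁ × Ω₂)) := Quotient.finite _
  letI : Fintype (MulAction.orbitRel.Quotient G (Ω₁ × Ω₂)) := Fintype.ofFinite _
  rw [← (LinearEquiv.ofBijective φ hbij).finrank_eq, Module.finrank_fintype_fun_eq_card, Nat.card_eq_fintype_card]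

end Cfsg.Agent.S0668
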