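import Cfsg.Statements.S0669
import Cfsg.Agent.Lib.PermG1

set_option autoImplicit false
open Cfsg

open scoped Pointwise
namespace Cfsg.Agent.S0669

/-- The rank of a transitive action: orbits on ordered pairs correspond to orbits of a point stabiliser. -/
theorem result {G : Type*} [Group G] {Ω : Type*} [Finite Ω] [MulAction G Ω] [MulAction.IsPretransitive G Ω] (a : Ω) : Nat.card (MulAction.orbitRel.Quotient G (Ω × Ω)) = Nat.card (MulAction.orbitRel.Quotient (MulAction.stabilizer G a) Ω) := by
  classical
  let f : MulAction.orbitRel.Quotient (MulAction.stabilizer G a) Ω → MulAction.orbitRel.Quotient G (Ω × Ω) :=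
    Quotient.lift (fun b => (Quotient.mk (MulAction.orbitRel G (Ω × Ω)) (a, b))) (by
      intro b c hbc
      apply Quotient.sound
      obtain ⟨g, hg⟩ := MulAction.orbitRel_apply.1 hbc
      refine MulAction.orbitRel_apply.2 ⟨(g : G), ?_⟩
      have h1 : (g : G) • a = a := g.2
      have h2 : (g : G) • c = b := hg
      change (g : G) • (a, c) = (a, b)
      rw [Prod.smul_mk, h1, h2])
  refine (Nat.card_congr (Equiv.ofBijective f ⟨?_, ?_⟩)).symm
  · intro x y
    refine Quotient.inductionOn₂ x y ?_
    intro b c h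
    have h' : (MulAction.orbitRel G (Ω × Ω)) (a, b) (a, c) := Quotient.exact h
    obtain ⟨g, hg⟩ := MulAction.orbitRel_apply.1 h'
    have hg' : g • (a, c) = (a, b) := hg
    rw [Prod.smul_mk, Prod.mk.injEq] at hg'
    apply Quotient.sound
    exact MulAction.orbitRel_apply.2 ⟨⟨g, hg'.1⟩, hg'.2⟩
  · intro x
    refine Quotient.inductionOn x ?_
    rintro ⟨b, c⟩
    obtain ⟨g, hg⟩ := MulAction.exists_smul_eq G b a
    refine ⟨Quotient.mk _ (g • c), ?_⟩
    apply Quotient.sound
    refine MulAction.orbitRel_apply.2 ⟨g, ?_⟩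
    change g • (b, c) = (a, g • c)
    rw [Prod.smul_mk, hg]

end Cfsg.Agent.S0669
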