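import Cfsg.Statements.S0671
import Cfsg.Agent.Lib.PermP1

set_option autoImplicit false
open Cfsg

open scoped Pointwise
namespace Cfsg.Agent.S0671

/-- If the heart of the permutation module in characteristic `p` of a transitive action of degree `p ^ f` has no trivial composition factor, the action is doubly transitive. The hypothesis is phrased without composition series: no invariant subspaces `W < W'` between the constants and the sum-zero functions with trivial action on the quotient. -/
theorem result {G : Type*} [Group G] [Finite G] {K : Type*} [Field K] {p f : ℕ} [Fact p.Prime] [CharP K p] {Ω : Type*} [Fintype Ω] [MulAction G Ω] [MulAction.IsPretransitive G Ω] (hf : 1 ≤ f) (hcard : Fintype.card Ω = p ^ f) (h : ∀ W W' : Subrepresentation (Cfsg.permRep K G Ω), (Cfsg.permConstants K G Ω).toSubmodule ≤ W.toSubmodule → W.toSubmodule < W'.toSubmodule → W'.toSubmodule ≤ (Cfsg.permSumZero K G Ω).toSubmodule → ∃ g : G, ∃ v ∈ W'.toSubmodule, Cfsg.permRep K G Ω g v - v ∉ W.toSubmodule) : MulAction.IsMultiplyPretransitive G Ω 2 :=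 by
  classical
  by_contra hn2
  rw [CfsgLib.PermG3.mt_two_iff] at hn2
  push Not at hn2
  obtain ⟨a, b, c, d, hab, hcd, hne⟩ := hn2
  -- the orbital of (a, b)
  let E : Ω → Ω → Prop := fun x y => ∃ g : G, g • a = x ∧ g • b = y
  have hEinv : ∀ (g : G) (x y : Ω), E x y ↔ E (g • x) (g • y) := by
    intro g x y
    constructor
    · rintro ⟨k, h1, h2⟩
      exact ⟨g * k, by rw [mul_smul, h1], by rw [mul_smul, h2]⟩
    · rintro ⟨k, h1, h2⟩
      exact ⟨g⁻¹ * k, by rw [mul_smul, h1, inv_smul_smul], by rw [mul_smul, h2, inv_smul_smul]⟩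
  have hEab : E a b := ⟨1, one_smul _ _, one_smul _ _⟩
  have hEcd : ¬ E c d := by
    rintro ⟨g, h1, h2⟩
    exact hne g h1 h2
  -- row sums
  have hrow : ∀ x y : Ω, (Finset.univ.filter (fun z => E x z)).card = (Finset.univ.filter (fun z => E y z)).card := by
    intro x y
    obtain ⟨g, hg⟩ := MulAction.exists_smul_eq G x y
    refine Finset.card_bij (fun z _ => g • z) ?_ ?_ ?_
    · intro z hz
      rw [Finset.mem_filter] at hz ⊢
      refine ⟨Finset.mem_univ _, ?_⟩
      rw [← hg]
      exact (hEinv g x z).1 hz.2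
    · intro z _ z' _ h
      exact smul_left_cancel g h
    · intro z hz
      rw [Finset.mem_filter] at hz
      refine ⟨g⁻¹ • z, ?_, smul_inv_smul _ _⟩
      rw [Finset.mem_filter]
      refine ⟨Finset.mem_univ _, ?_⟩
      rw [hEinv g, smul_inv_smul, hg]
      exact hz.2
  set k := (Finset.univ.filter (fun z => E a z)).card with hk
  -- column sums
  have hcol : ∀ x y : Ω, (Finset.univ.filter (fun z => E z x)).card = (Finset.univ.filter (fun z => E z y)).card := by
    intro x y
    obtain ⟨g, hg⟩ := MulAction.exists_smul_eq G x y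
    refine Finset.card_bij (fun z _ => g • z) ?_ ?_ ?_
    · intro z hz
      rw [Finset.mem_filter] at hz ⊢
      refine ⟨Finset.mem_univ _, ?_⟩
      rw [← hg]
      exact (hEinv g z x).1 hz.2
    · intro z _ z' _ h
      exact smul_left_cancel g h
    · intro z hz
      rw [Finset.mem_filter] at hz
      refine ⟨g⁻¹ • z, ?_, smul_inv_smul _ _⟩
      rw [Finset.mem_filter]
      refine ⟨Finset.mem_univ _, ?_⟩
      rw [hEinv g, smul_inv_smul, hg]
      exact hz.2
  have hcolk : ∀ y : Ω, (Finset.univ.filter (fun z => E z y)).card = k := by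
    intro y
    have h1 : ∑ x : Ω, (Finset.univ.filter (fun z => E x z)).card = ∑ y : Ω, (Finset.univ.filter (fun z => E z y)).card := by
      simp only [Finset.card_filter]
      rw [Finset.sum_comm]
    rw [Finset.sum_congr rfl (fun x _ => hrow x a), Finset.sum_congr rfl (fun z _ => hcol z y), Finset.sum_const,
      Finset.sum_const] at h1
    have hpos : 0 < (Finset.univ : Finset Ω).card := Finset.card_pos.2 ⟨a, Finset.mem_univ _⟩
    exact (Nat.eq_of_mul_eq_mul_left hpos h1).symm
  -- the operator
  let φ : (Ω → K) →ₗ[K] (Ω → K) :=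
    { toFun := fun v x => (∑ y, if E x y then v y else 0) - (k : K) * v x
      map_add' := by
        intro v v'
        funext x
        simp only [Pi.add_apply]
        have : (∑ y, if E x y then v y + v' y else 0) = (∑ y, if E x y then v y else 0) + ∑ y, if E x y then v' y else 0 := by
          rw [← Finset.sum_add_distrib]
          refine Finset.sum_congr rfl (fun y _ => ?_)
          split_ifs <;> simp
        rw [this]
        ring
      map_smul' := by
        intro r v
        funext x
        simp only [Pi.smul_apply, smul_eq_mul, RingHom.id_apply]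
        have : (∑ y, if E x y then r * v y else 0) = r * (∑ y, if E x y then v y else 0) := by
          rw [Finset.mul_sum]
          refine Finset.sum_congr rfl (fun y _ => ?_)
          split_ifs <;> simp
        rw [this]
        ring }
  have hφ : ∀ v x, φ v x = (∑ y, if E x y then v y else 0) - (k : K) * v x := fun v x => rfl
  have hφG : ∀ (g : G) (v : Ω → K), φ (permRep K G Ω g v) = permRep K G Ω g (φ v) := by
    intro g v
    funext x
    change (∑ y, if E x y then v (g⁻¹ • y) else 0) - (k : K) * v (g⁻¹ • x) = (∑ y, if E (g⁻¹ • x) y then v y else 0) - (k : K) * v (g⁻¹ • x)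
    congr 1
    apply Fintype.sum_equiv (MulAction.toPerm (g⁻¹))
    intro y
    change (if E x y then v (g⁻¹ • y) else 0) = if E (g⁻¹ • x) (g⁻¹ • y) then v (g⁻¹ • y) else 0
    rw [if_congr (hEinv g⁻¹ x y) rfl rfl]
  have hφ1 : φ (fun _ => 1) = 0 := by
    funext x
    rw [hφ, Finset.sum_ite, Finset.sum_const_zero, add_zero, Finset.sum_const, nsmul_one, hrow x a, mul_one, sub_self]
    rfl
  have hsumφ : ∀ v, ∑ x, φ v x = 0 := by
    intro v
    simp only [hφ]
    rw [Finset.sum_sub_distrib, Finset.sum_comm, ← Finset.mul_sum, sub_eq_zero]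
    rw [Finset.mul_sum]
    refine Finset.sum_congr rfl (fun y _ => ?_)
    rw [Finset.sum_ite, Finset.sum_const_zero, add_zero, Finset.sum_const, hcolk y, nsmul_eq_mul]
  -- invariant subspaces
  let M0 : Submodule K (Ω → K) := (permSumZero K G Ω).toSubmodule
  have hM0 : ∀ v, v ∈ M0 ↔ ∑ x, v x = 0 := fun v => Iff.rfl
  have hpn : ((Fintype.card Ω : ℕ) : K) = 0 := by
    rw [hcard, Nat.cast_pow, CharP.cast_eq_zero, zero_pow (by omega)]
  have h1M0 : (fun _ : Ω => (1 : K)) ∈ M0 := by
    rw [hM0]
    rw [Finset.sum_const, Finset.card_univ, nsmul_eq_mul, hpn, zero_mul]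
  let C : Submodule K (Ω → K) := (permConstants K G Ω).toSubmodule
  have hCle : ∀ W : Submodule K (Ω → K), (fun _ : Ω => (1 : K)) ∈ W → C ≤ W := by
    intro W hW
    exact (Submodule.span_singleton_le_iff_mem _ _).2 hW
  have hrange : ∀ v, φ v ∈ M0 := fun v => hsumφ v
  -- W = φ(M0) + C, W' = φ(M) + C
  let W : Subrepresentation (permRep K G Ω) :=
    { toSubmodule := M0.map φ ⊔ C
      apply_mem_toSubmodule := by
        intro g v hv
        obtain ⟨x, hx, y, hy, rfl⟩ := Submodule.mem_sup.1 hv
        rw [map_add]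
        apply Submodule.add_mem
        · apply Submodule.mem_sup_left
          obtain ⟨u, hu, rfl⟩ := Submodule.mem_map.1 hx
          rw [← hφG]
          exact Submodule.mem_map.2 ⟨_, (permSumZero K G Ω).apply_mem_toSubmodule g hu, rfl⟩
        · exact Submodule.mem_sup_right ((permConstants K G Ω).apply_mem_toSubmodule g hy) }
  let W' : Subrepresentation (permRep K G Ω) :=
    { toSubmodule := (LinearMap.range φ) ⊔ C
      apply_mem_toSubmodule := by
        intro g v hv
        obtain ⟨x, hx, y, hy, rfl⟩ := Submodule.mem_sup.1 hv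
        rw [map_add]
        apply Submodule.add_mem
        · apply Submodule.mem_sup_left
          obtain ⟨u, rfl⟩ := LinearMap.mem_range.1 hx
          rw [← hφG]
          exact LinearMap.mem_range.2 ⟨_, rfl⟩
        · exact Submodule.mem_sup_right ((permConstants K G Ω).apply_mem_toSubmodule g hy) }
  have hWW' : W.toSubmodule ≤ W'.toSubmodule := by
    apply sup_le_sup_right
    rintro _ ⟨v, _, rfl⟩
    exact ⟨v, rfl⟩
  have hW'M0 : W'.toSubmodule ≤ M0 := by
    apply sup_le
    · rintro _ ⟨v, rfl⟩
      exact hrange v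
    · exact hCle M0 h1M0
  have heq : W.toSubmodule = W'.toSubmodule := by
    by_contra hneq
    obtain ⟨g, v, hv, hgv⟩ := h W W' le_sup_right (lt_of_le_of_ne hWW' hneq) hW'M0
    apply hgv
    obtain ⟨x, hx, y, hy, rfl⟩ := Submodule.mem_sup.1 hv
    obtain ⟨u, rfl⟩ := LinearMap.mem_range.1 hx
    have : permRep K G Ω g (φ u + y) - (φ u + y) = φ (permRep K G Ω g u - u) + (permRep K G Ω g y - y) := by
      rw [map_add, map_sub, hφG]; abel
    rw [this]
    apply Submodule.add_mem
    · apply Submodule.mem_sup_left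
      refine Submodule.mem_map.2 ⟨_, ?_, rfl⟩
      rw [hM0]
      simp only [Pi.sub_apply]
      rw [Finset.sum_sub_distrib, sub_eq_zero]
      apply Fintype.sum_equiv (MulAction.toPerm (g⁻¹))
      intro x
      rfl
    · apply Submodule.mem_sup_right
      exact C.sub_mem ((permConstants K G Ω).apply_mem_toSubmodule g hy) hy
  -- φ M0 = 0
  have hφM0 : ∀ v ∈ M0, φ v = 0 := by
    by_contra hcon
    push Not at hcon
    obtain ⟨v₀, hv₀, hv₀'⟩ := hcon
    have hCm : C ≤ M0.map φ := by
      apply hCle
      apply CfsgLib.PermP1.constants_le (G := G) hcard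
      · rintro g _ ⟨u, hu, rfl⟩
        rw [← hφG]
        exact ⟨_, (permSumZero K G Ω).apply_mem_toSubmodule g hu, rfl⟩
      · rw [Submodule.ne_bot_iff]
        exact ⟨_, ⟨v₀, hv₀, rfl⟩, hv₀'⟩
    have h2 : LinearMap.range φ ≤ M0.map φ := by
      have h3 : M0.map φ ⊔ C = LinearMap.range φ ⊔ C := heq
      rw [sup_eq_left.2 hCm] at h3
      rw [h3]
      exact le_sup_left
    -- then M = M0 + ker φ
    have hker : LinearMap.ker φ ≤ M0 := by
      by_cases hkt : LinearMap.ker φ = ⊤
      · exfalso
        apply hv₀'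
        have : v₀ ∈ LinearMap.ker φ := by rw [hkt]; exact Submodule.mem_top
        exact this
      · intro v hv
        refine CfsgLib.PermP1.le_sumZero (G := G) hcard (LinearMap.ker φ) ?_ hkt v hv
        intro g v hv
        rw [LinearMap.mem_ker] at hv ⊢
        rw [hφG, hv, map_zero]
    have hall : ∀ v, v ∈ M0 := by
      intro v
      obtain ⟨u, hu, huv⟩ := h2 (LinearMap.mem_range_self φ v)
      have h4 : v - u ∈ M0 := hker (by rw [LinearMap.mem_ker, map_sub, huv, sub_self])
      have h5 := M0.add_mem h4 hu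
      rwa [sub_add_cancel] at h5
    have h6 := hall (Pi.single a 1)
    rw [hM0] at h6
    rw [Finset.sum_pi_single'] at h6
    simp at h6
  -- W' ≤ C
  have hrangeC : ∀ v, φ v ∈ C := by
    intro v
    have h1 : φ v ∈ W'.toSubmodule := Submodule.mem_sup_left (LinearMap.mem_range_self φ v)
    rw [← heq] at h1
    obtain ⟨x, hx, y, hy, hxy⟩ := Submodule.mem_sup.1 h1
    obtain ⟨u, hu, rfl⟩ := Submodule.mem_map.1 hx
    rw [hφM0 u hu, zero_add] at hxy
    rw [← hxy]
    exact hy
  have hconst : ∀ v x y, φ v x = φ v y := by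
    intro v x y
    obtain ⟨r, hr⟩ := Submodule.mem_span_singleton.1 (hrangeC v)
    rw [← hr]
    rfl
  -- φ (single) is constant, same for all points
  have hsingle : ∀ x y : Ω, φ (Pi.single x 1) = φ (Pi.single y 1) := by
    intro x y
    rw [← sub_eq_zero, ← map_sub]
    apply hφM0
    rw [hM0]
    simp only [Pi.sub_apply]
    rw [Finset.sum_sub_distrib, Finset.sum_pi_single', Finset.sum_pi_single']
    simp
  have hval : ∀ x y : Ω, x ≠ y → φ (Pi.single y 1) x = if E x y then 1 else 0 := by
    intro x y hxy
    rw [hφ, Pi.single_eq_of_ne hxy, mul_zero, sub_zero]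
    rw [Finset.sum_eq_single y]
    · rw [Pi.single_eq_same]
    · intro z _ hz
      rw [Pi.single_eq_of_ne hz, ite_self]
    · intro h; exact absurd (Finset.mem_univ _) h
  have h1 := hval a b hab
  have h2 := hval c d hcd
  rw [if_pos hEab] at h1
  rw [if_neg hEcd, hsingle d b, hconst _ c a, h1] at h2
  exact one_ne_zero h2

end Cfsg.Agent.S0671
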