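import Cfsg.Statements.S0672
import Cfsg.Agent.Lib.PermP1
import Cfsg.Agent.Lib.PermG6

set_option autoImplicit false
open Cfsg

open scoped Pointwise
set_option linter.style.haveILetI false
namespace Cfsg.Agent.S0672

/-- Let a finite group act faithfully and doubly transitively with point stabilisers of even order, and let `K` have characteristic `p` dividing the degree. If the heart of the permutation module admits no non-zero equivariant map to the permutation module on unordered pairs (phrased: every intertwining map from the sum-zero functions vanishing on the constants is zero), the action is triply transitive. -/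
theorem result {G : Type*} [Group G] [Finite G] {K : Type*} [Field K] {p : ℕ} [Fact p.Prime] [CharP K p] {Ω : Type*} [Fintype Ω] [DecidableEq Ω] [MulAction G Ω] [FaithfulSMul G Ω] (h2 : MulAction.IsMultiplyPretransitive G Ω 2) (hp : p ∣ Fintype.card Ω) (heven : ∀ a : Ω, Even (Nat.card (MulAction.stabilizer G a))) (h : ∀ f : Representation.IntertwiningMap (Cfsg.permSumZero K G Ω).toRepresentation (Cfsg.permRep K G (Set.powersetCard Ω 2)), (∀ v : (Cfsg.permSumZero K G Ω).toSubmodule, (v : Ω → K) ∈ (Cfsg.permConstants K G Ω).toSubmodule → f v = 0) → f = 0) : MulAction.IsMultiplyPretransitive G Ω 3 := by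
  classical
  have h2' := CfsgLib.PermG3.mt_two_iff.1 h2
  -- pairs
  let pr : ∀ a b : Ω, a ≠ b → Set.powersetCard Ω 2 := fun a b hab => ⟨{a, b}, Finset.card_pair hab⟩
  have hpr : ∀ (P : Set.powersetCard Ω 2), ∃ a b, ∃ hab : a ≠ b, P = pr a b hab := by
    intro P
    obtain ⟨a, b, hab, hP⟩ := Finset.card_eq_two.1 P.2
    exact ⟨a, b, hab, Subtype.ext hP⟩
  have hsmulmem : ∀ (g : G) (P : Set.powersetCard Ω 2) (x : Ω), g • x ∈ (g • P : Set.powersetCard Ω 2).1 ↔ x ∈ P.1 := by
    intro g P x
    exact Finset.smul_mem_smul_finset_iff g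
  -- step 1: G is transitive on pairs (P, x) with x ∉ P
  have step1 : ∀ (P Q : Set.powersetCard Ω 2) (x y : Ω), x ∉ P.1 → y ∉ Q.1 → ∃ g : G, g • P = Q ∧ g • x = y := by
    intro P Q x y hx hy
    by_contra hcon
    push Not at hcon
    -- two relations
    let E : Set.powersetCard Ω 2 → Ω → Prop := fun R z => ∃ g : G, g • P = R ∧ g • x = z
    let F : Set.powersetCard Ω 2 → Ω → Prop := fun R z => ∃ g : G, g • Q = R ∧ g • y = z
    have hE : ∀ (g : G) R z, E R z ↔ E (g • R) (g • z) := by
      intro g R z
      constructor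
      · rintro ⟨k, h1, h2⟩
        exact ⟨g * k, by rw [mul_smul, h1], by rw [mul_smul, h2]⟩
      · rintro ⟨k, h1, h2⟩
        exact ⟨g⁻¹ * k, by rw [mul_smul, h1, inv_smul_smul], by rw [mul_smul, h2, inv_smul_smul]⟩
    have hF : ∀ (g : G) R z, F R z ↔ F (g • R) (g • z) := by
      intro g R z
      constructor
      · rintro ⟨k, h1, h2⟩
        exact ⟨g * k, by rw [mul_smul, h1], by rw [mul_smul, h2]⟩
      · rintro ⟨k, h1, h2⟩
        exact ⟨g⁻¹ * k, by rw [mul_smul, h1, inv_smul_smul], by rw [mul_smul, h2, inv_smul_smul]⟩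
    have hEF : ∀ R z, E R z → ¬ F R z := by
      rintro R z ⟨k, h1, h2⟩ ⟨l, h3, h4⟩
      apply hcon (l⁻¹ * k)
      · rw [mul_smul, h1, ← h3, inv_smul_smul]
      · rw [mul_smul, h2, ← h4, inv_smul_smul]
    have hEn : ∀ R z, E R z → z ∉ R.1 := by
      rintro R z ⟨k, rfl, rfl⟩
      rw [hsmulmem]; exact hx
    have hFn : ∀ R z, F R z → z ∉ R.1 := by
      rintro R z ⟨k, rfl, rfl⟩
      rw [hsmulmem]; exact hy
    -- pairs are transitively permuted
    have hptr : ∀ R S : Set.powersetCard Ω 2, ∃ g : G, g • R = S := by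
      intro R S
      obtain ⟨a, b, hab, rfl⟩ := hpr R
      obtain ⟨c, d, hcd, rfl⟩ := hpr S
      obtain ⟨g, h1, h2⟩ := h2' a b c d hab hcd
      refine ⟨g, Subtype.ext ?_⟩
      change g • ({a, b} : Finset Ω) = {c, d}
      rw [Finset.smul_finset_insert, Finset.smul_finset_singleton, h1, h2]
    have hEcard : ∀ R S, (Finset.univ.filter (fun z => E R z)).card = (Finset.univ.filter (fun z => E S z)).card := by
      intro R S
      obtain ⟨g, hg⟩ := hptr R S
      refine Finset.card_bij (fun z _ => g • z) ?_ ?_ ?_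
      · intro z hz
        rw [Finset.mem_filter] at hz ⊢
        exact ⟨Finset.mem_univ _, by rw [← hg]; exact (hE g R z).1 hz.2⟩
      · intro z _ z' _ h
        exact smul_left_cancel g h
      · intro z hz
        rw [Finset.mem_filter] at hz
        refine ⟨g⁻¹ • z, ?_, smul_inv_smul _ _⟩
        rw [Finset.mem_filter]
        refine ⟨Finset.mem_univ _, ?_⟩
        rw [hE g, smul_inv_smul, hg]
        exact hz.2
    have hFcard : ∀ R S, (Finset.univ.filter (fun z => F R z)).card = (Finset.univ.filter (fun z => F S z)).card := by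
      intro R S
      obtain ⟨g, hg⟩ := hptr R S
      refine Finset.card_bij (fun z _ => g • z) ?_ ?_ ?_
      · intro z hz
        rw [Finset.mem_filter] at hz ⊢
        exact ⟨Finset.mem_univ _, by rw [← hg]; exact (hF g R z).1 hz.2⟩
      · intro z _ z' _ h
        exact smul_left_cancel g h
      · intro z hz
        rw [Finset.mem_filter] at hz
        refine ⟨g⁻¹ • z, ?_, smul_inv_smul _ _⟩
        rw [Finset.mem_filter]
        refine ⟨Finset.mem_univ _, ?_⟩
        rw [hF g, smul_inv_smul, hg]
        exact hz.2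
    -- coefficients
    obtain ⟨c₁, c₂, hc, hc0⟩ : ∃ c₁ c₂ : K, c₁ * ((Finset.univ.filter (fun z => E P z)).card : K) + c₂ * ((Finset.univ.filter (fun z => F P z)).card : K) = 0 ∧ (c₁ ≠ 0 ∨ c₂ ≠ 0) := by
      by_cases h1 : ((Finset.univ.filter (fun z => E P z)).card : K) = 0
      · exact ⟨1, 0, by rw [h1]; ring, Or.inl one_ne_zero⟩
      · exact ⟨-((Finset.univ.filter (fun z => F P z)).card : K), ((Finset.univ.filter (fun z => E P z)).card : K), by ring, Or.inr h1⟩
    let cf : Set.powersetCard Ω 2 → Ω → K := fun R z => if E R z then c₁ else if F R z then c₂ else 0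
    have hcfG : ∀ (g : G) R z, cf (g • R) (g • z) = cf R z := by
      intro g R z
      change (if E _ _ then c₁ else if F _ _ then c₂ else 0) = (if E _ _ then c₁ else if F _ _ then c₂ else 0)
      rw [if_congr (hE g R z).symm rfl (if_congr (hF g R z).symm rfl rfl)]
    have hcfsum : ∀ R, ∑ z, cf R z = 0 := by
      intro R
      have h1 : ∀ z, cf R z = c₁ * (if E R z then 1 else 0) + c₂ * (if F R z then 1 else 0) := by
        intro z
        change (if E _ _ then c₁ else if F _ _ then c₂ else 0) = _
        by_cases hEz : E R z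
        · rw [if_pos hEz, if_pos hEz, if_neg (hEF R z hEz)]; ring
        · rw [if_neg hEz, if_neg hEz]
          split_ifs <;> ring
      rw [Finset.sum_congr rfl (fun z _ => h1 z), Finset.sum_add_distrib, ← Finset.mul_sum, ← Finset.mul_sum,
        Finset.sum_boole, Finset.sum_boole, hEcard R P, hFcard R P]
      exact hc
    -- the map
    let Φ : (permSumZero K G Ω).toSubmodule →ₗ[K] (Set.powersetCard Ω 2 → K) :=
      { toFun := fun v R => ∑ z, cf R z * (v : Ω → K) z
        map_add' := by
          intro v v'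
          funext R
          simp only [Submodule.coe_add, Pi.add_apply, mul_add, Finset.sum_add_distrib]
        map_smul' := by
          intro r v
          funext R
          simp only [Submodule.coe_smul, Pi.smul_apply, smul_eq_mul, RingHom.id_apply, Finset.mul_sum]
          exact Finset.sum_congr rfl (fun z _ => by ring) }
    have hΦ : ∀ (v : (permSumZero K G Ω).toSubmodule) R, Φ v R = ∑ z, cf R z * (v : Ω → K) z := fun v R => rfl
    let f : Representation.IntertwiningMap (permSumZero K G Ω).toRepresentation (permRep K G (Set.powersetCard Ω 2)) :=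
      { toLinearMap := Φ
        isIntertwining' := by
          intro g
          ext v R
          change ∑ z, cf R z * (v : Ω → K) (g⁻¹ • z) = ∑ z, cf (g⁻¹ • R) z * (v : Ω → K) z
          apply Fintype.sum_equiv (MulAction.toPerm (g⁻¹))
          intro z
          change cf R z * (v : Ω → K) (g⁻¹ • z) = cf (g⁻¹ • R) (g⁻¹ • z) * (v : Ω → K) (g⁻¹ • z)
          rw [hcfG] }
    have hf0 := h f (by
      intro v hv
      obtain ⟨r, hr⟩ := Submodule.mem_span_singleton.1 hv
      change Φ v = 0
      funext R
      rw [hΦ, ← hr]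
      have : ∀ z, cf R z * (r • (fun _ : Ω => (1 : K))) z = cf R z * r := by
        intro z
        rw [Pi.smul_apply, smul_eq_mul, mul_one]
      rw [Finset.sum_congr rfl (fun z _ => this z), ← Finset.sum_mul, hcfsum, zero_mul]
      rfl)
    -- evaluate at δ_z - δ_w
    have hev : ∀ R (z w : Ω), z ∉ R.1 → w ∈ R.1 → cf R z = 0 := by
      intro R z w hz hw
      have hzw : z ≠ w := by rintro rfl; exact hz hw
      have hmem : (Pi.single z 1 - Pi.single w 1 : Ω → K) ∈ (permSumZero K G Ω).toSubmodule := by
        change ∑ x, (Pi.single z 1 - Pi.single w 1 : Ω → K) x = 0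
        simp only [Pi.sub_apply]
        rw [Finset.sum_sub_distrib, Finset.sum_pi_single', Finset.sum_pi_single']
        simp
      have h3 : Φ ⟨_, hmem⟩ = 0 := by
        have h4 : f.toLinearMap = 0 := by rw [hf0]; rfl
        have h5 := LinearMap.congr_fun h4 ⟨_, hmem⟩
        exact h5
      have h4 := congrFun h3 R
      rw [hΦ] at h4
      have h5 : ∑ x, cf R x * (Pi.single z 1 - Pi.single w 1 : Ω → K) x = cf R z - cf R w := by
        simp only [Pi.sub_apply, mul_sub, Finset.sum_sub_distrib]
        rw [Finset.sum_eq_single z, Finset.sum_eq_single w, Pi.single_eq_same, Pi.single_eq_same, mul_one, mul_one]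
        · intro b _ hb; rw [Pi.single_eq_of_ne hb, mul_zero]
        · intro h; exact absurd (Finset.mem_univ _) h
        · intro b _ hb; rw [Pi.single_eq_of_ne hb, mul_zero]
        · intro h; exact absurd (Finset.mem_univ _) h
      have h6 : cf R w = 0 := by
        change (if E _ _ then c₁ else if F _ _ then c₂ else 0) = 0
        rw [if_neg (fun h => hEn R w h hw), if_neg (fun h => hFn R w h hw)]
      have h7 : cf R z - cf R w = 0 := by rw [← h5]; exact h4
      rwa [h6, sub_zero] at h7
    have hEx : E P x := ⟨1, one_smul _ _, one_smul _ _⟩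
    have hFy : F Q y := ⟨1, one_smul _ _, one_smul _ _⟩
    obtain ⟨a, b, hab, hP⟩ := hpr P
    obtain ⟨c, d, hcd, hQ⟩ := hpr Q
    have e1 := hev P x a hx (by rw [hP]; simp [pr])
    have e2 := hev Q y c hy (by rw [hQ]; simp [pr])
    have e3 : cf P x = c₁ := if_pos hEx
    have e4 : cf Q y = c₂ := by
      change (if E _ _ then c₁ else if F _ _ then c₂ else 0) = c₂
      rw [if_neg (fun h => hEF Q y h hFy), if_pos hFy]
    rcases hc0 with h1 | h1
    · exact h1 (e3.symm.trans e1)
    · exact h1 (e4.symm.trans e2)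
  -- step 2: an involution fixing a point and swapping two
  apply CfsgLib.PermG6.mt_three_of
  intro x y z x' y' z' hxy hxz hyz hxy' hxz' hyz'
  haveI : Fact (Nat.Prime 2) := ⟨Nat.prime_two⟩
  obtain ⟨t, ht⟩ := exists_prime_orderOf_dvd_card' (G := MulAction.stabilizer G x) 2 (heven x).two_dvd
  have ht2 : (t : G) * (t : G) = 1 := by
    have : t ^ 2 = 1 := by rw [← ht]; exact pow_orderOf_eq_one t
    rw [pow_two] at this
    exact congrArg Subtype.val this
  have ht1 : (t : G) ≠ 1 := by
    intro h
    have : t = 1 := Subtype.ext h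
    rw [this, orderOf_one] at ht
    norm_num at ht
  obtain ⟨b, hb⟩ : ∃ b : Ω, (t : G) • b ≠ b := by
    by_contra hcon
    push Not at hcon
    exact ht1 (FaithfulSMul.eq_of_smul_eq_smul (fun b => by rw [hcon b, one_smul]))
  have hta : (t : G) • x = x := t.2
  have htt : (t : G) • ((t : G) • b) = b := by rw [← mul_smul, ht2, one_smul]
  have hbx : b ≠ x := by rintro rfl; exact hb hta
  have hcx : (t : G) • b ≠ x := by
    intro h
    exact hbx (smul_left_cancel (t : G) (h.trans hta.symm))
  have key : ∀ u v w : Ω, u ≠ v → u ≠ w → v ≠ w → ∃ g : G, g • b = u ∧ g • ((t : G) • b) = v ∧ g • x = w := by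
    intro u v w huv huw hvw
    obtain ⟨g, hg1, hg2⟩ := step1 (pr b ((t : G) • b) hb.symm) (pr u v huv) x w (by
      change x ∉ ({b, (t : G) • b} : Finset Ω)
      rw [Finset.mem_insert, Finset.mem_singleton, not_or]
      exact ⟨hbx.symm, hcx.symm⟩) (by
      change w ∉ ({u, v} : Finset Ω)
      rw [Finset.mem_insert, Finset.mem_singleton, not_or]
      exact ⟨huw.symm, hvw.symm⟩)
    have hg1' : g • ({b, (t : G) • b} : Finset Ω) = {u, v} := congrArg Subtype.val hg1
    rw [Finset.smul_finset_insert, Finset.smul_finset_singleton] at hg1'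
    have e1 : g • b ∈ ({u, v} : Finset Ω) := by rw [← hg1']; simp
    have e2 : g • ((t : G) • b) ∈ ({u, v} : Finset Ω) := by rw [← hg1']; simp
    simp only [Finset.mem_insert, Finset.mem_singleton] at e1 e2
    rcases e1 with e1 | e1 <;> rcases e2 with e2 | e2
    · exact absurd (smul_left_cancel g (e1.trans e2.symm)) hb.symm
    · exact ⟨g, e1, e2, hg2⟩
    · refine ⟨g * t, ?_, ?_, ?_⟩
      · rw [mul_smul, e2]
      · rw [mul_smul, htt, e1]
      · rw [mul_smul, hta, hg2]
    · exact absurd (smul_left_cancel g (e1.trans e2.symm)) hb.symm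
  obtain ⟨g, e1, e2, e3⟩ := key x y z hxy hxz hyz
  obtain ⟨g', e1', e2', e3'⟩ := key x' y' z' hxy' hxz' hyz'
  refine ⟨g' * g⁻¹, ?_, ?_, ?_⟩
  · rw [mul_smul, ← e1', ← inv_smul_eq_iff.2 e1.symm]
  · rw [mul_smul, ← e2', ← inv_smul_eq_iff.2 e2.symm]
  · rw [mul_smul, ← e3', ← inv_smul_eq_iff.2 e3.symm]

end Cfsg.Agent.S0672
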