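import Cfsg.Statements.S0676
import Cfsg.Agent.Lib.PermP5
import Cfsg.Agent.S0672

set_option autoImplicit false
open Cfsg

open scoped Pointwise
namespace Cfsg.Agent.S0676

/-- A non-solvable transitive permutation group of prime degree `p` whose Sylow `p`-normaliser has even order is triply transitive. -/
theorem result {α : Type*} [Fintype α] [DecidableEq α] {p : ℕ} [Fact p.Prime] (hα : Fintype.card α = p) (G : Subgroup (Equiv.Perm α)) [MulAction.IsPretransitive G α] (hG : ¬ Group.IsSolvable G) (P : Sylow p G) (heven : Even (Nat.card (Subgroup.normalizer ((P : Subgroup G) : Set G)))) : MulAction.IsMultiplyPretransitive G α 3 := by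
  classical
  have h2 : MulAction.IsMultiplyPretransitive G α 2 := (CfsgLib.PermP4.burnside hα G).resolve_left hG
  obtain ⟨a₀⟩ : Nonempty α := Fintype.card_pos_iff.1 (by rw [hα]; exact (Fact.out : p.Prime).pos)
  -- p odd
  have hp2 : p ≠ 2 := by
    rintro rfl
    apply hG
    obtain ⟨z, e, -, -, -⟩ := CfsgLib.PermP3.exists_coord hα G
    apply CfsgLib.PermP3.solvable_of_affine G e
    intro g _
    exact CfsgLib.PermP4.affine_two (e.symm.trans (g.trans e))
  have h2ne : (2 : ZMod p) ≠ 0 := by
    intro h
    have h3 : ((2 : ℕ) : ZMod p) = 0 := by exact_mod_cast h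
    rw [ZMod.natCast_eq_zero_iff] at h3
    exact hp2 ((Nat.prime_dvd_prime_iff_eq (Fact.out : p.Prime) Nat.prime_two).1 h3)
  obtain ⟨z, t, e, b, hz, ht, hze, hte⟩ := CfsgLib.PermP5.exists_dihedral hα hp2 G P heven
  have htt : t * t = 1 := by
    ext x
    apply e.injective
    rw [Equiv.Perm.mul_apply, hte, hte, neg_add, neg_neg, neg_add_cancel_right]
    rfl
  have ht1 : t ≠ 1 := by
    intro h
    have h1 : ∀ x, e x = - e x + b := by
      intro x
      have := hte x
      rw [h] at this
      exact this
    have h3 := h1 (e.symm 0)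
    have h4 := h1 (e.symm 1)
    rw [Equiv.apply_symm_apply] at h3 h4
    apply h2ne
    linear_combination h4 - h3
  refine Cfsg.Agent.S0672.result (K := ZMod p) (p := p) h2 (by rw [hα]) ?_ ?_
  · -- even stabilisers
    have hfix : t (e.symm (b / 2)) = e.symm (b / 2) := by
      apply e.injective
      rw [hte, Equiv.apply_symm_apply]
      field_simp
      ring
    have h1 : 2 ∣ Nat.card (MulAction.stabilizer G (e.symm (b / 2))) := by
      have h3 : orderOf (⟨⟨t, ht⟩, hfix⟩ : MulAction.stabilizer G (e.symm (b / 2))) = 2 := by
        apply orderOf_eq_prime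
        · rw [pow_two]
          apply Subtype.ext
          apply Subtype.ext
          exact htt
        · intro h
          exact ht1 (congrArg (fun s : MulAction.stabilizer G (e.symm (b / 2)) => ((s : G) : Equiv.Perm α)) h)
      rw [← h3]
      exact orderOf_dvd_natCard _
    intro a
    obtain ⟨g, hg⟩ := MulAction.exists_smul_eq G (e.symm (b / 2)) a
    have h3 : Nat.card (MulAction.stabilizer G (e.symm (b / 2))) = Nat.card (MulAction.stabilizer G a) :=
      Nat.card_congr (MulAction.stabilizerEquivStabilizer hg.symm).toEquiv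
    rw [← h3]
    exact even_iff_two_dvd.2 h1
  · intro f hf
    -- kernel of f
    let W : Submodule (ZMod p) (α → ZMod p) := (LinearMap.ker f.toLinearMap).map (permSumZero (ZMod p) G α).toSubmodule.subtype
    have hWmem : ∀ v : α → ZMod p, v ∈ W ↔ ∃ h : v ∈ (permSumZero (ZMod p) G α).toSubmodule, f ⟨v, h⟩ = 0 := by
      intro v
      constructor
      · rintro ⟨⟨u, hu⟩, hu', rfl⟩
        exact ⟨hu, hu'⟩
      · rintro ⟨h, h'⟩
        exact ⟨⟨v, h⟩, h', rfl⟩
    have hconst0 : (permConstants (ZMod p) G α).toSubmodule ≤ (permSumZero (ZMod p) G α).toSubmodule := by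
      apply (Submodule.span_singleton_le_iff_mem _ _).2
      change ∑ x : α, (1 : ZMod p) = 0
      rw [Finset.sum_const, Finset.card_univ, hα, nsmul_one, CharP.cast_eq_zero]
    have hfg : ∀ (g : G) (v : (permSumZero (ZMod p) G α).toSubmodule), f ((permSumZero (ZMod p) G α).toRepresentation g v) = permRep (ZMod p) G (Set.powersetCard α 2) g (f v) := by
      intro g v
      exact LinearMap.congr_fun (f.isIntertwining' g) v
    rcases CfsgLib.PermP3.heart_irreducible (K := ZMod p) hα G hG W (by
        intro g v hv
        rw [hWmem] at hv ⊢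
        obtain ⟨h, h'⟩ := hv
        refine ⟨(permSumZero (ZMod p) G α).apply_mem_toSubmodule g h, ?_⟩
        have := hfg g ⟨v, h⟩
        rw [h', map_zero] at this
        exact this) (by
        intro v hv
        rw [hWmem]
        exact ⟨hconst0 hv, hf ⟨v, hconst0 hv⟩ hv⟩) (by
        intro v hv
        rw [hWmem] at hv
        exact hv.1) with hW | hW
    · exfalso
      -- the coordinate function
      have hesum : (fun x : α => e x) ∈ (permSumZero (ZMod p) G α).toSubmodule := by
        change ∑ x : α, e x = 0
        have h1 : ∑ x : α, e x = ∑ j : ZMod p, j := Fintype.sum_equiv e _ _ (fun x => rfl)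
        have h3 : ∑ j : ZMod p, j = ∑ j : ZMod p, -j := Fintype.sum_equiv (Equiv.neg _) _ _ (fun x => by simp)
        rw [Finset.sum_neg_distrib] at h3
        rw [h1]
        have h4 : (2 : ZMod p) * ∑ j : ZMod p, j = 0 := by linear_combination h3
        exact (mul_eq_zero.1 h4).resolve_left h2ne
      set L : (permSumZero (ZMod p) G α).toSubmodule := ⟨fun x : α => e x, hesum⟩ with hL
      have hone : (fun _ : α => (1 : ZMod p)) ∈ (permConstants (ZMod p) G α).toSubmodule := Submodule.mem_span_singleton_self _
      set O : (permSumZero (ZMod p) G α).toSubmodule := ⟨fun _ => 1, hconst0 hone⟩ with hO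
      have hfO : f O = 0 := hf O hone
      set F := f L with hF
      have hzL : (permSumZero (ZMod p) G α).toRepresentation (⟨z, hz⟩ : G) L = L - O := by
        apply Subtype.ext
        funext x
        change e ((z⁻¹ : Equiv.Perm α) x) = e x - 1
        have h1 := hze (z⁻¹ x)
        rw [CfsgLib.PermG3.apply_inv] at h1
        exact eq_sub_iff_add_eq.2 h1.symm
      have htinv : t⁻¹ = t := by
        rw [inv_eq_iff_mul_eq_one]; exact htt
      have htL : (permSumZero (ZMod p) G α).toRepresentation (⟨t, ht⟩ : G) L = -L + b • O := by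
        apply Subtype.ext
        funext x
        change e ((t⁻¹ : Equiv.Perm α) x) = - e x + b * 1
        rw [htinv, hte, mul_one]
      have hzF : ∀ R, F ((⟨z, hz⟩ : G)⁻¹ • R) = F R := by
        intro R
        have h1 := hfg ⟨z, hz⟩ L
        rw [hzL, map_sub, hfO, sub_zero] at h1
        exact (congrFun h1 R).symm
      have htF : ∀ R, F ((⟨t, ht⟩ : G)⁻¹ • R) = - F R := by
        intro R
        have h1 := hfg ⟨t, ht⟩ L
        rw [htL, map_add, map_smul, hfO, smul_zero, add_zero, map_neg] at h1
        exact (congrFun h1 R).symm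
      have hzn : ∀ (n : ℕ) (x : α), e ((z ^ n) x) = e x + n := by
        intro n
        induction n with
        | zero => intro x; rw [pow_zero, Nat.cast_zero, add_zero]; rfl
        | succ n ih =>
          intro x
          rw [pow_succ, Equiv.Perm.mul_apply, ih, hze, Nat.cast_add, Nat.cast_one]
          ring
      have hzF' : ∀ (n : ℕ) R, F ((⟨z, hz⟩ : G) ^ n • R) = F R := by
        intro n
        induction n with
        | zero => intro R; rw [pow_zero, one_smul]
        | succ n ih =>
          intro R
          rw [pow_succ, mul_smul, ih]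
          have := hzF ((⟨z, hz⟩ : G) • R)
          rw [inv_smul_smul] at this
          exact this.symm
      have hF0 : F = 0 := by
        funext R
        obtain ⟨x, y, hxy, hR⟩ := Finset.card_eq_two.1 R.2
        -- t • R = z^n • R
        have h1 : (⟨t, ht⟩ : G)⁻¹ • R = (⟨z, hz⟩ : G) ^ (b - e x - e y).val • R := by
          apply Subtype.ext
          change (⟨t, ht⟩ : G)⁻¹ • R.1 = ((⟨z, hz⟩ : G) ^ (b - e x - e y).val) • R.1
          rw [hR, Finset.smul_finset_insert, Finset.smul_finset_singleton, Finset.smul_finset_insert, Finset.smul_finset_singleton,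
            Finset.pair_comm]
          have e1 : (⟨t, ht⟩ : G)⁻¹ • x = ((⟨z, hz⟩ : G) ^ (b - e x - e y).val) • y := by
            change t⁻¹ x = (z ^ (b - e x - e y).val) y
            apply e.injective
            rw [htinv, hte, hzn, ZMod.natCast_zmod_val]
            ring
          have e2 : (⟨t, ht⟩ : G)⁻¹ • y = ((⟨z, hz⟩ : G) ^ (b - e x - e y).val) • x := by
            change t⁻¹ y = (z ^ (b - e x - e y).val) x
            apply e.injective
            rw [htinv, hte, hzn, ZMod.natCast_zmod_val]
            ring
          rw [e1, e2]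
        have h3 := htF R
        rw [h1, hzF'] at h3
        have h4 : (2 : ZMod p) * F R = 0 := by linear_combination h3
        exact (mul_eq_zero.1 h4).resolve_left h2ne
      have hLW : (fun x : α => e x) ∈ W := (hWmem _).2 ⟨hesum, hF0⟩
      rw [hW] at hLW
      obtain ⟨r, hr⟩ := Submodule.mem_span_singleton.1 hLW
      have h5 := congrFun hr (e.symm 0)
      have h6 := congrFun hr (e.symm 1)
      simp only [Pi.smul_apply, smul_eq_mul, mul_one, Equiv.apply_symm_apply] at h5 h6
      exact zero_ne_one (h5.symm.trans h6)
    · apply Representation.IntertwiningMap.ext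
      apply LinearMap.ext
      intro v
      have h1 : (v : α → ZMod p) ∈ W := by rw [hW]; exact v.2
      rw [hWmem] at h1
      exact h1.2

end Cfsg.Agent.S0676
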