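import Cfsg.Statements.S0677
import Cfsg.Agent.Lib.PermP7
import Cfsg.Agent.Lib.PermP6
import Cfsg.Agent.Lib.PermP5
import Cfsg.Agent.Lib.PermP4
import Cfsg.Agent.Lib.PermG3

set_option autoImplicit false
open Cfsg

open scoped Pointwise
set_option linter.style.haveILetI false
namespace Cfsg.Agent.S0677

/-- parity count for symmetric sets -/
theorem parity {p : ℕ} [Fact p.Prime] (hp2 : (2 : ZMod p) ≠ 0) (D : Finset (ZMod p)) (c : ZMod p)
    (hc : ∀ x, x ∈ D ↔ c - x ∈ D) (d : ZMod p) :
    (((D.filter (fun x => x + d ∈ D)).card : ℕ) : ZMod 2) = if (c - d) / 2 ∈ D then 1 else 0 := by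
  classical
  set y := (c - d) / 2 with hy
  have hy2 : c - d - y = y := by
    rw [hy]; field_simp; ring
  have hT : ∀ x, x ∈ D.filter (fun x => x + d ∈ D) ↔ c - d - x ∈ D.filter (fun x => x + d ∈ D) := by
    intro x
    rw [Finset.mem_filter, Finset.mem_filter, hc x, hc (x + d)]
    have e1 : c - d - x + d = c - x := by ring
    have e2 : c - (x + d) = c - d - x := by ring
    rw [e1, e2]
    tauto
  have hyT : y ∈ D.filter (fun x => x + d ∈ D) ↔ y ∈ D := by
    rw [Finset.mem_filter]
    constructor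
    · exact fun h => h.1
    · intro h
      refine ⟨h, ?_⟩
      rw [hc]
      have : c - (y + d) = y := by linear_combination hy2
      rw [this]; exact h
  have hkey : ∑ x ∈ (D.filter (fun x => x + d ∈ D)).erase y, (1 : ZMod 2) = 0 := by
    apply Finset.sum_involution (fun x _ => c - d - x)
    · intro x _; decide
    · intro x hx _ h
      apply Finset.ne_of_mem_erase hx
      have h1 : (2 : ZMod p) * x = 2 * y := by
        have h2 : c - d = 2 * x := by linear_combination h
        have h3 : c - d = 2 * y := by linear_combination hy2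
        rw [← h2, h3]
      exact mul_left_cancel₀ hp2 h1
    · intro x hx
      rw [Finset.mem_erase] at hx ⊢
      refine ⟨?_, (hT x).1 hx.2⟩
      intro h
      apply hx.1
      have : x = c - d - y := by rw [← h]; ring
      rw [this, hy2]
    · intro x hx
      ring
  rw [Finset.sum_const, nsmul_eq_mul, mul_one] at hkey
  by_cases hyD : y ∈ D
  · rw [if_pos hyD, ← Finset.card_erase_add_one (hyT.2 hyD), Nat.cast_add, Nat.cast_one, hkey, zero_add]
  · rw [if_neg hyD, ← hkey, Finset.erase_eq_of_notMem (fun h => hyD (hyT.1 h))]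


/-- In a transitive permutation group of prime degree `p` whose Sylow `p`-normaliser has even order, the point stabilisers are the only subgroups of index `p`. -/
theorem result {α : Type*} [Fintype α] [DecidableEq α] {p : ℕ} [Fact p.Prime] (hα : Fintype.card α = p) (G : Subgroup (Equiv.Perm α)) [MulAction.IsPretransitive G α] (P : Sylow p G) (heven : Even (Nat.card (Subgroup.normalizer ((P : Subgroup G) : Set G)))) (H : Subgroup G) (hH : H.index = p) : ∃ a : α, H = MulAction.stabilizer G a := by
  classical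
  have hp := (Fact.out : p.Prime)
  obtain ⟨a₁⟩ : Nonempty α := Fintype.card_pos_iff.1 (by rw [hα]; exact hp.pos)
  have hstabindex : ∀ a : α, (MulAction.stabilizer G a).index = p := by
    intro a
    rw [MulAction.index_stabilizer_of_transitive, Nat.card_eq_fintype_card, hα]
  -- it is enough to have a fixed point
  suffices hfix : ∃ a : α, ∀ h ∈ H, h • a = a by
    obtain ⟨a, ha⟩ := hfix
    refine ⟨a, ?_⟩
    have hle : H ≤ MulAction.stabilizer G a := fun h hh => ha h hh
    have h1 := Subgroup.relIndex_mul_index hle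
    rw [hstabindex, hH] at h1
    have h2 : H.relIndex (MulAction.stabilizer G a) = 1 := Nat.eq_of_mul_eq_mul_right hp.pos (by rw [h1, one_mul])
    exact le_antisymm hle (Subgroup.relIndex_eq_one.1 h2)
  -- p does not divide |H|
  have hHp : ¬ p ∣ Nat.card H := by
    intro h
    have h1 := Subgroup.card_mul_index H
    rw [hH] at h1
    have h2 : p ^ 2 ∣ Nat.card G := by
      rw [← h1, pow_two]
      exact Nat.mul_dvd_mul h dvd_rfl
    have h3 := Sylow.card_eq_multiplicity P
    rw [CfsgLib.PermP6.card_sylow_eq hα G P] at h3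
    have h4 : 2 ≤ (Nat.card G).factorization p := (hp.pow_dvd_iff_le_factorization Nat.card_pos.ne').1 h2
    have h5 : p ^ 2 ≤ p ^ (Nat.card G).factorization p := Nat.pow_le_pow_right hp.pos h4
    rw [← h3] at h5
    have h6 : p * 1 < p * p := Nat.mul_lt_mul_of_pos_left hp.one_lt hp.pos
    rw [pow_two] at h5
    omega
  by_cases hsol : Group.IsSolvable G
  · obtain ⟨z, e, hz, hzo, hze, haff⟩ := CfsgLib.PermP7.affine_of_solvable hα G hsol
    obtain ⟨a, ha⟩ := CfsgLib.PermP7.fixed_of_affine e (H.map G.subtype) (by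
      rw [Subgroup.card_map_of_injective G.subtype_injective]; exact hHp) (by
      rintro _ ⟨g, hg, rfl⟩
      exact haff g g.2)
    exact ⟨a, fun h hh => ha h ⟨h, hh, rfl⟩⟩
  have h2t : MulAction.IsMultiplyPretransitive G α 2 := (CfsgLib.PermP4.burnside hα G).resolve_left hsol
  rw [CfsgLib.PermG3.mt_two_iff] at h2t
  -- p ≠ 2
  have hp2 : p ≠ 2 := by
    rintro rfl
    apply hsol
    have h1 : Nat.card G ∣ 2 := by
      have := Subgroup.card_subgroup_dvd_card G
      rwa [Nat.card_eq_fintype_card (α := Equiv.Perm α), Fintype.card_perm, hα] at this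
    rcases (Nat.dvd_prime Nat.prime_two).1 h1 with h | h
    · haveI : Subsingleton G := (Nat.card_eq_one_iff_unique.1 h).1
      exact Group.isSolvable_of_comm (fun a b => Subsingleton.elim _ _)
    · haveI : IsCyclic G := isCyclic_of_prime_card h
      exact Group.isSolvable_of_comm (fun a b => (IsCyclic.commGroup (α := G)).mul_comm a b)
  have h2ne : (2 : ZMod p) ≠ 0 := by
    intro h
    have h3 : ((2 : ℕ) : ZMod p) = 0 := by exact_mod_cast h
    rw [ZMod.natCast_eq_zero_iff] at h3
    exact hp2 ((Nat.prime_dvd_prime_iff_eq hp Nat.prime_two).1 h3)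
  obtain ⟨z, t, e, b, hz, ht, hze, hte⟩ := CfsgLib.PermP5.exists_dihedral hα hp2 G P heven
  -- the H-orbit of a₁
  set D : Finset α := Finset.univ.filter (fun x => ∃ h ∈ H, h • a₁ = x) with hD
  have hDmem : ∀ x, x ∈ D ↔ ∃ h ∈ H, h • a₁ = x := by
    intro x; rw [hD, Finset.mem_filter]; exact ⟨fun h => h.2, fun h => ⟨Finset.mem_univ _, h⟩⟩
  have hHD : ∀ h ∈ H, h • D = D := by
    intro h hh
    ext x
    rw [Finset.mem_smul_finset]
    constructor
    · rintro ⟨y, hy, rfl⟩
      obtain ⟨k, hk, rfl⟩ := (hDmem y).1 hy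
      exact (hDmem _).2 ⟨h * k, mul_mem hh hk, by rw [mul_smul]⟩
    · intro hx
      obtain ⟨k, hk, rfl⟩ := (hDmem x).1 hx
      exact ⟨(h⁻¹ * k) • a₁, (hDmem _).2 ⟨h⁻¹ * k, mul_mem (inv_mem hh) hk, rfl⟩, by rw [← mul_smul, mul_inv_cancel_left]⟩
  have ha1D : a₁ ∈ D := (hDmem _).2 ⟨1, one_mem _, one_smul _ _⟩
  have hDne : D ≠ Finset.univ := by
    intro h
    apply hHp
    have h1 : MulAction.orbit H a₁ = Set.univ := by
      rw [Set.eq_univ_iff_forall]
      intro x
      have : x ∈ D := by rw [h]; exact Finset.mem_univ _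
      obtain ⟨k, hk, hkx⟩ := (hDmem x).1 this
      exact ⟨⟨k, hk⟩, hkx⟩
    have h2 := MulAction.card_orbit_mul_card_stabilizer_eq_card_group H a₁
    rw [← Nat.card_eq_fintype_card, ← Nat.card_eq_fintype_card, ← Nat.card_eq_fintype_card, h1, Nat.card_congr (Equiv.Set.univ α), Nat.card_eq_fintype_card (α := α), hα] at h2
    exact ⟨_, h2.symm⟩
  set S := MulAction.stabilizer G D with hS
  have hHS : H ≤ S := fun h hh => hHD h hh
  have hSne : S ≠ ⊤ := by
    intro h
    apply hDne
    rw [Finset.eq_univ_iff_forall]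
    intro x
    obtain ⟨g, hg⟩ := MulAction.exists_smul_eq G a₁ x
    have h1 : g ∈ S := by rw [h]; exact Subgroup.mem_top _
    have h2 : g • D = D := h1
    rw [← h2, ← hg]
    exact Finset.smul_mem_smul_finset ha1D
  have hSindex : S.index = p := by
    have h1 := Subgroup.relIndex_mul_index hHS
    rw [hH] at h1
    rcases (Nat.dvd_prime hp).1 ⟨_, (mul_comm _ _).trans h1 |>.symm⟩ with h | h
    · exact absurd (Subgroup.index_eq_one.1 h) hSne
    · exact h
  -- the Sylow subgroup is transitive on G/S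
  have hPt : MulAction.IsPretransitive P (G ⧸ S) := by
    apply CfsgLib.PermP1.sylow_transitive (f := 1)
    rw [pow_one, ← hSindex]; rfl
  -- powers of z
  set z' : G := ⟨z, hz⟩ with hz'
  have hzn : ∀ (n : ℕ) (x : α), e ((z ^ n) x) = e x + n := by
    intro n
    induction n with
    | zero => intro x; rw [pow_zero, Nat.cast_zero, add_zero]; rfl
    | succ n ih =>
      intro x
      rw [pow_succ, Equiv.Perm.mul_apply, ih, hze, Nat.cast_add, Nat.cast_one]
      ring
  have hzo : orderOf z' = p := by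
    apply orderOf_eq_prime
    · apply Subtype.ext
      ext x
      apply e.injective
      change e ((z ^ p) x) = e x
      rw [hzn, ZMod.natCast_self, add_zero]
    · intro h
      have h1 : z a₁ = a₁ := by
        have := congrArg (fun s : G => (s : Equiv.Perm α) a₁) h
        exact this
      have h2 := hze a₁
      rw [h1] at h2
      have h3 : (1 : ZMod p) = 0 := by linear_combination (-1 : ZMod p) * h2
      exact one_ne_zero h3
  -- every translate of D is z^n D
  have htrans : ∀ g : G, ∃ n : ℕ, g • D = (z' ^ n) • D := by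
    -- use the cyclic group generated by z
    obtain ⟨Q, hQ⟩ : ∃ Q : Sylow p G, z' ∈ (Q : Subgroup G) := by
      obtain ⟨Q, hQ⟩ := IsPGroup.exists_le_sylow (p := p) (P := Subgroup.zpowers z') (IsPGroup.of_card (n := 1) (by rw [Nat.card_zpowers, hzo, pow_one]))
      exact ⟨Q, hQ (Subgroup.mem_zpowers _)⟩
    have hQz : (Q : Subgroup G) = Subgroup.zpowers z' := by
      apply Eq.symm
      apply Subgroup.eq_of_le_of_card_ge
      · rw [Subgroup.zpowers_le]; exact hQ
      · rw [Nat.card_zpowers, hzo]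
        exact Nat.le_of_dvd hp.pos (CfsgLib.PermP5.card_sylow hα G Q)
    have hQt : MulAction.IsPretransitive Q (G ⧸ S) := by
      apply CfsgLib.PermP1.sylow_transitive (f := 1)
      rw [pow_one, ← hSindex]; rfl
    intro g
    obtain ⟨u, hu⟩ := hQt.exists_smul_eq ((1 : G) : G ⧸ S) (g : G ⧸ S)
    have hu1 : (((u : G) * 1 : G) : G ⧸ S) = (g : G ⧸ S) := hu
    rw [mul_one, QuotientGroup.eq] at hu1
    have hu2 : (u : G) ∈ Subgroup.zpowers z' := by rw [← hQz]; exact u.2
    obtain ⟨n, hn⟩ := (Subgroup.mem_zpowers_iff.1 hu2)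
    have hu3 : (u : G) ∈ Submonoid.powers z' := by
      rw [(isOfFinOrder_of_finite z').mem_powers_iff_mem_zpowers]
      exact hu2
    obtain ⟨m, hm⟩ := hu3
    refine ⟨m, ?_⟩
    have hm' : z' ^ m = (u : G) := hm
    rw [hm']
    have h1 : ((u : G)⁻¹ * g) • D = D := hu1
    rw [mul_smul, inv_smul_eq_iff] at h1
    exact h1
  -- difference counts
  set D' : Finset (ZMod p) := D.map e.toEmbedding with hD'
  have hD'mem : ∀ x : α, e x ∈ D' ↔ x ∈ D := by
    intro x
    rw [hD', Finset.mem_map]
    constructor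
    · rintro ⟨y, hy, hxy⟩
      have : y = x := e.injective hxy
      rwa [← this]
    · intro h; exact ⟨x, h, rfl⟩
  -- translates
  have hzD : ∀ (n : ℕ) (x : α), x ∈ (z' ^ n) • D ↔ e x - n ∈ D' := by
    intro n x
    rw [← Finset.inv_smul_mem_iff]
    have h1 : e ((z' ^ n)⁻¹ • x) = e x - n := by
      have h2 := hzn n ((z' ^ n)⁻¹ • x)
      have h3 : (z ^ n) ((z' ^ n)⁻¹ • x) = x := smul_inv_smul (z' ^ n) x
      rw [h3] at h2
      rw [h2]; ring
    rw [← hD'mem, h1]
  -- reflection symmetric
  obtain ⟨c, hc⟩ : ∃ c : ZMod p, ∀ x, x ∈ D' ↔ c - x ∈ D' := by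
    obtain ⟨n, hn⟩ := htrans ⟨t, ht⟩
    refine ⟨b - n, fun x => ?_⟩
    have h1 : ∀ y : α, y ∈ D ↔ t y ∈ (z' ^ n) • D := by
      intro y
      rw [← hn]
      exact (Finset.smul_mem_smul_finset_iff (⟨t, ht⟩ : G)).symm
    have h2 := h1 (e.symm x)
    rw [hzD, ← hD'mem, Equiv.apply_symm_apply, hte, Equiv.apply_symm_apply] at h2
    rw [h2]
    have : -x + b - n = b - n - x := by ring
    rw [this]
  -- constant difference function
  set Bs : Finset (Finset α) := Finset.univ.filter (fun B => ∃ g : G, g • D = B) with hBs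
  have hBmem : ∀ B, B ∈ Bs ↔ ∃ g : G, g • D = B := by
    intro B; rw [hBs, Finset.mem_filter]; exact ⟨fun h => h.2, fun h => ⟨Finset.mem_univ _, h⟩⟩
  have hinv : ∀ (g : G) (x y : α), (Bs.filter (fun B => g • x ∈ B ∧ g • y ∈ B)).card = (Bs.filter (fun B => x ∈ B ∧ y ∈ B)).card := by
    intro g x y
    symm
    apply Finset.card_bij (fun B _ => g • B)
    · intro B hB
      rw [Finset.mem_filter, hBmem] at hB ⊢
      obtain ⟨⟨k, rfl⟩, h1, h2⟩ := hB
      exact ⟨⟨g * k, by rw [mul_smul]⟩, Finset.smul_mem_smul_finset h1, Finset.smul_mem_smul_finset h2⟩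
    · intro B _ B' _ h
      exact smul_left_cancel g h
    · intro B hB
      rw [Finset.mem_filter, hBmem] at hB
      obtain ⟨⟨k, rfl⟩, h1, h2⟩ := hB
      refine ⟨(g⁻¹ * k) • D, ?_, by rw [mul_smul, smul_inv_smul]⟩
      rw [Finset.mem_filter, hBmem]
      refine ⟨⟨_, rfl⟩, ?_, ?_⟩
      · rw [mul_smul, Finset.mem_inv_smul_finset_iff]; exact h1
      · rw [mul_smul, Finset.mem_inv_smul_finset_iff]; exact h2
  -- D' is not invariant under nonzero translations
  have hD'ne : ∃ v, v ∈ D' := ⟨e a₁, (hD'mem _).2 ha1D⟩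
  obtain ⟨w₀, hw₀⟩ : ∃ w, w ∉ D' := by
    by_contra hcon
    push Not at hcon
    apply hDne
    rw [Finset.eq_univ_iff_forall]
    exact fun x => (hD'mem x).1 (hcon _)
  have hnotinv : ∀ δ : ZMod p, (∀ v, v ∈ D' → v + δ ∈ D') → δ = 0 := by
    intro δ hδ
    by_contra hδ0
    obtain ⟨v, hv⟩ := hD'ne
    have h1 : ∀ k : ℕ, v + k * δ ∈ D' := by
      intro k
      induction k with
      | zero => rw [Nat.cast_zero, zero_mul, add_zero]; exact hv
      | succ k ih =>
        have := hδ _ ih
        have h2 : v + ((k + 1 : ℕ) : ZMod p) * δ = v + k * δ + δ := by push_cast; ring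
        rw [h2]; exact this
    apply hw₀
    have h2 := h1 ((w₀ - v) / δ).val
    rw [ZMod.natCast_zmod_val, div_mul_cancel₀ _ hδ0, add_sub_cancel] at h2
    exact h2
  have hcount : ∀ x y : α, (Bs.filter (fun B => x ∈ B ∧ y ∈ B)).card = (D'.filter (fun u => u + (e y - e x) ∈ D')).card := by
    intro x y
    symm
    apply Finset.card_bij (fun u _ => (z' ^ (e x - u).val) • D)
    · intro u hu
      rw [Finset.mem_filter] at hu
      rw [Finset.mem_filter, hBmem, hzD, hzD, ZMod.natCast_zmod_val]
      refine ⟨⟨_, rfl⟩, ?_, ?_⟩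
      · have : e x - (e x - u) = u := by ring
        rw [this]; exact hu.1
      · have : e y - (e x - u) = u + (e y - e x) := by ring
        rw [this]; exact hu.2
    · intro u _ v _ huv
      have huv' : (z' ^ (e x - u).val) • D = (z' ^ (e x - v).val) • D := huv
      have h1 : ∀ w, w ∈ D' → w + (u - v) ∈ D' := by
        intro w hw
        have h2 : e.symm (w + (e x - v)) ∈ (z' ^ (e x - v).val) • D := by
          rw [hzD, ZMod.natCast_zmod_val, Equiv.apply_symm_apply, add_sub_cancel_right]; exact hw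
        rw [← huv', hzD, ZMod.natCast_zmod_val, Equiv.apply_symm_apply] at h2
        have h3 : w + (e x - v) - (e x - u) = w + (u - v) := by ring
        rwa [h3] at h2
      exact sub_eq_zero.1 (hnotinv _ h1)
    · intro B hB
      rw [Finset.mem_filter, hBmem] at hB
      obtain ⟨⟨g, rfl⟩, h1, h2⟩ := hB
      obtain ⟨n, hn⟩ := htrans g
      rw [hn] at h1 h2
      rw [hzD] at h1 h2
      refine ⟨e x - n, ?_, ?_⟩
      · rw [Finset.mem_filter]
        refine ⟨h1, ?_⟩
        have : e x - n + (e y - e x) = e y - n := by ring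
        rw [this]; exact h2
      · rw [hn]
        ext w
        rw [hzD, hzD, ZMod.natCast_zmod_val]
        have : e w - (e x - (e x - n)) = e w - n := by ring
        rw [this]
  -- constant λ for nonzero differences
  have hconst : ∀ d d' : ZMod p, d ≠ 0 → d' ≠ 0 → (D'.filter (fun u => u + d ∈ D')).card = (D'.filter (fun u => u + d' ∈ D')).card := by
    intro d d' hd hd'
    have h1 := hcount (e.symm 0) (e.symm d)
    have h2 := hcount (e.symm 0) (e.symm d')
    rw [Equiv.apply_symm_apply, Equiv.apply_symm_apply, sub_zero] at h1 h2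
    obtain ⟨g, hg1, hg2⟩ := h2t (e.symm 0) (e.symm d) (e.symm 0) (e.symm d')
      (fun h => hd (e.symm.injective h).symm) (fun h => hd' (e.symm.injective h).symm)
    have h3 := hinv g (e.symm 0) (e.symm d)
    rw [hg1, hg2] at h3
    rw [← h1, ← h2, h3]
  -- parity
  have hpar : ∀ y y' : ZMod p, y ≠ c / 2 → y' ≠ c / 2 → (y ∈ D' ↔ y' ∈ D') := by
    intro y y' hy hy'
    have hd : c - 2 * y ≠ 0 := by
      intro h
      apply hy
      rw [eq_div_iff h2ne]
      linear_combination -h
    have hd' : c - 2 * y' ≠ 0 := by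
      intro h
      apply hy'
      rw [eq_div_iff h2ne]
      linear_combination -h
    have h1 := parity h2ne D' c hc (c - 2 * y)
    have h2 := parity h2ne D' c hc (c - 2 * y')
    rw [hconst _ _ hd hd', h2] at h1
    have e1 : (c - (c - 2 * y)) / 2 = y := by
      rw [div_eq_iff h2ne]; ring
    have e2 : (c - (c - 2 * y')) / 2 = y' := by
      rw [div_eq_iff h2ne]; ring
    rw [e1, e2] at h1
    by_cases hyD : y ∈ D' <;> by_cases hyD' : y' ∈ D'
    · exact ⟨fun _ => hyD', fun _ => hyD⟩
    · rw [if_pos hyD, if_neg hyD'] at h1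
      exact absurd h1 (by decide)
    · rw [if_neg hyD, if_pos hyD'] at h1
      exact absurd h1 (by decide)
    · exact ⟨fun h => absurd h hyD, fun h => absurd h hyD'⟩
  refine ⟨e.symm (c / 2), fun h hh => ?_⟩
  have hhD := hHD h hh
  have hmemD : ∀ x, x ∈ D ↔ h • x ∈ D := by
    intro x
    conv_rhs => rw [← hhD]
    exact (Finset.smul_mem_smul_finset_iff h).symm
  by_contra hne
  -- c/2 and its image differ in membership from ...
  set q := e.symm (c / 2) with hq
  have heq : e q = c / 2 := by rw [hq, Equiv.apply_symm_apply]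
  have hqne : e (h • q) ≠ c / 2 := by
    rw [← heq]; exact fun h' => hne (e.injective h')
  -- every other point has the same membership status as h • q, hence as q
  have hall : ∀ x, e x ∈ D' ↔ e q ∈ D' := by
    intro x
    by_cases hx : e x = c / 2
    · rw [hx, heq]
    · rw [hpar _ _ hx hqne, hD'mem, hD'mem]
      exact (hmemD q).symm
  obtain ⟨v, hv⟩ := hD'ne
  have h1 := hall (e.symm v)
  have h2 := hall (e.symm w₀)
  rw [Equiv.apply_symm_apply] at h1 h2
  exact hw₀ (h2.2 (h1.1 hv))

end Cfsg.Agent.S0677
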