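import Cfsg.Statements.S0678
import Cfsg.Agent.Lib.PermP8
import Cfsg.Agent.Lib.PermP6
import Cfsg.Agent.Lib.PermP5
import Cfsg.Agent.Lib.PermP4
import Cfsg.Agent.Lib.PermG3
import Cfsg.Agent.Lib.SylowIn

set_option autoImplicit false
open Cfsg

set_option linter.style.haveILetI false
namespace Cfsg.Agent.S0678

theorem sign_refl (b : ZMod 7) : Equiv.Perm.sign ((Equiv.neg (ZMod 7)).trans (Equiv.addRight b)) = -1 := by
  revert b
  decide +kernel

/-- transitive nonsolvable even groups of degree 7 -/
theorem even_case {α : Type*} [Fintype α] [DecidableEq α] (hα : Fintype.card α = 7) (H : Subgroup (Equiv.Perm α))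
    [MulAction.IsPretransitive H α] (hH : ¬ Group.IsSolvable H) (hA : H ≤ alternatingGroup α) (hA' : H ≠ alternatingGroup α) :
    Nat.card H = 168 := by
  classical
  haveI : Fact (Nat.Prime 7) := ⟨by norm_num⟩
  obtain ⟨P⟩ : Nonempty (Sylow 7 H) := inferInstance
  obtain ⟨d, r, hd, hN, hr, hcard⟩ := CfsgLib.PermP6.card_eq hα H P
  have hd6 : d ∣ 6 := by simpa using hd
  have hdle : d ≤ 6 := Nat.le_of_dvd (by norm_num) hd6
  have hr7 : r % 7 = 1 := hr
  -- d is odd
  have hodd : ¬ Even (Nat.card (Subgroup.normalizer ((P : Subgroup H) : Set H))) := by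
    intro heven
    obtain ⟨z, t, e, b, hz, ht, hze, hte⟩ := CfsgLib.PermP5.exists_dihedral hα (by norm_num) H P heven
    have h1 : Equiv.Perm.sign t = 1 := Equiv.Perm.mem_alternatingGroup.1 (hA ht)
    have h2 : t = (e.trans ((Equiv.neg (ZMod 7)).trans (Equiv.addRight b))).trans e.symm := by
      ext x
      apply e.injective
      rw [hte]
      simp
    have h3 : Equiv.Perm.sign t = -1 := by
      rw [h2, ← sign_refl b]
      have := Equiv.Perm.sign_symm_trans_trans ((Equiv.neg (ZMod 7)).trans (Equiv.addRight b)) e.symm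
      rw [← this]
      rfl
    rw [h1] at h3
    exact absurd h3 (by decide)
  have hdodd : ¬ Even d := by
    intro h
    apply hodd
    rw [hN]
    exact h.mul_left 7
  have hd1 : d ≠ 1 := by
    rintro rfl
    rw [mul_one] at hN
    have h1 := CfsgLib.PermP8.card_of_normalizer hα H P hN
    haveI : IsCyclic H := isCyclic_of_prime_card h1
    exact hH (Group.isSolvable_of_comm (fun a b => (IsCyclic.commGroup (α := H)).mul_comm a b))
  have hd3 : d = 3 := by
    rcases (show d = 1 ∨ d = 2 ∨ d = 3 ∨ d = 6 ∨ d = 4 ∨ d = 5 ∨ d = 0 by omega) with h | h | h | h | h | h | h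
    · exact absurd h hd1
    · exact absurd (by rw [h]; decide) hdodd
    · exact h
    · exact absurd (by rw [h]; decide) hdodd
    · rw [h] at hd6; norm_num at hd6
    · rw [h] at hd6; norm_num at hd6
    · rw [h] at hd6; norm_num at hd6
  subst hd3
  -- order divides 2520 and is divisible by 42
  have hA7 : Nat.card (alternatingGroup α) = 2520 := by
    haveI : Nontrivial α := by rw [← Fintype.one_lt_card_iff_nontrivial, hα]; norm_num
    have := nat_card_alternatingGroup (α := α)
    rw [Nat.card_eq_fintype_card (α := α), hα] at this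
    rw [this]; rfl
  have hdvd : Nat.card H ∣ 2520 := by
    rw [← hA7]; exact Subgroup.card_dvd_of_le hA
  have h2t := (CfsgLib.PermP4.burnside hα H).resolve_left hH
  have h42 : 42 ∣ Nat.card H := by
    have := CfsgLib.PermP8.mt_card_dvd (α := α) h2t (by rw [hα]; norm_num)
    rw [hα] at this
    exact this
  have hne : Nat.card H ≠ 2520 := by
    intro h
    apply hA'
    apply Subgroup.eq_of_le_of_card_ge hA
    rw [hA7, h]
  rw [hcard] at hdvd h42 hne ⊢
  have h1 : r ∣ 120 := by
    have : 21 * r ∣ 21 * 120 := hdvd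
    exact Nat.dvd_of_mul_dvd_mul_left (by norm_num) this
  have h2 : 2 ∣ r := by
    have : 21 * 2 ∣ 21 * r := h42
    exact Nat.dvd_of_mul_dvd_mul_left (by norm_num) this
  have h3 : r ≤ 120 := Nat.le_of_dvd (by norm_num) h1
  have h4 : r ∈ Nat.divisors 120 := by rw [Nat.mem_divisors]; exact ⟨h1, by norm_num⟩
  have h5 : ∀ r ∈ Nat.divisors 120, r % 7 = 1 → 2 ∣ r → r ≠ 120 → r = 8 := by decide +kernel
  have h6 := h5 r h4 hr7 h2 (by rintro rfl; exact hne rfl)
  rw [h6]


/-- A non-solvable transitive permutation group on 7 points that does not contain the alternating group is a simple group of order 168. -/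
theorem result {α : Type*} [Fintype α] [DecidableEq α] (hα : Fintype.card α = 7) (G : Subgroup (Equiv.Perm α)) [MulAction.IsPretransitive G α] (hG : ¬ Group.IsSolvable G) (hA : ¬ alternatingGroup α ≤ G) : Nat.card G = 168 ∧ IsSimpleGroup G := by
  classical
  haveI : Fact (Nat.Prime 7) := ⟨by norm_num⟩
  haveI : Nontrivial α := by rw [← Fintype.one_lt_card_iff_nontrivial, hα]; norm_num
  haveI hprim : MulAction.IsPreprimitive G α := by
    apply MulAction.IsPreprimitive.of_prime_card
    rw [Nat.card_eq_fintype_card, hα]; norm_num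
  -- the even part
  set H : Subgroup (Equiv.Perm α) := G ⊓ alternatingGroup α with hH
  have hHn : (H.subgroupOf G).Normal := by
    rw [hH, Subgroup.inf_subgroupOf_left]
    infer_instance
  have hidx : (H.subgroupOf G).index ∣ 2 := by
    have h1 := Subgroup.relIndex_dvd_index_of_normal (alternatingGroup α) G
    rw [alternatingGroup.index_eq_two] at h1
    rw [hH, Subgroup.inf_subgroupOf_left]
    exact h1
  have hquot : Group.IsSolvable (G ⧸ (H.subgroupOf G)) := by
    have h1 : Nat.card (G ⧸ (H.subgroupOf G)) ∣ 2 := hidx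
    rcases (Nat.dvd_prime Nat.prime_two).1 h1 with h | h
    · haveI : Subsingleton (G ⧸ (H.subgroupOf G)) := (Nat.card_eq_one_iff_unique.1 h).1
      exact Group.isSolvable_of_comm (fun a b => Subsingleton.elim _ _)
    · haveI : IsCyclic (G ⧸ (H.subgroupOf G)) := isCyclic_of_prime_card h
      exact Group.isSolvable_of_comm (fun a b => (IsCyclic.commGroup (α := G ⧸ (H.subgroupOf G))).mul_comm a b)
  have hHs : ¬ Group.IsSolvable (H.subgroupOf G) := by
    intro hs
    apply hG
    exact Group.isSolvable_of_ker_le_range (H.subgroupOf G).subtype (QuotientGroup.mk' (H.subgroupOf G)) (by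
      rw [QuotientGroup.ker_mk', Subgroup.range_subtype])
  have hHne : H.subgroupOf G ≠ ⊥ := by
    intro h
    apply hHs
    rw [h]
    infer_instance
  haveI hHt' := CfsgLib.PermP7.normal_transitive hα G (H.subgroupOf G) hHn hHne
  haveI hHt : MulAction.IsPretransitive H α := by
    refine ⟨fun x y => ?_⟩
    obtain ⟨g, hg⟩ := MulAction.exists_smul_eq (H.subgroupOf G) x y
    exact ⟨⟨((g : G) : Equiv.Perm α), g.2⟩, hg⟩
  have hHs' : ¬ Group.IsSolvable H := by
    intro hs
    apply hHs
    haveI := hs
    exact Group.isSolvable_of_isSolvable_injective (f := (Subgroup.subgroupOfEquivOfLe (inf_le_left : H ≤ G)).toMonoidHom) (MulEquiv.injective _)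
  have hHne' : H ≠ alternatingGroup α := by
    intro h
    apply hA
    rw [← h]
    exact inf_le_left
  have hH168 := even_case hα H hHs' inf_le_right hHne'
  -- G = H
  have hcardG : Nat.card G = 168 := by
    have h1 := Subgroup.card_mul_index (H.subgroupOf G)
    have h2 : Nat.card (H.subgroupOf G) = 168 := by
      rw [← hH168]
      exact Nat.card_congr (Subgroup.subgroupOfEquivOfLe (inf_le_left : H ≤ G)).toEquiv
    rw [h2] at h1
    rcases (Nat.dvd_prime Nat.prime_two).1 hidx with h | h
    · rw [h] at h1; omega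
    · exfalso
      rw [h] at h1
      have hG336 : Nat.card G = 336 := by omega
      -- Sylow 2-subgroups of G are Sylow in Sym(7)
      haveI : Fact (Nat.Prime 2) := ⟨Nat.prime_two⟩
      obtain ⟨Q⟩ : Nonempty (Sylow 2 G) := inferInstance
      have hQ : Nat.card Q = 16 := by
        rw [Q.card_eq_multiplicity, hG336]
        have : (336 : ℕ).factorization 2 = 4 := by
          rw [show (336 : ℕ) = 2 ^ 4 * 21 by norm_num, Nat.factorization_mul (by norm_num) (by norm_num), Nat.Prime.factorization_pow Nat.prime_two]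
          simp [Nat.factorization_eq_zero_of_not_dvd (show ¬ 2 ∣ 21 by norm_num)]
        rw [this]; norm_num
      have hsyl : CfsgLib.SylowIn.IsSylowIn 2 ((Q : Subgroup G).map G.subtype) (⊤ : Subgroup (Equiv.Perm α)) := by
        refine ⟨le_top, Q.2.map _, ?_⟩
        intro T _ hT
        obtain ⟨m, hm⟩ := IsPGroup.iff_card.1 hT
        have h3 : 2 ^ m ∣ 5040 := by
          rw [← hm]
          have := Subgroup.card_subgroup_dvd_card T
          rwa [Nat.card_eq_fintype_card (α := Equiv.Perm α), Fintype.card_perm, hα] at this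
        rw [Subgroup.card_map_of_injective G.subtype_injective, hm]
        have hQ' : Nat.card (Q : Subgroup G) = 16 := hQ
        rw [hQ']
        have h4 : m ≤ 4 := by
          by_contra hcon
          push Not at hcon
          have : 2 ^ 5 ∣ 5040 := (pow_dvd_pow 2 hcon).trans h3
          norm_num at this
        calc 2 ^ m ≤ 2 ^ 4 := Nat.pow_le_pow_right (by norm_num) h4
          _ = 16 := by norm_num
      obtain ⟨a, b, hab⟩ := exists_pair_ne α
      obtain ⟨g, -, hg⟩ := hsyl.exists_conj (T := Subgroup.zpowers (Equiv.swap a b)) le_top (by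
        apply IsPGroup.of_card (n := 1)
        rw [Nat.card_zpowers, pow_one]
        exact orderOf_eq_prime (by rw [pow_two, Equiv.swap_mul_self]) (fun h => hab (Equiv.swap_eq_one_iff.1 h)))
      have h5 := hg _ (Subgroup.mem_zpowers _)
      obtain ⟨w, hw, hw2⟩ := h5
      have h6 : g * Equiv.swap a b * g⁻¹ ∈ G := by rw [← hw2]; exact w.2
      have h7 : (g * Equiv.swap a b * g⁻¹).IsSwap := by
        refine ⟨g a, g b, fun h => hab (g.injective h), ?_⟩
        rw [Equiv.swap_apply_apply]
      have h8 := Equiv.Perm.subgroup_eq_top_of_isPreprimitive_of_isSwap_mem hprim _ h7 h6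
      exact hA (by rw [h8]; exact le_top)
  refine ⟨hcardG, ?_⟩
  have hGH : G = H := by
    symm
    apply Subgroup.eq_of_le_of_card_ge inf_le_left
    rw [hH168, hcardG]
  have hGA : G ≤ alternatingGroup α := by rw [hGH]; exact inf_le_right
  haveI : Nontrivial G := by
    rw [← Finite.one_lt_card_iff_nontrivial, hcardG]; norm_num
  refine { eq_bot_or_eq_top_of_normal := ?_ }
  intro N hN
  by_cases hNb : N = ⊥
  · exact Or.inl hNb
  right
  haveI hNt := CfsgLib.PermP7.normal_transitive hα G N hN hNb
  set N' := N.map G.subtype with hN'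
  haveI hN't : MulAction.IsPretransitive N' α := by
    refine ⟨fun x y => ?_⟩
    obtain ⟨g, hg⟩ := MulAction.exists_smul_eq N x y
    exact ⟨⟨((g : G) : Equiv.Perm α), (g : G), g.2, rfl⟩, hg⟩
  by_cases hNs : Group.IsSolvable N'
  · exfalso
    apply hG
    apply CfsgLib.PermP8.solvable_of_normal hα G N' ?_ hNs
    rintro g hg _ ⟨n, hn, rfl⟩
    exact ⟨⟨g, hg⟩ * n * ⟨g, hg⟩⁻¹, hN.conj_mem n hn ⟨g, hg⟩, rfl⟩
  · have hN'G : N' ≤ G := by
      rintro _ ⟨n, hn, rfl⟩
      exact n.2
    have h1 := even_case hα N' hNs (hN'G.trans hGA) (by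
      intro h
      apply hA
      rw [← h]; exact hN'G)
    apply Subgroup.eq_top_of_card_eq
    rw [hcardG, ← h1, hN', Subgroup.card_map_of_injective G.subtype_injective]

end Cfsg.Agent.S0678
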