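import Cfsg.Statements.S0680
import Cfsg.Agent.Lib.PermG4

set_option autoImplicit false
open Cfsg

open scoped Pointwise
namespace Cfsg.Agent.S0680

/-- A finite sharply doubly transitive permutation group has degree a prime power `p ^ j`; a Sylow `p`-subgroup is normal, elementary abelian and regular, and consists of the identity together with the elements without fixed points. (Frobenius' Theorem is not needed.) -/
theorem result {α : Type*} [Fintype α] [DecidableEq α] (G : Subgroup (Equiv.Perm α)) [MulAction.IsMultiplyPretransitive G α 2] (hsharp : ∀ x : Fin 2 ↪ α, MulAction.stabilizer G x = ⊥) (h2 : 2 ≤ Fintype.card α) : ∃ p j : ℕ, p.Prime ∧ 1 ≤ j ∧ Fintype.card α = p ^ j ∧ ∀ (hp : Fact p.Prime) (P : Sylow p G), (P : Subgroup G).Normal ∧ IsMulCommutative (P : Subgroup G) ∧ (∀ x ∈ (P : Subgroup G), x ^ p = 1) ∧ MulAction.IsPretransitive (P : Subgroup G) α ∧ (∀ a : α, MulAction.stabilizer (P : Subgroup G) a = ⊥) ∧ ∀ g : G, g ∈ (P : Subgroup G) ↔ g = 1 ∨ ∀ a : α, g • a ≠ a := by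
  classical
  obtain ⟨p, j, A, hp, hj1, hj, hAn, hAc, hAp, hAcard, hAmem⟩ := CfsgLib.PermG4.sharp_two_kernel G inferInstance hsharp h2
  refine ⟨p, j, hp, hj1, hj, ?_⟩
  intro hpf P
  -- P = A
  have hcardG := CfsgLib.PermG4.card_sharp_two G inferInstance hsharp h2
  have hApg : IsPGroup p A := by
    intro x
    refine ⟨1, ?_⟩
    rw [pow_one]
    exact Subtype.ext (hAp x x.2)
  have hPA : (P : Subgroup G) = A := by
    have hle : A ≤ (P : Subgroup G) := by
      obtain ⟨Q, hQ⟩ := hApg.exists_le_sylow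
      obtain ⟨g, hg⟩ := MulAction.exists_smul_eq G Q P
      rw [← hg]
      intro x hx
      rw [Sylow.coe_subgroup_smul, Subgroup.mem_pointwise_smul_iff_inv_smul_mem]
      apply hQ
      rw [← map_inv, MulAut.smul_def, MulAut.conj_apply]
      exact hAn.conj_mem x hx _
    apply Eq.symm
    apply Subgroup.eq_of_le_of_card_ge hle
    rw [hAcard, hj, Sylow.card_eq_multiplicity, hcardG, hj]
    apply Nat.pow_le_pow_right hp.pos
    rw [Nat.factorization_mul (pow_pos hp.pos j).ne' (by
      have := hp.two_le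
      have h3 : p ^ 1 ≤ p ^ j := Nat.pow_le_pow_right hp.pos hj1
      omega), Finsupp.add_apply, hp.factorization_pow, Finsupp.single_eq_same]
    have h4 : (p ^ j - 1).factorization p = 0 := by
      apply Nat.factorization_eq_zero_of_not_dvd
      intro h5
      have h6 : p ∣ p ^ j := dvd_pow_self p (by omega)
      have h7 : p ∣ 1 := by
        have h8 := Nat.dvd_sub h6 h5
        have h9 : p ^ j - (p ^ j - 1) = 1 := by
          have : 0 < p ^ j := pow_pos hp.pos _
          omega
        rwa [h9] at h8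
      exact hp.one_lt.ne' (Nat.dvd_one.1 h7)
    rw [h4]
    simp
  rw [hPA]
  have hst : ∀ a : α, MulAction.stabilizer A a = ⊥ := by
    intro a
    rw [Subgroup.eq_bot_iff_forall]
    intro x hx
    rcases (hAmem x).1 x.2 with h | h
    · exact Subtype.ext h
    · exact absurd hx (h a)
  refine ⟨hAn, ⟨⟨fun x y => Subtype.ext (hAc x x.2 y y.2)⟩⟩, hAp, ?_, hst, hAmem⟩
  have hne : Nonempty α := Fintype.card_pos_iff.1 (by omega)
  obtain ⟨a₀⟩ := hne
  have hbij : Function.Bijective (fun s : A => s • a₀) := by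
    rw [Fintype.bijective_iff_injective_and_card]
    constructor
    · intro s t h
      have h' : s • a₀ = t • a₀ := h
      have : t⁻¹ * s ∈ MulAction.stabilizer A a₀ := by
        rw [MulAction.mem_stabilizer_iff, mul_smul, h', inv_smul_smul]
      rw [hst, Subgroup.mem_bot, inv_mul_eq_one] at this
      exact this.symm
    · rw [← hAcard, Nat.card_eq_fintype_card]
  refine ⟨fun a b => ?_⟩
  obtain ⟨s, hs⟩ := hbij.2 a
  obtain ⟨t, ht⟩ := hbij.2 b
  refine ⟨t * s⁻¹, ?_⟩
  change s • a₀ = a at hs
  change t • a₀ = b at ht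
  rw [mul_smul, ← hs, inv_smul_smul, ht]

end Cfsg.Agent.S0680
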