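import Cfsg.Statements.S0681
import Cfsg.Agent.Lib.PermG3

set_option autoImplicit false
open Cfsg

open scoped Pointwise
namespace Cfsg.Agent.S0681

/-- The affine maps `x ↦ x * a + b`, `a ≠ 0`, of a near-field form a sharply doubly transitive permutation group. -/
theorem result {F : Type*} [Cfsg.NearField F] : ∃ H : Subgroup (Equiv.Perm F), (∀ σ : Equiv.Perm F, σ ∈ H ↔ ∃ a b : F, a ≠ 0 ∧ ∀ x : F, σ x = x * a + b) ∧ MulAction.IsMultiplyPretransitive H F 2 ∧ ∀ x : Fin 2 ↪ F, MulAction.stabilizer H x = ⊥ := by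
  classical
  have hneg : ∀ a c : F, (-a) * c = -(a * c) := by
    intro a c
    have hzero : (0 : F) * c = 0 := by
      have h1 := NearField.right_distrib (0 : F) 0 c
      rw [add_zero] at h1
      exact (left_eq_add (a := (0 : F) * c)).1 h1
    rw [eq_neg_iff_add_eq_zero, ← NearField.right_distrib, neg_add_cancel, hzero]
  have hmulne : ∀ a b : F, a ≠ 0 → b ≠ 0 → a * b ≠ 0 := by
    intro a b ha hb h
    obtain ⟨d, hd, hd'⟩ := NearField.exists_inv b hb
    have hzero : (0 : F) * d = 0 := by
      have h1 := NearField.right_distrib (0 : F) 0 d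
      rw [add_zero] at h1
      exact (left_eq_add (a := (0 : F) * d)).1 h1
    apply ha
    rw [← mul_one a, ← hd, ← mul_assoc, h, hzero]
  let H : Subgroup (Equiv.Perm F) :=
    { carrier := {σ | ∃ a b : F, a ≠ 0 ∧ ∀ x : F, σ x = x * a + b}
      mul_mem' := by
        rintro σ τ ⟨a, b, ha, hσ⟩ ⟨c, d, hc, hτ⟩
        refine ⟨c * a, d * a + b, hmulne c a hc ha, fun x => ?_⟩
        rw [Equiv.Perm.mul_apply, hτ, hσ, NearField.right_distrib, mul_assoc, add_assoc]
      one_mem' := ⟨1, 0, Ne.symm NearField.zero_ne_one, fun x => by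
        rw [mul_one, add_zero]; rfl⟩
      inv_mem' := by
        rintro σ ⟨a, b, ha, hσ⟩
        obtain ⟨d, hd, hd'⟩ := NearField.exists_inv a ha
        refine ⟨d, (-b) * d, ?_, fun x => ?_⟩
        · rintro rfl
          rw [NearField.mul_zero] at hd
          exact NearField.zero_ne_one hd
        · apply σ.injective
          rw [CfsgLib.PermG3.apply_inv, hσ, ← NearField.right_distrib, mul_assoc, hd', mul_one,
            add_assoc, neg_add_cancel, add_zero] }
  have hH : ∀ σ : Equiv.Perm F, σ ∈ H ↔ ∃ a b : F, a ≠ 0 ∧ ∀ x : F, σ x = x * a + b := fun σ => Iff.rfl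
  -- constructing maps
  have hmk : ∀ a b : F, a ≠ 0 → ∃ σ : H, ∀ x : F, σ • x = x * a + b := by
    intro a b ha
    obtain ⟨d, hd, hd'⟩ := NearField.exists_inv a ha
    let σ : Equiv.Perm F :=
      { toFun := fun x => x * a + b
        invFun := fun y => (y + -b) * d
        left_inv := by
          intro x
          change (x * a + b + -b) * d = x
          rw [add_assoc, add_neg_cancel, add_zero, mul_assoc, hd, mul_one]
        right_inv := by
          intro y
          change (y + -b) * d * a + b = y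
          rw [mul_assoc, hd', mul_one, add_assoc, neg_add_cancel, add_zero] }
    exact ⟨⟨σ, (hH σ).2 ⟨a, b, ha, fun x => rfl⟩⟩, fun x => rfl⟩
  refine ⟨H, hH, ?_, ?_⟩
  · rw [CfsgLib.PermG3.mt_two_iff]
    -- move (0,1) to any pair
    have key : ∀ c d : F, c ≠ d → ∃ g : H, g • (0 : F) = c ∧ g • (1 : F) = d := by
      intro c d hcd
      obtain ⟨g, hg⟩ := hmk (d + -c) c (by
        intro h
        apply hcd
        rw [add_neg_eq_zero] at h
        exact h.symm)
      have hzero : (0 : F) * (d + -c) = 0 := by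
        have h1 := NearField.right_distrib (0 : F) 0 (d + -c)
        rw [add_zero] at h1
        exact (left_eq_add (a := (0 : F) * (d + -c))).1 h1
      refine ⟨g, ?_, ?_⟩
      · rw [hg, hzero, zero_add]
      · rw [hg, one_mul, add_assoc, neg_add_cancel, add_zero]
    intro x y c d hxy hcd
    obtain ⟨g, hg1, hg2⟩ := key x y hxy
    obtain ⟨g', hg1', hg2'⟩ := key c d hcd
    refine ⟨g' * g⁻¹, ?_, ?_⟩
    · rw [mul_smul, ← hg1, inv_smul_smul, hg1']
    · rw [mul_smul, ← hg2, inv_smul_smul, hg2']
  · intro x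
    rw [Subgroup.eq_bot_iff_forall]
    intro σ hσ
    obtain ⟨a, b, ha, hab⟩ := (hH (σ : Equiv.Perm F)).1 σ.2
    have hσ0 : x 0 * a + b = x 0 := by
      have := DFunLike.congr_fun hσ 0
      rw [← hab]; exact this
    have hσ1 : x 1 * a + b = x 1 := by
      have := DFunLike.congr_fun hσ 1
      rw [← hab]; exact this
    have hne : x 0 ≠ x 1 := fun h => by
      have := x.injective h
      exact absurd this (by decide)
    -- (x0 - x1) a = x0 - x1
    have h1 : (x 0 + -(x 1)) * a = x 0 + -(x 1) := by
      rw [NearField.right_distrib, hneg]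
      have h2 : x 0 * a = x 0 + -b := by
        rw [← hσ0, add_assoc, add_neg_cancel, add_zero, hσ0]
      have h3 : x 1 * a = x 1 + -b := by
        rw [← hσ1, add_assoc, add_neg_cancel, add_zero, hσ1]
      rw [h2, h3, neg_add_rev, neg_neg, add_assoc, neg_add_cancel_left]
    have ha1 : a = 1 := by
      have hd0 : x 0 + -(x 1) ≠ 0 := fun h => hne (add_neg_eq_zero.1 h)
      obtain ⟨d, hd, hd'⟩ := NearField.exists_inv _ hd0
      calc a = d * (x 0 + -(x 1)) * a := by rw [hd', one_mul]
        _ = 1 := by rw [mul_assoc, h1, hd']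
    subst ha1
    have hb : b = 0 := by
      rw [mul_one] at hσ0
      exact add_eq_left.1 hσ0
    subst hb
    apply Subtype.ext
    ext y
    rw [hab, mul_one, add_zero]
    rfl

end Cfsg.Agent.S0681
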