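import Cfsg.Statements.S0683
import Cfsg.Agent.Lib.PermG5

set_option autoImplicit false
open Cfsg

namespace Cfsg.Agent.S0683

/-- A finite sharply doubly transitive permutation group is the affine group of a near-field: the permuted set carries a near-field structure for which the group consists exactly of the maps `x ↦ x * a + b` with `a ≠ 0`. -/
theorem result {α : Type*} [Fintype α] [DecidableEq α] (H : Subgroup (Equiv.Perm α)) [MulAction.IsMultiplyPretransitive H α 2] (hsharp : ∀ x : Fin 2 ↪ α, MulAction.stabilizer H x = ⊥) (h2 : 2 ≤ Fintype.card α) : ∃ _ : Cfsg.NearField α, ∀ σ : Equiv.Perm α, σ ∈ H ↔ ∃ a b : α, a ≠ 0 ∧ ∀ x : α, σ x = x * a + b := by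
  classical
  obtain ⟨a₀, a₁, h01⟩ := Fintype.one_lt_card_iff.1 (show 1 < Fintype.card α by omega)
  obtain ⟨nf, -, -, -, h, -⟩ := CfsgLib.PermG5.exists_nearField H inferInstance hsharp a₀ a₁ h01
  exact ⟨nf, h⟩

end Cfsg.Agent.S0683
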