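import Cfsg.Statements.S0690
import Mathlib
import Cfsg.Agent.Lib.H3Zas19

set_option autoImplicit false
open Cfsg

set_option linter.style.haveILetI false
namespace Cfsg.Agent.S0690

/-- Zassenhaus: a perfect non-trivial group of fixed-point-free automorphisms of a finite group is isomorphic to `SL(2,5)`. -/
theorem result {K : Type*} [Group K] [Finite K] (G : Subgroup (MulAut K)) (hfpf : ∀ φ ∈ G, φ ≠ 1 → ∀ k : K, φ k = k → k = 1) (hperf : commutator G = ⊤) (hne : G ≠ ⊥) : Nonempty (G ≃* Matrix.SpecialLinearGroup (Fin 2) (ZMod 5)) := by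
  haveI hKn : Nontrivial K := by
    by_contra h0
    rw [not_nontrivial_iff_subsingleton] at h0
    apply hne
    rw [eq_bot_iff]
    intro φ _
    rw [Subgroup.mem_bot]
    ext k
    exact Subsingleton.elim _ _
  have hφ : ∀ g : G, g ≠ 1 → ∀ a, G.subtype g a = a → a = 1 := fun g hg a ha => hfpf g g.2 (fun h0 => hg (Subtype.ext h0)) a ha
  have hns : ¬ Group.IsSolvable G := by
    intro hs
    haveI : Nontrivial G := (Subgroup.nontrivial_iff_ne_bot G).2 hne
    have := Group.IsSolvable.commutator_lt_top_of_nontrivial (G := G)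
    rw [hperf] at this
    exact lt_irrefl _ this
  exact CfsgLib.H3Zas.perfect_iso (CfsgLib.H3Zas.hasFree_of_nonsolvable G.subtype hφ hns) hns hperf

end Cfsg.Agent.S0690
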