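import Cfsg.Statements.S0691
import Cfsg.Agent.Lib.MatList

set_option autoImplicit false
open Cfsg

set_option linter.style.haveILetI false
namespace Cfsg.Agent.S0691

open CfsgLib.MatList in
theorem chk : check 5 [(2,0,0,3),(0,4,1,0),(1,2,1,3)] (([[], [0], [1], [2], [0,0], [1,0], [2,0], [0,1], [2,1], [1,2], [2,2], [0,0,0], [1,0,0], [2,0,0], [1,2,0], [2,2,0], [2,0,1], [2,2,1], [0,1,2], [2,1,2], [2,2,0,0], [2,1,2,0], [2,2,0,1], [2,0,1,2]] : List (List ℕ)).map (evalN 5 [(2,0,0,3),(0,4,1,0),(1,2,1,3)])) = true := by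
  decide +kernel

open CfsgLib.MatList in
theorem chk2 : (([[], [0], [1], [2], [0,0], [1,0], [2,0], [0,1], [2,1], [1,2], [2,2], [0,0,0], [1,0,0], [2,0,0], [1,2,0], [2,2,0], [2,0,1], [2,2,1], [0,1,2], [2,1,2], [2,2,0,0], [2,1,2,0], [2,2,0,1], [2,0,1,2]] : List (List ℕ)).map (evalN 5 [(2,0,0,3),(0,4,1,0),(1,2,1,3)])).all (fun x => !(x.1 == 1 && x.2.2.1 == 0) || x == oneq) = true := by
  decide +kernel


/-- An exceptional sharply doubly transitive group of degree 5^2: the listed matrices generate a subgroup of GL(2,5) of order 24 acting regularly on the non-zero vectors. -/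
theorem result (A : Matrix.GeneralLinearGroup (Fin 2) (ZMod 5)) (B : Matrix.GeneralLinearGroup (Fin 2) (ZMod 5)) (C : Matrix.GeneralLinearGroup (Fin 2) (ZMod 5)) (hA : (A : Matrix (Fin 2) (Fin 2) (ZMod 5)) = !![2, 0; 0, -2]) (hB : (B : Matrix (Fin 2) (Fin 2) (ZMod 5)) = !![0, -1; 1, 0]) (hC : (C : Matrix (Fin 2) (Fin 2) (ZMod 5)) = !![1, 2; 1, -2]) : Nat.card (Subgroup.closure ({A, B, C} : Set (Matrix.GeneralLinearGroup (Fin 2) (ZMod 5)))) = 24 ∧ ∀ v w : Fin 2 → ZMod 5, v ≠ 0 → w ≠ 0 → ∃! h : Subgroup.closure ({A, B, C} : Set (Matrix.GeneralLinearGroup (Fin 2) (ZMod 5))), Matrix.mulVec ((h : Matrix.GeneralLinearGroup (Fin 2) (ZMod 5)) : Matrix (Fin 2) (Fin 2) (ZMod 5)) v = w := by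
  classical
  haveI : Fact (Nat.Prime 5) := ⟨by norm_num⟩
  have hm := CfsgLib.MatList.closure_list (q := 5) [(2,0,0,3),(0,4,1,0),(1,2,1,3)] (fun i => [A, B, C].getD i 1) (by
    intro i
    match i with
    | 0 => change (A : Matrix (Fin 2) (Fin 2) (ZMod 5)) = _; rw [hA]; decide
    | 1 => change (B : Matrix (Fin 2) (Fin 2) (ZMod 5)) = _; rw [hB]; decide
    | 2 => change (C : Matrix (Fin 2) (Fin 2) (ZMod 5)) = _; rw [hC]; decide
    | (n + 3) => exact (CfsgLib.MatList.toM_one 5).symm) {A, B, C} (by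
    intro s hs
    rcases hs with rfl | rfl | rfl
    · exact ⟨0, by decide, rfl⟩
    · exact ⟨1, by decide, rfl⟩
    · exact ⟨2, by decide, rfl⟩) (by
    intro i
    match i with
    | 0 => exact Subgroup.subset_closure (by simp)
    | 1 => exact Subgroup.subset_closure (by simp)
    | 2 => exact Subgroup.subset_closure (by simp)
    | (n + 3) => exact one_mem _) [[], [0], [1], [2], [0,0], [1,0], [2,0], [0,1], [2,1], [1,2], [2,2], [0,0,0], [1,0,0], [2,0,0], [1,2,0], [2,2,0], [2,0,1], [2,2,1], [0,1,2], [2,1,2], [2,2,0,0], [2,1,2,0], [2,2,0,1], [2,0,1,2]] chk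
  have hcard : Nat.card (Subgroup.closure ({A, B, C} : Set (GL (Fin 2) (ZMod 5)))) = 24 := hm.1
  refine ⟨hcard, CfsgLib.MatList.regular_of_card _ (by rw [hcard]; norm_num) ?_⟩
  intro M hM h0 h1
  obtain ⟨x, hx, hMx⟩ := hm.2 M hM
  have hred := List.all_eq_true.1 chk2 x hx
  have hr : CfsgLib.MatList.red 5 x = true := by
    have := chk
    unfold CfsgLib.MatList.check at this
    simp only [Bool.and_eq_true, List.all_eq_true] at this
    exact this.1.1.1 x hx
  have hx1 : x = CfsgLib.MatList.oneq := by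
    unfold CfsgLib.MatList.red at hr
    simp only [Bool.and_eq_true, decide_eq_true_eq] at hr
    rw [hMx] at h0 h1
    simp only [CfsgLib.MatList.toM, Matrix.of_apply, Matrix.cons_val', Matrix.cons_val_zero, Matrix.cons_val_one, Matrix.cons_val_fin_one] at h0 h1
    have e0 : x.1 = 1 := by
      have h2 : ((x.1 : ℕ) : ZMod 5) = ((1 : ℕ) : ZMod 5) := by rw [h0, Nat.cast_one]
      rw [ZMod.natCast_eq_natCast_iff, Nat.ModEq, Nat.mod_eq_of_lt, Nat.mod_eq_of_lt] at h2
      all_goals omega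
    have e1 : x.2.2.1 = 0 := by
      have h2 : ((x.2.2.1 : ℕ) : ZMod 5) = ((0 : ℕ) : ZMod 5) := by rw [h1, Nat.cast_zero]
      rw [ZMod.natCast_eq_natCast_iff, Nat.ModEq, Nat.mod_eq_of_lt, Nat.mod_eq_of_lt] at h2
      all_goals omega
    rw [e0, e1] at hred
    simpa using hred
  apply Units.ext
  rw [hMx, hx1, CfsgLib.MatList.toM_one]
  rfl

end Cfsg.Agent.S0691
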