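import Cfsg.Statements.S0697
import Cfsg.Agent.Lib.PermJ2

set_option autoImplicit false
open Cfsg

set_option linter.style.haveILetI false
namespace Cfsg.Agent.S0697

/-- In a `k`-primitive permutation group which is not the whole symmetric group, a non-trivial non-regular normal subgroup is `k`-transitive. -/
theorem result {α : Type*} [Fintype α] [DecidableEq α] (G : Subgroup (Equiv.Perm α)) {k : ℕ} (hk : 1 ≤ k) (hkn : k ≤ Fintype.card α) (hG : MulAction.IsMultiplyPreprimitive G α k) (htop : G ≠ ⊤) (H : Subgroup G) [H.Normal] (hH : H ≠ ⊥) (hnr : ∃ a : α, MulAction.stabilizer H a ≠ ⊥) : MulAction.IsMultiplyPretransitive H α k := by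
  classical
  haveI : FaithfulSMul G α := ⟨fun {g h} hgh => Subtype.ext (Equiv.ext hgh)⟩
  apply CfsgLib.PermJ2.normal_mt k G α hk hkn hG (Or.inr ?_) H hnr
  intro hall
  apply htop
  rw [Subgroup.eq_top_iff']
  intro σ
  obtain ⟨g, hg⟩ := hall σ
  have : (g : Equiv.Perm α) = σ := Equiv.ext hg
  rw [← this]
  exact g.2

end Cfsg.Agent.S0697
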