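import Cfsg.Statements.S0699
import Cfsg.Agent.Lib.PermJ3
import Cfsg.Agent.Lib.PermJ2
import Cfsg.Agent.Lib.PermG6
import Cfsg.Agent.Lib.H5Perm

set_option autoImplicit false
open Cfsg

open scoped Pointwise
namespace Cfsg.Agent.S0699

/-- Wagner's Theorem: a non-trivial normal subgroup of a triply transitive permutation group of odd degree at least 5 is triply transitive. -/
theorem result {α : Type*} [Fintype α] [DecidableEq α] (G : Subgroup (Equiv.Perm α)) (hodd : Odd (Fintype.card α)) (h5 : 5 ≤ Fintype.card α) (hG : MulAction.IsMultiplyPretransitive G α 3) (N : Subgroup G) [N.Normal] (hN : N ≠ ⊥) : MulAction.IsMultiplyPretransitive N α 3 := by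
  classical
  rcases CfsgLib.PermJ2.jordan_normal G (k := 3) (by norm_num) (by omega) hG N hN with h2 | ⟨-, -, -, -, m, hm⟩
  swap
  · exfalso
    rw [hm] at hodd h5
    rcases Nat.eq_zero_or_pos m with rfl | hm0
    · norm_num at h5
    · rw [Nat.odd_pow_iff (by omega)] at hodd
      exact absurd hodd (by decide)
  change MulAction.IsMultiplyPretransitive N α 2 at h2
  have h2' := CfsgLib.PermG3.mt_two_iff.1 h2
  -- N as a subgroup of Perm α
  set N' : Subgroup (Equiv.Perm α) := N.map G.subtype with hN'
  have hmemN' : ∀ n : N, ((n : G) : Equiv.Perm α) ∈ N' := fun n => ⟨n, n.2, rfl⟩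
  have hcomp : ∀ n ∈ N', ∃ m : N, ((m : G) : Equiv.Perm α) = n := by
    rintro _ ⟨x, hx, rfl⟩
    exact ⟨⟨x, hx⟩, rfl⟩
  -- swapping two points and fixing a third
  have hswap : ∀ a b c : α, a ≠ b → a ≠ c → b ≠ c → ∃ n ∈ N', n a = b ∧ n b = a ∧ n c = c := by
    have hsome : ∀ a b : α, a ≠ b → ∃ c, a ≠ c ∧ b ≠ c ∧ ∃ n ∈ N', n a = b ∧ n b = a ∧ n c = c := by
      intro a b hab
      obtain ⟨n, hna, hnb⟩ := h2' a b b a hab hab.symm
      obtain ⟨t, hpt, htp⟩ := CfsgLib.H5Sylow.exists_pow_isPGroup 2 n
      have hodd_t : ∀ t : ℕ, (n ^ (2 * t)) • a = a ∧ (n ^ (2 * t)) • b = b := by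
        intro t
        induction t with
        | zero => rw [mul_zero, pow_zero, one_smul, one_smul]; exact ⟨rfl, rfl⟩
        | succ t ih =>
          have e : 2 * (t + 1) = 2 * t + 1 + 1 := by ring
          rw [e, pow_succ, pow_succ, mul_smul, mul_smul, mul_smul, mul_smul, hna, hnb, hna]
          exact ih
      obtain ⟨q, hq⟩ : ∃ q, t = 2 * q + 1 := ⟨t / 2, by omega⟩
      have hz : (n ^ t) • a = b ∧ (n ^ t) • b = a := by
        rw [hq, pow_succ, mul_smul, mul_smul, hna, hnb]
        exact ⟨(hodd_t q).2, (hodd_t q).1⟩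
      obtain ⟨c, hc, hcz⟩ := CfsgLib.PermJ3.fix_in (H := N) (Subgroup.zpowers (n ^ t)) htp ({a, b}ᶜ : Set α) (by
        have hst : Subgroup.zpowers (n ^ t) ≤ MulAction.stabilizer N ({a, b}ᶜ : Set α) := by
          rw [Subgroup.zpowers_le, MulAction.mem_stabilizer_iff, Set.smul_set_compl]
          congr 1
          rw [Set.smul_set_insert, Set.smul_set_singleton, hz.1, hz.2, Set.pair_comm]
        intro q hq x hx
        have h1 := hst hq
        rw [MulAction.mem_stabilizer_iff] at h1
        rw [← h1]
        exact Set.smul_mem_smul_set hx) (by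
        rw [Nat.card_coe_set_eq, Set.ncard_compl, Set.ncard_pair hab, Nat.card_eq_fintype_card]
        obtain ⟨w, hw⟩ := hodd
        omega)
      rw [Set.mem_compl_iff, Set.mem_insert_iff, Set.mem_singleton_iff, not_or] at hc
      exact ⟨c, Ne.symm hc.1, Ne.symm hc.2, _, hmemN' (n ^ t), hz.1, hz.2, hcz _ (Subgroup.mem_zpowers _)⟩
    intro a b c hab hac hbc
    obtain ⟨c', hac', hbc', n, hn, h1, h2, h3⟩ := hsome a b hab
    obtain ⟨g, hg1, hg2, hg3⟩ := CfsgLib.PermG6.mt_three hG hab hac' hbc' hab hac hbc
    obtain ⟨m, rfl⟩ := hcomp n hn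
    have hg1' : (g : Equiv.Perm α) a = a := hg1
    have hg2' : (g : Equiv.Perm α) b = b := hg2
    have hg3' : (g : Equiv.Perm α) c' = c := hg3
    refine ⟨((g * m * g⁻¹ : G) : Equiv.Perm α), ⟨g * m * g⁻¹, Subgroup.Normal.conj_mem inferInstance _ m.2 g, rfl⟩, ?_, ?_, ?_⟩
    · change (g : Equiv.Perm α) (((m : G) : Equiv.Perm α) ((g : Equiv.Perm α)⁻¹ a)) = b
      rw [show (g : Equiv.Perm α)⁻¹ a = a from (Equiv.symm_apply_eq _).2 hg1'.symm, h1, hg2']
    · change (g : Equiv.Perm α) (((m : G) : Equiv.Perm α) ((g : Equiv.Perm α)⁻¹ b)) = a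
      rw [show (g : Equiv.Perm α)⁻¹ b = b from (Equiv.symm_apply_eq _).2 hg2'.symm, h2, hg1']
    · change (g : Equiv.Perm α) (((m : G) : Equiv.Perm α) ((g : Equiv.Perm α)⁻¹ c)) = c
      rw [show (g : Equiv.Perm α)⁻¹ c = c' from (Equiv.symm_apply_eq _).2 hg3'.symm, h3, hg3']
  -- generously 2-transitive
  have hgen : ∀ s : Finset α, s.card = 2 + 1 → ∀ σ : Equiv.Perm ↥s, ∃ g ∈ N', ∀ x : ↥s, g (x : α) = σ x := by
    intro s hs σ
    induction σ using Equiv.Perm.swap_induction_on with
    | one => exact ⟨1, one_mem _, fun x => rfl⟩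
    | swap_mul τ x y hxy ih =>
      obtain ⟨g, hg, hgx⟩ := ih
      -- third point
      obtain ⟨z, hz⟩ : ∃ z : ↥s, z ≠ x ∧ z ≠ y := by
        by_contra hcon
        push Not at hcon
        have h1 : Fintype.card ↥s ≤ ({x, y} : Finset ↥s).card := by
          rw [← Finset.card_univ]
          apply Finset.card_le_card
          intro z _
          rw [Finset.mem_insert, Finset.mem_singleton]
          by_cases h : z = x
          · exact Or.inl h
          · exact Or.inr (hcon z h)
        rw [Fintype.card_coe, hs] at h1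
        have h2 := Finset.card_le_two (a := x) (b := y)
        omega
      have hall : ∀ w : ↥s, w = x ∨ w = y ∨ w = z := by
        intro w
        by_contra hcon
        push Not at hcon
        have h1 : ({w, x, y, z} : Finset ↥s).card ≤ Fintype.card ↥s := Finset.card_le_univ _
        rw [Fintype.card_coe, hs, Finset.card_insert_of_notMem, Finset.card_insert_of_notMem, Finset.card_insert_of_notMem,
          Finset.card_singleton] at h1
        · omega
        · rw [Finset.mem_singleton]; exact fun h => hz.2 h.symm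
        · rw [Finset.mem_insert, Finset.mem_singleton, not_or]; exact ⟨hxy, fun h => hz.1 h.symm⟩
        · rw [Finset.mem_insert, Finset.mem_insert, Finset.mem_singleton, not_or, not_or]
          exact ⟨hcon.1, hcon.2.1, hcon.2.2⟩
      obtain ⟨n, hn, h1, h2, h3⟩ := hswap x y z (fun h => hxy (Subtype.ext h)) (fun h => hz.1 (Subtype.ext h).symm) (fun h => hz.2 (Subtype.ext h).symm)
      refine ⟨n * g, mul_mem hn hg, fun w => ?_⟩
      rw [Equiv.Perm.mul_apply, hgx, Equiv.Perm.mul_apply]
      rcases hall (τ w) with h | h | h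
      · rw [h, Equiv.swap_apply_left, h1]
      · rw [h, Equiv.swap_apply_right, h2]
      · rw [h, Equiv.swap_apply_of_ne_of_ne hz.1 hz.2, h3]
  -- final argument
  apply CfsgLib.PermG3.mt_of_fix (k := 3) (by norm_num) (by omega)
  intro s hs c d hc hd
  by_contra hcon
  push Not at hcon
  have hFN : ∀ (n : N'), n ∈ fixingSubgroup N' (s : Set α) ↔ ∀ x ∈ s, n • x = x := CfsgLib.PermJ3.mem_fix N' s
  have hnot : d ∉ MulAction.orbit (fixingSubgroup N' (s : Set α)) c := by
    rintro ⟨n, hn⟩
    obtain ⟨m, hm⟩ := hcomp (n : N') (n : N').2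
    apply hcon m
    · intro x hx
      have := (hFN _).1 n.2 x hx
      change ((m : G) : Equiv.Perm α) x = x
      rw [hm]
      exact this
    · change ((m : G) : Equiv.Perm α) c = d
      rw [hm]
      exact hn
  have hnot' : c ∉ MulAction.orbit (fixingSubgroup N' (s : Set α)) d := by
    intro h
    apply hnot
    rw [← MulAction.orbit_eq_iff] at h
    rw [← MulAction.orbit_eq_iff]
    exact h.symm
  obtain ⟨i, hi⟩ := CfsgLib.PermJ3.generous_orbit N' (k := 2) (by omega) hgen Nat.prime_two le_rfl s hs ![c, d] (by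
    intro i
    fin_cases i
    · exact hc
    · exact hd) (by
    intro i j hij
    fin_cases i <;> fin_cases j
    · exact absurd rfl hij
    · exact hnot
    · exact hnot'
    · exact absurd rfl hij)
  -- all orbits off s have the same length
  have hfi : (![c, d] i) ∉ s := by
    fin_cases i
    · exact hc
    · exact hd
  obtain ⟨a, b, hab, rfl⟩ := Finset.card_eq_two.1 (show s.card = 2 from hs)
  have hdvd : 2 ∣ ({a, b}ᶜ : Set α).ncard := by
    apply CfsgLib.H5Perm.dvd_ncard_of_orbits (H := fixingSubgroup N' (({a, b} : Finset α) : Set α)) ({a, b}ᶜ : Set α) (Set.toFinite _)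
    · intro h x hx hhx
      apply hx
      have hfix := (hFN _).1 h.2
      have h3 : ∀ y ∈ ({a, b} : Finset α), h • x = y → x = y := by
        intro y hy hxy
        have h4 : h • y = y := hfix y hy
        exact smul_left_cancel h (hxy.trans h4.symm)
      rcases hhx with h1 | h1
      · left; exact h3 a (by simp) h1
      · right; exact h3 b (by simp) h1
    · intro x hx
      rw [Set.mem_compl_iff, Set.mem_insert_iff, Set.mem_singleton_iff, not_or] at hx
      rw [Finset.mem_insert, Finset.mem_singleton, not_or] at hfi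
      obtain ⟨g, hg1, hg2, hg3⟩ := CfsgLib.PermG6.mt_three hG hab (Ne.symm hfi.1) (Ne.symm hfi.2) hab (Ne.symm hx.1) (Ne.symm hx.2)
      have hcard : Nat.card (MulAction.orbit (fixingSubgroup N' (({a, b} : Finset α) : Set α)) (![c, d] i)) =
          (MulAction.orbit (fixingSubgroup N' (({a, b} : Finset α) : Set α)) x).ncard := by
        rw [Nat.card_coe_set_eq]
        have himg : MulAction.orbit (fixingSubgroup N' (({a, b} : Finset α) : Set α)) x = (fun y => (g : Equiv.Perm α) y) '' MulAction.orbit (fixingSubgroup N' (({a, b} : Finset α) : Set α)) (![c, d] i) := by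
          have hg1' : (g : Equiv.Perm α) a = a := hg1
          have hg2' : (g : Equiv.Perm α) b = b := hg2
          have hg3' : (g : Equiv.Perm α) (![c, d] i) = x := hg3
          -- conjugation
          have key : ∀ (k : G), (k : Equiv.Perm α) a = a → (k : Equiv.Perm α) b = b → ∀ n : fixingSubgroup N' (({a, b} : Finset α) : Set α),
              ∃ n' : fixingSubgroup N' (({a, b} : Finset α) : Set α), ∀ y, n' • ((k : Equiv.Perm α) y) = (k : Equiv.Perm α) (n • y) := by
            intro k hka hkb n
            obtain ⟨m, hm⟩ := hcomp (n : N') (n : N').2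
            have hn' : (k : Equiv.Perm α) * ((n : N') : Equiv.Perm α) * (k : Equiv.Perm α)⁻¹ ∈ N' := by
              refine ⟨k * m * k⁻¹, Subgroup.Normal.conj_mem inferInstance _ m.2 k, ?_⟩
              rw [← hm]; rfl
            refine ⟨⟨⟨_, hn'⟩, ?_⟩, ?_⟩
            · rw [hFN]
              have hfix := (hFN _).1 n.2
              intro y hy
              change (k : Equiv.Perm α) (((n : N') : Equiv.Perm α) ((k : Equiv.Perm α)⁻¹ y)) = y
              have h5 : (k : Equiv.Perm α)⁻¹ y = y := by
                rw [Finset.mem_insert, Finset.mem_singleton] at hy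
                rcases hy with rfl | rfl
                · exact (Equiv.symm_apply_eq _).2 hka.symm
                · exact (Equiv.symm_apply_eq _).2 hkb.symm
              have h6 : ((n : N') : Equiv.Perm α) y = y := hfix y hy
              rw [h5, h6]
              have h7 := (Equiv.symm_apply_eq (k : Equiv.Perm α)).1 h5
              exact h7.symm
            · intro y
              change (k : Equiv.Perm α) (((n : N') : Equiv.Perm α) ((k : Equiv.Perm α)⁻¹ ((k : Equiv.Perm α) y))) = (k : Equiv.Perm α) (((n : N') : Equiv.Perm α) y)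
              rw [CfsgLib.PermG3.inv_apply]
          ext y
          constructor
          · rintro ⟨n, rfl⟩
            obtain ⟨n', hn'⟩ := key g⁻¹ ((Equiv.symm_apply_eq _).2 hg1'.symm) ((Equiv.symm_apply_eq _).2 hg2'.symm) n
            refine ⟨((g⁻¹ : G) : Equiv.Perm α) (n • x), ?_, ?_⟩
            · rw [← hn' x]
              have h8 : ((g⁻¹ : G) : Equiv.Perm α) x = ![c, d] i := (Equiv.symm_apply_eq _).2 hg3'.symm
              rw [h8]
              exact ⟨n', rfl⟩
            · change (g : Equiv.Perm α) ((g : Equiv.Perm α)⁻¹ (n • x)) = n • x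
              rw [CfsgLib.PermG3.apply_inv]
          · rintro ⟨_, ⟨n, rfl⟩, rfl⟩
            obtain ⟨n', hn'⟩ := key g hg1' hg2' n
            refine ⟨n', ?_⟩
            change n' • x = (g : Equiv.Perm α) (n • ![c, d] i)
            rw [← hn', hg3']
        rw [himg, Set.ncard_image_of_injective _ (g : Equiv.Perm α).injective]
      rw [← hcard]
      exact hi
  rw [Set.ncard_compl, Set.ncard_pair hab, Nat.card_eq_fintype_card] at hdvd
  obtain ⟨w, hw⟩ := hodd
  omega

end Cfsg.Agent.S0699
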