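import Cfsg.Statements.S0702
import Cfsg.Agent.Lib.PermG1

set_option autoImplicit false
open Cfsg

open scoped Pointwise
namespace Cfsg.Agent.S0702

/-- For a transitive permutation group `G` on a finite set, the centraliser of `G` in the symmetric group is isomorphic to `N_G(G_ω)/G_ω`, and its orbit of `ω` is the set of fixed points of `G_ω`. -/
theorem result {α : Type*} [Finite α] (G : Subgroup (Equiv.Perm α)) [MulAction.IsPretransitive G α] (a : α) : Nonempty (Subgroup.centralizer (G : Set (Equiv.Perm α)) ≃* Subgroup.normalizer ((MulAction.stabilizer G a : Subgroup G) : Set G) ⧸ (MulAction.stabilizer G a).subgroupOf (Subgroup.normalizer ((MulAction.stabilizer G a : Subgroup G) : Set G))) ∧ MulAction.orbit (Subgroup.centralizer (G : Set (Equiv.Perm α))) a = MulAction.fixedPoints (MulAction.stabilizer G a) α := by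
  classical
  have horb : MulAction.orbit (Subgroup.centralizer (G : Set (Equiv.Perm α))) a = MulAction.fixedPoints (MulAction.stabilizer G a) α := by
    ext b
    constructor
    · rintro ⟨c, rfl⟩
      rintro ⟨g, hg⟩
      change g • ((c : Equiv.Perm α) a) = (c : Equiv.Perm α) a
      rw [← CfsgLib.PermG1.central_smul G c.2, hg]
    · intro hb
      have hle : MulAction.stabilizer G a ≤ MulAction.stabilizer G b := fun g hg => hb ⟨g, hg⟩
      obtain ⟨n, hn⟩ := MulAction.exists_smul_eq G a b
      have hcard : Nat.card (MulAction.stabilizer G a) = Nat.card (MulAction.stabilizer G b) := by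
        rw [← hn]
        exact Nat.card_congr (MulAction.stabilizerEquivStabilizer hn.symm).toEquiv |>.trans (by rw [hn])
      have heq : MulAction.stabilizer G a = MulAction.stabilizer G b :=
        Subgroup.eq_of_le_of_card_ge hle hcard.ge
      obtain ⟨c, hc, hcab⟩ := CfsgLib.PermG1.exists_central G heq
      exact ⟨⟨c, hc⟩, hcab⟩
  refine ⟨?_, horb⟩
  choose n hn using fun c : Subgroup.centralizer (G : Set (Equiv.Perm α)) => MulAction.exists_smul_eq G a ((c : Equiv.Perm α) a)
  have hnN : ∀ c, n c ∈ Subgroup.normalizer ((MulAction.stabilizer G a : Subgroup G) : Set G) := by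
    intro c
    apply CfsgLib.PermG1.mem_normalizer_of_stabilizer_eq
    rw [hn c, CfsgLib.PermG1.stabilizer_central G c.2]
  let N := Subgroup.normalizer ((MulAction.stabilizer G a : Subgroup G) : Set G)
  let f : Subgroup.centralizer (G : Set (Equiv.Perm α)) →* N ⧸ (MulAction.stabilizer G a).subgroupOf N :=
    MonoidHom.mk' (fun c => QuotientGroup.mk (⟨n c, hnN c⟩⁻¹ : N)) (by
      intro c d
      have h1 : (QuotientGroup.mk (⟨n (c * d), hnN (c * d)⟩ : N) : N ⧸ (MulAction.stabilizer G a).subgroupOf N) =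
          QuotientGroup.mk ((⟨n d, hnN d⟩ : N) * ⟨n c, hnN c⟩) := by
        rw [eq_comm, QuotientGroup.eq, Subgroup.mem_subgroupOf, MulAction.mem_stabilizer_iff]
        change ((n d * n c)⁻¹ * n (c * d)) • a = a
        rw [mul_smul, hn, inv_smul_eq_iff, mul_smul, hn c, ← CfsgLib.PermG1.central_smul G c.2, hn d]
        rfl
      rw [QuotientGroup.mk_inv, QuotientGroup.mk_inv, QuotientGroup.mk_inv, h1, QuotientGroup.mk_mul,
        mul_inv_rev])
  refine ⟨MulEquiv.ofBijective f ⟨?_, ?_⟩⟩
  · rw [injective_iff_map_eq_one]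
    intro c hc
    have h1 : (QuotientGroup.mk (⟨n c, hnN c⟩⁻¹ : N) : N ⧸ (MulAction.stabilizer G a).subgroupOf N) = 1 := hc
    rw [QuotientGroup.eq_one_iff, Subgroup.mem_subgroupOf] at h1
    have h2 : n c ∈ MulAction.stabilizer G a := by
      have := inv_mem h1
      simpa using this
    apply Subtype.ext
    apply CfsgLib.PermG1.central_eq_one G c.2 (a := a)
    rw [← hn c]
    exact h2
  · intro x
    refine QuotientGroup.induction_on x ?_
    intro m
    have hm : (m⁻¹ : N).1 ∈ N := (m⁻¹).2
    have h1 := CfsgLib.PermG1.stabilizer_smul_eq_of_mem_normalizer hm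
    obtain ⟨c, hc, hcab⟩ := CfsgLib.PermG1.exists_central G h1.symm
    refine ⟨⟨c, hc⟩, ?_⟩
    change QuotientGroup.mk (⟨n ⟨c, hc⟩, _⟩⁻¹ : N) = _
    rw [← inv_inj, ← QuotientGroup.mk_inv, inv_inv, ← QuotientGroup.mk_inv, eq_comm, QuotientGroup.eq,
      Subgroup.mem_subgroupOf, MulAction.mem_stabilizer_iff]
    change ((m⁻¹ : N).1⁻¹ * n ⟨c, hc⟩) • a = a
    rw [mul_smul, hn, inv_smul_eq_iff]
    exact hcab

end Cfsg.Agent.S0702
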