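import Cfsg.Statements.S0703
import Cfsg.Agent.Lib.PermG2

set_option autoImplicit false
open Cfsg

set_option linter.style.haveILetI false
namespace Cfsg.Agent.S0703

/-- An abelian transitive minimal normal subgroup `M` of a permutation group on a finite set is self-centralising in the symmetric group, regular, elementary abelian, and is the unique minimal normal subgroup. -/
theorem result {α : Type*} [Finite α] (G : Subgroup (Equiv.Perm α)) (M : Subgroup G) [M.Normal] (hM : M ≠ ⊥) (hmin : ∀ L : Subgroup G, L.Normal → L ≤ M → L = ⊥ ∨ L = M) (hab : IsMulCommutative M) (htrans : MulAction.IsPretransitive M α) : Subgroup.centralizer ((M.map G.subtype : Subgroup (Equiv.Perm α)) : Set (Equiv.Perm α)) = M.map G.subtype ∧ (∀ a : α, MulAction.stabilizer M a = ⊥) ∧ (∃ p : ℕ, p.Prime ∧ ∀ m ∈ M, m ^ p = 1) ∧ ∀ L : Subgroup G, L.Normal → L ≠ ⊥ → (∀ L' : Subgroup G, L'.Normal → L' ≤ L → L' = ⊥ ∨ L' = L) → L = M := by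
  classical
  obtain ⟨m₀, hm₀, hm1⟩ := M.bot_or_exists_ne_one.resolve_left hM
  obtain ⟨a₀, -⟩ : ∃ a : α, (m₀ : Equiv.Perm α) a ≠ a := by
    by_contra hcon
    push Not at hcon
    exact hm1 (Subtype.ext (Equiv.ext hcon))
  have hcomm : ∀ m ∈ M, ∀ n ∈ M, m * n = n * m := by
    intro m hm n hn
    exact congrArg Subtype.val (hab.is_comm.comm (⟨m, hm⟩ : M) ⟨n, hn⟩)
  obtain ⟨hreg, hC⟩ := CfsgLib.PermG2.regular_of_commute G M M hcomm htrans htrans a₀
  refine ⟨hC, hreg, ?_, ?_⟩
  · haveI : Finite M := inferInstance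
    haveI : Nontrivial M := (Subgroup.nontrivial_iff_ne_bot M).2 hM
    obtain ⟨p, hp, hpd⟩ := Nat.exists_prime_and_dvd (n := Nat.card M) (by
      have := Finite.one_lt_card (α := M)
      omega)
    refine ⟨p, hp, ?_⟩
    haveI := Fact.mk hp
    obtain ⟨x, hx⟩ := exists_prime_orderOf_dvd_card' p hpd
    let L : Subgroup G :=
      { carrier := {m | m ∈ M ∧ m ^ p = 1}
        mul_mem' := by
          rintro m n ⟨hm, hmp⟩ ⟨hn, hnp⟩
          refine ⟨mul_mem hm hn, ?_⟩
          rw [(show Commute m n from hcomm m hm n hn).mul_pow, hmp, hnp, one_mul]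
        one_mem' := ⟨one_mem _, one_pow _⟩
        inv_mem' := by
          rintro m ⟨hm, hmp⟩
          exact ⟨inv_mem hm, by rw [inv_pow, hmp, inv_one]⟩ }
    have hLn : L.Normal := ⟨by
      rintro m ⟨hm, hmp⟩ g
      refine ⟨Subgroup.Normal.conj_mem inferInstance m hm g, ?_⟩
      rw [conj_pow, hmp, mul_one, mul_inv_cancel]⟩
    have hL : L = M := by
      rcases hmin L hLn (fun m hm => hm.1) with h | h
      · exfalso
        have hxL : ((x : M) : G) ∈ L := ⟨x.2, by
          rw [← Subgroup.coe_pow, ← hx, pow_orderOf_eq_one]; rfl⟩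
        rw [h, Subgroup.mem_bot] at hxL
        have : x = 1 := Subtype.ext hxL
        rw [this, orderOf_one] at hx
        exact hp.one_lt.ne hx
      · exact h
    intro m hm
    rw [← hL] at hm
    exact hm.2
  · intro L hLn hL hLmin
    rcases CfsgLib.PermG2.min_inf L M hL hM hLmin hmin with h | h
    · exact h
    · have h1 := CfsgLib.PermG2.commute_of_inf_bot L M h
      have hle : L ≤ M := by
        intro l hl
        have h2 := CfsgLib.PermG2.central_of_mem G M L (fun m hm n hn => (h1 n hn m hm).symm) hl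
        rw [hC] at h2
        obtain ⟨m, hm, hml⟩ := h2
        rw [← Subtype.ext hml]
        exact hm
      exact (hmin L hLn hle).resolve_left hL

end Cfsg.Agent.S0703
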