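import Cfsg.Statements.S0704
import Cfsg.Agent.Lib.PermG2

set_option autoImplicit false
open Cfsg

open scoped Pointwise
namespace Cfsg.Agent.S0704

/-- Two distinct transitive minimal normal subgroups `M`, `N` of a permutation group are regular, non-abelian, isomorphic, each other's centraliser in the symmetric group, and the only minimal normal subgroups. -/
theorem result {α : Type*} (G : Subgroup (Equiv.Perm α)) (M N : Subgroup G) [M.Normal] [N.Normal] (hM : M ≠ ⊥) (hN : N ≠ ⊥) (hMmin : ∀ L : Subgroup G, L.Normal → L ≤ M → L = ⊥ ∨ L = M) (hNmin : ∀ L : Subgroup G, L.Normal → L ≤ N → L = ⊥ ∨ L = N) (hMN : M ≠ N) (hMt : MulAction.IsPretransitive M α) (hNt : MulAction.IsPretransitive N α) : (∀ a : α, MulAction.stabilizer M a = ⊥) ∧ (∀ a : α, MulAction.stabilizer N a = ⊥) ∧ ¬ IsMulCommutative M ∧ Nonempty (M ≃* N) ∧ Subgroup.centralizer ((M.map G.subtype : Subgroup (Equiv.Perm α)) : Set (Equiv.Perm α)) = N.map G.subtype ∧ Subgroup.centralizer ((N.map G.subtype : Subgroup (Equiv.Perm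 α)) : Set (Equiv.Perm α)) = M.map G.subtype ∧ ∀ L : Subgroup G, L.Normal → L ≠ ⊥ → (∀ L' : Subgroup G, L'.Normal → L' ≤ L → L' = ⊥ ∨ L' = L) → L = M ∨ L = N := by
  classical
  obtain ⟨m₀, hm₀, hm1⟩ := M.bot_or_exists_ne_one.resolve_left hM
  obtain ⟨a₀, -⟩ : ∃ a : α, (m₀ : Equiv.Perm α) a ≠ a := by
    by_contra hcon
    push Not at hcon
    exact hm1 (Subtype.ext (Equiv.ext hcon))
  have hinf : M ⊓ N = ⊥ := (CfsgLib.PermG2.min_inf M N hM hN hMmin hNmin).resolve_left hMN
  have hcomm := CfsgLib.PermG2.commute_of_inf_bot M N hinf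
  obtain ⟨hregM, hCM⟩ := CfsgLib.PermG2.regular_of_commute G M N hcomm hMt hNt a₀
  obtain ⟨hregN, hCN⟩ := CfsgLib.PermG2.regular_of_commute G N M (fun m hm n hn => (hcomm n hn m hm).symm) hNt hMt a₀
  have hleM : ∀ L : Subgroup G, (∀ m ∈ M, ∀ l ∈ L, m * l = l * m) → L ≤ N := by
    intro L h l hl
    have h2 := CfsgLib.PermG2.central_of_mem G M L h hl
    rw [hCM] at h2
    obtain ⟨m, hm, hml⟩ := h2
    rw [← Subtype.ext hml]
    exact hm
  refine ⟨hregM, hregN, ?_, ?_, hCM, hCN, ?_⟩
  · intro hab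
    have h1 : M ≤ N := hleM M (fun m hm n hn => congrArg Subtype.val (hab.is_comm.comm (⟨m, hm⟩ : M) ⟨n, hn⟩))
    apply hM
    rw [← inf_eq_left.2 h1, hinf]
  · choose f hf using fun m : M => MulAction.exists_smul_eq N a₀ (m • a₀)
    have huniq : ∀ n n' : N, n • a₀ = n' • a₀ → n = n' := by
      intro n n' h
      have : n'⁻¹ * n ∈ MulAction.stabilizer N a₀ := by
        rw [MulAction.mem_stabilizer_iff, mul_smul, h, inv_smul_smul]
      rw [hregN, Subgroup.mem_bot, inv_mul_eq_one] at this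
      exact this.symm
    have huniqM : ∀ n n' : M, n • a₀ = n' • a₀ → n = n' := by
      intro n n' h
      have : n'⁻¹ * n ∈ MulAction.stabilizer M a₀ := by
        rw [MulAction.mem_stabilizer_iff, mul_smul, h, inv_smul_smul]
      rw [hregM, Subgroup.mem_bot, inv_mul_eq_one] at this
      exact this.symm
    have hc : ∀ (m : M) (n : N) (x : α), m • (n • x) = n • (m • x) := by
      intro m n x
      have h1 := hcomm m m.2 n n.2
      have h2 : ((m : G) * (n : G)) • x = ((n : G) * (m : G)) • x := by rw [h1]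
      rw [mul_smul, mul_smul] at h2
      exact h2
    have hmul : ∀ m m' : M, f (m * m') = f m' * f m := by
      intro m m'
      apply huniq
      rw [hf, mul_smul, mul_smul, hf m, ← hf m', hc, ← hc m (f m')]
    let F : M →* N := MonoidHom.mk' (fun m => (f m)⁻¹) (by
      intro m m'
      change (f (m * m'))⁻¹ = (f m)⁻¹ * (f m')⁻¹
      rw [hmul, mul_inv_rev])
    refine ⟨MulEquiv.ofBijective F ⟨?_, ?_⟩⟩
    · intro m m' h
      have h' : (f m)⁻¹ = (f m')⁻¹ := h
      have h'' : f m = f m' := inv_injective h'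
      apply huniqM
      rw [← hf, ← hf, h'']
    · intro n
      obtain ⟨m, hm⟩ := MulAction.exists_smul_eq M a₀ (n⁻¹ • a₀)
      refine ⟨m, ?_⟩
      change (f m)⁻¹ = n
      rw [inv_eq_iff_eq_inv]
      apply huniq
      rw [hf, hm]
  · intro L hLn hL hLmin
    rcases CfsgLib.PermG2.min_inf L M hL hM hLmin hMmin with h | h
    · exact Or.inl h
    · right
      have h1 := CfsgLib.PermG2.commute_of_inf_bot L M h
      have hle := hleM L (fun m hm n hn => (h1 n hn m hm).symm)
      exact (hNmin L hLn hle).resolve_left hL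

end Cfsg.Agent.S0704
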