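import Cfsg.Statements.S0707
import Cfsg.Agent.Lib.PermG1

set_option autoImplicit false
open Cfsg

open scoped Pointwise
set_option linter.style.haveILetI false
namespace Cfsg.Agent.S0707

/-- In a primitive permutation group, distinct points have distinct stabilisers unless the group is regular of prime degree. -/
theorem result {α : Type*} (G : Subgroup (Equiv.Perm α)) [MulAction.IsPreprimitive G α] (h : ¬ (Nat.card α).Prime ∨ ∃ a : α, MulAction.stabilizer G a ≠ ⊥) {a b : α} (hab : a ≠ b) : MulAction.stabilizer G a ≠ MulAction.stabilizer G b := by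
  classical
  intro hst
  -- the relation "same stabiliser"
  have hB : MulAction.IsBlock G {x : α | MulAction.stabilizer G x = MulAction.stabilizer G a} := by
    rw [MulAction.isBlock_iff_smul_eq_of_mem]
    rintro g x hx hgx
    have hx' : MulAction.stabilizer G x = MulAction.stabilizer G a := hx
    have hgx' : MulAction.stabilizer G (g • x) = MulAction.stabilizer G a := hgx
    have hgN : ∀ y : α, MulAction.stabilizer G (g • y) = MulAction.stabilizer G a ↔
        MulAction.stabilizer G y = MulAction.stabilizer G a := by
      intro y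
      have hc : ∀ z : α, ∀ h : G, h ∈ MulAction.stabilizer G z ↔ g * h * g⁻¹ ∈ MulAction.stabilizer G (g • z) :=
        fun z h => (CfsgLib.PermG1.conj_mem_stabilizer g h z).symm
      have hc' : ∀ z : α, ∀ h : G, g⁻¹ * h * g ∈ MulAction.stabilizer G z ↔ h ∈ MulAction.stabilizer G (g • z) := by
        intro z h
        rw [hc z]
        have : g * (g⁻¹ * h * g) * g⁻¹ = h := by group
        rw [this]
      constructor
      · intro hy
        ext h
        rw [hc y, hy, ← hgx', ← hc x, hx', hgx']
      · intro hy
        ext h
        rw [← hc' y, hy, ← hx', hc' x, hgx', hx']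
    ext y
    rw [Set.mem_smul_set_iff_inv_smul_mem]
    change MulAction.stabilizer G (g⁻¹ • y) = _ ↔ MulAction.stabilizer G y = _
    rw [← hgN, smul_inv_smul]
  have huniv := (MulAction.IsPreprimitive.isTrivialBlock_of_isBlock hB).resolve_left (by
    intro hs
    exact hab (hs rfl hst.symm))
  have hbot : ∀ x : α, MulAction.stabilizer G x = ⊥ := by
    intro x
    rw [Subgroup.eq_bot_iff_forall]
    intro g hg
    apply Subtype.ext
    ext y
    have hx : MulAction.stabilizer G x = MulAction.stabilizer G a := huniv.ge (Set.mem_univ x)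
    have hy : MulAction.stabilizer G y = MulAction.stabilizer G a := huniv.ge (Set.mem_univ y)
    have : g ∈ MulAction.stabilizer G y := by rw [hy, ← hx]; exact hg
    exact this
  rcases h with h | ⟨x, hx⟩
  · apply h
    haveI : Nontrivial α := ⟨a, b, hab⟩
    have hco : IsCoatom (⊥ : Subgroup G) := by
      rw [← hbot a]
      exact MulAction.IsPreprimitive.isCoatom_stabilizer_of_isPreprimitive G a
    have hbij : Function.Bijective (fun g : G => g • a) := by
      constructor
      · intro g g' hgg
        have hgg' : g • a = g' • a := hgg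
        have : g'⁻¹ * g ∈ MulAction.stabilizer G a := by
          rw [MulAction.mem_stabilizer_iff, mul_smul, hgg', inv_smul_smul]
        rw [hbot a, Subgroup.mem_bot, inv_mul_eq_one] at this
        exact this.symm
      · intro x
        exact MulAction.exists_smul_eq G a x
    rw [← Nat.card_congr (Equiv.ofBijective _ hbij)]
    obtain ⟨g, hg⟩ : ∃ g : G, g ≠ 1 := by
      obtain ⟨g, hg⟩ := MulAction.exists_smul_eq G a b
      refine ⟨g, ?_⟩
      rintro rfl
      rw [one_smul] at hg
      exact hab hg
    have hz : Subgroup.zpowers g = ⊤ := by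
      apply hco.2
      rw [bot_lt_iff_ne_bot]
      intro h
      rw [Subgroup.zpowers_eq_bot] at h
      exact hg h
    have hcomm : ∀ x y : G, x * y = y * x := by
      intro x y
      obtain ⟨i, hi⟩ := Subgroup.mem_zpowers_iff.1 (hz ▸ Subgroup.mem_top x : x ∈ Subgroup.zpowers g)
      obtain ⟨j, hj⟩ := Subgroup.mem_zpowers_iff.1 (hz ▸ Subgroup.mem_top y : y ∈ Subgroup.zpowers g)
      rw [← hi, ← hj, ← zpow_add, ← zpow_add, add_comm]
    haveI : Nontrivial G := ⟨g, 1, hg⟩
    haveI hs : IsSimpleGroup G := ⟨fun H _ => by
      by_cases hH : H = ⊥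
      · exact Or.inl hH
      · exact Or.inr (hco.2 H (bot_lt_iff_ne_bot.2 hH))⟩
    letI : CommGroup G := { (inferInstance : Group G) with mul_comm := hcomm }
    exact @IsSimpleGroup.prime_card G _ hs
  · exact hx (hbot x)

end Cfsg.Agent.S0707
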