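import Cfsg.Statements.S0710
import Cfsg.Agent.Lib.PermP6

set_option autoImplicit false
open Cfsg

set_option linter.style.haveILetI false
namespace Cfsg.Agent.S0710

/-- No transitive permutation group on 13 points has order `13 * 12 * 11 * 10 * 9 * 8`. -/
theorem result {α : Type*} [Fintype α] [DecidableEq α] (hα : Fintype.card α = 13) (G : Subgroup (Equiv.Perm α)) [MulAction.IsPretransitive G α] : Nat.card G ≠ 13 * 12 * 11 * 10 * 9 * 8 := by
  classical
  intro hG
  haveI : Fact (Nat.Prime 13) := ⟨by norm_num⟩
  obtain ⟨P⟩ : Nonempty (Sylow 13 G) := inferInstance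
  obtain ⟨d, r, hd, -, hr, hcard⟩ := CfsgLib.PermP6.card_eq hα G P
  rw [hG] at hcard
  have hd12 : d ∣ 12 := by simpa using hd
  have hdle : d ≤ 12 := Nat.le_of_dvd (by norm_num) hd12
  have hr' : r % 13 = 1 := hr
  have h1 : d * r = 95040 := by
    have : 13 * (d * r) = 13 * 95040 := by rw [← mul_assoc, ← hcard]
    omega
  interval_cases d
  all_goals first
    | omega
    | (revert hd12; decide)

end Cfsg.Agent.S0710
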