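import Cfsg.Statements.S0711
import Cfsg.Agent.Lib.PermG3

set_option autoImplicit false
open Cfsg

set_option linter.style.haveILetI false
namespace Cfsg.Agent.S0711

open Equiv.Perm in
theorem comm_supp {α : Type*} [Fintype α] [DecidableEq α] (g h : Equiv.Perm α) (F : Finset α) (hF : F ⊆ g.support) (hh : ∀ t ∈ F, h t = t) :
    (g⁻¹ * (h * g * h⁻¹)).support.card + (F.filter (fun t => g t ∈ F)).card ≤ (g.support ∪ g.support.map h.toEmbedding).card := by
  rw [← Finset.card_union_of_disjoint]
  · apply Finset.card_le_card
    intro t ht
    rw [Finset.mem_union] at ht ⊢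
    rcases ht with ht | ht
    · by_contra hcon
      push Not at hcon
      obtain ⟨h1, h2⟩ := hcon
      rw [Equiv.Perm.mem_support] at ht
      apply ht
      change g⁻¹ (h (g (h⁻¹ t))) = t
      have h3 : g (h⁻¹ t) = h⁻¹ t := by
        by_contra h4
        apply h2
        rw [Finset.mem_map]
        exact ⟨h⁻¹ t, Equiv.Perm.mem_support.2 h4, CfsgLib.PermG3.apply_inv h t⟩
      rw [h3, CfsgLib.PermG3.apply_inv, Equiv.Perm.inv_eq_iff_eq]
      exact (Equiv.Perm.notMem_support.1 h1).symm
    · rw [Finset.mem_filter] at ht
      exact Or.inl (hF ht.1)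
  · rw [Finset.disjoint_left]
    intro t ht ht2
    rw [Finset.mem_filter] at ht2
    rw [Equiv.Perm.mem_support] at ht
    apply ht
    change g⁻¹ (h (g (h⁻¹ t))) = t
    have h1 : h⁻¹ t = t := by
      rw [Equiv.Perm.inv_eq_iff_eq]; exact (hh t ht2.1).symm
    rw [h1, hh _ ht2.2, CfsgLib.PermG3.inv_apply]

theorem path_set {α : Type*} [Fintype α] [DecidableEq α] (g : Equiv.Perm α) : ∀ r : ℕ, r ≤ g.support.card →
    ∃ F : Finset α, F ⊆ g.support ∧ F.card = r ∧ (F.filter (fun t => g t ∉ F)).card ≤ 1 := by
  intro r
  induction r with
  | zero => intro _; exact ⟨∅, Finset.empty_subset _, Finset.card_empty, by simp⟩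
  | succ r ih =>
    intro hr
    obtain ⟨F, hF, hFc, hb⟩ := ih (by omega)
    rcases Nat.le_one_iff_eq_zero_or_eq_one.1 hb with h0 | h1
    · obtain ⟨y, hy, hyF⟩ := Finset.exists_mem_notMem_of_card_lt_card (s := F) (t := g.support) (by omega)
      refine ⟨insert y F, ?_, by rw [Finset.card_insert_of_notMem hyF, hFc], ?_⟩
      · intro t ht
        rcases Finset.mem_insert.1 ht with rfl | ht
        · exact hy
        · exact hF ht
      · rw [Finset.card_eq_zero, Finset.filter_eq_empty_iff] at h0
        calc _ ≤ ({y} : Finset α).card := by
              apply Finset.card_le_card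
              intro t ht
              rw [Finset.mem_filter, Finset.mem_insert] at ht
              rw [Finset.mem_singleton]
              rcases ht.1 with h | h
              · exact h
              · exfalso
                have := h0 h
                rw [not_not] at this
                exact ht.2 (Finset.mem_insert_of_mem this)
          _ = 1 := Finset.card_singleton _
    · obtain ⟨x, hx⟩ := Finset.card_eq_one.1 h1
      have hx' : x ∈ F.filter (fun t => g t ∉ F) := by rw [hx]; exact Finset.mem_singleton_self _
      rw [Finset.mem_filter] at hx'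
      refine ⟨insert (g x) F, ?_, by rw [Finset.card_insert_of_notMem hx'.2, hFc], ?_⟩
      · intro t ht
        rcases Finset.mem_insert.1 ht with rfl | ht
        · exact Equiv.Perm.apply_mem_support.2 (hF hx'.1)
        · exact hF ht
      · calc _ ≤ ({g x} : Finset α).card := by
              apply Finset.card_le_card
              intro t ht
              rw [Finset.mem_filter, Finset.mem_insert] at ht
              rw [Finset.mem_singleton]
              rcases ht.1 with h | h
              · exact h
              · exfalso
                have h2 : g t ∉ F := fun h3 => ht.2 (Finset.mem_insert_of_mem h3)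
                have h3 : t ∈ F.filter (fun t => g t ∉ F) := Finset.mem_filter.2 ⟨h, h2⟩
                rw [hx, Finset.mem_singleton] at h3
                exact ht.2 (by rw [h3]; exact Finset.mem_insert_self _ _)
          _ = 1 := Finset.card_singleton _

theorem main {α : Type*} [Fintype α] [DecidableEq α] (G : Subgroup (Equiv.Perm α)) {k : ℕ} (hk : 3 ≤ k) (hkn : k ≤ Fintype.card α)
    (hG : MulAction.IsMultiplyPretransitive G α k) : ∀ m : ℕ, ∀ g : Equiv.Perm α, g ∈ G → g ≠ 1 → g.support.card = m → m < 2 * k - 2 →
    ∃ h : Equiv.Perm α, h ∈ G ∧ h ≠ 1 ∧ h.support.card ≤ 3 := by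
  intro m
  induction m using Nat.strong_induction_on with
  | _ m ih =>
  intro g hg hg1 hgm hm
  by_cases hm3 : m ≤ 3
  · exact ⟨g, hg, hg1, by omega⟩
  by_cases hkn' : k = Fintype.card α
  · -- full symmetric group
    obtain ⟨a, b, hab⟩ := Fintype.exists_pair_of_one_lt_card (α := α) (by omega)
    have hsc : (Finset.univ \ {a, b} : Finset α).card = Fintype.card α - 2 := by
      rw [Finset.card_sdiff_of_subset (Finset.subset_univ _), Finset.card_univ, Finset.card_pair hab]
    obtain ⟨h, h1, h2⟩ := CfsgLib.PermG3.fix_of_mt hG (Finset.univ \ {a, b}) (by rw [hsc]; omega) hkn a b (by simp) (by simp)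
    refine ⟨h, h.2, ?_, ?_⟩
    · intro h3
      have h4 : (h : Equiv.Perm α) a = b := h2
      rw [h3] at h4
      exact hab h4
    · calc (h : Equiv.Perm α).support.card ≤ ({a, b} : Finset α).card := by
            apply Finset.card_le_card
            intro t ht
            by_contra hcon
            exact (Equiv.Perm.mem_support.1 ht) (h1 t (by rw [Finset.mem_sdiff]; exact ⟨Finset.mem_univ _, hcon⟩))
        _ ≤ 2 := Finset.card_le_two
        _ ≤ 3 := by norm_num
  -- general reduction
  have hstep : ∀ (F : Finset α) (y b : α), F ⊆ g.support → F.card + 1 ≤ k → y ∉ F → b ∉ F → y ≠ b → (∃ x ∈ F, g x = y) →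
      ∃ h ∈ G, g⁻¹ * (h * g * h⁻¹) ≠ 1 ∧ (∀ t ∈ F, h t = t) ∧ h y = b := by
    intro F y b hF hFc hy hb hyb hx
    obtain ⟨h, h1, h2⟩ := CfsgLib.PermG3.fix_of_mt hG F hFc hkn y b hy hb
    refine ⟨h, h.2, ?_, fun t ht => h1 t ht, h2⟩
    intro h3
    obtain ⟨x, hx, hxy⟩ := hx
    have h4 : (h : Equiv.Perm α) * g * (h : Equiv.Perm α)⁻¹ = g := (inv_mul_eq_one.1 h3).symm
    have h5 := congrArg (fun σ : Equiv.Perm α => σ x) h4
    have h5' : (h : Equiv.Perm α) (g ((h : Equiv.Perm α)⁻¹ x)) = g x := h5
    have h6 : (h : Equiv.Perm α)⁻¹ x = x := by
      rw [Equiv.Perm.inv_eq_iff_eq]; exact (h1 x hx).symm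
    have h7 : (h : Equiv.Perm α) y = b := h2
    rw [h6, hxy, h7] at h5'
    exact hyb h5'.symm
  have hcG : ∀ h ∈ G, g⁻¹ * (h * g * h⁻¹) ∈ G := fun h hh =>
    G.mul_mem (G.inv_mem hg) (G.mul_mem (G.mul_mem hh hg) (G.inv_mem hh))
  have hsplit : ∀ F : Finset α, (F.filter (fun t => g t ∈ F)).card + (F.filter (fun t => g t ∉ F)).card = F.card := fun F =>
    Finset.card_filter_add_card_filter_not (s := F) (fun t => g t ∈ F)
  by_cases hmk : m ≤ k
  · -- small support
    obtain ⟨b, hb⟩ : ∃ b, b ∉ g.support := by
      by_contra hcon
      push Not at hcon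
      have : Fintype.card α ≤ g.support.card := by
        rw [← Finset.card_univ]
        exact Finset.card_le_card (fun z _ => hcon z)
      omega
    obtain ⟨x, hx⟩ : g.support.Nonempty := by rw [← Finset.card_pos]; omega
    have hgx : g x ∈ g.support := Equiv.Perm.apply_mem_support.2 hx
    obtain ⟨h, hh, hne, hfix, hhy⟩ := hstep (g.support.erase (g x)) (g x) b (Finset.erase_subset _ _)
      (by rw [Finset.card_erase_of_mem hgx]; omega) (Finset.notMem_erase _ _) (fun h => hb (Finset.mem_of_mem_erase h))
      (fun h => hb (h ▸ hgx)) ⟨x, Finset.mem_erase.2 ⟨(Equiv.Perm.mem_support.1 hx).symm, hx⟩, rfl⟩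
    refine ⟨_, hcG h hh, hne, ?_⟩
    have h1 := comm_supp g h (g.support.erase (g x)) (Finset.erase_subset _ _) hfix
    have h2 : (g.support ∪ g.support.map h.toEmbedding).card ≤ m + 1 := by
      calc _ ≤ (insert b g.support).card := by
            apply Finset.card_le_card
            intro t ht
            rw [Finset.mem_union, Finset.mem_map] at ht
            rcases ht with ht | ⟨s, hs, rfl⟩
            · exact Finset.mem_insert_of_mem ht
            · by_cases hsx : s = g x
              · rw [hsx]
                change h (g x) ∈ _
                rw [hhy]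
                exact Finset.mem_insert_self _ _
              · change h s ∈ _
                rw [hfix s (Finset.mem_erase.2 ⟨hsx, hs⟩)]
                exact Finset.mem_insert_of_mem hs
        _ = m + 1 := by rw [Finset.card_insert_of_notMem hb, hgm]
    have h3 := hsplit (g.support.erase (g x))
    have h4 : ((g.support.erase (g x)).filter (fun t => g t ∉ g.support.erase (g x))).card ≤ 1 := by
      calc _ ≤ ({x} : Finset α).card := by
            apply Finset.card_le_card
            intro t ht
            rw [Finset.mem_filter, Finset.mem_erase, Finset.mem_erase, not_and_or, not_not] at ht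
            rw [Finset.mem_singleton]
            rcases ht.2 with h5 | h5
            · exact g.injective h5
            · exact absurd (Equiv.Perm.apply_mem_support.2 ht.1.2) h5
        _ = 1 := Finset.card_singleton _
    rw [Finset.card_erase_of_mem hgx] at h3
    omega
  · -- main case
    have hF : ∃ F : Finset α, F ⊆ g.support ∧ F.card = k - 1 ∧ 1 ≤ (F.filter (fun t => g t ∉ F)).card ∧
        (F.filter (fun t => g t ∉ F)).card ≤ 2 * k - 2 - m := by
      obtain ⟨F, hF, hFc, hb⟩ := path_set g (k - 1) (by omega)
      rcases Nat.le_one_iff_eq_zero_or_eq_one.1 hb with h0 | h1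
      · rw [Finset.card_eq_zero, Finset.filter_eq_empty_iff] at h0
        have hinv : ∀ t ∈ F, g t ∈ F := fun t ht => not_not.1 (h0 ht)
        -- complement is invariant also
        have hinv' : ∀ t, g t ∈ F → t ∈ F := by
          have h5 : F.map g.toEmbedding = F := by
            apply Finset.eq_of_subset_of_card_le
            · intro t ht
              obtain ⟨s, hs, rfl⟩ := Finset.mem_map.1 ht
              exact hinv s hs
            · rw [Finset.card_map]
          intro t ht
          rw [← h5] at ht
          obtain ⟨s, hs, hst⟩ := Finset.mem_map.1 ht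
          have : s = t := g.injective hst
          rw [← this]; exact hs
        obtain ⟨x, hx⟩ : F.Nonempty := by rw [← Finset.card_pos]; omega
        have hgx : g x ≠ x := Equiv.Perm.mem_support.1 (hF hx)
        by_cases hm2 : m = 2 * k - 3
        · refine ⟨insert x (g.support \ F), ?_, ?_, ?_, ?_⟩
          · intro t ht
            rcases Finset.mem_insert.1 ht with rfl | ht
            · exact hF hx
            · exact (Finset.mem_sdiff.1 ht).1
          · rw [Finset.card_insert_of_notMem (by rw [Finset.mem_sdiff]; exact fun h => h.2 hx), Finset.card_sdiff_of_subset hF]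
            omega
          · rw [Nat.one_le_iff_ne_zero, ← Nat.pos_iff_ne_zero, Finset.card_pos]
            refine ⟨x, ?_⟩
            rw [Finset.mem_filter]
            refine ⟨Finset.mem_insert_self _ _, ?_⟩
            rw [Finset.mem_insert, not_or, Finset.mem_sdiff]
            exact ⟨hgx, fun h => h.2 (hinv x hx)⟩
          · have : 2 * k - 2 - m = 1 := by omega
            rw [this]
            calc _ ≤ ({x} : Finset α).card := by
                  apply Finset.card_le_card
                  intro t ht
                  rw [Finset.mem_filter, Finset.mem_insert] at ht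
                  rw [Finset.mem_singleton]
                  rcases ht.1 with h | h
                  · exact h
                  · exfalso
                    apply ht.2
                    apply Finset.mem_insert_of_mem
                    rw [Finset.mem_sdiff] at h ⊢
                    exact ⟨Equiv.Perm.apply_mem_support.2 h.1, fun h6 => h.2 (hinv' t h6)⟩
              _ = 1 := Finset.card_singleton _
        · obtain ⟨y, hy, hyF⟩ := Finset.exists_mem_notMem_of_card_lt_card (s := F) (t := g.support) (by omega)
          have hyx : y ≠ x := fun h => hyF (h ▸ hx)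
          have hxF' : g⁻¹ x ∈ F := hinv' _ (by rw [CfsgLib.PermG3.apply_inv]; exact hx)
          refine ⟨insert y (F.erase x), ?_, ?_, ?_, ?_⟩
          · intro t ht
            rcases Finset.mem_insert.1 ht with rfl | ht
            · exact hy
            · exact hF (Finset.mem_of_mem_erase ht)
          · rw [Finset.card_insert_of_notMem (fun h => hyF (Finset.mem_of_mem_erase h)), Finset.card_erase_of_mem hx]
            omega
          · rw [Nat.one_le_iff_ne_zero, ← Nat.pos_iff_ne_zero, Finset.card_pos]
            refine ⟨y, ?_⟩
            rw [Finset.mem_filter]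
            refine ⟨Finset.mem_insert_self _ _, ?_⟩
            rw [Finset.mem_insert, not_or]
            exact ⟨Equiv.Perm.mem_support.1 hy, fun h => hyF (hinv' y (Finset.mem_of_mem_erase h))⟩
          · calc _ ≤ ({y, g⁻¹ x} : Finset α).card := by
                  apply Finset.card_le_card
                  intro t ht
                  rw [Finset.mem_filter, Finset.mem_insert, Finset.mem_insert, not_or] at ht
                  rw [Finset.mem_insert, Finset.mem_singleton]
                  rcases ht.1 with h | h
                  · exact Or.inl h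
                  · right
                    have h6 := hinv t (Finset.mem_of_mem_erase h)
                    by_contra h7
                    apply ht.2.2
                    rw [Finset.mem_erase]
                    refine ⟨fun h8 => h7 ?_, h6⟩
                    rw [← h8, CfsgLib.PermG3.inv_apply]
              _ ≤ 2 := Finset.card_le_two
              _ ≤ _ := by omega
      · exact ⟨F, hF, hFc, h1.ge, by omega⟩
    obtain ⟨F, hF, hFc, hb1, hb2⟩ := hF
    obtain ⟨x, hx⟩ : (F.filter (fun t => g t ∉ F)).Nonempty := by rw [← Finset.card_pos]; omega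
    rw [Finset.mem_filter] at hx
    have hgx : g x ∈ g.support := Equiv.Perm.apply_mem_support.2 (hF hx.1)
    obtain ⟨b, hb, hbF⟩ := Finset.exists_mem_notMem_of_card_lt_card (s := insert (g x) F) (t := g.support) (by
      rw [Finset.card_insert_of_notMem hx.2]; omega)
    rw [Finset.mem_insert, not_or] at hbF
    obtain ⟨h, hh, hne, hfix, hhy⟩ := hstep F (g x) b hF (by omega) hx.2 hbF.2 (Ne.symm hbF.1) ⟨x, hx.1, rfl⟩
    have h1 := comm_supp g h F hF hfix
    have h2 := Finset.card_union_add_card_inter g.support (g.support.map h.toEmbedding)
    have h3 : k ≤ (g.support ∩ g.support.map h.toEmbedding).card := by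
      calc k = (insert b F).card := by rw [Finset.card_insert_of_notMem hbF.2]; omega
        _ ≤ _ := by
          apply Finset.card_le_card
          intro t ht
          rw [Finset.mem_inter, Finset.mem_map]
          rcases Finset.mem_insert.1 ht with rfl | ht
          · exact ⟨hb, g x, hgx, hhy⟩
          · exact ⟨hF ht, t, hF ht, hfix t ht⟩
    have h4 := hsplit F
    rw [Finset.card_map] at h2
    have hlt : (g⁻¹ * (h * g * h⁻¹)).support.card < m := by omega
    exact ih _ hlt _ (hcG h hh) hne rfl (by omega)


/-- A `k`-transitive permutation group (`k ≥ 3`) with a non-identity element of support smaller than `2k - 2` contains a non-identity element of support at most 3, and therefore contains the alternating group. -/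
theorem result {α : Type*} [Fintype α] [DecidableEq α] (G : Subgroup (Equiv.Perm α)) {k : ℕ} (hk : 3 ≤ k) (hkn : k ≤ Fintype.card α) (hG : MulAction.IsMultiplyPretransitive G α k) (g : Equiv.Perm α) (hg : g ∈ G) (hg1 : g ≠ 1) (hsupp : g.support.card < 2 * k - 2) : (∃ h : Equiv.Perm α, h ∈ G ∧ h ≠ 1 ∧ h.support.card ≤ 3) ∧ alternatingGroup α ≤ G := by
  classical
  obtain ⟨h, hh, hh1, hhs⟩ := main G hk hkn hG _ g hg hg1 rfl hsupp
  refine ⟨⟨h, hh, hh1, hhs⟩, ?_⟩
  haveI := hG
  have h2 : MulAction.IsMultiplyPretransitive G α 2 := by
    apply MulAction.isMultiplyPretransitive_of_le (n := k) (by omega)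
    rw [Nat.card_eq_fintype_card]; exact hkn
  have hprim : MulAction.IsPreprimitive G α := MulAction.isPreprimitive_of_is_two_pretransitive h2
  have hc2 := Equiv.Perm.two_le_card_support_of_ne_one hh1
  rcases (show h.support.card = 2 ∨ h.support.card = 3 by omega) with h3 | h3
  · rw [Equiv.Perm.subgroup_eq_top_of_isPreprimitive_of_isSwap_mem hprim h (Equiv.Perm.card_support_eq_two.1 h3) hh]
    exact le_top
  · exact Equiv.Perm.alternatingGroup_le_of_isPreprimitive_of_isThreeCycle_mem hprim (card_support_eq_three_iff.1 h3) hh

end Cfsg.Agent.S0711
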