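import Cfsg.Statements.S0712
import Cfsg.Agent.Lib.PermG3

set_option autoImplicit false
open Cfsg

open scoped Pointwise
set_option linter.style.haveILetI false
namespace Cfsg.Agent.S0712

/-- Jordan: a primitive group in which the pointwise stabiliser of a set `s` is doubly transitive on the complement of `s` (which has at least 2 points) is `(|s| + 2)`-transitive. -/
theorem result {α : Type*} [Fintype α] [DecidableEq α] (G : Subgroup (Equiv.Perm α)) (hG : MulAction.IsPreprimitive G α) (s : Set α) {m : ℕ} (hsm : s.ncard = m) (hm : m + 2 ≤ Fintype.card α) (h2 : MulAction.IsMultiplyPretransitive (fixingSubgroup G s) (SubMulAction.ofFixingSubgroup G s) 2) : MulAction.IsMultiplyPretransitive G α (m + 2) := by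
  classical
  have hmt : MulAction.IsMultiplyPretransitive G α m := by
    rcases Nat.eq_zero_or_pos m with rfl | hm0
    · exact MulAction.is_zero_pretransitive'
    · obtain ⟨n, rfl⟩ : ∃ n, m = n + 1 := ⟨m - 1, by omega⟩
      have hprim : MulAction.IsPreprimitive (fixingSubgroup G s) (SubMulAction.ofFixingSubgroup G s) :=
        MulAction.isPreprimitive_of_is_two_pretransitive h2
      have h3 := MulAction.IsPreprimitive.isMultiplyPreprimitive hG hsm (by
        rw [Nat.card_eq_fintype_card]; omega) hprim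
      haveI := h3.isMultiplyPretransitive
      apply MulAction.isMultiplyPretransitive_of_le (n := n + 2) (by omega)
      rw [Nat.card_eq_fintype_card]; omega
  have hsfin : s.Finite := Set.toFinite s
  obtain ⟨e⟩ : Nonempty (Fin m ≃ s) := by
    rw [← hsm]
    exact ⟨(Finite.equivFinOfCardEq (by rw [Nat.card_coe_set_eq])).symm⟩
  rw [CfsgLib.PermG3.mt_iff] at hmt ⊢
  rw [CfsgLib.PermG3.mt_two_iff] at h2
  have key : ∀ u : Fin (m + 2) ↪ α, ∃ g : G, ∀ i : Fin m, g • u (Fin.castAdd 2 i) = e i := by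
    intro u
    exact hmt ((Fin.castAddEmb 2).trans u) (e.toEmbedding.trans (Function.Embedding.subtype _))
  intro u v
  obtain ⟨g, hg⟩ := key u
  obtain ⟨g', hg'⟩ := key v
  have hns : ∀ (w : Fin (m + 2) ↪ α) (h : G), (∀ i : Fin m, h • w (Fin.castAdd 2 i) = e i) → ∀ j : Fin 2, h • w (Fin.natAdd m j) ∉ s := by
    intro w h hw j hs
    have h1 := hw (e.symm ⟨_, hs⟩)
    rw [Equiv.apply_symm_apply] at h1
    have h2 := w.injective (smul_left_cancel _ h1)
    have h3 := congrArg Fin.val h2
    simp at h3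
    have := (e.symm ⟨_, hs⟩).2
    omega
  have hne : ∀ (w : Fin (m + 2) ↪ α) (h : G), h • w (Fin.natAdd m 0) ≠ h • w (Fin.natAdd m 1) := by
    intro w h hh
    have h2 := w.injective (smul_left_cancel _ hh)
    have h3 := congrArg Fin.val h2
    simp at h3
  obtain ⟨k, hk0, hk1⟩ := h2 ⟨g • u (Fin.natAdd m 0), hns u g hg 0⟩ ⟨g • u (Fin.natAdd m 1), hns u g hg 1⟩
    ⟨g' • v (Fin.natAdd m 0), hns v g' hg' 0⟩ ⟨g' • v (Fin.natAdd m 1), hns v g' hg' 1⟩
    (fun h => hne u g (congrArg Subtype.val h)) (fun h => hne v g' (congrArg Subtype.val h))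
  have hk0' : (k : G) • (g • u (Fin.natAdd m 0)) = g' • v (Fin.natAdd m 0) := congrArg Subtype.val hk0
  have hk1' : (k : G) • (g • u (Fin.natAdd m 1)) = g' • v (Fin.natAdd m 1) := congrArg Subtype.val hk1
  refine ⟨g'⁻¹ * ((k : G) * g), fun i => ?_⟩
  rw [mul_smul, mul_smul, inv_smul_eq_iff]
  refine Fin.addCases (fun i => ?_) (fun j => ?_) i
  · rw [hg, hg']
    exact (mem_fixingSubgroup_iff G).1 k.2 _ (e i).2
  · match j with
    | 0 => exact hk0'
    | 1 => exact hk1'

end Cfsg.Agent.S0712
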