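import Cfsg.Statements.S0713
import Cfsg.Agent.Lib.PermG3
import Cfsg.Agent.Lib.SylowIn

set_option autoImplicit false
open Cfsg

set_option linter.style.haveILetI false
namespace Cfsg.Agent.S0713

/-- Jordan's Theorem: a primitive permutation group of degree `n ≥ 5` containing a `p`-cycle for a prime `p ≤ n - 3` contains the alternating group. -/
theorem result {α : Type*} [Fintype α] [DecidableEq α] (G : Subgroup (Equiv.Perm α)) (hG : MulAction.IsPreprimitive G α) {p : ℕ} (hp : p.Prime) (hn : 5 ≤ Fintype.card α) (hpn : p + 3 ≤ Fintype.card α) {g : Equiv.Perm α} (hgc : g.IsCycle) (hgp : g.support.card = p) (hg : g ∈ G) : alternatingGroup α ≤ G := by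
  classical
  haveI : Fact p.Prime := ⟨hp⟩
  have hα : Nat.card α = Fintype.card α := Nat.card_eq_fintype_card
  -- multiple transitivity
  have hsc : ((g.support : Set α)ᶜ).ncard = (Fintype.card α - p - 1) + 1 := by
    rw [Set.ncard_compl, Set.ncard_coe_finset, hgp, hα]
    omega
  have hcardof : Nat.card (SubMulAction.ofFixingSubgroup G ((g.support : Set α)ᶜ)) = p := by
    have h1 : Nat.card (SubMulAction.ofFixingSubgroup G ((g.support : Set α)ᶜ)) = Nat.card (g.support : Set α) := by
      apply Nat.card_congr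
      refine Equiv.subtypeEquivRight ?_
      intro x
      rw [SubMulAction.mem_ofFixingSubgroup_iff, Set.mem_compl_iff, not_not]
    rw [h1, Nat.card_coe_set_eq, Set.ncard_coe_finset, hgp]
  have hprim : MulAction.IsPreprimitive (fixingSubgroup G ((g.support : Set α)ᶜ)) (SubMulAction.ofFixingSubgroup G ((g.support : Set α)ᶜ)) := by
    haveI := Equiv.Perm.isPretransitive_of_isCycle_mem hgc hg
    apply MulAction.IsPreprimitive.of_prime_card
    rw [hcardof]
    exact hp
  have hmp := MulAction.IsPreprimitive.isMultiplyPreprimitive hG hsc (by have := hp.two_le; omega) hprim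
  have hmt1 := hmp.isMultiplyPretransitive
  have hmt : MulAction.IsMultiplyPretransitive G α (Fintype.card α - p) := by
    apply MulAction.isMultiplyPretransitive_of_le (n := Fintype.card α - p - 1 + 2)
    · omega
    · have := hp.two_le
      omega
  rw [CfsgLib.PermG3.mt_iff] at hmt
  have hFc : ({t : α | g t = t}).ncard = Fintype.card α - p := by
    have : {t : α | g t = t} = ((g.support : Set α)ᶜ) := by
      ext t
      simp
    rw [this, hsc]; omega
  have hFe : ∃ e : Fin (Fintype.card α - p) ↪ α, ∀ t, g t = t ↔ ∃ i, e i = t := by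
    have h1 : Nat.card {t : α | g t = t} = Fintype.card α - p := by
      rw [Nat.card_coe_set_eq, hFc]
    let e := (Finite.equivFinOfCardEq h1).symm
    refine ⟨e.toEmbedding.trans (Function.Embedding.subtype _), fun t => ⟨fun ht => ⟨e.symm ⟨t, ht⟩, ?_⟩, ?_⟩⟩
    · change ((e (e.symm ⟨t, ht⟩) : {t : α | g t = t}) : α) = t
      rw [Equiv.apply_symm_apply]
    · rintro ⟨i, rfl⟩
      exact (e i).2
  obtain ⟨e, he⟩ := hFe
  -- the pointwise stabiliser
  let L : Subgroup (Equiv.Perm α) :=
    { carrier := {k | ∀ t, g t = t → k t = t}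
      one_mem' := fun t _ => rfl
      mul_mem' := fun {a b} ha hb t ht => by
        change a (b t) = t
        rw [hb t ht, ha t ht]
      inv_mem' := fun {a} ha t ht => by
        rw [Equiv.Perm.inv_eq_iff_eq]
        exact (ha t ht).symm }
  have hLcard : Nat.card L = Nat.factorial p := by
    have h1 : Nat.card L = Nat.card (Equiv.Perm {t // t ∈ g.support}) := by
      apply Nat.card_congr
      refine Equiv.trans ?_ (Equiv.Perm.subtypeEquivSubtypePerm (fun t => t ∈ g.support)).symm
      refine Equiv.subtypeEquivRight ?_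
      intro k
      change (∀ t, g t = t → k t = t) ↔ _
      constructor
      · intro h t ht
        exact h t (Equiv.Perm.notMem_support.1 ht)
      · intro h t ht
        exact h t (Equiv.Perm.notMem_support.2 ht)
    rw [h1, Nat.card_eq_fintype_card, Fintype.card_perm, Fintype.card_coe, hgp]
  have hord : orderOf g = p := by rw [hgc.orderOf, hgp]
  have hgL : g ∈ L := fun t ht => ht
  have hsyl : CfsgLib.SylowIn.IsSylowIn p (Subgroup.zpowers g) (G ⊓ L) := by
    refine ⟨?_, ?_, ?_⟩
    · rw [Subgroup.zpowers_le]; exact ⟨hg, hgL⟩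
    · apply IsPGroup.of_card (n := 1)
      rw [Nat.card_zpowers, hord, pow_one]
    · intro T hT hTp
      obtain ⟨m, hm⟩ := IsPGroup.iff_card.1 hTp
      have h1 : p ^ m ∣ Nat.factorial p := by
        rw [← hm, ← hLcard]
        exact Subgroup.card_dvd_of_le (hT.trans inf_le_right)
      have h2 : m ≤ 1 := by
        by_contra hcon
        push Not at hcon
        have h3 : p ^ 2 ∣ Nat.factorial p := (pow_dvd_pow p hcon).trans h1
        have h4 : Nat.factorial p = p * Nat.factorial (p - 1) := (Nat.mul_factorial_pred hp.ne_zero).symm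
        rw [h4, pow_two] at h3
        have h5 := Nat.dvd_of_mul_dvd_mul_left hp.pos h3
        rw [hp.dvd_factorial] at h5
        have := hp.pos
        omega
      rw [hm, Nat.card_zpowers, hord]
      calc p ^ m ≤ p ^ 1 := Nat.pow_le_pow_right hp.pos h2
        _ = p := pow_one p
  -- realise permutations of the fixed points inside the normaliser
  have key : ∀ τ : Equiv.Perm α, (∀ t, g t = t → g (τ t) = τ t) → (∀ t, τ (τ t) = t) →
      ∃ u ∈ G, (∃ i : ℤ, u * g * u⁻¹ = g ^ i) ∧ ∀ t, g t = t → u t = τ t := by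
    intro τ hτ hττ
    obtain ⟨u, hu⟩ := hmt e (e.trans τ.toEmbedding)
    have hu' : ∀ t, g t = t → (u : Equiv.Perm α) t = τ t := by
      intro t ht
      obtain ⟨i, rfl⟩ := (he t).1 ht
      exact hu i
    have hui : ∀ t, g t = t → (u : Equiv.Perm α)⁻¹ t = τ t := by
      intro t ht
      rw [Equiv.Perm.inv_eq_iff_eq, hu' _ (hτ t ht), hττ]
    obtain ⟨k, hk, hkc⟩ := hsyl.exists_conj (T := CfsgLib.SylowIn.cj (u : Equiv.Perm α) (Subgroup.zpowers g)) (by
      rw [CfsgLib.SylowIn.cj_le_iff]
      intro x hx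
      obtain ⟨i, rfl⟩ := Subgroup.mem_zpowers_iff.1 hx
      refine ⟨G.mul_mem (G.mul_mem u.2 (G.zpow_mem hg i)) (G.inv_mem u.2), ?_⟩
      intro t ht
      change (u : Equiv.Perm α) ((g ^ i) ((u : Equiv.Perm α)⁻¹ t)) = t
      have h1 : (g ^ i) ((u : Equiv.Perm α)⁻¹ t) = (u : Equiv.Perm α)⁻¹ t := by
        apply Equiv.Perm.zpow_apply_eq_self_of_apply_eq_self
        rw [hui t ht]
        exact hτ t ht
      rw [h1, CfsgLib.PermG3.apply_inv]) (by
      exact hsyl.2.1.map _)
    refine ⟨k * u, G.mul_mem hk.1 u.2, ?_, ?_⟩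
    · have h1 := hkc _ (CfsgLib.SylowIn.conj_mem_cj (g := (u : Equiv.Perm α)) (Subgroup.mem_zpowers g))
      obtain ⟨i, hi⟩ := Subgroup.mem_zpowers_iff.1 h1
      refine ⟨i, ?_⟩
      rw [hi]
      group
    · intro t ht
      change k ((u : Equiv.Perm α) t) = τ t
      rw [hu' t ht]
      exact hk.2 _ (hτ t ht)
  -- three fixed points
  obtain ⟨x, y, z, hx, hy, hz, hxy, hxz, hyz⟩ : ∃ x y z : α, g x = x ∧ g y = y ∧ g z = z ∧ x ≠ y ∧ x ≠ z ∧ y ≠ z := by
    have h3 : 3 ≤ Fintype.card α - p := by omega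
    refine ⟨e ⟨0, by omega⟩, e ⟨1, by omega⟩, e ⟨2, by omega⟩, (he _).2 ⟨_, rfl⟩, (he _).2 ⟨_, rfl⟩, (he _).2 ⟨_, rfl⟩, ?_, ?_, ?_⟩
    · intro h; have := congrArg Fin.val (e.injective h); simp at this
    · intro h; have := congrArg Fin.val (e.injective h); simp at this
    · intro h; have := congrArg Fin.val (e.injective h); simp at this
  have hswap : ∀ a b : α, g a = a → g b = b → ∀ t, g t = t → g (Equiv.swap a b t) = Equiv.swap a b t := by
    intro a b ha hb t ht
    by_cases h1 : t = a
    · rw [h1, Equiv.swap_apply_left]; exact hb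
    by_cases h2 : t = b
    · rw [h2, Equiv.swap_apply_right]; exact ha
    rw [Equiv.swap_apply_of_ne_of_ne h1 h2]; exact ht
  obtain ⟨u, huG, ⟨i, hi⟩, hu⟩ := key (Equiv.swap x y) (hswap x y hx hy) (fun t => Equiv.swap_apply_self _ _ t)
  obtain ⟨v, hvG, ⟨j, hj⟩, hv⟩ := key (Equiv.swap x z) (hswap x z hx hz) (fun t => Equiv.swap_apply_self _ _ t)
  have hui : ∀ t, g t = t → u⁻¹ t = Equiv.swap x y t := by
    intro t ht
    rw [Equiv.Perm.inv_eq_iff_eq, hu _ (hswap x y hx hy t ht), Equiv.swap_apply_self]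
  have hvi : ∀ t, g t = t → v⁻¹ t = Equiv.swap x z t := by
    intro t ht
    rw [Equiv.Perm.inv_eq_iff_eq, hv _ (hswap x z hx hz t ht), Equiv.swap_apply_self]
  -- the commutator
  set c := u⁻¹ * v⁻¹ * u * v with hc
  have hcG : c ∈ G := G.mul_mem (G.mul_mem (G.mul_mem (G.inv_mem huG) (G.inv_mem hvG)) huG) hvG
  have hcg : c * g * c⁻¹ = g := by
    have h1 : (u * v) * g * (u * v)⁻¹ = g ^ (i * j) := by
      have : (u * v) * g * (u * v)⁻¹ = u * (v * g * v⁻¹) * u⁻¹ := by group
      rw [this, hj, ← conj_zpow, hi, ← zpow_mul]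
    have h2 : (v * u) * g * (v * u)⁻¹ = g ^ (i * j) := by
      have : (v * u) * g * (v * u)⁻¹ = v * (u * g * u⁻¹) * v⁻¹ := by group
      rw [this, hi, ← conj_zpow, hj, ← zpow_mul, mul_comm]
    have h3 : c * g * c⁻¹ = (v * u)⁻¹ * ((u * v) * g * (u * v)⁻¹) * (v * u) := by
      rw [hc]; group
    rw [h3, h1, ← h2]
    group
  have hcg' : ∀ b, c (g b) = g (c b) := by
    intro b
    have h1 : c * g = g * c := by
      have := congrArg (· * c) hcg
      simpa [mul_assoc] using this
    exact congrArg (fun σ : Equiv.Perm α => σ b) h1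
  have hcF : ∀ t, g t = t → c t = (Equiv.swap x y * Equiv.swap x z * (Equiv.swap x y * Equiv.swap x z)) t := by
    intro t ht
    change u⁻¹ (v⁻¹ (u (v t))) = Equiv.swap x y (Equiv.swap x z (Equiv.swap x y (Equiv.swap x z t)))
    have f1 := hswap x z hx hz t ht
    have f2 := hswap x y hx hy _ f1
    have f3 := hswap x z hx hz _ f2
    rw [hv t ht, hu _ f1, hvi _ f2, hui _ f3]
  -- a point of the support
  obtain ⟨a, ha, hcyc⟩ := hgc
  have hca : g (c a) ≠ c a := by
    intro h
    rw [← hcg' a] at h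
    exact ha (c.injective h)
  obtain ⟨m, hm⟩ := hcyc hca
  have hcz : ∀ (n : ℤ) (b : α), c ((g ^ n) b) = (g ^ n) (c b) := by
    intro n b
    have h1 : Commute c g := by
      change c * g = g * c
      exact Equiv.ext hcg'
    exact congrArg (fun σ : Equiv.Perm α => σ b) (h1.zpow_right n).eq
  have hfin : c * (g ^ m)⁻¹ = Equiv.swap x y * Equiv.swap x z * (Equiv.swap x y * Equiv.swap x z) := by
    ext b
    by_cases hb : g b = b
    · have h1 : (g ^ m)⁻¹ b = b := by
        rw [← zpow_neg]
        exact Equiv.Perm.zpow_apply_eq_self_of_apply_eq_self hb (-m)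
      change c ((g ^ m)⁻¹ b) = _
      rw [h1, hcF b hb]
    · obtain ⟨n, hn⟩ := hcyc hb
      have h1 : c ((g ^ m)⁻¹ b) = b := by
        rw [← zpow_neg, hcz, ← hn, hcz, ← hm]
        change ((g ^ (-m)) * ((g ^ n) * (g ^ m))) a = _
        congr 1
        group
      change c ((g ^ m)⁻¹ b) = _
      rw [h1]
      have hne : ∀ t, g t = t → b ≠ t := fun t ht h => hb (h ▸ ht)
      change b = Equiv.swap x y (Equiv.swap x z (Equiv.swap x y (Equiv.swap x z b)))
      rw [Equiv.swap_apply_of_ne_of_ne (hne x hx) (hne z hz), Equiv.swap_apply_of_ne_of_ne (hne x hx) (hne y hy),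
        Equiv.swap_apply_of_ne_of_ne (hne x hx) (hne z hz), Equiv.swap_apply_of_ne_of_ne (hne x hx) (hne y hy)]
  refine Equiv.Perm.alternatingGroup_le_of_isPreprimitive_of_isThreeCycle_mem hG
    (g := c * (g ^ m)⁻¹) ?_ (G.mul_mem hcG (G.inv_mem (G.zpow_mem hg m)))
  rw [hfin]
  exact (Equiv.Perm.isThreeCycle_swap_mul_swap_same hxy hxz hyz).isThreeCycle_sq

end Cfsg.Agent.S0713
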