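import Cfsg.Statements.S0714
import Cfsg.Agent.Lib.PermP1

set_option autoImplicit false
open Cfsg

open scoped Pointwise
set_option linter.style.haveILetI false
namespace Cfsg.Agent.S0714

/-- Over any field, the permutation module of the alternating group of degree at least 5 has exactly four invariant subspaces: zero, the constant functions, the functions with coordinate sum zero, and everything. -/
theorem result {α : Type*} [Fintype α] [DecidableEq α] (hα : 5 ≤ Fintype.card α) {K : Type*} [Field K] (W : Subrepresentation (Cfsg.permRep K (alternatingGroup α) α)) : W.toSubmodule = ⊥ ∨ W = Cfsg.permConstants K (alternatingGroup α) α ∨ W = Cfsg.permSumZero K (alternatingGroup α) α ∨ W.toSubmodule = ⊤ := by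
  classical
  -- even permutations act
  have hact : ∀ (σ : Equiv.Perm α), σ ∈ alternatingGroup α → ∀ v ∈ W.toSubmodule, (fun x => v (σ x)) ∈ W.toSubmodule := by
    intro σ hσ v hv
    have h1 := W.apply_mem_toSubmodule (⟨σ, hσ⟩⁻¹ : alternatingGroup α) hv
    have h2 : permRep K (alternatingGroup α) α (⟨σ, hσ⟩⁻¹ : alternatingGroup α) v = fun x => v (σ x) := by
      funext x
      change v (((⟨σ, hσ⟩⁻¹ : alternatingGroup α)⁻¹ : alternatingGroup α) • x) = v (σ x)
      rw [inv_inv]
      rfl
    rwa [h2] at h1
  have hdd : ∀ a b c d : α, a ≠ b → c ≠ d → Equiv.swap a b * Equiv.swap c d ∈ alternatingGroup α := by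
    intro a b c d hab hcd
    rw [Equiv.Perm.mem_alternatingGroup, Equiv.Perm.sign_mul, Equiv.Perm.sign_swap hab, Equiv.Perm.sign_swap hcd]
    norm_num
  -- fresh points
  have hfresh : ∀ s : Finset α, s.card ≤ 4 → ∃ x, x ∉ s := by
    intro s hs
    by_contra hcon
    push Not at hcon
    have : Fintype.card α ≤ s.card := by
      rw [← Finset.card_univ]
      exact Finset.card_le_card (fun z _ => hcon z)
    omega
  -- differences of basis vectors
  have hdiff : (∃ a b : α, a ≠ b ∧ (Pi.single a 1 - Pi.single b 1 : α → K) ∈ W.toSubmodule) →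
      (permSumZero K (alternatingGroup α) α).toSubmodule ≤ W.toSubmodule := by
    rintro ⟨a, b, hab, hW⟩
    -- all differences
    have hall : ∀ c d : α, c ≠ d → (Pi.single c 1 - Pi.single d 1 : α → K) ∈ W.toSubmodule := by
      intro c d hcd
      have h2 : MulAction.IsMultiplyPretransitive (alternatingGroup α) α 2 := by
        haveI := alternatingGroup.isMultiplyPretransitive α
        apply MulAction.isMultiplyPretransitive_of_le (n := Nat.card α - 2)
        · rw [Nat.card_eq_fintype_card]; omega
        · rw [Nat.card_eq_fintype_card]; omega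
      obtain ⟨g, hg1, hg2⟩ := CfsgLib.PermG3.mt_two_iff.1 h2 a b c d hab hcd
      have h3 := W.apply_mem_toSubmodule g hW
      have h4 : ∀ x y : α, g • x = y → permRep K (alternatingGroup α) α g (Pi.single x (1 : K)) = Pi.single y 1 := by
        intro x y hxy
        funext z
        change (Pi.single x (1 : K) : α → K) (g⁻¹ • z) = _
        by_cases hz : z = y
        · rw [hz, ← hxy, inv_smul_smul, Pi.single_eq_same, Pi.single_eq_same]
        · rw [Pi.single_eq_of_ne hz, Pi.single_eq_of_ne]
          intro h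
          apply hz
          rw [← hxy, ← h, smul_inv_smul]
      rw [map_sub, h4 a c hg1, h4 b d hg2] at h3
      exact h3
    intro v hv
    have hv' : ∑ x, v x = 0 := hv
    obtain ⟨a₀⟩ : Nonempty α := ⟨a⟩
    have h5 : v = ∑ x, v x • (Pi.single x 1 - Pi.single a₀ 1 : α → K) := by
      simp only [smul_sub, Finset.sum_sub_distrib]
      rw [← Finset.sum_smul, hv', zero_smul, sub_zero]
      funext y
      rw [Finset.sum_apply]
      simp [Pi.single_apply]
    rw [h5]
    apply Submodule.sum_mem
    intro x _
    apply Submodule.smul_mem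
    by_cases hx : x = a₀
    · rw [hx, sub_self]; exact Submodule.zero_mem _
    · exact hall x a₀ hx
  by_cases hnc : ∃ v ∈ W.toSubmodule, ∃ a b, v a ≠ v b
  · obtain ⟨v, hv, a, b, hab⟩ := hnc
    have hab' : a ≠ b := fun h => hab (by rw [h])
    -- produce a difference
    have hex : ∃ a b : α, a ≠ b ∧ (Pi.single a 1 - Pi.single b 1 : α → K) ∈ W.toSubmodule := by
      obtain ⟨c, hc⟩ := hfresh {a, b} ((Finset.card_le_two).trans (by norm_num))
      simp only [Finset.mem_insert, Finset.mem_singleton, not_or] at hc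
      obtain ⟨d, hd⟩ := hfresh {a, b, c} ((Finset.card_le_three).trans (by norm_num))
      simp only [Finset.mem_insert, Finset.mem_singleton, not_or] at hd
      obtain ⟨e, he⟩ := hfresh {a, b, c, d} Finset.card_le_four
      simp only [Finset.mem_insert, Finset.mem_singleton, not_or] at he
      obtain ⟨hca, hcb⟩ := hc
      obtain ⟨hda, hdb, hdc⟩ := hd
      obtain ⟨hea, heb, hec, hed⟩ := he
      -- w = v∘(a b)(c d) - v , w' = v ∘(a b)(c e) - v etc.
      -- u1 = v∘(ab)(cd) - v = (v b - v a)(δa - δb) + (v d - v c)(δc - δd)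
      have hform : ∀ a b c d : α, a ≠ b → c ≠ d → a ≠ c → a ≠ d → b ≠ c → b ≠ d → ∀ v : α → K, (fun x => v ((Equiv.swap a b * Equiv.swap c d) x)) - v =
          (v b - v a) • (Pi.single a 1 - Pi.single b 1 : α → K) + (v d - v c) • (Pi.single c 1 - Pi.single d 1 : α → K) := by
        intro a b c d hab hcd hac had hbc hbd v
        funext x
        simp only [Pi.sub_apply, Pi.add_apply, Pi.smul_apply, smul_eq_mul, Equiv.Perm.mul_apply]
        by_cases hxa : x = a
        · subst hxa
          rw [Equiv.swap_apply_of_ne_of_ne hac had, Equiv.swap_apply_left, Pi.single_eq_same, Pi.single_eq_of_ne hab, Pi.single_eq_of_ne hac, Pi.single_eq_of_ne had]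
          ring
        by_cases hxb : x = b
        · subst hxb
          rw [Equiv.swap_apply_of_ne_of_ne hbc hbd, Equiv.swap_apply_right, Pi.single_eq_same, Pi.single_eq_of_ne hab.symm, Pi.single_eq_of_ne hbc, Pi.single_eq_of_ne hbd]
          ring
        by_cases hxc : x = c
        · subst hxc
          rw [Equiv.swap_apply_left, Equiv.swap_apply_of_ne_of_ne had.symm hbd.symm, Pi.single_eq_same, Pi.single_eq_of_ne hac.symm, Pi.single_eq_of_ne hbc.symm, Pi.single_eq_of_ne hcd]
          ring
        by_cases hxd : x = d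
        · subst hxd
          rw [Equiv.swap_apply_right, Equiv.swap_apply_of_ne_of_ne hac.symm hbc.symm, Pi.single_eq_same, Pi.single_eq_of_ne had.symm, Pi.single_eq_of_ne hbd.symm, Pi.single_eq_of_ne hcd.symm]
          ring
        rw [Equiv.swap_apply_of_ne_of_ne hxc hxd, Equiv.swap_apply_of_ne_of_ne hxa hxb, Pi.single_eq_of_ne hxa, Pi.single_eq_of_ne hxb, Pi.single_eq_of_ne hxc, Pi.single_eq_of_ne hxd]
        ring
      have hmem : ∀ a b c d : α, a ≠ b → c ≠ d → a ≠ c → a ≠ d → b ≠ c → b ≠ d → ∀ v ∈ W.toSubmodule,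
          (v b - v a) • (Pi.single a 1 - Pi.single b 1 : α → K) + (v d - v c) • (Pi.single c 1 - Pi.single d 1 : α → K) ∈ W.toSubmodule := by
        intro a b c d hab hcd hac had hbc hbd v hv
        rw [← hform a b c d hab hcd hac had hbc hbd v]
        exact W.toSubmodule.sub_mem (hact _ (hdd a b c d hab hcd) v hv) hv
      -- u = (v b - v a)(δa - δb) + (v d - v c)(δc - δd)
      have hu := hmem a b c d hab' (Ne.symm hdc) (Ne.symm hca) (Ne.symm hda) (Ne.symm hcb) (Ne.symm hdb) v hv
      set β := v b - v a with hβ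
      set γ := v d - v c with hγ
      have hβ0 : β ≠ 0 := fun h => hab (sub_eq_zero.1 h).symm
      -- apply (a b)(c e) to u
      have hu2 := hmem a b c e hab' (Ne.symm hec) (Ne.symm hca) (Ne.symm hea) (Ne.symm hcb) (Ne.symm heb) _ hu
      -- u a = β, u b = -β, u c = γ, u e = 0
      have e1 : (β • (Pi.single a 1 - Pi.single b 1 : α → K) + γ • (Pi.single c 1 - Pi.single d 1 : α → K)) a = β := by
        simp [Pi.single_eq_of_ne hab', Pi.single_eq_of_ne (Ne.symm hca), Pi.single_eq_of_ne (Ne.symm hda)]
      have e2 : (β • (Pi.single a 1 - Pi.single b 1 : α → K) + γ • (Pi.single c 1 - Pi.single d 1 : α → K)) b = -β := by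
        simp [Pi.single_eq_of_ne hab'.symm, Pi.single_eq_of_ne (Ne.symm hcb), Pi.single_eq_of_ne (Ne.symm hdb)]
      have e3 : (β • (Pi.single a 1 - Pi.single b 1 : α → K) + γ • (Pi.single c 1 - Pi.single d 1 : α → K)) c = γ := by
        simp [Pi.single_eq_of_ne hca, Pi.single_eq_of_ne hcb, Pi.single_eq_of_ne (Ne.symm hdc)]
      have e4 : (β • (Pi.single a 1 - Pi.single b 1 : α → K) + γ • (Pi.single c 1 - Pi.single d 1 : α → K)) e = 0 := by
        simp [Pi.single_eq_of_ne hea, Pi.single_eq_of_ne heb, Pi.single_eq_of_ne hec, Pi.single_eq_of_ne hed]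
      rw [e1, e2, e3, e4] at hu2
      -- u2 = -2β (δa - δb) - γ (δc - δe);  2u + u2 = 2γ(δc - δd) - γ(δc - δe)
      by_cases hγ0 : γ = 0
      · refine ⟨a, b, hab', ?_⟩
        rw [hγ0, zero_smul, add_zero] at hu
        have := W.toSubmodule.smul_mem β⁻¹ hu
        rwa [smul_smul, inv_mul_cancel₀ hβ0, one_smul] at this
      · -- w = 2u + u2 = γ (δc - 2δd + δe)
        have hw : γ • (Pi.single c 1 - Pi.single d 1 : α → K) + γ • (Pi.single e 1 - Pi.single d 1 : α → K) ∈ W.toSubmodule := by
          have h7 := W.toSubmodule.add_mem (W.toSubmodule.smul_mem (2 : K) hu) hu2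
          have h8 : (2 : K) • (β • (Pi.single a 1 - Pi.single b 1 : α → K) + γ • (Pi.single c 1 - Pi.single d 1 : α → K)) + ((-β - β) • (Pi.single a 1 - Pi.single b 1 : α → K) + (0 - γ) • (Pi.single c 1 - Pi.single e 1 : α → K)) =
              γ • (Pi.single c 1 - Pi.single d 1 : α → K) + γ • (Pi.single e 1 - Pi.single d 1 : α → K) := by
            funext x
            simp only [Pi.add_apply, Pi.smul_apply, Pi.sub_apply, smul_eq_mul]
            ring
          rw [h8] at h7
          exact h7
        have f1 : (γ • (Pi.single c 1 - Pi.single d 1 : α → K) + γ • (Pi.single e 1 - Pi.single d 1 : α → K)) a = 0 := by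
          simp [Pi.single_eq_of_ne (Ne.symm hca), Pi.single_eq_of_ne (Ne.symm hda), Pi.single_eq_of_ne (Ne.symm hea)]
        have f2 : (γ • (Pi.single c 1 - Pi.single d 1 : α → K) + γ • (Pi.single e 1 - Pi.single d 1 : α → K)) b = 0 := by
          simp [Pi.single_eq_of_ne (Ne.symm hcb), Pi.single_eq_of_ne (Ne.symm hdb), Pi.single_eq_of_ne (Ne.symm heb)]
        have f3 : (γ • (Pi.single c 1 - Pi.single d 1 : α → K) + γ • (Pi.single e 1 - Pi.single d 1 : α → K)) c = γ := by
          simp [Pi.single_eq_of_ne (Ne.symm hdc), Pi.single_eq_of_ne (Ne.symm hec)]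
        have f4 : (γ • (Pi.single c 1 - Pi.single d 1 : α → K) + γ • (Pi.single e 1 - Pi.single d 1 : α → K)) e = γ := by
          simp [Pi.single_eq_of_ne hec, Pi.single_eq_of_ne hed]
        have f5 : (γ • (Pi.single c 1 - Pi.single d 1 : α → K) + γ • (Pi.single e 1 - Pi.single d 1 : α → K)) d = -2 * γ := by
          simp [Pi.single_eq_of_ne hdc, Pi.single_eq_of_ne (Ne.symm hed)]
          ring
        by_cases h3 : (3 : K) = 0
        · have hw2 := hmem a c d e (Ne.symm hca) (Ne.symm hed) (Ne.symm hda) (Ne.symm hea) (Ne.symm hdc) (Ne.symm hec) _ hw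
          rw [f1, f3, f4, f5] at hw2
          have h9 : γ - -2 * γ = 0 := by linear_combination γ * h3
          rw [h9, zero_smul, add_zero, sub_zero] at hw2
          refine ⟨a, c, Ne.symm hca, ?_⟩
          have := W.toSubmodule.smul_mem γ⁻¹ hw2
          rwa [smul_smul, inv_mul_cancel₀ hγ0, one_smul] at this
        · have hw2 := hmem a b c d hab' (Ne.symm hdc) (Ne.symm hca) (Ne.symm hda) (Ne.symm hcb) (Ne.symm hdb) _ hw
          rw [f1, f2, f3, f5, sub_zero, zero_smul, zero_add] at hw2
          have h9 : -2 * γ - γ ≠ 0 := by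
            have : -2 * γ - γ = -(3 * γ) := by ring
            rw [this]
            exact neg_ne_zero.2 (mul_ne_zero h3 hγ0)
          refine ⟨c, d, Ne.symm hdc, ?_⟩
          have := W.toSubmodule.smul_mem (-2 * γ - γ)⁻¹ hw2
          rwa [smul_smul, inv_mul_cancel₀ h9, one_smul] at this
    have hle := hdiff hex
    -- codimension one
    by_cases hsz : W.toSubmodule ≤ (permSumZero K (alternatingGroup α) α).toSubmodule
    · right; right; left
      exact Subrepresentation.toSubmodule_injective (le_antisymm hsz hle)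
    · right; right; right
      rw [SetLike.not_le_iff_exists] at hsz
      obtain ⟨u, hu, hu0⟩ := hsz
      have hu0' : ∑ x, u x ≠ 0 := hu0
      rw [Submodule.eq_top_iff']
      intro w
      have h6 : w - ((∑ x, w x) / (∑ x, u x)) • u ∈ W.toSubmodule := by
        apply hle
        change ∑ x, (w - ((∑ x, w x) / (∑ x, u x)) • u) x = 0
        simp only [Pi.sub_apply, Pi.smul_apply, smul_eq_mul]
        rw [Finset.sum_sub_distrib, ← Finset.mul_sum, div_mul_cancel₀ _ hu0', sub_self]
      have h7 := W.toSubmodule.add_mem h6 (W.toSubmodule.smul_mem ((∑ x, w x) / (∑ x, u x)) hu)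
      rwa [sub_add_cancel] at h7
  · -- only constants
    push Not at hnc
    have hle : W.toSubmodule ≤ (permConstants K (alternatingGroup α) α).toSubmodule := by
      intro v hv
      obtain ⟨a₀⟩ : Nonempty α := Fintype.card_pos_iff.1 (by omega)
      apply Submodule.mem_span_singleton.2
      refine ⟨v a₀, ?_⟩
      funext x
      rw [Pi.smul_apply, smul_eq_mul, mul_one]
      exact hnc v hv a₀ x
    by_cases hbot : W.toSubmodule = ⊥
    · exact Or.inl hbot
    · right; left
      apply Subrepresentation.toSubmodule_injective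
      apply le_antisymm hle
      obtain ⟨v, hv, hv0⟩ := (Submodule.ne_bot_iff _).1 hbot
      obtain ⟨r, hr⟩ := Submodule.mem_span_singleton.1 (hle hv)
      have hr0 : r ≠ 0 := by
        rintro rfl
        apply hv0
        rw [← hr, zero_smul]
      apply (Submodule.span_singleton_le_iff_mem _ _).2
      have := W.toSubmodule.smul_mem r⁻¹ hv
      rwa [← hr, smul_smul, inv_mul_cancel₀ hr0, one_smul] at this

end Cfsg.Agent.S0714
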