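import Cfsg.Statements.S0721
import Cfsg.Agent.Lib.MinNormPow

set_option autoImplicit false
open Cfsg

set_option linter.style.haveILetI false
namespace Cfsg.Agent.S0721

/-- A minimal normal subgroup of a finite group is isomorphic to a direct power `T ^ m` of a simple group `T` (possibly of prime order). -/
theorem result {H : Type*} [Group H] [Finite H] (N : Subgroup H) [N.Normal] (hN : N ≠ ⊥) (hmin : ∀ M : Subgroup H, M.Normal → M ≤ N → M = ⊥ ∨ M = N) : ∃ (T : Type) (_ : Group T) (m : ℕ), IsSimpleGroup T ∧ 0 < m ∧ Nonempty (N ≃* (Fin m → T)) := by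
  classical
  have hMN : CfsgLib.H5MinNormal.IsMinNormal N := ⟨inferInstance, hN, hmin⟩
  obtain ⟨T, hT⟩ := CfsgLib.H5MinNormal.exists_factor N hN
  obtain ⟨m, hm, ⟨e⟩⟩ := CfsgLib.MinNormPow.exists_pow hMN hT
  obtain ⟨T₀, hT₀, ⟨f⟩⟩ := CfsgLib.MinNormPow.exists_type0 T
  haveI := hT.simple hMN
  refine ⟨T₀, hT₀, m, ?_, hm, ⟨e.trans (MulEquiv.piCongrRight fun _ => f)⟩⟩
  exact MulEquiv.isSimpleGroup f.symm

end Cfsg.Agent.S0721
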