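import Cfsg.Statements.S0722
import Cfsg.Agent.Lib.PermG1

set_option autoImplicit false
open Cfsg

namespace Cfsg.Agent.S0722

/-- In a primitive group `H`, with `N` a minimal normal subgroup and `K` a point stabiliser, `K ⊓ N` is maximal among proper `K`-invariant subgroups of `N`. -/
theorem result {α : Type*} [Finite α] (H : Subgroup (Equiv.Perm α)) [MulAction.IsPreprimitive H α] (N : Subgroup H) [N.Normal] (hN : N ≠ ⊥) (hmin : ∀ M : Subgroup H, M.Normal → M ≤ N → M = ⊥ ∨ M = N) (a : α) (X : Subgroup H) (hX : X ≤ N) (hKX : MulAction.stabilizer H a ⊓ N ≤ X) (hinv : MulAction.stabilizer H a ≤ Subgroup.normalizer (X : Set H)) : X = MulAction.stabilizer H a ⊓ N ∨ X = N := by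
  classical
  by_cases hne : Nontrivial α
  swap
  · -- trivial action space
    exfalso
    apply hN
    rw [Subgroup.eq_bot_iff_forall]
    intro n _
    apply Subtype.ext
    ext x
    rw [not_nontrivial_iff_subsingleton] at hne
    exact Subsingleton.elim _ _
  have hco : IsCoatom (MulAction.stabilizer H a) := MulAction.IsPreprimitive.isCoatom_stabilizer_of_isPreprimitive H a
  generalize MulAction.stabilizer H a = K at *
  by_cases h : K ⊔ X = K
  · left
    exact le_antisymm (le_inf (by rw [← h]; exact le_sup_right) hX) hKX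
  · right
    have htop : K ⊔ X = ⊤ := hco.2 _ (lt_of_le_of_ne le_sup_left (Ne.symm h))
    apply le_antisymm hX
    intro n hn
    have h2 : n ∈ ((K ⊔ X : Subgroup H) : Set H) := by rw [htop]; exact Set.mem_univ _
    rw [Subgroup.coe_mul_of_left_le_normalizer_right K X hinv] at h2
    obtain ⟨k, hk, x, hx, hkx⟩ := Set.mem_mul.1 h2
    have hkN : k ∈ N := by
      have : k = n * x⁻¹ := by rw [← hkx, mul_inv_cancel_right]
      rw [this]
      exact mul_mem hn (inv_mem (hX hx))
    rw [← hkx]
    exact mul_mem (hKX ⟨hk, hkN⟩) hx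

end Cfsg.Agent.S0722
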