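import Cfsg.Statements.S0724
import Cfsg.Agent.Lib.PermG3

set_option autoImplicit false
open Cfsg

set_option linter.style.haveILetI false
namespace Cfsg.Agent.S0724

private theorem sum_pow {α : Type*} [Fintype α] [DecidableEq α] (G : Subgroup (Equiv.Perm α)) [Fintype G] (k : ℕ) :
    Fintype.card G ∣ ∑ g : G, (Nat.card (MulAction.fixedBy α g)) ^ k := by
  classical
  have h := MulAction.sum_card_fixedBy_eq_card_orbits_mul_card_group G (Fin k → α)
  have h2 : ∀ g : G, Fintype.card (MulAction.fixedBy (Fin k → α) g) = (Nat.card (MulAction.fixedBy α g)) ^ k := by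
    intro g
    rw [← Nat.card_eq_fintype_card]
    have e : MulAction.fixedBy (Fin k → α) g ≃ (Fin k → MulAction.fixedBy α g) :=
      { toFun := fun x i => ⟨x.1 i, congrFun x.2 i⟩
        invFun := fun x => ⟨fun i => (x i).1, funext fun i => (x i).2⟩
        left_inv := fun x => rfl
        right_inv := fun x => rfl }
    rw [Nat.card_congr e, Nat.card_fun, Nat.card_eq_fintype_card (α := Fin k), Fintype.card_fin]
  rw [← Finset.sum_congr rfl (fun g _ => h2 g), h]
  exact Dvd.intro_left _ rfl


/-- Blichfeldt's Theorem: if a finite set `L` of natural numbers contains the number of fixed points of every non-identity element of a permutation group `G` of degree `n`, then the order of `G` divides `∏ (n - l)` over `l ∈ L`. -/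
theorem result {α : Type*} [Fintype α] [DecidableEq α] (G : Subgroup (Equiv.Perm α)) (L : Finset ℕ) (hL : ∀ g ∈ G, g ≠ 1 → Nat.card (MulAction.fixedBy α g) ∈ L) : Nat.card G ∣ ∏ l ∈ L, (Fintype.card α - l) := by
  classical
  by_cases hL2 : ∃ l ∈ L, Fintype.card α < l
  · obtain ⟨l, hl, hlt⟩ := hL2
    rw [Finset.prod_eq_zero hl (Nat.sub_eq_zero_of_le hlt.le)]
    exact dvd_zero _
  push Not at hL2
  letI : Fintype G := Fintype.ofFinite G
  rw [Nat.card_eq_fintype_card]
  let P : Polynomial ℤ := ∏ l ∈ L, (Polynomial.X - Polynomial.C (l : ℤ))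
  have h1 : (Fintype.card G : ℤ) ∣ ∑ g : G, P.eval ((Nat.card (MulAction.fixedBy α g) : ℕ) : ℤ) := by
    have h2 : ∀ g : G, P.eval ((Nat.card (MulAction.fixedBy α g) : ℕ) : ℤ) =
        ∑ i ∈ Finset.range (P.natDegree + 1), P.coeff i * ((Nat.card (MulAction.fixedBy α g) : ℕ) : ℤ) ^ i :=
      fun g => Polynomial.eval_eq_sum_range _
    rw [Finset.sum_congr rfl (fun g _ => h2 g), Finset.sum_comm]
    apply Finset.dvd_sum
    intro i _
    rw [← Finset.mul_sum]
    apply Dvd.dvd.mul_left
    have := sum_pow G i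
    exact_mod_cast this
  have h3 : ∑ g : G, P.eval ((Nat.card (MulAction.fixedBy α g) : ℕ) : ℤ) = P.eval ((Fintype.card α : ℕ) : ℤ) := by
    rw [Finset.sum_eq_single (1 : G)]
    · congr 2
      rw [← Nat.card_eq_fintype_card]
      apply Nat.card_congr
      exact (Equiv.subtypeUnivEquiv (fun x => one_smul G x))
    · intro g _ hg
      rw [Polynomial.eval_prod]
      have h4 := hL g g.2 (fun h => hg (Subtype.ext h))
      apply Finset.prod_eq_zero h4
      have h5 : Nat.card (MulAction.fixedBy α g) = Nat.card (MulAction.fixedBy α (g : Equiv.Perm α)) := rfl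
      rw [Polynomial.eval_sub, Polynomial.eval_X, Polynomial.eval_C, h5, sub_self]
    · intro h; exact absurd (Finset.mem_univ _) h
  rw [h3, Polynomial.eval_prod] at h1
  have h6 : ∏ l ∈ L, (Polynomial.X - Polynomial.C (l : ℤ)).eval ((Fintype.card α : ℕ) : ℤ) = ((∏ l ∈ L, (Fintype.card α - l) : ℕ) : ℤ) := by
    rw [Nat.cast_prod]
    apply Finset.prod_congr rfl
    intro l hl
    rw [Polynomial.eval_sub, Polynomial.eval_X, Polynomial.eval_C, Nat.cast_sub (hL2 l hl)]
  rw [h6] at h1
  exact_mod_cast h1

end Cfsg.Agent.S0724
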