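import Cfsg.Statements.S0726
import Cfsg.Agent.Lib.PermG1

set_option autoImplicit false
open Cfsg

namespace Cfsg.Agent.S0726

/-- The left and right regular permutation representations of a group are each other's centralisers in the symmetric group: the centraliser of the left regular image is the right regular image, and a transitive subgroup centralising the left regular image is the whole right regular image. -/
theorem result {G : Type*} [Group G] : Subgroup.centralizer ((MulAction.toPermHom G G).range : Set (Equiv.Perm G)) = (MulAction.toPermHom Gᵐᵒᵖ G).range ∧ ∀ H : Subgroup (Equiv.Perm G), H ≤ Subgroup.centralizer ((MulAction.toPermHom G G).range : Set (Equiv.Perm G)) → MulAction.IsPretransitive H G → H = (MulAction.toPermHom Gᵐᵒᵖ G).range := by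
  have hmem : ∀ c : Equiv.Perm G, c ∈ Subgroup.centralizer ((MulAction.toPermHom G G).range : Set (Equiv.Perm G)) →
      c ∈ (MulAction.toPermHom Gᵐᵒᵖ G).range ∧ ∀ x, c x = x * c 1 := by
    intro c hc
    rw [Subgroup.mem_centralizer_iff] at hc
    have h : ∀ x, c x = x * c 1 := by
      intro x
      have h1 := hc (MulAction.toPermHom G G x) ⟨x, rfl⟩
      have h2 := congrArg (fun f : Equiv.Perm G => f 1) h1
      simp only [Equiv.Perm.mul_apply] at h2
      change x * c 1 = c (x * 1) at h2
      rw [mul_one] at h2
      exact h2.symm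
    refine ⟨⟨MulOpposite.op (c 1), ?_⟩, h⟩
    ext x
    rw [h x]
    rfl
  have h1 : Subgroup.centralizer ((MulAction.toPermHom G G).range : Set (Equiv.Perm G)) = (MulAction.toPermHom Gᵐᵒᵖ G).range := by
    apply le_antisymm
    · intro c hc
      exact (hmem c hc).1
    · rintro _ ⟨y, rfl⟩
      rw [Subgroup.mem_centralizer_iff]
      rintro _ ⟨x, rfl⟩
      ext z
      rw [Equiv.Perm.mul_apply, Equiv.Perm.mul_apply]
      change x * (z * y.unop) = (x * z) * y.unop
      rw [mul_assoc]
  refine ⟨h1, ?_⟩
  intro H hH ht
  apply le_antisymm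
  · rw [← h1]; exact hH
  · rintro _ ⟨y, rfl⟩
    obtain ⟨h, hh⟩ := MulAction.exists_smul_eq H (1 : G) y.unop
    have hh' : (h : Equiv.Perm G) 1 = y.unop := hh
    have h2 := (hmem _ (hH h.2)).2
    have : MulAction.toPermHom Gᵐᵒᵖ G y = h := by
      ext x
      rw [h2 x, hh']
      rfl
    rw [this]
    exact h.2

end Cfsg.Agent.S0726
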