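import Cfsg.Statements.S0727
import Cfsg.Agent.Lib.PermZ2
import Cfsg.Agent.Lib.PermZ3

set_option autoImplicit false
open Cfsg

namespace Cfsg.Agent.S0727

/-- A sharply triply transitive permutation group of degree `2^f + 1` is isomorphic to the projective general linear group of degree 2 over the field with `2^f` elements. -/
theorem result {α : Type*} [Fintype α] [DecidableEq α] {f : ℕ} (hf : 1 ≤ f) (hα : Fintype.card α = 2 ^ f + 1) (G : Subgroup (Equiv.Perm α)) (h3 : MulAction.IsMultiplyPretransitive G α 3) (hsharp : ∀ x : Fin 3 ↪ α, MulAction.stabilizer G x = ⊥) : ∃ (F : Type) (_ : Field F) (_ : Fintype F), Fintype.card F = 2 ^ f ∧ Nonempty (G ≃* Matrix.ProjGenLinGroup (Fin 2) F) := by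
  classical
  have h2f : 2 ≤ 2 ^ f := by
    calc 2 = 2 ^ 1 := (pow_one 2).symm
      _ ≤ 2 ^ f := Nat.pow_le_pow_right (by norm_num) hf
  have hodd : Odd (Fintype.card α) := by
    rw [hα]
    refine ⟨2 ^ (f - 1), ?_⟩
    have : 2 ^ f = 2 * 2 ^ (f - 1) := by
      rw [← pow_succ']
      congr 1
      omega
    omega
  obtain ⟨a, b, c, hab, hac, hbc⟩ := (Fintype.two_lt_card_iff (α := α)).1 (by omega)
  obtain ⟨s, hs1, hs2, hs3⟩ := CfsgLib.PermG6.mt_three h3 (x := a) (y := b) (z := c) hab hac hbc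
    (x' := b) (y' := a) (z' := c) (Ne.symm hab) hbc hac
  have hs1' : (s : Equiv.Perm α) a = b := hs1
  have hs2' : (s : Equiv.Perm α) b = a := hs2
  obtain ⟨F, fF, fi, hcard, hiso⟩ := CfsgLib.PermZ2.PGL_of_inverts G h3 hsharp hab hac hbc s s.2 hs1 hs2 hs3 (by
    intro h hh hha hhb
    have h1 := CfsgLib.PermZ3.swap_sq G h3 hsharp hodd hab s s.2 hs1 hs2
    have h2 := CfsgLib.PermZ3.swap_sq G h3 hsharp hodd hab ((s : Equiv.Perm α) * h) (mul_mem s.2 hh) (by
      rw [Equiv.Perm.mul_apply, hha, hs1']) (by rw [Equiv.Perm.mul_apply, hhb, hs2'])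
    have h4 : (s : Equiv.Perm α)⁻¹ = s := inv_eq_of_mul_eq_one_right h1
    rw [h4, eq_inv_iff_mul_eq_one]
    rw [← h2]
    group)
  exact ⟨F, fF, fi, by omega, hiso⟩

end Cfsg.Agent.S0727
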