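import Cfsg.Statements.S0728
import Cfsg.Agent.Lib.PermG6

set_option autoImplicit false
open Cfsg

open scoped Pointwise
set_option linter.style.haveILetI false
namespace Cfsg.Agent.S0728

/-- In a sharply triply transitive group of even degree at least 6 (degree `q + 1`, `q` odd), a two-point stabiliser has at most one subgroup of order 3. -/
theorem result {α : Type*} [Fintype α] [DecidableEq α] (heven : Even (Fintype.card α)) (h6 : 6 ≤ Fintype.card α) (G : Subgroup (Equiv.Perm α)) (h3 : MulAction.IsMultiplyPretransitive G α 3) (hsharp : ∀ x : Fin 3 ↪ α, MulAction.stabilizer G x = ⊥) {a b : α} (hab : a ≠ b) (A B : Subgroup G) (hA : A ≤ MulAction.stabilizer G a ⊓ MulAction.stabilizer G b) (hB : B ≤ MulAction.stabilizer G a ⊓ MulAction.stabilizer G b) (hA3 : Nat.card A = 3) (hB3 : Nat.card B = 3) : A = B := by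
  classical
  letI : Fintype G := Fintype.ofFinite G
  set n := Fintype.card α with hn
  have hcount := CfsgLib.PermG6.count_three h3 hsharp
  rw [← hn] at hcount
  -- elements of order 3
  set T := (Finset.univ.filter (fun g : G => g ^ 3 = 1 ∧ g ≠ 1)) with hT
  have hmemT : ∀ g : G, g ∈ T ↔ g ^ 3 = 1 ∧ g ≠ 1 := fun g => by rw [hT]; simp
  have hmemA : ∀ A : Subgroup G, Nat.card A = 3 → ∀ g ∈ A, g ^ 3 = 1 := by
    intro A hA g hg
    have : (⟨g, hg⟩ : A) ^ 3 = 1 := by rw [← hA]; exact pow_card_eq_one'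
    exact congrArg Subtype.val this
  have hnontriv : ∀ A : Subgroup G, Nat.card A = 3 → ∃ g ∈ A, g ≠ 1 := by
    intro A hA
    by_contra hcon
    push Not at hcon
    have : A = ⊥ := (Subgroup.eq_bot_iff_forall A).2 hcon
    rw [this, Subgroup.card_bot] at hA
    norm_num at hA
  obtain ⟨g₀, hg₀A, hg₀1⟩ := hnontriv A hA3
  have hg₀T : g₀ ∈ T := (hmemT g₀).2 ⟨hmemA A hA3 g₀ hg₀A, hg₀1⟩
  -- congruence mod 3
  have hmod : ∀ g ∈ T, (Finset.univ.filter (fun x : α => g • x = x)).card ≡ n [MOD 3] := by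
    intro g hg
    rw [hmemT] at hg
    haveI : Fact (Nat.Prime 3) := ⟨Nat.prime_three⟩
    have hpg : IsPGroup 3 (Subgroup.zpowers g) := by
      rintro ⟨_, i, rfl⟩
      refine ⟨1, ?_⟩
      rw [pow_one]
      apply Subtype.ext
      change (g ^ i) ^ 3 = 1
      rw [← zpow_natCast, ← zpow_mul, mul_comm, zpow_mul, zpow_natCast, hg.1, one_zpow]
    have h1 := hpg.card_modEq_card_fixedPoints α
    rw [Nat.card_eq_fintype_card, ← hn] at h1
    refine Nat.ModEq.trans ?_ h1.symm
    have h2 : Nat.card (MulAction.fixedPoints (Subgroup.zpowers g) α) = (Finset.univ.filter (fun x : α => g • x = x)).card := by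
      rw [Nat.card_eq_fintype_card, ← Set.toFinset_card]
      congr 1
      ext x
      simp only [Set.mem_toFinset, Finset.mem_filter, Finset.mem_univ, true_and, MulAction.mem_fixedPoints]
      constructor
      · intro h; exact h ⟨g, Subgroup.mem_zpowers g⟩
      · rintro h ⟨_, i, rfl⟩
        have h5 : g ∈ MulAction.stabilizer G x := h
        exact (Subgroup.zpow_mem _ h5 i : g ^ i ∈ MulAction.stabilizer G x)
    rw [h2]
  have hn2 : n ≡ 2 [MOD 3] := by
    have h1 := hmod g₀ hg₀T
    have h2 : (Finset.univ.filter (fun x : α => g₀ • x = x)).card = 2 := by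
      apply le_antisymm (CfsgLib.PermG6.fix_le_two hsharp ((hmemT g₀).1 hg₀T).2)
      rw [← Finset.card_pair hab]
      apply Finset.card_le_card
      intro x hx
      simp only [Finset.mem_insert, Finset.mem_singleton] at hx
      simp only [Finset.mem_filter, Finset.mem_univ, true_and]
      rcases hx with rfl | rfl
      · exact (hA hg₀A).1
      · exact (hA hg₀A).2
    rw [h2] at h1
    exact h1.symm
  have hfix2 : ∀ g ∈ T, (Finset.univ.filter (fun x : α => g • x = x)).card = 2 := by
    intro g hg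
    have h1 := (hmod g hg).trans hn2
    have h2 := CfsgLib.PermG6.fix_le_two hsharp ((hmemT g).1 hg).2
    have h3 : (Finset.univ.filter (fun x : α => g • x = x)).card % 3 = 2 := h1
    omega
  -- first count
  have hcount1 : T.card * (n - 2) = n * (n - 1) * (n - 2) := by
    rw [← hcount]
    have h1 : (T.sigma (fun g => Finset.univ.filter (fun x : α => ¬ g • x = x))).card = T.card * (n - 2) := by
      rw [Finset.card_sigma]
      rw [Finset.sum_congr rfl (fun g hg => ?_), Finset.sum_const, smul_eq_mul]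
      have h2 := Finset.card_filter_add_card_filter_not (s := (Finset.univ : Finset α)) (fun x : α => g • x = x)
      rw [hfix2 g hg, Finset.card_univ, ← hn] at h2
      omega
    rw [← h1]
    refine Finset.card_bij (fun p _ => (p.1, p.2)) ?_ ?_ ?_
    · rintro ⟨g, x⟩ h
      rw [Finset.mem_sigma, hmemT] at h
      simp only [Finset.mem_filter, Finset.mem_univ, true_and] at h ⊢
      exact ⟨h.1.1, h.2⟩
    · rintro ⟨g, x⟩ _ ⟨g', x'⟩ _ h
      simp only [Prod.mk.injEq] at h
      rw [h.1, h.2]
    · rintro ⟨g, x⟩ h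
      simp only [Finset.mem_filter, Finset.mem_univ, true_and] at h
      refine ⟨⟨g, x⟩, ?_, rfl⟩
      rw [Finset.mem_sigma, hmemT]
      simp only [Finset.mem_filter, Finset.mem_univ, true_and]
      refine ⟨⟨h.1, ?_⟩, h.2⟩
      rintro rfl
      exact h.2 (one_smul _ _)
  have hTcard : T.card = n * (n - 1) := Nat.eq_of_mul_eq_mul_right (by omega) hcount1
  -- second count
  set E := T.filter (fun g => g • a = a ∧ g • b = b) with hE
  have hEc : ∀ c d : α, c ≠ d → (T.filter (fun g => g • c = c ∧ g • d = d)).card = E.card := by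
    intro c d hcd
    have h2t : MulAction.IsMultiplyPretransitive G α 2 := by
      haveI := h3
      apply MulAction.isMultiplyPretransitive_of_le (n := 3) (by norm_num)
      rw [Nat.card_eq_fintype_card]; omega
    obtain ⟨k, hk1, hk2⟩ := CfsgLib.PermG3.mt_two_iff.1 h2t a b c d hab hcd
    symm
    refine Finset.card_bij (fun g _ => k * g * k⁻¹) ?_ ?_ ?_
    · intro g hg
      rw [hE, Finset.mem_filter, hmemT] at hg
      rw [Finset.mem_filter, hmemT]
      obtain ⟨⟨hg3, hg1⟩, hga, hgb⟩ := hg
      refine ⟨⟨by rw [conj_pow, hg3, mul_one, mul_inv_cancel], ?_⟩, ?_, ?_⟩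
      · intro h
        apply hg1
        rw [mul_inv_eq_one] at h
        exact mul_eq_left.1 h
      · rw [← hk1, mul_smul, mul_smul, inv_smul_smul, hga]
      · rw [← hk2, mul_smul, mul_smul, inv_smul_smul, hgb]
    · intro g _ g' _ h
      exact mul_left_cancel (mul_right_cancel h)
    · intro g hg
      rw [Finset.mem_filter, hmemT] at hg
      obtain ⟨⟨hg3, hg1⟩, hga, hgb⟩ := hg
      refine ⟨k⁻¹ * g * k, ?_, by group⟩
      rw [hE, Finset.mem_filter, hmemT]
      have e : k⁻¹ * g * k = k⁻¹ * g * (k⁻¹)⁻¹ := by rw [inv_inv]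
      refine ⟨⟨by rw [e, conj_pow, hg3, mul_one, mul_inv_cancel], ?_⟩, ?_, ?_⟩
      · intro h
        apply hg1
        rw [e, mul_inv_eq_one] at h
        exact mul_eq_left.1 h
      · rw [mul_smul, mul_smul, hk1, hga, inv_smul_eq_iff, hk1]
      · rw [mul_smul, mul_smul, hk2, hgb, inv_smul_eq_iff, hk2]
  have hcount2 : T.card * 2 = n * (n - 1) * E.card := by
    have h1 : ((Finset.univ : Finset α).offDiag.sigma (fun u => T.filter (fun g => g • u.1 = u.1 ∧ g • u.2 = u.2))).card = n * (n - 1) * E.card := by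
      rw [Finset.card_sigma, Finset.sum_congr rfl (fun u hu => hEc u.1 u.2 (Finset.mem_offDiag.1 hu).2.2), Finset.sum_const,
        smul_eq_mul, Finset.offDiag_card, Finset.card_univ, ← hn, ← Nat.mul_sub_one]
    have h2 : (T.sigma (fun g => (Finset.univ.filter (fun x : α => g • x = x)).offDiag)).card = T.card * 2 := by
      rw [Finset.card_sigma, Finset.sum_congr rfl (fun g hg => ?_), Finset.sum_const, smul_eq_mul]
      rw [Finset.offDiag_card, hfix2 g hg]
    rw [← h1, ← h2]
    refine Finset.card_bij (fun p _ => ⟨p.2, p.1⟩) ?_ ?_ ?_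
    · rintro ⟨g, x, y⟩ h
      rw [Finset.mem_sigma, Finset.mem_offDiag] at h
      rw [Finset.mem_sigma, Finset.mem_offDiag, Finset.mem_filter]
      simp only [Finset.mem_filter, Finset.mem_univ, true_and] at h ⊢
      exact ⟨h.2.2.2, h.1, h.2.1, h.2.2.1⟩
    · rintro ⟨g, x, y⟩ _ ⟨g', x', y'⟩ _ h
      simp only [Sigma.mk.injEq, Prod.mk.injEq, heq_eq_eq] at h
      obtain ⟨⟨e1, e2⟩, e3⟩ := h
      rw [e1, e2, e3]
    · rintro ⟨⟨x, y⟩, g⟩ h
      refine ⟨⟨g, x, y⟩, ?_, rfl⟩
      rw [Finset.mem_sigma, Finset.mem_offDiag, Finset.mem_filter] at h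
      rw [Finset.mem_sigma, Finset.mem_offDiag]
      simp only [Finset.mem_filter, Finset.mem_univ, true_and] at h ⊢
      exact ⟨h.2.1, h.2.2.1, h.2.2.2, h.1⟩
  have hE2 : E.card = 2 := by
    rw [hTcard] at hcount2
    have hpos : 0 < n * (n - 1) := Nat.mul_pos (by omega) (by omega)
    exact (Nat.eq_of_mul_eq_mul_left hpos hcount2).symm
  have key : ∀ C : Subgroup G, C ≤ MulAction.stabilizer G a ⊓ MulAction.stabilizer G b → Nat.card C = 3 → ∀ g : G, g ∈ C ↔ g = 1 ∨ g ∈ E := by
    intro C hC hC3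
    have h1 : (Finset.univ.filter (fun g : G => g ∈ C)).card = 3 := by
      rw [← hC3, Nat.card_eq_fintype_card]
      exact (Fintype.card_subtype _).symm
    have h2 : (Finset.univ.filter (fun g : G => g ∈ C)) ⊆ insert 1 E := by
      intro g hg
      rw [Finset.mem_filter] at hg
      rw [Finset.mem_insert]
      by_cases hg1 : g = 1
      · exact Or.inl hg1
      · right
        rw [hE, Finset.mem_filter, hmemT]
        exact ⟨⟨hmemA C hC3 g hg.2, hg1⟩, (hC hg.2).1, (hC hg.2).2⟩
    have h3 : (insert 1 E).card ≤ 3 := (Finset.card_insert_le _ _).trans (by rw [hE2])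
    have h4 := Finset.eq_of_subset_of_card_le h2 (by rw [h1]; exact h3)
    intro g
    have h5 : g ∈ (Finset.univ.filter (fun g : G => g ∈ C)) ↔ g ∈ insert 1 E := by rw [h4]
    rw [Finset.mem_filter, Finset.mem_insert] at h5
    simpa using h5
  ext g
  rw [key A hA hA3, key B hB hB3]

end Cfsg.Agent.S0728
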