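import Cfsg.Statements.S0733
import Cfsg.Agent.Lib.PermG3

set_option autoImplicit false
open Cfsg

open scoped Pointwise
set_option linter.style.haveILetI false
namespace Cfsg.Agent.S0733

/-- A permutation group of affine type — generated by the translations of a finite vector space `V` over `ZMod p` together with a group `G₀` of linear automorphisms — is primitive on `V` if and only if `G₀` is irreducible on `V`. -/
theorem result {p : ℕ} [Fact p.Prime] {V : Type*} [AddCommGroup V] [Module (ZMod p) V] [Finite V] [Nontrivial V] (G₀ : Subgroup (V ≃ₗ[ZMod p] V)) (G : Subgroup (Equiv.Perm V)) (hG : ∀ σ : Equiv.Perm V, σ ∈ G ↔ ∃ g ∈ G₀, ∃ b : V, ∀ x : V, σ x = (g : V ≃ₗ[ZMod p] V) x + b) : MulAction.IsPreprimitive G V ↔ ∀ W : Submodule (ZMod p) V, (∀ g ∈ G₀, ∀ v ∈ W, (g : V ≃ₗ[ZMod p] V) v ∈ W) → W = ⊥ ∨ W = ⊤ := by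
  classical
  have htrl : ∀ b : V, ∃ g : G, ∀ x : V, g • x = x + b := by
    intro b
    refine ⟨⟨Equiv.addRight b, (hG _).2 ⟨1, one_mem _, b, fun x => rfl⟩⟩, fun x => rfl⟩
  have hlin : ∀ h ∈ G₀, ∃ g : G, ∀ x : V, g • x = (h : V ≃ₗ[ZMod p] V) x := by
    intro h hh
    refine ⟨⟨h.toEquiv, (hG _).2 ⟨h, hh, 0, fun x => (add_zero _).symm⟩⟩, fun x => rfl⟩
  haveI htr : MulAction.IsPretransitive G V := by
    refine ⟨fun x y => ?_⟩
    obtain ⟨g, hg⟩ := htrl (y - x)
    exact ⟨g, by rw [hg]; abel⟩
  constructor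
  · intro hprim W hW
    have hB : MulAction.IsBlock G (W : Set V) := by
      rw [MulAction.isBlock_iff_smul_eq_of_mem]
      intro g x hx hgx
      obtain ⟨h, hh, b, hb⟩ := (hG (g : Equiv.Perm V)).1 g.2
      have hgy : ∀ y : V, g • y = h y + b := fun y => hb y
      have hbW : b ∈ W := by
        have h1 : g • x ∈ W := hgx
        rw [hgy] at h1
        have h2 := W.sub_mem h1 (hW h hh x hx)
        rwa [add_sub_cancel_left] at h2
      have hsub : g • (W : Set V) ⊆ W := by
        rintro _ ⟨y, hy, rfl⟩
        change g • y ∈ W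
        rw [hgy]
        exact W.add_mem (hW h hh y hy) hbW
      apply Set.eq_of_subset_of_ncard_le hsub
      rw [Set.ncard_smul_set]
    rcases MulAction.IsPreprimitive.isTrivialBlock_of_isBlock hB with h | h
    · left
      rw [Submodule.eq_bot_iff]
      intro x hx
      exact h hx W.zero_mem
    · right
      exact SetLike.coe_injective (by rw [h]; rfl)
  · intro hirr
    apply MulAction.IsPreprimitive.of_isTrivialBlock_base (0 : V)
    intro B h0 hB
    rw [MulAction.isBlock_iff_smul_eq_of_mem] at hB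
    have hadd : ∀ x ∈ B, ∀ y : V, y ∈ B ↔ y + x ∈ B := by
      intro x hx y
      obtain ⟨g, hg⟩ := htrl x
      have h1 := hB h0 (g := g) (by rw [hg, zero_add]; exact hx)
      constructor
      · intro hy
        rw [← hg, ← h1]
        exact Set.smul_mem_smul_set hy
      · intro hy
        rw [← hg, ← h1] at hy
        exact (Set.smul_mem_smul_set_iff).1 hy
    let W₀ : AddSubgroup V :=
      { carrier := B
        add_mem' := fun {x y} hx hy => (hadd y hy x).1 hx
        zero_mem' := h0
        neg_mem' := fun {x} hx => (hadd x hx (-x)).2 (by rw [neg_add_cancel]; exact h0) }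
    let W : Submodule (ZMod p) V := AddSubgroup.toZModSubmodule p W₀
    have hWB : ∀ x, x ∈ W ↔ x ∈ B := fun x => Iff.rfl
    rcases hirr W (by
      intro h hh v hv
      obtain ⟨g, hg⟩ := hlin h hh
      have h1 := hB h0 (g := g) (by rw [hg, map_zero]; exact h0)
      rw [hWB] at hv ⊢
      rw [← hg, ← h1]
      exact Set.smul_mem_smul_set hv) with h | h
    · left
      intro x hx y hy
      rw [← hWB, h, Submodule.mem_bot] at hx hy
      rw [hx, hy]
    · right
      rw [Set.eq_univ_iff_forall]
      intro x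
      rw [← hWB, h]
      exact Submodule.mem_top

end Cfsg.Agent.S0733
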