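import Cfsg.Statements.S0734
import Cfsg.Agent.Lib.PermG3

set_option autoImplicit false
open Cfsg

open scoped Pointwise
set_option linter.style.haveILetI false
namespace Cfsg.Agent.S0734

/-- Higman's criterion for primitivity: a transitive action on a finite set is primitive if and only if every non-trivial orbital graph (edges = images of a fixed pair of distinct points) is connected. -/
theorem result {G : Type*} [Group G] {Ω : Type*} [Finite Ω] [MulAction G Ω] [MulAction.IsPretransitive G Ω] [Nontrivial Ω] : MulAction.IsPreprimitive G Ω ↔ ∀ a b : Ω, a ≠ b → (SimpleGraph.fromRel fun x y : Ω => ∃ g : G, g • a = x ∧ g • b = y).Connected := by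
  classical
  constructor
  · intro hprim a b hab
    set Γ := SimpleGraph.fromRel fun x y : Ω => ∃ g : G, g • a = x ∧ g • b = y with hΓ
    have hadj : ∀ (g : G) (x y : Ω), Γ.Adj x y → Γ.Adj (g • x) (g • y) := by
      intro g x y h
      rw [hΓ, SimpleGraph.fromRel_adj] at h ⊢
      refine ⟨fun h' => h.1 (smul_left_cancel g h'), ?_⟩
      rcases h.2 with ⟨k, hk1, hk2⟩ | ⟨k, hk1, hk2⟩
      · exact Or.inl ⟨g * k, by rw [mul_smul, hk1], by rw [mul_smul, hk2]⟩
      · exact Or.inr ⟨g * k, by rw [mul_smul, hk1], by rw [mul_smul, hk2]⟩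
    have hreach : ∀ (g : G) (x y : Ω), Γ.Reachable x y → Γ.Reachable (g • x) (g • y) := by
      intro g x y h
      obtain ⟨w⟩ := h
      induction w with
      | nil => exact SimpleGraph.Reachable.refl _
      | cons h _ ih => exact (SimpleGraph.Adj.reachable (hadj g _ _ h)).trans ih
    have hB : MulAction.IsBlock G {y | Γ.Reachable a y} := by
      rw [MulAction.isBlock_iff_smul_eq_of_mem]
      intro g x hx hgx
      have hx' : Γ.Reachable a x := hx
      have hgx' : Γ.Reachable a (g • x) := hgx
      ext y
      rw [Set.mem_smul_set_iff_inv_smul_mem]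
      change Γ.Reachable a (g⁻¹ • y) ↔ Γ.Reachable a y
      constructor
      · intro h
        have h1 := hreach g _ _ (hx'.symm.trans h)
        rw [smul_inv_smul] at h1
        exact hgx'.trans h1
      · intro h
        have h1 := hreach g⁻¹ _ _ (hgx'.symm.trans h)
        rw [inv_smul_smul] at h1
        exact hx'.trans h1
    have hab' : Γ.Adj a b := by
      rw [hΓ, SimpleGraph.fromRel_adj]
      exact ⟨hab, Or.inl ⟨1, one_smul _ _, one_smul _ _⟩⟩
    rcases MulAction.IsPreprimitive.isTrivialBlock_of_isBlock hB with h | h
    · exact absurd (h (SimpleGraph.Reachable.refl a) hab'.reachable) hab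
    · have hall : ∀ y, Γ.Reachable a y := fun y => h.ge (Set.mem_univ y)
      haveI : Nonempty Ω := ⟨a⟩
      exact SimpleGraph.Connected.mk (fun x y => (hall x).symm.trans (hall y))
  · intro h
    refine MulAction.IsPreprimitive.mk ?_
    intro B hB
    by_cases hs : B.Subsingleton
    · exact Or.inl hs
    · right
      rw [Set.not_subsingleton_iff] at hs
      obtain ⟨a, ha, b, hb, hab⟩ := hs
      have hc := h a b hab
      have hstep : ∀ x y : Ω, (SimpleGraph.fromRel fun x y : Ω => ∃ g : G, g • a = x ∧ g • b = y).Adj x y → x ∈ B → y ∈ B := by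
        intro x y hxy hx
        rw [SimpleGraph.fromRel_adj] at hxy
        rw [MulAction.isBlock_iff_smul_eq_of_mem] at hB
        rcases hxy.2 with ⟨g, h1, h2⟩ | ⟨g, h1, h2⟩
        · have h3 := hB ha (g := g) (by rw [h1]; exact hx)
          rw [← h3, ← h2]
          exact Set.smul_mem_smul_set hb
        · have h3 := hB hb (g := g) (by rw [h2]; exact hx)
          rw [← h3, ← h1]
          exact Set.smul_mem_smul_set ha
      rw [Set.eq_univ_iff_forall]
      intro c
      obtain ⟨w⟩ := hc.preconnected a c
      have key : ∀ (x y : Ω) (w : (SimpleGraph.fromRel fun x y : Ω => ∃ g : G, g • a = x ∧ g • b = y).Walk x y), x ∈ B → y ∈ B := by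
        intro x y w
        induction w with
        | nil => exact id
        | cons h _ ih => exact fun hx => ih (hstep _ _ h hx)
      exact key a c w ha

end Cfsg.Agent.S0734
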