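import Cfsg.Statements.S0735
import Cfsg.Agent.Lib.PermG3

set_option autoImplicit false
open Cfsg

open scoped Pointwise
set_option linter.style.haveILetI false
namespace Cfsg.Agent.S0735

/-- A 2-homogeneous permutation group (transitive on 2-subsets) of even order is doubly transitive; a non-trivial 2-homogeneous group is primitive. -/
theorem result {α : Type*} [Fintype α] [DecidableEq α] (G : Subgroup (Equiv.Perm α)) (h2 : MulAction.IsPretransitive G (Set.powersetCard α 2)) (hα : 3 ≤ Fintype.card α) : (Even (Nat.card G) → MulAction.IsMultiplyPretransitive G α 2) ∧ (G ≠ ⊥ → MulAction.IsPreprimitive G α) := by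
  classical
  have hom : ∀ a b c d : α, a ≠ b → c ≠ d → ∃ g : G, (g • a = c ∧ g • b = d) ∨ (g • a = d ∧ g • b = c) := by
    intro a b c d hab hcd
    obtain ⟨g, hg⟩ := MulAction.exists_smul_eq G (⟨{a, b}, Finset.card_pair hab⟩ : Set.powersetCard α 2) ⟨{c, d}, Finset.card_pair hcd⟩
    have hg' : g • ({a, b} : Finset α) = {c, d} := congrArg Subtype.val hg
    refine ⟨g, ?_⟩
    rw [Finset.smul_finset_insert, Finset.smul_finset_singleton] at hg'
    have h1 : g • a ∈ ({c, d} : Finset α) := by rw [← hg']; simp
    have h2 : g • b ∈ ({c, d} : Finset α) := by rw [← hg']; simp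
    simp only [Finset.mem_insert, Finset.mem_singleton] at h1 h2
    rcases h1 with h1 | h1 <;> rcases h2 with h2 | h2
    · exact absurd (smul_left_cancel g (h1.trans h2.symm)) hab
    · exact Or.inl ⟨h1, h2⟩
    · exact Or.inr ⟨h1, h2⟩
    · exact absurd (smul_left_cancel g (h1.trans h2.symm)) hab
  constructor
  · intro heven
    haveI : Fact (Nat.Prime 2) := ⟨Nat.prime_two⟩
    obtain ⟨t, ht⟩ := exists_prime_orderOf_dvd_card' (G := G) 2 heven.two_dvd
    have ht2 : t ^ 2 = 1 := by rw [← ht]; exact pow_orderOf_eq_one t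
    have ht1 : t ≠ 1 := by
      rintro rfl
      rw [orderOf_one] at ht
      norm_num at ht
    obtain ⟨a, ha⟩ : ∃ a : α, t • a ≠ a := by
      by_contra hcon
      push Not at hcon
      exact ht1 (Subtype.ext (Equiv.ext hcon))
    have hta : t • (t • a) = a := by
      rw [← mul_smul, ← pow_two, ht2, one_smul]
    rw [CfsgLib.PermG3.mt_two_iff]
    have key : ∀ c d : α, c ≠ d → ∃ g : G, g • a = c ∧ g • (t • a) = d := by
      intro c d hcd
      obtain ⟨g, hg | hg⟩ := hom a (t • a) c d (Ne.symm ha) hcd
      · exact ⟨g, hg⟩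
      · refine ⟨g * t, ?_, ?_⟩
        · rw [mul_smul]; exact hg.2
        · rw [mul_smul, hta]; exact hg.1
    intro x y c d hxy hcd
    obtain ⟨g, hg1, hg2⟩ := key x y hxy
    obtain ⟨g', hg1', hg2'⟩ := key c d hcd
    refine ⟨g' * g⁻¹, ?_, ?_⟩
    · rw [mul_smul, ← hg1, inv_smul_smul, hg1']
    · rw [mul_smul, ← hg2, inv_smul_smul, hg2']
  · intro _
    have htr : MulAction.IsPretransitive G α := by
      refine ⟨fun x y => ?_⟩
      by_cases hxy : x = y
      · exact ⟨1, by rw [one_smul, hxy]⟩
      · obtain ⟨z, hz⟩ : ∃ z, z ∉ ({x, y} : Finset α) := by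
          by_contra hcon
          push Not at hcon
          have : Fintype.card α ≤ ({x, y} : Finset α).card := by
            rw [← Finset.card_univ]
            exact Finset.card_le_card (fun z _ => hcon z)
          have h2 := Finset.card_le_two (a := x) (b := y)
          omega
        rw [Finset.mem_insert, Finset.mem_singleton, not_or] at hz
        obtain ⟨g, hg | hg⟩ := hom x z y z (Ne.symm hz.1) (Ne.symm hz.2)
        · exact ⟨g, hg.1⟩
        · exact ⟨g * g, by rw [mul_smul, hg.1, hg.2]⟩
    refine MulAction.IsPreprimitive.mk ?_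
    intro B hB
    by_cases hs : B.Subsingleton
    · exact Or.inl hs
    · right
      rw [Set.not_subsingleton_iff] at hs
      obtain ⟨a, ha, b, hb, hab⟩ := hs
      rw [Set.eq_univ_iff_forall]
      intro c
      by_cases hac : a = c
      · rw [← hac]; exact ha
      · obtain ⟨g, hg⟩ := hom a b a c hab hac
        rw [MulAction.isBlock_iff_smul_eq_of_mem] at hB
        rcases hg with hg | hg
        · have h1 := hB ha (by rw [hg.1]; exact ha)
          rw [← h1, ← hg.2]
          exact Set.smul_mem_smul_set hb
        · have h1 := hB hb (by rw [hg.2]; exact ha)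
          rw [← h1, ← hg.1]
          exact Set.smul_mem_smul_set ha

end Cfsg.Agent.S0735
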