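import Cfsg.Statements.S0736
import Cfsg.Agent.Lib.PermG3

set_option autoImplicit false
open Cfsg

open scoped Pointwise
set_option linter.style.haveILetI false
namespace Cfsg.Agent.S0736

theorem choose_aux (p m : ℕ) [Fact p.Prime] : ∀ e : ℕ, Nat.choose (p ^ e * m + (p ^ e - 1)) (p ^ e - 1) ≡ 1 [MOD p] := by
  have hp : 0 < p := (Fact.out : p.Prime).pos
  intro e
  induction e with
  | zero => simp; rfl
  | succ e ih =>
    have h1 := Choose.choose_modEq_choose_mod_mul_choose_div_nat (n := p ^ (e + 1) * m + (p ^ (e + 1) - 1)) (k := p ^ (e + 1) - 1) (p := p)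
    have hpe : 0 < p ^ e := Nat.pow_pos hp
    have e1 : p ^ (e + 1) - 1 = p * (p ^ e - 1) + (p - 1) := by
      rw [pow_succ, Nat.mul_sub_one]
      have : p ≤ p * p ^ e := Nat.le_mul_of_pos_right _ hpe
      rw [mul_comm (p ^ e) p]
      omega
    have e2 : p ^ (e + 1) * m + (p ^ (e + 1) - 1) = p * (p ^ e * m + (p ^ e - 1)) + (p - 1) := by
      rw [e1, pow_succ]
      ring
    have e3 : (p ^ (e + 1) - 1) % p = p - 1 := by
      rw [e1, Nat.mul_add_mod, Nat.mod_eq_of_lt (by omega)]
    have e4 : (p ^ (e + 1) - 1) / p = p ^ e - 1 := by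
      rw [e1, Nat.mul_add_div hp, Nat.div_eq_of_lt (by omega), add_zero]
    have e5 : (p ^ (e + 1) * m + (p ^ (e + 1) - 1)) % p = p - 1 := by
      rw [e2, Nat.mul_add_mod, Nat.mod_eq_of_lt (by omega)]
    have e6 : (p ^ (e + 1) * m + (p ^ (e + 1) - 1)) / p = p ^ e * m + (p ^ e - 1) := by
      rw [e2, Nat.mul_add_div hp, Nat.div_eq_of_lt (by omega), add_zero]
    rw [e3, e4, e5, e6, Nat.choose_self, one_mul] at h1
    exact h1.trans ih

theorem count_aux {α : Type*} [Fintype α] [DecidableEq α] (O : Finset α → Prop) [DecidablePred O] (k c : ℕ) (hk : 1 ≤ k)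
    (hO : ∀ Γ : Finset α, Γ.card = k → ((Γ.powersetCard (k - 1)).filter O).card = c) (T : Finset α) (hT : k ≤ T.card) :
    c * Nat.choose T.card k = (T.card - k + 1) * ((T.powersetCard (k - 1)).filter O).card := by
  have h := Finset.sum_card_bipartiteAbove_eq_sum_card_bipartiteBelow (s := (T.powersetCard (k - 1)).filter O) (t := T.powersetCard k) (fun a b : Finset α => a ⊆ b)
  have h1 : ∀ a ∈ (T.powersetCard (k - 1)).filter O, ((T.powersetCard k).bipartiteAbove (fun a b : Finset α => a ⊆ b) a).card = T.card - k + 1 := by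
    intro a ha
    rw [Finset.mem_filter, Finset.mem_powersetCard] at ha
    obtain ⟨⟨haT, hac⟩, -⟩ := ha
    have h2 : ((T.powersetCard k).bipartiteAbove (fun a b : Finset α => a ⊆ b) a) = (T \ a).image (fun x => insert x a) := by
      ext b
      rw [Finset.mem_bipartiteAbove, Finset.mem_powersetCard, Finset.mem_image]
      constructor
      · rintro ⟨⟨hbT, hbc⟩, hab⟩
        have hlt : a.card < b.card := by omega
        obtain ⟨x, hxb, hxa⟩ := Finset.exists_mem_notMem_of_card_lt_card hlt
        refine ⟨x, Finset.mem_sdiff.2 ⟨hbT hxb, hxa⟩, ?_⟩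
        apply Finset.eq_of_subset_of_card_le
        · intro y hy
          rcases Finset.mem_insert.1 hy with rfl | hy
          · exact hxb
          · exact hab hy
        · rw [Finset.card_insert_of_notMem hxa]; omega
      · rintro ⟨x, hx, rfl⟩
        rw [Finset.mem_sdiff] at hx
        refine ⟨⟨?_, ?_⟩, Finset.subset_insert _ _⟩
        · intro y hy
          rcases Finset.mem_insert.1 hy with rfl | hy
          · exact hx.1
          · exact haT hy
        · rw [Finset.card_insert_of_notMem hx.2]; omega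
    rw [h2, Finset.card_image_of_injOn]
    · rw [Finset.card_sdiff_of_subset haT, hac]; omega
    · intro x hx y hy hxy
      have hx' := (Finset.mem_sdiff.1 (Finset.mem_coe.1 hx)).2
      have h3 : x ∈ insert y a := by
        have : (insert x a : Finset α) = insert y a := hxy
        rw [← this]; exact Finset.mem_insert_self _ _
      rcases Finset.mem_insert.1 h3 with h4 | h4
      · exact h4
      · exact absurd h4 hx'
  have h2 : ∀ b ∈ T.powersetCard k, (((T.powersetCard (k - 1)).filter O).bipartiteBelow (fun a b : Finset α => a ⊆ b) b).card = c := by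
    intro b hb
    rw [Finset.mem_powersetCard] at hb
    rw [← hO b hb.2]
    congr 1
    ext a
    simp only [Finset.mem_bipartiteBelow, Finset.mem_filter, Finset.mem_powersetCard]
    constructor
    · rintro ⟨⟨⟨h3, h4⟩, h5⟩, h6⟩
      exact ⟨⟨h6, h4⟩, h5⟩
    · rintro ⟨⟨h3, h4⟩, h5⟩
      exact ⟨⟨⟨h3.trans hb.1, h4⟩, h5⟩, h3⟩
  rw [Finset.sum_congr rfl h1, Finset.sum_congr rfl h2, Finset.sum_const, Finset.sum_const, Finset.card_powersetCard, smul_eq_mul, smul_eq_mul] at h
  rw [mul_comm c, ← h, mul_comm]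


/-- A `k`-homogeneous permutation group of degree `n`, `k ≥ 2`, with `k + q - 1 ≤ n` for every prime power `q` dividing `k`, is `(k-1)`-homogeneous. -/
theorem result {α : Type*} [Fintype α] [DecidableEq α] (G : Subgroup (Equiv.Perm α)) {k : ℕ} (hk : 2 ≤ k) (hG : MulAction.IsPretransitive G (Set.powersetCard α k)) (hq : ∀ q : ℕ, IsPrimePow q → q ∣ k → k + q - 1 ≤ Fintype.card α) : MulAction.IsPretransitive G (Set.powersetCard α (k - 1)) := by
  classical
  have hsm : ∀ (g : G) (s : Finset α), (g • s).card = s.card := fun g s => Finset.card_smul_finset g s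
  refine ⟨fun s0' s1' => ?_⟩
  obtain ⟨s0, hs0⟩ := s0'
  obtain ⟨s1, hs1⟩ := s1'
  have hs0c : s0.card = k - 1 := hs0
  have hs1c : s1.card = k - 1 := hs1
  -- k + 1 ≤ n
  have hkn : k + 1 ≤ Fintype.card α := by
    obtain ⟨p, hp, hpk⟩ := Nat.exists_prime_and_dvd (show k ≠ 1 by omega)
    have := hq p hp.isPrimePow hpk
    have := hp.two_le
    omega
  let O : Finset α → Prop := fun s => ∃ g : G, g • s0 = s
  -- common number
  obtain ⟨x0, hx0⟩ : ∃ x, x ∉ s0 := by
    by_contra hcon
    push Not at hcon
    have : Fintype.card α ≤ s0.card := by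
      rw [← Finset.card_univ]
      exact Finset.card_le_card (fun z _ => hcon z)
    omega
  set Γ0 := insert x0 s0 with hΓ0
  have hΓ0c : Γ0.card = k := by
    rw [hΓ0, Finset.card_insert_of_notMem hx0]; omega
  set c := ((Γ0.powersetCard (k - 1)).filter O).card with hc
  have hO : ∀ Γ : Finset α, Γ.card = k → ((Γ.powersetCard (k - 1)).filter O).card = c := by
    intro Γ hΓ
    obtain ⟨g, hg⟩ := hG.exists_smul_eq ⟨Γ0, hΓ0c⟩ ⟨Γ, hΓ⟩
    have hg' : g • Γ0 = Γ := congrArg Subtype.val hg
    have h1 : (Γ.powersetCard (k - 1)).filter O = ((Γ0.powersetCard (k - 1)).filter O).image (fun s => g • s) := by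
      ext s
      simp only [Finset.mem_filter, Finset.mem_powersetCard, Finset.mem_image]
      constructor
      · rintro ⟨⟨h2, h3⟩, h, h4⟩
        refine ⟨g⁻¹ • s, ⟨⟨?_, ?_⟩, g⁻¹ * h, ?_⟩, smul_inv_smul _ _⟩
        · rw [← hg'] at h2
          have := Finset.smul_finset_subset_smul_finset (a := g⁻¹) h2
          rwa [inv_smul_smul] at this
        · rw [hsm]; exact h3
        · rw [mul_smul, h4]
      · rintro ⟨t, ⟨⟨h2, h3⟩, h, h4⟩, rfl⟩
        refine ⟨⟨?_, ?_⟩, g * h, ?_⟩
        · rw [← hg']
          exact Finset.smul_finset_subset_smul_finset h2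
        · rw [hsm]; exact h3
        · rw [mul_smul, h4]
    rw [h1, Finset.card_image_of_injective _ (MulAction.injective g)]
  have hcle : c ≤ k := by
    have h1 : c ≤ (Γ0.powersetCard (k - 1)).card := Finset.card_filter_le _ _
    rw [Finset.card_powersetCard, hΓ0c] at h1
    have h2 : Nat.choose k (k - 1) = k := by
      conv_lhs => rw [show k = (k - 1) + 1 by omega]
      rw [Nat.add_sub_cancel, Nat.choose_succ_self_right]
      omega
    omega
  have hcpos : 0 < c := by
    rw [hc, Finset.card_pos]
    refine ⟨s0, ?_⟩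
    rw [Finset.mem_filter, Finset.mem_powersetCard]
    exact ⟨⟨Finset.subset_insert _ _, hs0c⟩, 1, one_smul _ _⟩
  have hdvd : k ∣ c := by
    rw [← Nat.factorization_le_iff_dvd (by omega) hcpos.ne']
    intro p
    by_cases hpp : p.Prime
    · haveI : Fact p.Prime := ⟨hpp⟩
      set e := k.factorization p with he
      rw [← hpp.pow_dvd_iff_le_factorization hcpos.ne']
      by_cases he0 : e = 0
      · rw [he0, pow_zero]; exact one_dvd _
      have hqk : p ^ e ∣ k := Nat.ordProj_dvd k p
      obtain ⟨m, hm⟩ := hqk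
      have hle := hq (p ^ e) (hpp.isPrimePow.pow he0) ⟨m, hm⟩
      obtain ⟨T, -, hT⟩ := Finset.exists_subset_card_eq (s := (Finset.univ : Finset α)) (n := k + p ^ e - 1) (by rw [Finset.card_univ]; exact hle)
      have hpe : 0 < p ^ e := Nat.pow_pos hpp.pos
      have h1 := count_aux O k c (by omega) hO T (by omega)
      have h2 : T.card - k + 1 = p ^ e := by omega
      rw [h2] at h1
      have h3 : Nat.choose T.card k ≡ 1 [MOD p] := by
        have h4 : T.card = k + (p ^ e - 1) := by omega
        rw [h4, Nat.choose_symm_add, ]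
        conv_lhs => rw [hm]
        exact choose_aux p m e
      have h5 : Nat.Coprime (p ^ e) (Nat.choose T.card k) := by
        apply Nat.Coprime.pow_left
        rw [Nat.coprime_comm]
        exact Nat.coprime_of_mul_modEq_one 1 (by rw [mul_one]; exact h3)
      exact h5.dvd_of_dvd_mul_right ⟨_, h1⟩
    · rw [Nat.factorization_eq_zero_of_not_prime k hpp]
      exact Nat.zero_le _
  have hck : c = k := le_antisymm hcle (Nat.le_of_dvd hcpos hdvd)
  -- every (k-1)-subset is in O
  obtain ⟨x1, hx1⟩ : ∃ x, x ∉ s1 := by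
    by_contra hcon
    push Not at hcon
    have : Fintype.card α ≤ s1.card := by
      rw [← Finset.card_univ]
      exact Finset.card_le_card (fun z _ => hcon z)
    omega
  have hΓ1c : (insert x1 s1).card = k := by
    rw [Finset.card_insert_of_notMem hx1]; omega
  have h1 := hO _ hΓ1c
  have h2 : ((insert x1 s1).powersetCard (k - 1)).filter O = (insert x1 s1).powersetCard (k - 1) := by
    apply Finset.eq_of_subset_of_card_le (Finset.filter_subset _ _)
    rw [h1, Finset.card_powersetCard, hΓ1c, hck]
    have h2 : Nat.choose k (k - 1) = k := by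
      conv_lhs => rw [show k = (k - 1) + 1 by omega]
      rw [Nat.add_sub_cancel, Nat.choose_succ_self_right]
      omega
    omega
  have h3 : s1 ∈ ((insert x1 s1).powersetCard (k - 1)).filter O := by
    rw [h2, Finset.mem_powersetCard]
    exact ⟨Finset.subset_insert _ _, hs1c⟩
  obtain ⟨g, hg⟩ := (Finset.mem_filter.1 h3).2
  exact ⟨g, Subtype.ext hg⟩

end Cfsg.Agent.S0736
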