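import Cfsg.Statements.S0738
import Cfsg.Agent.Lib.PermZ4
import Cfsg.Agent.Lib.PermZ5

set_option autoImplicit false
open Cfsg

open scoped Pointwise
namespace Cfsg.Agent.S0738

/-- Let a finite Zassenhaus group of degree `n + 1` have two-point stabilisers of order `d` with `2d ≥ n - 1`. Then a normal subgroup of a point stabiliser acting regularly on the remaining points is elementary abelian, and the degree is a prime power plus one. -/
theorem result {G Ω : Type*} [Group G] [Finite G] [MulAction G Ω] [Fintype Ω] (hZ : Cfsg.IsZassenhausGroup G Ω) {a b : Ω} (hab : a ≠ b) (hd : Fintype.card Ω - 2 ≤ 2 * Nat.card ↥(MulAction.stabilizer G a ⊓ MulAction.stabilizer G b)) (F : Subgroup G) (hFle : F ≤ MulAction.stabilizer G a) (hFn : (F.subgroupOf (MulAction.stabilizer G a)).Normal) (hreg : ∀ y z : Ω, y ≠ a → z ≠ a → ∃! u : F, (u : G) • y = z) : IsMulCommutative F ∧ ∃ p f : ℕ, p.Prime ∧ (∀ u ∈ F, u ^ p = 1) ∧ Fintype.card Ω = p ^ f + 1 := by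
  classical
  have hm3 := CfsgLib.PermZ4.three_le hZ
  set H := MulAction.stabilizer G a ⊓ MulAction.stabilizer G b with hH
  have hFa : ∀ u ∈ F, u • a = a := fun u hu => hFle hu
  have hconj : ∀ h : G, h • a = a → ∀ x ∈ F, h * x * h⁻¹ ∈ F := by
    intro h hh x hx
    have := hFn.conj_mem ⟨x, hFle hx⟩ hx ⟨h, hh⟩
    exact this
  -- bijection F with the points different from a
  have hcardF : Nat.card F = Fintype.card Ω - 1 := by
    have h1 : Function.Bijective (fun u : F => (⟨(u : G) • b, fun h => hab (by
        have : (u : G) • b = (u : G) • a := by rw [h, hFa u u.2]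
        exact (smul_left_cancel _ this).symm)⟩ : {y : Ω // y ≠ a})) := by
      constructor
      · intro u v huv
        have h2 : (u : G) • b = (v : G) • b := congrArg Subtype.val huv
        obtain ⟨w, -, hw⟩ := hreg b ((v : G) • b) (Ne.symm hab) (fun h => hab (by
          have : (v : G) • b = (v : G) • a := by rw [h, hFa v v.2]
          exact (smul_left_cancel _ this).symm))
        rw [hw u h2, hw v rfl]
      · rintro ⟨y, hy⟩
        obtain ⟨w, hw, -⟩ := hreg b y (Ne.symm hab) hy
        exact ⟨w, Subtype.ext hw⟩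
    rw [Nat.card_congr (Equiv.ofBijective _ h1), Nat.card_eq_fintype_card, Fintype.card_subtype_compl, Fintype.card_subtype_eq]
  obtain ⟨hcomm, p, f, hp, hexp, hcard⟩ := CfsgLib.PermZ5.two_orbits F H (fun h hh x hx => hconj h hh.1 x hx) (by
    intro h hh x hx hx1 he
    -- h fixes a, b, x • b
    have hxb : x • b ≠ b := by
      intro h'
      obtain ⟨w, -, hw⟩ := hreg b b (Ne.symm hab) (Ne.symm hab)
      have e1 := hw ⟨x, hx⟩ h'
      have e2 := hw 1 (one_smul _ _)
      exact hx1 (congrArg Subtype.val (e1.trans e2.symm))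
    have hxa : x • b ≠ a := by
      intro h'
      exact hab (by
        have : x • b = x • a := by rw [h', hFa x hx]
        exact (smul_left_cancel _ this).symm)
    apply hZ.2.2.1 h a b (x • b) hab (Ne.symm hxb) (Ne.symm hxa) hh.1 hh.2
    have h3 : h * x = x * h := by
      rw [mul_inv_eq_iff_eq_mul] at he
      exact he
    rw [← mul_smul, h3, mul_smul]
    congr 1
    exact hh.2) (by omega) (by omega)
  refine ⟨⟨⟨fun x y => Subtype.ext (hcomm x x.2 y y.2)⟩⟩, p, f, hp, hexp, by omega⟩

end Cfsg.Agent.S0738
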