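import Cfsg.Statements.S0739
import Mathlib
import Cfsg.Agent.Lib.H7Z8
import Cfsg.Agent.S0082

set_option autoImplicit false
open Cfsg

set_option linter.style.haveILetI false
namespace Cfsg.Agent.S0739

open CfsgLib.H7Z MulAction

theorem residual {G : Type*} {Ω : Type*} [Group G] [MulAction G Ω] [Finite G] [Fintype Ω] {a b : Ω} (hZ : IsZassenhausGroup G Ω) (hab : a ≠ b)
    (hodd : Odd (Nat.card (stabilizer G a ⊓ stabilizer G b : Subgroup G))) {q : ℕ} (hq : q.Prime) (hqe : q ∣ Nat.card (stabilizer G a ⊓ stabilizer G b : Subgroup G))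
    (hnil : ¬ ∃ N : Subgroup G, N.Normal ∧ N.index = q ^ (Nat.card G).factorization q) : Cfsg.pResidual q G = ⊤ := by
  haveI : Fact q.Prime := ⟨hq⟩
  have hcop := coprime_EE hZ hab hodd
  have hZg := isZGroup_E hZ hab hodd
  obtain ⟨Q⟩ : Nonempty (Sylow q (stabilizer G a ⊓ stabilizer G b : Subgroup G)) := inferInstance
  have hQc : IsCyclic Q := inferInstance
  have hQm : IsPGroup q ((Q : Subgroup (stabilizer G a ⊓ stabilizer G b : Subgroup G)).map (stabilizer G a ⊓ stabilizer G b : Subgroup G).subtype) := Q.2.map _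
  obtain ⟨P, hP⟩ := hQm.exists_le_sylow
  have hcard : Nat.card P = Nat.card Q := by
    rw [P.card_eq_multiplicity, Q.card_eq_multiplicity, ← (stabilizer G a ⊓ stabilizer G b : Subgroup G).card_mul_index]
    congr 1
    rw [Nat.factorization_mul Nat.card_pos.ne' (Subgroup.index_ne_zero_of_finite)]
    rw [Finsupp.add_apply, Nat.factorization_eq_zero_of_not_dvd (n := (stabilizer G a ⊓ stabilizer G b : Subgroup G).index), add_zero]
    intro h
    exact hq.one_lt.ne' (Nat.dvd_one.mp (hcop ▸ Nat.dvd_gcd hqe h))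
  have hPe : ((Q : Subgroup (stabilizer G a ⊓ stabilizer G b : Subgroup G)).map (stabilizer G a ⊓ stabilizer G b : Subgroup G).subtype) = P := by
    apply Subgroup.eq_of_le_of_card_ge hP
    rw [Subgroup.card_map_of_injective (Subgroup.subtype_injective _)]
    exact hcard.le
  have hPc : IsCyclic P := by
    have e := (Q : Subgroup (stabilizer G a ⊓ stabilizer G b : Subgroup G)).equivMapOfInjective _ (Subgroup.subtype_injective (stabilizer G a ⊓ stabilizer G b : Subgroup G))
    have e2 := e.trans (MulEquiv.subgroupCongr hPe)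
    exact isCyclic_of_surjective e2.toMonoidHom e2.surjective
  rcases Cfsg.Agent.S0082.result P hPc with ⟨P', N, hN, hc⟩ | h
  · exfalso
    apply hnil
    refine ⟨N, hN, ?_⟩
    rw [hc.symm.index_eq_card, P'.card_eq_multiplicity]
  · exact h


/-- In a finite Zassenhaus group whose two-point stabiliser `H = G_{a,b}` has odd order `d`, and which has no normal `q`-complement for any prime `q ∣ d`, `H` is cyclic, `C_G(H) = H`, and every element swapping `a` and `b` inverts each element of `H`. -/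
theorem result {G Ω : Type*} [Group G] [Finite G] [MulAction G Ω] [Fintype Ω] (hZ : Cfsg.IsZassenhausGroup G Ω) {a b : Ω} (hab : a ≠ b) (hodd : Odd (Nat.card ↥(MulAction.stabilizer G a ⊓ MulAction.stabilizer G b))) (hnil : ∀ q : ℕ, q.Prime → q ∣ Nat.card ↥(MulAction.stabilizer G a ⊓ MulAction.stabilizer G b) → ¬ ∃ N : Subgroup G, N.Normal ∧ N.index = q ^ (Nat.card G).factorization q) : IsCyclic ↥(MulAction.stabilizer G a ⊓ MulAction.stabilizer G b) ∧ Subgroup.centralizer ((MulAction.stabilizer G a ⊓ MulAction.stabilizer G b : Subgroup G) : Set G) = MulAction.stabilizer G a ⊓ MulAction.stabilizer G b ∧ ∀ s : G, s • a = b → s • b = a → ∀ h ∈ MulAction.stabilizer G a ⊓ MulAction.stabilizer G b, s * h * s⁻¹ = h⁻¹ := by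
  have hnq : ∀ (A : Type _) [CommGroup A], Nat.card A ∣ Nat.card (stabilizer G a ⊓ stabilizer G b : Subgroup G) →
      ∀ φ : Subgroup.normalizer ((stabilizer G a ⊓ stabilizer G b : Subgroup G) : Set G) →* A, ∀ x, φ x = 1 := by
    intro A _ hA φ x
    haveI : Finite A := Nat.finite_of_card_ne_zero (ne_zero_of_dvd_ne_zero Nat.card_pos.ne' hA)
    have hAodd : Odd (Nat.card A) := Odd.of_dvd_nat hodd hA
    have hA2 : ∀ x : A, x * x = 1 → x = 1 := by
      intro x hx
      by_contra hx1
      have h3 : orderOf x = 2 := orderOf_eq_prime (by rw [pow_two, hx]) hx1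
      have h4 := orderOf_dvd_natCard x
      rw [h3] at h4
      exact (Nat.not_even_iff_odd.mpr hAodd) (even_iff_two_dvd.mpr h4)
    rw [← transfer_ext hZ hab hA2 φ x]
    obtain ⟨τ, hτ⟩ : ∃ τ : G →* A, τ = MonoidHom.transfer φ := ⟨_, rfl⟩
    rw [← hτ, ← orderOf_eq_one_iff]
    by_contra hne
    obtain ⟨q, hq, hqo⟩ := Nat.exists_prime_and_dvd hne
    have hqA : q ∣ Nat.card A := hqo.trans (orderOf_dvd_natCard _)
    have hres := residual hZ hab hodd hq (hqA.trans hA) (hnil q hq (hqA.trans hA))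
    -- `|A| = q ^ k * m`
    obtain ⟨k, m, hm, hkm⟩ := Nat.exists_eq_pow_mul_and_not_dvd (n := Nat.card A) Nat.card_pos.ne' q hq.ne_one
    have hall : ∀ g : G, τ g ^ m = 1 := by
      have h1 : Cfsg.pResidual q G ≤ ((powMonoidHom m).comp τ).ker := by
        rw [Cfsg.pResidual, Subgroup.closure_le]
        intro g hg
        have hg : Nat.Coprime (orderOf g) q := hg
        show τ g ^ m = 1
        rw [← orderOf_eq_one_iff]
        have h2 : orderOf (τ g ^ m) ∣ q ^ k := by
          apply orderOf_dvd_of_pow_eq_one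
          rw [← pow_mul, mul_comm, ← hkm]
          exact pow_card_eq_one'
        have h3 : orderOf (τ g ^ m) ∣ orderOf g := (orderOf_pow_dvd m).trans (orderOf_map_dvd τ g)
        have h4 := Nat.Coprime.eq_one_of_dvd (Nat.Coprime.coprime_dvd_left h3 (Nat.Coprime.pow_right k hg)) h2
        exact h4
      intro g
      have : g ∈ ((powMonoidHom m).comp τ).ker := h1 (by rw [hres]; exact Subgroup.mem_top _)
      exact this
    have h5 := orderOf_dvd_of_pow_eq_one (hall x)
    exact hm (hqo.trans h5)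
  obtain ⟨hcyc, hinv⟩ := E_cyclic_inverted' hZ hab hodd hnq
  refine ⟨hcyc, ?_, fun s hsa hsb => (hinv s hsa hsb).2⟩
  apply le_antisymm
  · intro g hg
    rw [Subgroup.mem_centralizer_iff] at hg
    obtain ⟨x, hx, hx1⟩ := exists_ne_one_EE hZ hab
    have h1 : g ∈ Subgroup.normalizer ((stabilizer G a ⊓ stabilizer G b : Subgroup G) : Set G) := by
      apply ti_EE hZ hab hx hx1
      rw [← hg x hx, mul_inv_cancel_right]
      exact hx
    rcases (mem_normalizer_iff hZ hab).mp h1 with ⟨h2, h3⟩ | ⟨h2, h3⟩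
    · exact mem_EE.mpr ⟨h2, h3⟩
    · exfalso
      have h4 := (hinv g h2 h3).2 x hx
      rw [← hg x hx, mul_inv_cancel_right] at h4
      have h5 : x * x = 1 := by
        nth_rewrite 1 [h4]
        exact inv_mul_cancel x
      have h6 : orderOf x = 2 := orderOf_eq_prime (by rw [pow_two, h5]) hx1
      have h7 : orderOf x ∣ Nat.card (stabilizer G a ⊓ stabilizer G b : Subgroup G) := Subgroup.orderOf_dvd_natCard _ hx
      rw [h6] at h7
      exact (Nat.not_even_iff_odd.mpr hodd) (even_iff_two_dvd.mpr h7)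
  · intro x hx
    rw [Subgroup.mem_centralizer_iff]
    intro y hy
    obtain ⟨g, hg⟩ := hcyc.exists_generator
    obtain ⟨i, hi⟩ := Subgroup.mem_zpowers_iff.mp (hg ⟨x, hx⟩)
    obtain ⟨j, hj⟩ := Subgroup.mem_zpowers_iff.mp (hg ⟨y, hy⟩)
    have hi : (g : G) ^ i = x := by rw [← Subgroup.coe_zpow, hi]
    have hj : (g : G) ^ j = y := by rw [← Subgroup.coe_zpow, hj]
    rw [← hi, ← hj, ← zpow_add, ← zpow_add, add_comm]

end Cfsg.Agent.S0739
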