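import Cfsg.Statements.S0740
import Cfsg.Agent.Lib.PermZ4

set_option autoImplicit false
open Cfsg

open scoped Pointwise
set_option linter.style.haveILetI false
namespace Cfsg.Agent.S0740

/-- In a finite Zassenhaus group any two points `a ≠ b` are swapped by an involution; every such involution has exactly one fixed point when the degree is odd and 0 or 2 fixed points when the degree is even; and if the two-point stabiliser has even order, some such involution has exactly 2 fixed points. -/
theorem result {G Ω : Type*} [Group G] [Finite G] [MulAction G Ω] [Fintype Ω] (hZ : Cfsg.IsZassenhausGroup G Ω) {a b : Ω} (hab : a ≠ b) : (∃ s : G, orderOf s = 2 ∧ s • a = b ∧ s • b = a) ∧ (∀ s : G, orderOf s = 2 → s • a = b → s • b = a → (Odd (Fintype.card Ω) → Nat.card (MulAction.fixedBy Ω s) = 1) ∧ (Even (Fintype.card Ω) → Nat.card (MulAction.fixedBy Ω s) = 0 ∨ Nat.card (MulAction.fixedBy Ω s) = 2)) ∧ (Even (Fintype.card Ω) → Even (Nat.card ↥(MulAction.stabilizer G a ⊓ MulAction.stabilizer G b)) → ∃ s : G, orderOf s =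 2 ∧ s • a = b ∧ s • b = a ∧ Nat.card (MulAction.fixedBy Ω s) = 2) := by
  classical
  haveI := hZ.1
  have h2 := hZ.2.1
  rw [CfsgLib.PermG3.mt_two_iff] at h2
  refine ⟨CfsgLib.PermZ4.exists_swap hZ hab, ?_, ?_⟩
  · intro s hs hsa hsb
    have hss : s * s = 1 := by
      have := pow_orderOf_eq_one s
      rwa [hs, pow_two] at this
    have hs1 : s ≠ 1 := by
      rintro rfl
      rw [orderOf_one] at hs
      norm_num at hs
    have h3 := CfsgLib.PermZ4.fix_two hZ hs1
    have h4 := CfsgLib.PermZ4.parity (Ω := Ω) hss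
    rw [CfsgLib.PermZ4.card_fixedBy]
    rw [ZMod.natCast_eq_natCast_iff, Nat.ModEq] at h4
    constructor
    · intro hodd
      rw [Nat.odd_iff] at hodd
      omega
    · intro heven
      rw [Nat.even_iff] at heven
      omega
  · intro _ heven
    haveI : Fact (Nat.Prime 2) := ⟨Nat.prime_two⟩
    obtain ⟨z', hz⟩ := exists_prime_orderOf_dvd_card' (G := ↥(MulAction.stabilizer G a ⊓ MulAction.stabilizer G b)) 2 heven.two_dvd
    obtain ⟨z, hzo, hza, hzb⟩ : ∃ z : G, orderOf z = 2 ∧ z • a = a ∧ z • b = b :=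
      ⟨z', by rw [Subgroup.orderOf_coe, hz], z'.2.1, z'.2.2⟩
    have hzz : (z : G) * z = 1 := by
      have := pow_orderOf_eq_one (z : G)
      rwa [hzo, pow_two] at this
    have hz1 : (z : G) ≠ 1 := by
      intro h
      rw [h, orderOf_one] at hzo
      norm_num at hzo
    obtain ⟨x, hx⟩ : ∃ x : Ω, (z : G) • x ≠ x := by
      by_contra hcon
      push Not at hcon
      exact hz1 (FaithfulSMul.eq_of_smul_eq_smul (α := Ω) (fun x => by rw [hcon, one_smul]))
    obtain ⟨g, hg1, hg2⟩ := h2 x ((z : G) • x) a b (Ne.symm hx) hab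
    refine ⟨g * z * g⁻¹, ?_, ?_, ?_, ?_⟩
    · rw [← hzo]
      exact orderOf_injective (MulAut.conj g).toMonoidHom (MulAut.conj g).injective (z : G)
    · rw [mul_smul, mul_smul, ← hg1, inv_smul_smul, hg2]
    · rw [mul_smul, mul_smul, ← hg2, inv_smul_smul, ← mul_smul (z : G) z, hzz, one_smul, hg1]
    · rw [CfsgLib.PermZ4.card_fixedBy]
      have hne : g * (z : G) * g⁻¹ ≠ 1 := by
        intro h
        apply hz1
        rw [mul_inv_eq_one] at h
        exact (mul_eq_left.1 h)
      apply le_antisymm (CfsgLib.PermZ4.fix_two hZ hne)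
      have hgab : g • a ≠ g • b := fun h => hab (smul_left_cancel g h)
      rw [← Finset.card_pair hgab]
      apply Finset.card_le_card
      intro y hy
      rw [Finset.mem_insert, Finset.mem_singleton] at hy
      rw [Finset.mem_filter]
      rcases hy with rfl | rfl
      · exact ⟨Finset.mem_univ _, by rw [mul_smul, mul_smul, inv_smul_smul, hza]⟩
      · exact ⟨Finset.mem_univ _, by rw [mul_smul, mul_smul, inv_smul_smul, hzb]⟩

end Cfsg.Agent.S0740
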