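import Cfsg.Statements.S0743
import Cfsg.Agent.Lib.PermG3

set_option autoImplicit false
open Cfsg

open scoped Pointwise
set_option linter.style.haveILetI false
namespace Cfsg.Agent.S0743

/-- Gleason's Lemma: let `p` be a prime and `1 ≤ k < n`; if every `k`-subset of the `n` points is exactly the fixed-point set of some `p`-subgroup of `G`, then `G` is `k`-transitive. -/
theorem result {α : Type*} [Fintype α] [DecidableEq α] (G : Subgroup (Equiv.Perm α)) {p k : ℕ} (hp : p.Prime) (hk : 1 ≤ k) (hkn : k < Fintype.card α) (h : ∀ s : Finset α, s.card = k → ∃ P : Subgroup G, IsPGroup p P ∧ MulAction.fixedPoints P α = (s : Set α)) : MulAction.IsMultiplyPretransitive G α k := by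
  classical
  haveI := Fact.mk hp
  apply CfsgLib.PermG3.mt_of_fix hk hkn
  intro s hs a b ha hb
  -- K = pointwise stabiliser of s
  let K : Subgroup G := fixingSubgroup G (s : Set α)
  have hK : ∀ g : G, g ∈ K ↔ ∀ x ∈ s, g • x = x := by
    intro g
    rw [mem_fixingSubgroup_iff]
    rfl
  by_contra hcon
  push Not at hcon
  have hcard : ∀ x, x ∉ s → ∃ P : Subgroup G, IsPGroup p P ∧ P ≤ K ∧ ∀ y, y ∉ s → ((∀ g ∈ P, g • y = y) ↔ y = x) := by
    intro x hx
    obtain ⟨P, hP, hPf⟩ := h (insert x s) (by rw [Finset.card_insert_of_notMem hx, hs]; omega)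
    refine ⟨P, hP, ?_, ?_⟩
    · intro g hg
      rw [hK]
      intro y hy
      have : y ∈ MulAction.fixedPoints P α := by
        rw [hPf]; exact Finset.mem_coe.2 (Finset.mem_insert_of_mem hy)
      exact this ⟨g, hg⟩
    · intro y hy
      have h1 : (∀ g ∈ P, g • y = y) ↔ y ∈ MulAction.fixedPoints P α := by
        constructor
        · intro h1 g; exact h1 g g.2
        · intro h1 g hg; exact h1 ⟨g, hg⟩
      rw [h1, hPf, Finset.mem_coe, Finset.mem_insert]
      constructor
      · rintro (h2 | h2)
        · exact h2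
        · exact absurd h2 hy
      · intro h2; exact Or.inl h2
  -- count the orbit of a
  have hcount : ∀ x, x ∉ s → ∀ y, y ∉ s → (Nat.card (MulAction.orbit K y)) ≡ (if x ∈ MulAction.orbit K y then 1 else 0) [MOD p] := by
    intro x hx y hy
    obtain ⟨P, hP, hPK, hPf⟩ := hcard x hx
    letI : MulAction P (MulAction.orbit K y) :=
      { smul := fun g z => ⟨(g : G) • (z : α), by
          obtain ⟨z, k, rfl⟩ := z
          exact ⟨⟨(g : G), hPK g.2⟩ * k, mul_smul _ _ _⟩⟩
        one_smul := fun z => Subtype.ext (one_smul _ _)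
        mul_smul := fun g h z => Subtype.ext (mul_smul _ _ _) }
    have h1 := hP.card_modEq_card_fixedPoints (MulAction.orbit K y)
    have hys : ∀ z ∈ MulAction.orbit K y, z ∉ s := by
      rintro _ ⟨k, rfl⟩ hz
      apply hy
      have h2 := (hK (k⁻¹ : K)).1 (k⁻¹).2 _ hz
      have h3 : (k⁻¹ : K) • (k • y) = k • y := h2
      rw [inv_smul_smul] at h3
      rw [h3]
      exact hz
    have h2 : Nat.card (MulAction.fixedPoints P (MulAction.orbit K y)) = if x ∈ MulAction.orbit K y then 1 else 0 := by
      have hmem : ∀ z : MulAction.orbit K y, z ∈ MulAction.fixedPoints P (MulAction.orbit K y) ↔ (z : α) = x := by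
        intro z
        rw [← hPf z (hys z z.2)]
        constructor
        · intro hz g hg
          exact congrArg Subtype.val (hz ⟨g, hg⟩)
        · intro hz g
          exact Subtype.ext (hz g g.2)
      split_ifs with hxo
      · rw [Nat.card_eq_one_iff_unique]
        refine ⟨⟨?_⟩, ⟨⟨⟨x, hxo⟩, (hmem _).2 rfl⟩⟩⟩
        rintro ⟨z, hz⟩ ⟨w, hw⟩
        apply Subtype.ext
        apply Subtype.ext
        rw [(hmem z).1 hz, (hmem w).1 hw]
      · rw [Nat.card_eq_zero]
        left
        refine ⟨?_⟩
        rintro ⟨z, hz⟩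
        apply hxo
        rw [← (hmem z).1 hz]
        exact z.2
    rw [h2] at h1
    exact h1
  have h1 := hcount a ha a ha
  rw [if_pos (MulAction.mem_orbit_self a)] at h1
  have h2 := hcount b hb a ha
  rw [if_neg] at h2
  · have h3 := h1.symm.trans h2
    have h4 : p ∣ 1 := (Nat.modEq_zero_iff_dvd).1 h3
    exact hp.one_lt.ne' (Nat.dvd_one.1 h4)
  · rintro ⟨k, hk'⟩
    exact hcon k ((hK k).1 k.2) hk'

end Cfsg.Agent.S0743
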