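import Cfsg.Statements.S0744
import Cfsg.Agent.Lib.PermG3

set_option autoImplicit false
open Cfsg

open scoped Pointwise
set_option linter.style.haveILetI false
namespace Cfsg.Agent.S0744

/-- If for some `k > 1` the pointwise stabilisers of all `(k-1)`-subsets have the same order `> 1` and those of all `k`-subsets have the same order, then the group is `(k-1)`-transitive. -/
theorem result {α : Type*} [Fintype α] [DecidableEq α] (G : Subgroup (Equiv.Perm α)) {k : ℕ} (hk : 1 < k) (hkn : k ≤ Fintype.card α) (l m : ℕ) (hl : 1 < l) (hkm1 : ∀ s : Finset α, s.card = k - 1 → Nat.card (fixingSubgroup G (s : Set α)) = l) (hkm : ∀ s : Finset α, s.card = k → Nat.card (fixingSubgroup G (s : Set α)) = m) : MulAction.IsMultiplyPretransitive G α (k - 1) := by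
  classical
  apply CfsgLib.PermG3.mt_of_fix (k := k - 1) (by omega) (by omega)
  intro s hs a b ha hb
  let K : Subgroup G := fixingSubgroup G (s : Set α)
  have hK : ∀ g : G, g ∈ K ↔ ∀ x ∈ s, g • x = x := by
    intro g
    rw [mem_fixingSubgroup_iff]
    rfl
  by_contra hcon
  push Not at hcon
  have hstab : ∀ x, x ∉ s → Nat.card (MulAction.stabilizer K x) = l := by
    intro x hx
    rw [← hkm1 (insert x s) (by rw [Finset.card_insert_of_notMem hx, hs]; omega)]
    refine Nat.card_congr ⟨fun g => ⟨(g : K), ?_⟩, fun g => ⟨⟨(g : G), ?_⟩, ?_⟩, ?_, ?_⟩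
    · rw [mem_fixingSubgroup_iff]
      intro y hy
      rcases Finset.mem_insert.1 (Finset.mem_coe.1 hy) with rfl | hy
      · exact g.2
      · exact (hK (g : K)).1 (g : K).2 y hy
    · rw [hK]
      intro y hy
      exact (mem_fixingSubgroup_iff G).1 g.2 y (Finset.mem_coe.2 (Finset.mem_insert_of_mem hy))
    · exact (mem_fixingSubgroup_iff G).1 g.2 x (Finset.mem_coe.2 (Finset.mem_insert_self _ _))
    · intro g; rfl
    · intro g; rfl
  have hstab2 : ∀ x, x ∉ s → ∀ y, y ∉ s → x ≠ y → Nat.card (MulAction.stabilizer (MulAction.stabilizer K x) y) = m := by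
    intro x hx y hy hxy
    rw [← hkm (insert y (insert x s)) (by
      rw [Finset.card_insert_of_notMem (by
        rw [Finset.mem_insert]; rintro (h | h); exacts [hxy h.symm, hy h]),
        Finset.card_insert_of_notMem hx, hs]; omega)]
    refine Nat.card_congr ⟨fun g => ⟨((g : MulAction.stabilizer K x) : K), ?_⟩, fun g => ⟨⟨⟨(g : G), ?_⟩, ?_⟩, ?_⟩, ?_, ?_⟩
    · rw [mem_fixingSubgroup_iff]
      intro z hz
      rcases Finset.mem_insert.1 (Finset.mem_coe.1 hz) with rfl | hz
      · exact (g.2 : _)
      · rcases Finset.mem_insert.1 hz with rfl | hz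
        · exact g.1.2
        · exact (hK ((g : MulAction.stabilizer K x) : K)).1 ((g : MulAction.stabilizer K x) : K).2 z hz
    · rw [hK]
      intro z hz
      exact (mem_fixingSubgroup_iff G).1 g.2 z (Finset.mem_coe.2 (Finset.mem_insert_of_mem (Finset.mem_insert_of_mem hz)))
    · exact (mem_fixingSubgroup_iff G).1 g.2 x (Finset.mem_coe.2 (Finset.mem_insert_of_mem (Finset.mem_insert_self _ _)))
    · exact (mem_fixingSubgroup_iff G).1 g.2 y (Finset.mem_coe.2 (Finset.mem_insert_self _ _))
    · intro g; rfl
    · intro g; rfl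
  have hab : a ≠ b := by
    rintro rfl
    exact hcon 1 (fun x _ => one_smul _ _) (one_smul _ _)
  -- orbits of the stabiliser of x on the rest have length l / m
  have hlen : ∀ x, x ∉ s → ∀ y, y ∉ s → x ≠ y → Nat.card (MulAction.orbit (MulAction.stabilizer K x) y) * m = l := by
    intro x hx y hy hxy
    rw [← hstab2 x hx y hy hxy, ← hstab x hx]
    exact Nat.card_congr (MulAction.orbitProdStabilizerEquivGroup (MulAction.stabilizer K x) y)|>.symm ▸ (Nat.card_prod _ _).symm
  have hm0 : 0 < m := by
    rw [← hstab2 a ha b hb hab]; exact Nat.card_pos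
  obtain ⟨r, hr⟩ : ∃ r, r * m = l := ⟨_, hlen a ha b hb hab⟩
  have hlen' : ∀ x, x ∉ s → ∀ y, y ∉ s → x ≠ y → Nat.card (MulAction.orbit (MulAction.stabilizer K x) y) = r := by
    intro x hx y hy hxy
    exact Nat.eq_of_mul_eq_mul_right hm0 ((hlen x hx y hy hxy).trans hr.symm)
  have hr1 : r ≠ 1 := by
    rintro rfl
    -- then the stabiliser of a fixes everything
    have hall : ∀ g ∈ MulAction.stabilizer K a, g = 1 := by
      intro g hg
      apply Subtype.ext
      apply Subtype.ext
      ext y
      by_cases hy : y ∈ s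
      · exact (hK (g : K)).1 g.2 y hy
      · by_cases hay : a = y
        · rw [← hay]; exact hg
        · have h1 := hlen' a ha y hy hay
          rw [Nat.card_eq_one_iff_unique] at h1
          obtain ⟨h1, -⟩ := h1
          have h2 := h1.elim ⟨(⟨g, hg⟩ : MulAction.stabilizer K a) • y, MulAction.mem_orbit _ _⟩ ⟨y, MulAction.mem_orbit_self _⟩
          exact congrArg Subtype.val h2
    have h2 : MulAction.stabilizer K a = ⊥ := by
      rw [Subgroup.eq_bot_iff_forall]; exact hall
    have h3 := hstab a ha
    rw [h2, Subgroup.card_bot] at h3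
    omega
  -- K-orbits off s have the same length
  have horb : ∀ x, x ∉ s → Nat.card (MulAction.orbit K x) * l = Nat.card K := by
    intro x hx
    rw [← hstab x hx]
    exact Nat.card_congr (MulAction.orbitProdStabilizerEquivGroup K x)|>.symm ▸ (Nat.card_prod _ _).symm
  have hmod : ∀ x, x ∉ s → ∀ y, y ∉ s → (Nat.card (MulAction.orbit K y)) ≡ (if x ∈ MulAction.orbit K y then 1 else 0) [MOD r] := by
    intro x hx y hy
    have hys : ∀ z ∈ MulAction.orbit K y, z ∉ s := by
      rintro _ ⟨k, rfl⟩ hz
      apply hy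
      have h2 := (hK (k⁻¹ : K)).1 (k⁻¹).2 _ hz
      have h3 : (k⁻¹ : K) • (k • y) = k • y := h2
      rw [inv_smul_smul] at h3
      rw [h3]
      exact hz
    -- partition of orbit minus x
    let S := MulAction.stabilizer K x
    letI : MulAction S {z // z ∈ MulAction.orbit K y ∧ z ≠ x} :=
      { smul := fun g z => ⟨(g : K) • (z : α), by
          refine ⟨?_, ?_⟩
          · obtain ⟨k, hk⟩ := z.2.1
            exact ⟨(g : K) * k, by
              change ((g : K) * k) • y = (g : K) • (z : α)
              rw [mul_smul]; exact congrArg _ hk⟩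
          · intro h
            apply z.2.2
            have h1 : (g : K) • x = x := g.2
            have h3 : (g : K) • (z : α) = (g : K) • x := h.trans h1.symm
            exact smul_left_cancel _ h3⟩
        one_smul := fun z => Subtype.ext (one_smul _ _)
        mul_smul := fun g h z => Subtype.ext (mul_smul _ _ _) }
    have hdvd : r ∣ Nat.card {z // z ∈ MulAction.orbit K y ∧ z ≠ x} := by
      rw [Nat.card_eq_fintype_card, Fintype.card_congr (MulAction.selfEquivSigmaOrbits S {z // z ∈ MulAction.orbit K y ∧ z ≠ x}),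
        Fintype.card_sigma]
      apply Finset.dvd_sum
      intro ω _
      rw [← Nat.card_eq_fintype_card]
      have hz := (Quotient.out ω).2
      have h1 := hlen' x hx (Quotient.out ω).1 (hys _ hz.1) (fun h => hz.2 h.symm)
      rw [← h1]
      apply dvd_of_eq
      refine Nat.card_congr ⟨fun z => ⟨⟨z.1, ?_⟩, ?_⟩, fun z => ⟨z.1.1, ?_⟩, ?_, ?_⟩
      · obtain ⟨g, hg⟩ := z.2
        have := ((g • (Quotient.out ω) : {z // z ∈ MulAction.orbit K y ∧ z ≠ x})).2
        have h2 : (g • (Quotient.out ω) : {z // z ∈ MulAction.orbit K y ∧ z ≠ x}).1 = z.1 := hg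
        rw [h2] at this
        exact this
      · obtain ⟨g, hg⟩ := z.2
        exact ⟨g, Subtype.ext hg⟩
      · obtain ⟨g, hg⟩ := z.2
        exact ⟨g, congrArg Subtype.val hg⟩
      · intro z; rfl
      · intro z; rfl
    have hcardeq : Nat.card (MulAction.orbit K y) = Nat.card {z // z ∈ MulAction.orbit K y ∧ z ≠ x} + (if x ∈ MulAction.orbit K y then 1 else 0) := by
      have h1 : Nat.card {z // z ∈ MulAction.orbit K y ∧ z ≠ x} = (Finset.univ.filter (fun z => z ∈ MulAction.orbit K y ∧ z ≠ x)).card := by
        rw [Nat.card_eq_fintype_card, Fintype.card_subtype]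
      have h2 : Nat.card (MulAction.orbit K y) = (Finset.univ.filter (fun z => z ∈ MulAction.orbit K y)).card := by
        rw [Nat.card_eq_fintype_card]
        exact Fintype.card_subtype _
      rw [h1, h2]
      split_ifs with hx'
      · have h3 : (Finset.univ.filter (fun z => z ∈ MulAction.orbit K y ∧ z ≠ x)) = (Finset.univ.filter (fun z => z ∈ MulAction.orbit K y)).erase x := by
          ext z
          simp [Finset.mem_erase, and_comm]
        rw [h3, Finset.card_erase_add_one]
        simp [hx']
      · rw [add_zero]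
        congr 1
        ext z
        simp only [Finset.mem_filter, Finset.mem_univ, true_and]
        constructor
        · intro h; exact ⟨h, fun hzx => hx' (hzx ▸ h)⟩
        · intro h; exact h.1
    rw [hcardeq]
    have := (Nat.modEq_zero_iff_dvd.2 hdvd).add_right (if x ∈ MulAction.orbit K y then 1 else 0)
    rwa [zero_add] at this
  have h1 := hmod a ha a ha
  rw [if_pos (MulAction.mem_orbit_self a)] at h1
  have h2 := hmod b hb a ha
  rw [if_neg] at h2
  · have h3 := h1.symm.trans h2
    have h4 : r ∣ 1 := (Nat.modEq_zero_iff_dvd).1 h3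
    exact hr1 (Nat.dvd_one.1 h4)
  · rintro ⟨g, hg⟩
    exact hcon g ((hK g).1 g.2) hg

end Cfsg.Agent.S0744
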