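import Cfsg.Statements.S0753

set_option autoImplicit false
open Cfsg

open scoped Pointwise
namespace Cfsg.Agent.S0753

/-- If σ is a ring endomorphism of the field F other than the identity and B is a σ-sesquilinear conjugate-symmetric form with B v v = 0 for every v, then B = 0. -/
theorem result {F V : Type*} [Field F] [AddCommGroup V] [Module F V] (σ : F →+* F) (hσ : σ ≠ RingHom.id F) (B : V →ₛₗ[σ] V →ₗ[F] F) (hS : B.IsSymm) (h0 : ∀ v : V, B v v = 0) : B = 0 := by
  -- B u v + B v u = 0
  have hadd : ∀ u v, B u v + B v u = 0 := by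
    intro u v
    have h := h0 (u + v)
    simp only [map_add, LinearMap.add_apply, h0, zero_add, add_zero] at h
    rw [add_comm]; exact h
  obtain ⟨a, ha⟩ : ∃ a, σ a ≠ a := by
    by_contra hcon
    push Not at hcon
    exact hσ (RingHom.ext hcon)
  ext u v
  rw [LinearMap.zero_apply, LinearMap.zero_apply]
  have h1 := hadd (a • u) v
  simp only [map_smul, LinearMap.smul_apply, LinearMap.map_smulₛₗ, smul_eq_mul] at h1
  have h2 := hadd u v
  have h3 : (σ a - a) * B u v = 0 := by linear_combination h1 - a * h2
  rcases mul_eq_zero.mp h3 with h | h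
  · exact absurd (sub_eq_zero.mp h) ha
  · exact h

end Cfsg.Agent.S0753
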