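import Cfsg.Statements.S0754
import Cfsg.Agent.Lib.Linear

set_option autoImplicit false
open Cfsg

namespace Cfsg.Agent.S0754

/-- In a field F with q^2 elements, every non-zero μ with μ^q = μ (that is, μ in the subfield of order q) has exactly q + 1 solutions λ of λ^(q+1) = μ. -/
theorem result {F : Type*} [Field F] [Fintype F] {q : ℕ} (hF : Fintype.card F = q ^ 2) (μ : F) (hμ : μ ≠ 0) (hμq : μ ^ q = μ) : Nat.card {x : F // x ^ (q + 1) = μ} = q + 1 := by
  classical
  have hq0 : q ≠ 0 := by
    rintro rfl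
    simp at hF
  have hq1 : q ≠ 1 := by
    rintro rfl
    have := Fintype.one_lt_card (α := F)
    omega
  obtain ⟨r, rfl⟩ : ∃ r, q = r + 2 := ⟨q - 2, by omega⟩
  have hFu : Nat.card Fˣ = (r + 2 + 1) * (r + 1) := by
    rw [Nat.card_units, Nat.card_eq_fintype_card, hF]
    have : (r + 2) ^ 2 = (r + 2 + 1) * (r + 1) + 1 := by ring
    omega
  let μ' : Fˣ := Units.mk0 μ hμ
  have hμ' : μ' ^ (r + 1) = 1 := by
    ext
    have h1 : μ ^ (r + 1) * μ = μ := by
      rw [← pow_succ]; exact hμq
    simpa [μ'] using mul_right_cancel₀ hμ (h1.trans (one_mul μ).symm)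
  -- μ' is a (q+1)-th power
  obtain ⟨g, hg⟩ := IsCyclic.exists_generator (α := Fˣ)
  obtain ⟨k, hk⟩ : ∃ k : ℕ, g ^ k = μ' := by
    have := hg μ'
    rw [← mem_powers_iff_mem_zpowers] at this
    exact this
  have hord : orderOf g = (r + 2 + 1) * (r + 1) := by
    rw [orderOf_eq_card_of_forall_mem_zpowers hg, hFu]
  obtain ⟨l, hl⟩ : (r + 2 + 1) ∣ k := by
    have h1 : g ^ (k * (r + 1)) = 1 := by rw [pow_mul, hk, hμ']
    have h2 := orderOf_dvd_of_pow_eq_one h1
    rw [hord] at h2
    exact Nat.dvd_of_mul_dvd_mul_right (by omega) h2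
  have hx0 : (g ^ l) ^ (r + 2 + 1) = μ' := by
    rw [← hk, hl, ← pow_mul, mul_comm]
  -- fibre is a coset of the roots of unity
  have e : {x : F // x ^ (r + 2 + 1) = μ} ≃ rootsOfUnity (r + 2 + 1) F :=
    { toFun := fun x => ⟨Units.mk0 x.1 (by
          rintro h
          have := x.2
          rw [h, zero_pow (by omega)] at this
          exact hμ this.symm) * (g ^ l)⁻¹, by
          rw [mem_rootsOfUnity, mul_pow, inv_pow, hx0, mul_inv_eq_one]
          ext
          simpa [μ'] using x.2⟩
      invFun := fun z => ⟨((z : Fˣ) * g ^ l : Fˣ), by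
          have h1 : ((z : Fˣ) * g ^ l) ^ (r + 2 + 1) = μ' := by
            rw [mul_pow, hx0, (mem_rootsOfUnity _ _).mp z.2, one_mul]
          exact congrArg Units.val h1⟩
      left_inv := fun x => by
        apply Subtype.ext
        simp
      right_inv := fun z => by
        apply Subtype.ext
        ext
        simp }
  rw [Nat.card_congr e, CfsgLib.Linear.card_rootsOfUnity_gcd, ← Nat.card_eq_fintype_card,
    Nat.card_eq_card_units_add_one, hFu, Nat.add_sub_cancel]
  exact Nat.gcd_mul_right_right _ _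

end Cfsg.Agent.S0754
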