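import Cfsg.Statements.S0757
import Cfsg.Agent.Lib.Disc

set_option autoImplicit false
open Cfsg

namespace Cfsg.Agent.S0757

/-- The two diagonal forms Σ x_i^2 and Σ_(i<n) x_i^2 + α x_n^2 on F^(n+1), with α a non-square and 2 ≠ 0 in F, are inequivalent quadratic forms (so over a finite field of odd order there are exactly two classes of non-singular symmetric bilinear forms in each dimension). -/
theorem result {F : Type*} [Field F] (h2 : (2 : F) ≠ 0) (n : ℕ) (α : F) (hα : ¬ IsSquare α) : ¬ (QuadraticMap.weightedSumSquares F (fun _ : Fin (n + 1) => (1 : F))).Equivalent (QuadraticMap.weightedSumSquares F (fun i : Fin (n + 1) => if i = Fin.last n then α else (1 : F))) := by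
  rintro ⟨e⟩
  let B₁ : LinearMap.BilinForm F (Fin (n + 1) → F) := Matrix.toBilin' (1 : Matrix _ _ F)
  let B₂ : LinearMap.BilinForm F (Fin (n + 1) → F) :=
    Matrix.toBilin' (Matrix.diagonal fun i : Fin (n + 1) => if i = Fin.last n then α else (1 : F))
  have hQ1 : ∀ x, (QuadraticMap.weightedSumSquares F (fun _ : Fin (n + 1) => (1 : F))) x =
      B₁ x x := by
    intro x
    simp only [B₁, QuadraticMap.weightedSumSquares_apply, Matrix.toBilin'_apply',
      Matrix.one_mulVec, dotProduct, one_smul]
  have hQ2 : ∀ x, (QuadraticMap.weightedSumSquares F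
      (fun i : Fin (n + 1) => if i = Fin.last n then α else (1 : F))) x = B₂ x x := by
    intro x
    simp only [B₂, QuadraticMap.weightedSumSquares_apply, Matrix.toBilin'_apply',
      Matrix.mulVec_diagonal, dotProduct, smul_eq_mul]
    exact Finset.sum_congr rfl fun i _ => by ring
  have hS1 : ∀ x y, B₁ x y = B₁ y x := by
    intro x y
    simp only [B₁, Matrix.toBilin'_apply', Matrix.one_mulVec, dotProduct]
    exact Finset.sum_congr rfl fun i _ => by ring
  have hS2 : ∀ x y, B₂ x y = B₂ y x := by
    intro x y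
    simp only [B₂, Matrix.toBilin'_apply', Matrix.mulVec_diagonal, dotProduct]
    exact Finset.sum_congr rfl fun i _ => by ring
  have he : ∀ x y, B₂ (e x) (e y) = B₁ x y := by
    intro x y
    have h1 : ∀ z, B₂ (e z) (e z) = B₁ z z := fun z => by
      rw [← hQ1, ← hQ2]
      exact e.map_app z
    have h3 := h1 (x + y)
    have h4 : e (x + y) = e x + e y := map_add e x y
    rw [h4] at h3
    simp only [map_add, LinearMap.add_apply] at h3
    rw [h1 x, h1 y, hS2 (e y) (e x), hS1 y x] at h3
    have h5 : (2 : F) * (B₂ (e x) (e y) - B₁ x y) = 0 := by linear_combination h3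
    exact sub_eq_zero.mp ((mul_eq_zero.mp h5).resolve_left h2)
  let b := Pi.basisFun F (Fin (n + 1))
  have g1 : CfsgLib.Disc.gd B₁ b = 1 := by
    have : (Matrix.of fun i j => B₁ (b i) (b j)) = 1 := by
      ext i j
      simp [B₁, b, Matrix.toBilin'_single]
    rw [CfsgLib.Disc.gd, this, Matrix.det_one]
  have g2 : CfsgLib.Disc.gd B₂ b = α := by
    have : (Matrix.of fun i j => B₂ (b i) (b j)) = (Matrix.diagonal fun i : Fin (n + 1) => if i = Fin.last n then α else (1 : F)) := by
      ext i j
      simp [B₂, b, Matrix.toBilin'_single]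
    rw [CfsgLib.Disc.gd, this, Matrix.det_diagonal, Finset.prod_ite_eq' Finset.univ (Fin.last n) (fun _ => α)]
    simp
  obtain ⟨s, hs0, hs⟩ := CfsgLib.Disc.exists_gd_eq B₁ b (b.map e.toLinearEquiv.symm)
  have g3 : CfsgLib.Disc.gd B₁ (b.map e.toLinearEquiv.symm) = α := by
    refine Eq.trans ?_ g2
    rw [CfsgLib.Disc.gd, CfsgLib.Disc.gd]
    congr 1
    ext i j
    rw [Matrix.of_apply, Matrix.of_apply, ← he]
    simp only [Module.Basis.map_apply]
    congr 2
    · exact e.toLinearEquiv.apply_symm_apply (b i)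
    · exact e.toLinearEquiv.apply_symm_apply (b j)
  rw [g3, g1, mul_one] at hs
  exact hα ⟨s, by rw [hs]; ring⟩

end Cfsg.Agent.S0757
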