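import Cfsg.Statements.S0758

set_option autoImplicit false
open Cfsg

namespace Cfsg.Agent.S0758

/-- For a finite field F of odd order q and a non-square α: the form x² + y² is isotropic iff q ≡ 1 mod 4, and the form x² + α y² is isotropic iff q ≡ 3 mod 4. -/
theorem result {F : Type*} [Field F] [Fintype F] (h2 : (2 : F) ≠ 0) (α : F) (hα : ¬ IsSquare α) : ((∃ x y : F, (x ≠ 0 ∨ y ≠ 0) ∧ x ^ 2 + y ^ 2 = 0) ↔ Fintype.card F % 4 = 1) ∧ ((∃ x y : F, (x ≠ 0 ∨ y ≠ 0) ∧ x ^ 2 + α * y ^ 2 = 0) ↔ Fintype.card F % 4 = 3) := by
  classical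
  have hchar : ringChar F ≠ 2 := by
    intro h
    apply h2
    have h3 : ((2 : ℕ) : F) = 0 := (ringChar.spec F 2).mpr (h ▸ dvd_rfl)
    exact_mod_cast h3
  have hodd : Fintype.card F % 2 = 1 := FiniteField.odd_card_of_char_ne_two hchar
  have hm1 : IsSquare (-1 : F) ↔ Fintype.card F % 4 ≠ 3 := FiniteField.isSquare_neg_one_iff
  have hα0 : α ≠ 0 := by
    rintro rfl
    exact hα IsSquare.zero
  have hprod : ∀ a b : F, ¬ IsSquare a → ¬ IsSquare b → IsSquare (a * b) := by
    intro a b ha hb
    have ha0 : a ≠ 0 := by rintro rfl; exact ha IsSquare.zero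
    have hb0 : b ≠ 0 := by rintro rfl; exact hb IsSquare.zero
    rw [FiniteField.isSquare_iff hchar ha0] at ha
    rw [FiniteField.isSquare_iff hchar hb0] at hb
    rw [FiniteField.isSquare_iff hchar (mul_ne_zero ha0 hb0), mul_pow]
    have ha' := (FiniteField.pow_dichotomy hchar ha0).resolve_left ha
    have hb' := (FiniteField.pow_dichotomy hchar hb0).resolve_left hb
    rw [ha', hb']
    ring
  constructor
  · constructor
    · rintro ⟨x, y, hxy, h⟩
      have hy : y ≠ 0 := by
        rintro rfl
        rcases hxy with h' | h'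
        · apply h'
          have : x ^ 2 = 0 := by linear_combination h
          exact pow_eq_zero_iff (two_ne_zero) |>.mp this
        · exact h' rfl
      have h3 : IsSquare (-1 : F) := ⟨x / y, by field_simp; linear_combination -h⟩
      have h4 := hm1.mp h3
      omega
    · intro h
      obtain ⟨i, hi⟩ := hm1.mpr (by omega)
      exact ⟨i, 1, Or.inr one_ne_zero, by linear_combination -hi⟩
  · constructor
    · rintro ⟨x, y, hxy, h⟩
      have hy : y ≠ 0 := by
        rintro rfl
        rcases hxy with h' | h'
        · apply h'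
          have : x ^ 2 = 0 := by linear_combination h
          exact pow_eq_zero_iff (two_ne_zero) |>.mp this
        · exact h' rfl
      have h3 : IsSquare (-α) := ⟨x / y, by field_simp; linear_combination -h⟩
      have h4 : ¬ IsSquare (-1 : F) := by
        intro h5
        apply hα
        have := h5.mul h3
        simpa using this
      rw [hm1] at h4
      omega
    · intro h
      have h4 : ¬ IsSquare (-1 : F) := by rw [hm1]; omega
      obtain ⟨i, hi⟩ := hprod _ _ h4 hα
      exact ⟨i, 1, Or.inr one_ne_zero, by linear_combination -hi⟩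

end Cfsg.Agent.S0758
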