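import Cfsg.Statements.S0759
import Cfsg.Agent.Lib.Disc

set_option autoImplicit false
open Cfsg

namespace Cfsg.Agent.S0759

/-- Type of the orthonormal form: over a finite field of odd order q and for m ≥ 1, the quadratic form Σ_(i<2m) x_i² on F^(2m) admits an m-dimensional subspace on which it vanishes identically if and only if it is not the case that q ≡ 3 (mod 4) and m is odd. -/
theorem result {F : Type*} [Field F] [Fintype F] (h2 : (2 : F) ≠ 0) (m : ℕ) (hm : 1 ≤ m) : (∃ W : Submodule F (Fin (2 * m) → F), Module.finrank F W = m ∧ ∀ w ∈ W, ∑ i, w i ^ 2 = 0) ↔ ¬ (Fintype.card F % 4 = 3 ∧ Odd m) := by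
  let B : LinearMap.BilinForm F (Fin (2 * m) → F) := Matrix.toBilin' (1 : Matrix _ _ F)
  have hQ1 : ∀ x, B x x = ∑ i, x i ^ 2 := by
    intro x
    simp only [B, Matrix.toBilin'_apply', Matrix.one_mulVec, dotProduct]
    exact Finset.sum_congr rfl fun i _ => by ring
  have hS : B.IsSymm := by
    constructor
    intro x y
    simp only [B, Matrix.toBilin'_apply', Matrix.one_mulVec, dotProduct, RingHom.id_apply]
    exact Finset.sum_congr rfl fun i _ => by ring
  let b := Pi.basisFun F (Fin (2 * m))
  have g1 : CfsgLib.Disc.gd B b = 1 := by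
    have : (Matrix.of fun i j => B (b i) (b j)) = 1 := by
      ext i j
      simp [B, b, Matrix.toBilin'_single]
    rw [CfsgLib.Disc.gd, this, Matrix.det_one]
  have hB : B.Nondegenerate := CfsgLib.Disc.nondegenerate_of_gd_ne_zero b (by rw [g1]; exact one_ne_zero)
  have hdim : Module.finrank F (Fin (2 * m) → F) = 2 * m := by simp
  have hsq : IsSquare ((-1 : F) ^ m) ↔ ¬ (Fintype.card F % 4 = 3 ∧ Odd m) := by
    rcases Nat.even_or_odd m with hm' | hm'
    · rw [hm'.neg_one_pow]
      have : ¬ Odd m := Nat.not_odd_iff_even.mpr hm'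
      simp [this]
    · rw [hm'.neg_one_pow]
      rw [FiniteField.isSquare_neg_one_iff]
      simp [hm']
  constructor
  · rintro ⟨W, hW, hW'⟩
    rw [← hsq]
    have h1 := CfsgLib.Disc.isSquare_of_isotropic hS hdim W hW
      (CfsgLib.Disc.isotropic_of_qf h2 hS fun x hx => by rw [hQ1]; exact hW' x hx) b
    rwa [g1, mul_one] at h1
  · intro h
    rw [← hsq] at h
    obtain ⟨X, hX, hX'⟩ := CfsgLib.Disc.exists_isotropic_half h2 hS hB hdim b (by rwa [g1, mul_one])
    exact ⟨X, hX, fun w hw => by rw [← hQ1]; exact hX' w hw w hw⟩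

end Cfsg.Agent.S0759
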