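import Cfsg.Statements.S0761
import Cfsg.Agent.Lib.AltForm

set_option autoImplicit false
open Cfsg

open scoped Pointwise
namespace Cfsg.Agent.S0761

/-- Hyperbolic partners: let B be a non-degenerate bilinear form on a finite-dimensional space, either alternating, or symmetric with 2 ≠ 0. If Z is a subspace on which B vanishes, x ∉ Z is isotropic and orthogonal to Z, then there is an isotropic y with B x y = 1 which is orthogonal to Z. -/
theorem result {F V : Type*} [Field F] [AddCommGroup V] [Module F V] [FiniteDimensional F V] (B : LinearMap.BilinForm F V) (hB : B.Nondegenerate) (hform : B.IsAlt ∨ (B.IsSymm ∧ (2 : F) ≠ 0)) (x : V) (Z : Submodule F V) (hxZ : x ∉ Z) (hx : B x x = 0) (hxz : ∀ z ∈ Z, B x z = 0) (hZ : ∀ z ∈ Z, ∀ z' ∈ Z, B z z' = 0) : ∃ y : V, B y y = 0 ∧ B x y = 1 ∧ ∀ z ∈ Z, B z y = 0 := by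
  have hR : B.IsRefl := by
    rcases hform with h | h
    · exact h.isRefl
    · exact h.1.isRefl
  obtain ⟨r, hr, hrx⟩ := CfsgLib.AltForm.exists_orthogonal_ne_zero hB hR hxZ
  rw [LinearMap.BilinForm.mem_orthogonal_iff] at hr
  have hxr : B x r ≠ 0 := fun h => hrx (hR _ _ h)
  set y₀ := (B x r)⁻¹ • r with hy₀
  have h1 : B x y₀ = 1 := by rw [hy₀, map_smul, smul_eq_mul, inv_mul_cancel₀ hxr]
  have h2 : ∀ z ∈ Z, B z y₀ = 0 := fun z hz => by rw [hy₀, map_smul, hr z hz, smul_zero]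
  clear_value y₀
  have hzx : ∀ z ∈ Z, B z x = 0 := fun z hz => hR _ _ (hxz z hz)
  rcases hform with h | ⟨hs, hne⟩
  · exact ⟨y₀, h.self_eq_zero y₀, h1, h2⟩
  · refine ⟨y₀ - (B y₀ y₀ / 2) • x, ?_, ?_, fun z hz => ?_⟩
    · have h3 : B y₀ x = 1 := by rw [← h1]; exact hs.eq y₀ x
      simp only [map_sub, map_smul, LinearMap.sub_apply, LinearMap.smul_apply, smul_eq_mul, hx, h1,
        h3]
      field_simp
      ring
    · rw [map_sub, map_smul, hx, h1, smul_zero, sub_zero]
    · rw [map_sub, map_smul, hzx z hz, h2 z hz, smul_zero, sub_zero]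

end Cfsg.Agent.S0761
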