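import Cfsg.Statements.S0762

set_option autoImplicit false
open Cfsg

open scoped Pointwise
namespace Cfsg.Agent.S0762

/-- In characteristic two over a finite field, a quadratic form on a space of dimension at least 3 vanishes on some non-zero vector. -/
theorem result {F V : Type*} [Field F] [Finite F] [CharP F 2] [AddCommGroup V] [Module F V] [FiniteDimensional F V] (Q : QuadraticForm F V) (h3 : 3 ≤ Module.finrank F V) : ∃ v : V, v ≠ 0 ∧ Q v = 0 := by
  classical
  have hfin : Fintype F := Fintype.ofFinite F
  have hnt : Nontrivial V := Module.nontrivial_of_finrank_pos (R := F) (by omega)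
  obtain ⟨u, hu⟩ := exists_ne (0 : V)
  by_cases hQu : Q u = 0
  · exact ⟨u, hu, hQu⟩
  -- orthogonal of `u` for the polar form
  let φ : V →ₗ[F] F := QuadraticMap.polarBilin Q u
  have hker : 2 ≤ Module.finrank F (LinearMap.ker φ) := by
    have h1 := LinearMap.finrank_range_add_finrank_ker φ
    have h2 : Module.finrank F (LinearMap.range φ) ≤ 1 := by
      have := Submodule.finrank_le (LinearMap.range φ)
      simpa using this
    omega
  obtain ⟨v, hv, hvu⟩ : ∃ v ∈ LinearMap.ker φ, v ∉ Submodule.span F {u} := by
    by_contra hcon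
    push Not at hcon
    have h1 := Submodule.finrank_mono (show LinearMap.ker φ ≤ Submodule.span F {u} from hcon)
    have h2 := finrank_span_singleton (K := F) hu
    omega
  have hpol : QuadraticMap.polar Q u v = 0 := hv
  have hsq : IsSquare (Q v / Q u) := by
    apply FiniteField.isSquare_of_char_two
    exact ringChar.eq F 2
  obtain ⟨a, ha⟩ := hsq
  refine ⟨a • u + v, ?_, ?_⟩
  · intro h
    apply hvu
    rw [Submodule.mem_span_singleton]
    exact ⟨-a, by rw [neg_smul]; exact neg_eq_of_add_eq_zero_right h⟩
  · have h1 : Q (a • u + v) = Q (a • u) + Q v + QuadraticMap.polar Q (a • u) v := by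
      rw [QuadraticMap.polar]; ring
    rw [h1, QuadraticMap.map_smul, QuadraticMap.polar_smul_left, hpol, smul_eq_mul, ← ha,
      smul_zero, add_zero, div_mul_cancel₀ _ hQu]
    exact CharTwo.add_self_eq_zero _

end Cfsg.Agent.S0762
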