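import Cfsg.Statements.S0763
import Cfsg.Agent.Lib.Quad10

set_option autoImplicit false
open Cfsg

open scoped Pointwise
namespace Cfsg.Agent.S0763

/-- Binary quadratic forms in characteristic two over a finite field: if Q is a quadratic form on a 2-dimensional space whose polar form is non-degenerate, then either there are vectors v, w with Q v = Q w = 0 and polar value 1 (Q is xy in these coordinates), or there are v, w and μ with Q v = 1, Q w = μ, polar value 1 and x² + x + μ without roots in F (Q is x² + xy + μy²). -/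
theorem result {F V : Type*} [Field F] [Finite F] [CharP F 2] [AddCommGroup V] [Module F V] (Q : QuadraticForm F V) (h2 : Module.finrank F V = 2) (hQ : (QuadraticMap.polarBilin Q).Nondegenerate) : (∃ v w : V, LinearIndependent F ![v, w] ∧ Q v = 0 ∧ Q w = 0 ∧ QuadraticMap.polar Q v w = 1) ∨ (∃ (v w : V) (μ : F), LinearIndependent F ![v, w] ∧ (∀ x : F, x ^ 2 + x + μ ≠ 0) ∧ Q v = 1 ∧ Q w = μ ∧ QuadraticMap.polar Q v w = 1) := by
  have hfd : FiniteDimensional F V := Module.finite_of_finrank_pos (by omega)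
  have hli : ∀ v w : V, QuadraticMap.polar Q v w = 1 → LinearIndependent F ![v, w] := by
    intro v w h
    have hc : (2 : F) = 0 := CharTwo.two_eq_zero
    rw [LinearIndependent.pair_iff]
    intro s t hst
    have h1 : QuadraticMap.polarBilin Q v (s • v + t • w) = 0 := by rw [hst, LinearMap.map_zero]
    have h3 : QuadraticMap.polarBilin Q w (s • v + t • w) = 0 := by rw [hst, LinearMap.map_zero]
    rw [LinearMap.map_add, LinearMap.map_smul, LinearMap.map_smul] at h1 h3
    rw [CfsgLib.Quad.polar_self, hc] at h1 h3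
    rw [CfsgLib.Quad.polar_comm Q w v] at h3
    have h4 : QuadraticMap.polarBilin Q v w = 1 := h
    rw [h4] at h1 h3
    simp only [smul_eq_mul, zero_mul, mul_zero, mul_one, zero_add, add_zero] at h1 h3
    exact ⟨h3, h1⟩
  by_cases hex : ∃ v : V, v ≠ 0 ∧ Q v = 0
  · obtain ⟨v, hv0, hv⟩ := hex
    obtain ⟨w, hw, hvw⟩ := CfsgLib.Quad.exists_partner hQ hv0 hv
    exact Or.inl ⟨v, w, hli v w hvw, hv, hw, hvw⟩
  · right
    push Not at hex
    obtain ⟨v, hv⟩ : ∃ v : V, v ≠ 0 := by
      have : Nontrivial V := Module.nontrivial_of_finrank_pos (R := F) (by omega)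
      exact exists_ne 0
    obtain ⟨s, hs⟩ := CfsgLib.Quad.isSquare_of_two_eq_zero (F := F) CharTwo.two_eq_zero (Q v)
    have hQv := hex v hv
    have hs0 : s ≠ 0 := by rintro rfl; rw [mul_zero] at hs; exact hQv hs
    have hQv' : Q (s⁻¹ • v) = 1 := by
      rw [CfsgLib.Quad.map_smul, hs]
      field_simp
    have hv0' : s⁻¹ • v ≠ 0 := smul_ne_zero (inv_ne_zero hs0) hv
    set v' := s⁻¹ • v with hv'
    clear_value v'
    obtain ⟨y, hy⟩ : ∃ y, QuadraticMap.polarBilin Q v' y ≠ 0 := by
      by_contra hcon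
      push Not at hcon
      exact hv0' (hQ.1 v' hcon)
    obtain ⟨w, hw⟩ : ∃ w, QuadraticMap.polarBilin Q v' w = 1 :=
      ⟨(QuadraticMap.polarBilin Q v' y)⁻¹ • y, by
        rw [LinearMap.map_smul, smul_eq_mul, inv_mul_cancel₀ hy]⟩
    refine ⟨v', w, Q w, hli _ _ hw, ?_, hQv', rfl, hw⟩
    intro x hx
    have h1 : Q (x • v' + w) = 0 := by
      rw [CfsgLib.Quad.map_add, CfsgLib.Quad.map_smul, hQv', LinearMap.map_smul,
        LinearMap.smul_apply, hw, smul_eq_mul, ← hx]
      ring
    refine hex _ ?_ h1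
    intro h0
    have h2 : QuadraticMap.polarBilin Q v' (x • v' + w) = 0 := by rw [h0, LinearMap.map_zero]
    rw [LinearMap.map_add, LinearMap.map_smul, CfsgLib.Quad.polar_self, CharTwo.two_eq_zero, hw] at h2
    simp at h2

end Cfsg.Agent.S0763
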