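import Cfsg.Statements.S0766
import Cfsg.Agent.Lib.Symp

set_option autoImplicit false
open Cfsg

namespace Cfsg.Agent.S0766

/-- The subgroup generated by the symplectic transvections acts transitively on ordered pairs (u, v) with f(u, v) = 1. -/
theorem result {F : Type*} [Field F] (m : ℕ) (u v u' v' : Fin m ⊕ Fin m → F) (h : Cfsg.sympForm m F u v = 1) (h' : Cfsg.sympForm m F u' v' = 1) : ∃ A ∈ Subgroup.closure {A : Matrix.symplecticGroup (Fin m) F | ∃ (w : Fin m ⊕ Fin m → F) (c : F), (A : Matrix (Fin m ⊕ Fin m) (Fin m ⊕ Fin m) F) = Cfsg.sympTransvection m w c}, (A : Matrix (Fin m ⊕ Fin m) (Fin m ⊕ Fin m) F).mulVec u = u' ∧ (A : Matrix (Fin m ⊕ Fin m) (Fin m ⊕ Fin m) F).mulVec v = v' := by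
  have hli : ∀ a b : Fin m ⊕ Fin m → F, sympForm m F a b = 1 → LinearIndependent F ![a, b] := by
    intro a b hab
    rw [LinearIndependent.pair_iff]
    intro s t hst
    rw [← CfsgLib.Symp.sympB_apply] at hab
    have h1 : CfsgLib.Symp.sympB m F a (s • a + t • b) = 0 := by rw [hst, map_zero]
    have h2 : CfsgLib.Symp.sympB m F (s • a + t • b) b = 0 := by rw [hst, map_zero]; rfl
    simp only [map_add, map_smul, LinearMap.add_apply, LinearMap.smul_apply, smul_eq_mul,
      CfsgLib.Symp.sympB_isAlt.self_eq_zero, hab] at h1 h2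
    constructor
    · linear_combination h2
    · linear_combination h1
  obtain ⟨A, hA⟩ := CfsgLib.Symp.exists_symp_family ![u, v] ![u', v'] (hli u v h) (hli u' v' h') (by
    have e : ∀ x : Fin m ⊕ Fin m → F, sympForm m F x x = 0 := fun x => by
      rw [← CfsgLib.Symp.sympB_apply]; exact CfsgLib.Symp.sympB_isAlt.self_eq_zero x
    have e2 : ∀ x y : Fin m ⊕ Fin m → F, sympForm m F x y = - sympForm m F y x := fun x y => by
      rw [← CfsgLib.Symp.sympB_apply, ← CfsgLib.Symp.sympB_apply]
      exact (CfsgLib.Symp.sympB_isAlt.neg_eq y x).symm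
    intro i j
    fin_cases i <;> fin_cases j
    · simp [e]
    · simp [h, h']
    · simp only [Fin.mk_one, Fin.zero_eta, Matrix.cons_val_one, Matrix.cons_val_zero]
      rw [e2 v u, e2 v' u', h, h']
    · simp [e])
  refine ⟨A, ?_, hA 0, hA 1⟩
  rw [CfsgLib.Symp.closure_sympTransvection]
  trivial

end Cfsg.Agent.S0766
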