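import Cfsg.Statements.S0767
import Cfsg.Agent.Lib.Symp

set_option autoImplicit false
open Cfsg

namespace Cfsg.Agent.S0767

/-- The root group of a point: T_v(c) T_v(d) = T_v(c + d), and for A in the symplectic group with A v = a v, the conjugate A T_v(c) A⁻¹ is again some T_v(d). -/
theorem result {F : Type*} [Field F] (m : ℕ) (v : Fin m ⊕ Fin m → F) : (∀ c d : F, Cfsg.sympTransvection m v c * Cfsg.sympTransvection m v d = Cfsg.sympTransvection m v (c + d)) ∧ ∀ (A : Matrix (Fin m ⊕ Fin m) (Fin m ⊕ Fin m) F) (a : F), A ∈ Matrix.symplecticGroup (Fin m) F → A.mulVec v = a • v → ∀ c : F, ∃ d : F, A * Cfsg.sympTransvection m v c * A⁻¹ = Cfsg.sympTransvection m v d := by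
  constructor
  · intro c d
    apply CfsgLib.Symp.mulVec_injective_matrix
    intro x
    rw [← Matrix.mulVec_mulVec]
    simp only [CfsgLib.Symp.sympTransvection_mulVec, ← CfsgLib.Symp.sympB_apply, map_add,
      LinearMap.add_apply, map_smul, LinearMap.smul_apply, smul_eq_mul,
      CfsgLib.Symp.sympB_isAlt.self_eq_zero v, mul_zero, add_zero]
    rw [add_mul, add_smul]
    abel
  · intro A a hA hv c
    refine ⟨a ^ 2 * c, ?_⟩
    have hdet : IsUnit A.det := SymplecticGroup.symplectic_det hA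
    apply CfsgLib.Symp.mulVec_injective_matrix
    intro x
    obtain ⟨y, rfl⟩ : ∃ y, x = A.mulVec y := ⟨A⁻¹.mulVec x, by
      rw [Matrix.mulVec_mulVec, Matrix.mul_nonsing_inv _ hdet, Matrix.one_mulVec]⟩
    rw [Matrix.mulVec_mulVec, mul_assoc, Matrix.nonsing_inv_mul _ hdet, mul_one,
      ← Matrix.mulVec_mulVec, CfsgLib.Symp.sympTransvection_mulVec,
      CfsgLib.Symp.sympTransvection_mulVec, Matrix.mulVec_add, Matrix.mulVec_smul, hv]
    have h1 := (CfsgLib.Symp.mem_symplecticGroup_iff A).mp hA y v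
    rw [hv, ← CfsgLib.Symp.sympB_apply, map_smul, smul_eq_mul, CfsgLib.Symp.sympB_apply] at h1
    rw [smul_smul, ← h1]
    congr 2
    ring

end Cfsg.Agent.S0767
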