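import Cfsg.Statements.S0768
import Cfsg.Agent.Lib.Symp2

set_option autoImplicit false
open scoped LinearAlgebra.Projectivization
open Cfsg

namespace Cfsg.Agent.S0768

/-- Primitivity: for m ≥ 1 and F finite, the symplectic group of the form sympForm (as a subgroup of the general linear group) acts primitively on the projective space of F^(2m). -/
theorem result {F : Type*} [Field F] [Finite F] (m : ℕ) (hm : 1 ≤ m) : MulAction.IsPreprimitive ↥(Cfsg.spGL m F) (ℙ F (Fin m ⊕ Fin m → F)) := by
  have hp := CfsgLib.AltForm.isPreprimitive_points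
    (CfsgLib.Symp.sympB_nondegenerate (m := m) (F := F)) CfsgLib.Symp.sympB_isAlt
  let φ : CfsgLib.AltForm.isom (CfsgLib.Symp.sympB m F) → ↥(spGL m F) := fun g =>
    ⟨Matrix.GeneralLinearGroup.mkOfDetNeZero
      (((CfsgLib.Symp.toIsom m F).symm g : Matrix.symplecticGroup (Fin m) F) : Matrix _ _ F)
      (SymplecticGroup.symplectic_det ((CfsgLib.Symp.toIsom m F).symm g).2).ne_zero, by
      intro u v
      exact (CfsgLib.Symp.mem_symplecticGroup_iff _).mp ((CfsgLib.Symp.toIsom m F).symm g).2 u v⟩
  let f : Projectivization F (Fin m ⊕ Fin m → F) →ₑ[φ] Projectivization F (Fin m ⊕ Fin m → F) :=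
    { toFun := id
      map_smul' := by
        intro g x
        induction x using Projectivization.ind with | _ v hv => ?_
        rw [id, id, CfsgLib.AltForm.smul_mk']
        have h1 : (g : (Fin m ⊕ Fin m → F) ≃ₗ[F] (Fin m ⊕ Fin m → F)) v = (φ g) • v :=
          (CfsgLib.Symp.toIsom_symm_mulVec g v).symm
        have h2 : (φ g) • Projectivization.mk F v hv = Projectivization.mk F ((φ g) • v)
          ((smul_ne_zero_iff_ne (φ g)).mpr hv) := rfl
        rw [h2]
        congr 1 }
  exact MulAction.IsPreprimitive.of_surjective (f := f) Function.surjective_id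

end Cfsg.Agent.S0768
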