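import Cfsg.Statements.S0776
import Cfsg.Agent.Lib.Symp2

set_option autoImplicit false
open Cfsg

namespace Cfsg.Agent.S0776

/-- If W ≤ F^(2m) is a 2k-dimensional subspace on which the symplectic form is non-degenerate, then the stabiliser of W in Sp_2m(F) is isomorphic to Sp_2k(F) × Sp_(2m−2k)(F). -/
theorem result {F : Type*} [Field F] (m k : ℕ) (hk : k ≤ m) (W : Submodule F (Fin m ⊕ Fin m → F)) (hWk : Module.finrank F W = 2 * k) (hW : ∀ u ∈ W, (∀ v ∈ W, Cfsg.sympForm m F u v = 0) → u = 0) : Nonempty (↥(Cfsg.stabilizing (Cfsg.spToMat m F) (W : Set (Fin m ⊕ Fin m → F))) ≃* Matrix.symplecticGroup (Fin k) F × Matrix.symplecticGroup (Fin (m - k)) F) := by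
  set B := CfsgLib.Symp.sympB m F with hB
  have hBn : B.Nondegenerate := CfsgLib.Symp.sympB_nondegenerate
  have hBA : B.IsAlt := CfsgLib.Symp.sympB_isAlt
  have hWR : (B.restrict W).IsRefl := fun x y hxy => hBA.isRefl _ _ hxy
  have hWn : (B.restrict W).Nondegenerate := by
    refine hWR.nondegenerate_iff_separatingLeft.mpr ?_
    intro x hx
    apply Subtype.ext
    apply hW x x.2
    intro v hv
    rw [← CfsgLib.Symp.sympB_apply]
    exact hx ⟨v, hv⟩
  have hc : IsCompl W (B.orthogonal W) :=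
    LinearMap.BilinForm.isCompl_orthogonal_of_restrict_nondegenerate hBA.isRefl hWn
  have hd := Submodule.finrank_add_eq_of_isCompl hc
  rw [CfsgLib.Symp.finrank_symp, hWk] at hd
  obtain ⟨e1⟩ := CfsgLib.Symp.exists_isom_equiv hWn (CfsgLib.AltForm.restrict_isAlt hBA W) hWk
  obtain ⟨e2⟩ := CfsgLib.Symp.exists_isom_equiv (m := m - k)
    (CfsgLib.AltForm.restrict_nondegenerate_of_isCompl hBn hBA.isRefl hc)
    (CfsgLib.AltForm.restrict_isAlt hBA _) (by omega)
  have e3 := CfsgLib.IsomDecomp.prodEquiv hc (CfsgLib.AltForm.isOrthoSum_orthogonal hBA.isRefl W)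
  -- the stabiliser
  have hstab : (stabilizing (spToMat m F) (W : Set (Fin m ⊕ Fin m → F))).map
      ((CfsgLib.AltForm.isom B).subtype.comp (CfsgLib.Symp.toIsom m F).toMonoidHom) =
      CfsgLib.IsomDecomp.isomPair (fun u v => B u v) W (B.orthogonal W) := by
    ext g
    constructor
    · rintro ⟨A, hA, rfl⟩
      have hA' : ∀ v, v ∈ W ↔ ((CfsgLib.Symp.toIsom m F A : CfsgLib.AltForm.isom B) :
        (Fin m ⊕ Fin m → F) ≃ₗ[F] (Fin m ⊕ Fin m → F)) v ∈ W := fun v => hA v
      refine ⟨(CfsgLib.Symp.toIsom m F A).2, hA', fun x => ?_⟩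
      change x ∈ B.orthogonal W ↔ ((CfsgLib.Symp.toIsom m F A : CfsgLib.AltForm.isom B) :
        (Fin m ⊕ Fin m → F) ≃ₗ[F] (Fin m ⊕ Fin m → F)) x ∈ B.orthogonal W
      generalize CfsgLib.Symp.toIsom m F A = g at hA'
      rw [LinearMap.BilinForm.mem_orthogonal_iff, LinearMap.BilinForm.mem_orthogonal_iff]
      constructor
      · intro h z hz
        have h1 : z = (g : (Fin m ⊕ Fin m → F) ≃ₗ[F] (Fin m ⊕ Fin m → F))
          ((g : (Fin m ⊕ Fin m → F) ≃ₗ[F] (Fin m ⊕ Fin m → F)).symm z) := by simp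
        rw [h1] at hz ⊢
        rw [g.2]
        exact h _ ((hA' _).mpr hz)
      · intro h z hz
        rw [← g.2]
        exact h _ ((hA' _).mp hz)
    · rintro ⟨h1, h2, h3⟩
      refine ⟨(CfsgLib.Symp.toIsom m F).symm ⟨g, h1⟩, fun v => ?_, ?_⟩
      · change v ∈ W ↔ (((CfsgLib.Symp.toIsom m F).symm ⟨g, h1⟩ : Matrix.symplecticGroup (Fin m) F) :
          Matrix _ _ F).mulVec v ∈ W
        rw [CfsgLib.Symp.toIsom_symm_mulVec]
        exact h2 v
      · simp
  have e4 : ↥(stabilizing (spToMat m F) (W : Set (Fin m ⊕ Fin m → F))) ≃*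
      CfsgLib.IsomDecomp.isomPair (fun u v => B u v) W (B.orthogonal W) :=
    (Subgroup.equivMapOfInjective _ _ (Subtype.val_injective.comp
      (CfsgLib.Symp.toIsom m F).injective)).trans (MulEquiv.subgroupCongr hstab)
  exact ⟨(e4.trans e3.symm).trans (e1.prodCongr e2)⟩

end Cfsg.Agent.S0776
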