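import Cfsg.Statements.S0779
import Cfsg.Agent.Lib.Herm4

set_option autoImplicit false
open Cfsg

namespace Cfsg.Agent.S0779

/-- Unitary transvections: let |F| = q², h the standard Hermitian form Σ x_i y_i^q and v ≠ 0 with h(v, v) = 0. The linear map x ↦ x + c h(x, v) v is an isometry of h if and only if c = 0 or c^(q−1) = −1. -/
theorem result {F : Type*} [Field F] [Fintype F] {q : ℕ} (hF : Fintype.card F = q ^ 2) (n : ℕ) (v : Fin n → F) (hv : v ≠ 0) (hv0 : Cfsg.hermForm n F q v v = 0) (c : F) : (∀ x y : Fin n → F, Cfsg.hermForm n F q ((Cfsg.unitaryTransvection n q v c).mulVec x) ((Cfsg.unitaryTransvection n q v c).mulVec y) = Cfsg.hermForm n F q x y) ↔ (c = 0 ∨ c ^ (q - 1) = -1) := by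
  obtain ⟨σ, hq⟩ := CfsgLib.Herm.exists_sigma (F := F) (q := q) (by rw [Nat.card_eq_fintype_card, hF])
  rw [CfsgLib.Herm.hermForm_eq hq] at hv0
  rw [← CfsgLib.Herm.trace_zero_iff hq, ← CfsgLib.Herm.trT_isom_iff hq (CfsgLib.Herm.stdH_hform hq n) hv hv0]
  constructor
  · intro h x y
    have := h y x
    rw [CfsgLib.Herm.hermForm_eq hq, CfsgLib.Herm.hermForm_eq hq, CfsgLib.Herm.unitaryTransvection_mulVec hq,
      CfsgLib.Herm.unitaryTransvection_mulVec hq] at this
    exact this
  · intro h x y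
    rw [CfsgLib.Herm.hermForm_eq hq, CfsgLib.Herm.hermForm_eq hq, CfsgLib.Herm.unitaryTransvection_mulVec hq,
      CfsgLib.Herm.unitaryTransvection_mulVec hq]
    exact h y x

end Cfsg.Agent.S0779
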