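import Cfsg.Statements.S0780
import Cfsg.Agent.Lib.Herm6

set_option autoImplicit false
open Cfsg

namespace Cfsg.Agent.S0780

/-- Generation of SU_n(q), n ≥ 3, (n, q) ≠ (3, 2), by unitary transvections: the subgroup generated by the elements whose matrix is x ↦ x + c h(x, v) v with v isotropic is all of SU_n(q). -/
theorem result {F : Type*} [Field F] [Fintype F] {q : ℕ} (hF : Fintype.card F = q ^ 2) (n : ℕ) (hn : 3 ≤ n) (h32 : ¬ (n = 3 ∧ q = 2)) : Subgroup.closure {A : ↥(Cfsg.SU n F q) | ∃ (v : Fin n → F) (c : F), Cfsg.hermForm n F q v v = 0 ∧ ((A : Matrix.SpecialLinearGroup (Fin n) F) : Matrix (Fin n) (Fin n) F) = Cfsg.unitaryTransvection n q v c} = ⊤ := by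
  obtain ⟨σ, hq⟩ := CfsgLib.Herm.exists_sigma (F := F) (q := q) (by rw [Nat.card_eq_fintype_card, hF])
  have h := CfsgLib.Herm.stdH_hform hq n
  have h2 := hq.two_le
  have hd : Module.finrank F (Fin n → F) = n := by simp
  set e := CfsgLib.Herm.SUEquiv hq n with he
  rw [eq_top_iff]
  intro A _
  have h1 : (e A : (Fin n → F) ≃ₗ[F] (Fin n → F)) ∈ CfsgLib.Herm.TG (CfsgLib.Herm.stdH σ n) := by
    rw [CfsgLib.Herm.TG_eq hq h (by rw [hd]; by_cases h3 : n = 3 <;> [right; (right; right)] <;> omega)]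
    exact (e A).2
  set S := {A : ↥(SU n F q) | ∃ (v : Fin n → F) (c : F), hermForm n F q v v = 0 ∧ ((A : Matrix.SpecialLinearGroup (Fin n) F) : Matrix (Fin n) (Fin n) F) = unitaryTransvection n q v c} with hS
  have key : CfsgLib.Herm.TG (CfsgLib.Herm.stdH σ n) ≤ (Subgroup.closure S).map
      ((CfsgLib.Herm.SUL (CfsgLib.Herm.stdH σ n)).subtype.comp e.toMonoidHom) := by
    rw [CfsgLib.Herm.TG, Subgroup.closure_le]
    rintro g ⟨u, c, hu, hc, hg⟩
    have hg' : g = CfsgLib.Herm.tvH h hu hc := LinearEquiv.ext hg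
    have hgS : g ∈ CfsgLib.Herm.SUL (CfsgLib.Herm.stdH σ n) := by
      rw [hg']; exact CfsgLib.Herm.tvH_mem h hu hc
    refine ⟨e.symm ⟨g, hgS⟩, Subgroup.subset_closure ⟨u, c, ?_, ?_⟩, ?_⟩
    · rw [CfsgLib.Herm.hermForm_eq hq, hu]
    · apply Matrix.toLin'.injective
      apply LinearMap.ext
      intro x
      rw [Matrix.toLin'_apply, Matrix.toLin'_apply, CfsgLib.Herm.unitaryTransvection_mulVec hq,
        ← CfsgLib.Herm.SUEquiv_apply hq, ← he, MulEquiv.apply_symm_apply]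
      exact hg x
    · change ((e (e.symm ⟨g, hgS⟩)) : (Fin n → F) ≃ₗ[F] (Fin n → F)) = g
      rw [MulEquiv.apply_symm_apply]
  obtain ⟨A', hA', hAA⟩ := key h1
  have : A' = A := e.injective (Subtype.ext hAA)
  rwa [← this]

end Cfsg.Agent.S0780
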