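import Cfsg.Statements.S0781
import Cfsg.Agent.Lib.Herm6

set_option autoImplicit false
open Cfsg

namespace Cfsg.Agent.S0781

/-- In SU_n(q) with n ≥ 4, or n = 3 and q > 2, every element whose matrix is a unitary transvection x ↦ x + c h(x, v) v (v isotropic) is a commutator ⁅B, C⁆ of two elements of SU_n(q). -/
theorem result {F : Type*} [Field F] [Fintype F] {q : ℕ} (hF : Fintype.card F = q ^ 2) (n : ℕ) (hn : 4 ≤ n ∨ (n = 3 ∧ 3 ≤ q)) (A : ↥(Cfsg.SU n F q)) (v : Fin n → F) (c : F) (hv0 : Cfsg.hermForm n F q v v = 0) (hA : ((A : Matrix.SpecialLinearGroup (Fin n) F) : Matrix (Fin n) (Fin n) F) = Cfsg.unitaryTransvection n q v c) : A ∈ commutatorSet ↥(Cfsg.SU n F q) := by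
  obtain ⟨σ, hq⟩ := CfsgLib.Herm.exists_sigma (F := F) (q := q) (by rw [Nat.card_eq_fintype_card, hF])
  have h := CfsgLib.Herm.stdH_hform hq n
  have hd : Module.finrank F (Fin n → F) = n := by simp
  set e := CfsgLib.Herm.SUEquiv hq n with he
  rw [CfsgLib.Herm.hermForm_eq hq] at hv0
  have hA' : ∀ x, (e A : (Fin n → F) ≃ₗ[F] (Fin n → F)) x = CfsgLib.Herm.trT (CfsgLib.Herm.stdH σ n) v c x := by
    intro x
    rw [he, CfsgLib.Herm.SUEquiv_apply hq, hA, CfsgLib.Herm.unitaryTransvection_mulVec hq]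
  by_cases hv : v = 0
  · have : A = 1 := by
      apply e.injective
      apply Subtype.ext
      apply LinearEquiv.ext
      intro x
      rw [hA', CfsgLib.Herm.trT_apply, hv, CfsgLib.Herm.map_zero_left, map_one]
      simp
    rw [this]
    exact ⟨1, 1, by simp⟩
  have hc : c + σ c = 0 := by
    rw [← CfsgLib.Herm.trT_isom_iff hq h hv hv0]
    intro x y
    rw [← hA', ← hA']
    exact CfsgLib.Herm.mem_U.mp (CfsgLib.Herm.mem_SUL.mp (e A).2).1 x y
  obtain ⟨a, b, hab⟩ := CfsgLib.Herm.exists_commutator_SUL hq h (by rw [hd]; omega) hv0 hc (e A)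
    (LinearEquiv.ext hA')
  refine ⟨e.symm a, e.symm b, ?_⟩
  apply e.injective
  rw [map_commutatorElement, MulEquiv.apply_symm_apply, MulEquiv.apply_symm_apply, hab]

end Cfsg.Agent.S0781
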