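import Cfsg.Statements.S0782
import Cfsg.Agent.Lib.Herm8

set_option autoImplicit false
open Cfsg

namespace Cfsg.Agent.S0782

/-- Maximal parabolics of SU_n(q): if W is a k-dimensional subspace of F^n (n ≥ 1, |F| = q²) on which the Hermitian form vanishes, then (q + 1) times the order of its stabiliser in SU_n(q) equals q^(k(2n−3k)) · |GL_k(q²)| · |GU_(n−2k)(q)|, where |GU_m(q)| = q^(m(m−1)/2) Π_(i=1..m) (q^i − (−1)^i). -/
theorem result {F : Type*} [Field F] [Fintype F] {q : ℕ} (hF : Fintype.card F = q ^ 2) (n k : ℕ) (hn : 1 ≤ n) (hk : 2 * k ≤ n) (W : Submodule F (Fin n → F)) (hWk : Module.finrank F W = k) (hW : ∀ u ∈ W, ∀ v ∈ W, Cfsg.hermForm n F q u v = 0) : (q + 1) * Nat.card ↥((Cfsg.stabilizing (Cfsg.slToMat n F) (W : Set (Fin n → F))).subgroupOf (Cfsg.SU n F q)) = q ^ (k * (2 * n - 3 * k)) * (∏ i : Fin k, ((q ^ 2) ^ k - (q ^ 2) ^ (i : ℕ))) * (q ^ ((n - 2 * k) * ((n - 2 * k) - 1) / 2) *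 ∏ i ∈ Finset.range (n - 2 * k), (if Even i then q ^ (i + 1) + 1 else q ^ (i + 1) - 1)) := by
  obtain ⟨σ, hq⟩ := CfsgLib.Herm.exists_sigma (F := F) (q := q) (by rw [Nat.card_eq_fintype_card, hF])
  have hh := CfsgLib.Herm.stdH_hform hq n
  have hd : Module.finrank F (Fin n → F) = n := by simp
  have hW' : ∀ u ∈ W, ∀ v ∈ W, CfsgLib.Herm.stdH σ n u v = 0 := fun u hu v hv => by
    rw [← CfsgLib.Herm.hermForm_eq hq]; exact hW v hv u hu
  obtain ⟨d, hnd⟩ := Nat.exists_eq_add_of_le hk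
  have h1 := CfsgLib.Herm.card_isomStab_isotropic_eq hq hh (d := d) W (by rw [hd]; exact hnd) hWk hW'
  have h2 := CfsgLib.Herm.card_SUL_stab hq hh (by rw [hd]; exact hn) W hW'
  let φ : SU n F q →* ((Fin n → F) ≃ₗ[F] (Fin n → F)) :=
    (CfsgLib.Herm.SUL (CfsgLib.Herm.stdH σ n)).subtype.comp (CfsgLib.Herm.SUEquiv hq n).toMonoidHom
  have hφ : Function.Injective φ := Subtype.val_injective.comp (CfsgLib.Herm.SUEquiv hq n).injective
  have hmap : ((stabilizing (slToMat n F) (W : Set (Fin n → F))).subgroupOf (SU n F q)).map φ =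
      CfsgLib.CountSub.isomStab (fun x y => CfsgLib.Herm.stdH σ n x y) W ⊓ CfsgLib.Herm.SUL (CfsgLib.Herm.stdH σ n) := by
    ext g
    constructor
    · rintro ⟨A, hA, rfl⟩
      refine ⟨⟨(CfsgLib.Herm.mem_SUL.mp (CfsgLib.Herm.SUEquiv hq n A).2).1, ?_⟩, (CfsgLib.Herm.SUEquiv hq n A).2⟩
      intro x
      have h2 := hA x
      change x ∈ W ↔ ((A : Matrix.SpecialLinearGroup (Fin n) F) : Matrix (Fin n) (Fin n) F).mulVec x ∈ W at h2
      rw [h2]
      change _ ↔ ((CfsgLib.Herm.SUEquiv hq n A : (Fin n → F) ≃ₗ[F] (Fin n → F)) x) ∈ W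
      rw [CfsgLib.Herm.SUEquiv_apply]
    · rintro ⟨⟨h1, h2⟩, h3⟩
      refine ⟨(CfsgLib.Herm.SUEquiv hq n).symm ⟨g, h3⟩, ?_, ?_⟩
      · intro x
        change x ∈ W ↔ ((((CfsgLib.Herm.SUEquiv hq n).symm ⟨g, h3⟩ : SU n F q) : Matrix.SpecialLinearGroup (Fin n) F) : Matrix (Fin n) (Fin n) F).mulVec x ∈ W
        rw [← CfsgLib.Herm.SUEquiv_apply hq, MulEquiv.apply_symm_apply]
        exact h2 x
      · change ((CfsgLib.Herm.SUEquiv hq n ((CfsgLib.Herm.SUEquiv hq n).symm ⟨g, h3⟩)) : (Fin n → F) ≃ₗ[F] (Fin n → F)) = g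
        rw [MulEquiv.apply_symm_apply]
  rw [Nat.card_congr ((Subgroup.equivMapOfInjective _ φ hφ).trans (MulEquiv.subgroupCongr hmap)).toEquiv, h2, h1]
  have e1 : n - 2 * k = d := by omega
  have e2 : 2 * n - 3 * k = k + 2 * d := by omega
  rw [e1, e2]
  rfl

end Cfsg.Agent.S0782
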