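import Cfsg.Statements.S0783
import Cfsg.Agent.Lib.Herm6

set_option autoImplicit false
open Cfsg

namespace Cfsg.Agent.S0783

/-- PGU_n(q)/PSU_n(q) is cyclic of order (n, q+1): for n ≥ 2 and |F| = q² there is a surjective homomorphism from GU_n(q) onto the cyclic group of order gcd(n, q + 1) whose kernel is generated by the determinant-one elements together with the centre. -/
theorem result {F : Type*} [Field F] [Fintype F] {q : ℕ} (hF : Fintype.card F = q ^ 2) (n : ℕ) (hn : 2 ≤ n) : ∃ φ : ↥(Cfsg.GU n F q) →* Multiplicative (ZMod (Nat.gcd n (q + 1))), Function.Surjective φ ∧ φ.ker = (Matrix.GeneralLinearGroup.det : Matrix.GeneralLinearGroup (Fin n) F →* Fˣ).ker.subgroupOf (Cfsg.GU n F q) ⊔ Subgroup.center ↥(Cfsg.GU n F q) := by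
  obtain ⟨σ, hq⟩ := CfsgLib.Herm.exists_sigma (F := F) (q := q) (by rw [Nat.card_eq_fintype_card, hF])
  have h := CfsgLib.Herm.stdH_hform hq n
  have hd : Module.finrank F (Fin n → F) = n := by simp
  have : Nonempty (Fin n) := ⟨⟨0, by omega⟩⟩
  let e := CfsgLib.Herm.GUEquiv hq n
  let N := CfsgLib.Herm.normOne σ
  let R : Subgroup N := (powMonoidHom n : N →* N).range
  have hcard : Nat.card (N ⧸ R) = Nat.gcd n (q + 1) := by
    have h1 : R.index = _ := IsCyclic.index_powMonoidHom_range N n
    rw [CfsgLib.Herm.card_normOne hq, Nat.gcd_comm] at h1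
    exact h1
  have hg0 : Nat.gcd n (q + 1) ≠ 0 := Nat.gcd_ne_zero_right (by omega)
  have : NeZero (Nat.gcd n (q + 1)) := ⟨hg0⟩
  let ψ : (N ⧸ R) ≃* Multiplicative (ZMod (Nat.gcd n (q + 1))) :=
    mulEquivOfCyclicCardEq (by rw [hcard]; simp)
  let φ : ↥(GU n F q) →* Multiplicative (ZMod (Nat.gcd n (q + 1))) :=
    ψ.toMonoidHom.comp ((QuotientGroup.mk' R).comp ((CfsgLib.Herm.detU hq h).comp e.toMonoidHom))
  have hdet : ∀ g : GU n F q, ((CfsgLib.Herm.detU hq h (e g) : Fˣ) : F) =
      ((g : GL (Fin n) F) : Matrix (Fin n) (Fin n) F).det := by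
    intro g
    rw [CfsgLib.Herm.coe_detU]
    exact CfsgLib.Herm.det_glEquiv (g : GL (Fin n) F)
  refine ⟨φ, ?_, ?_⟩
  · exact ψ.surjective.comp ((QuotientGroup.mk'_surjective R).comp
      ((CfsgLib.Herm.detU_surjective hq h).comp e.surjective))
  · have hker : ∀ g : GU n F q, g ∈ φ.ker ↔ CfsgLib.Herm.detU hq h (e g) ∈ R := by
      intro g
      rw [MonoidHom.mem_ker]
      change ψ ((CfsgLib.Herm.detU hq h (e g) : N ⧸ R)) = 1 ↔ _
      rw [MulEquiv.map_eq_one_iff, QuotientGroup.eq_one_iff]
    apply le_antisymm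
    · intro g hg
      rw [hker] at hg
      obtain ⟨a, ha⟩ := hg
      rw [powMonoidHom_apply] at ha
      -- the scalar
      let s : CfsgLib.Herm.U (CfsgLib.Herm.stdH σ n) := ⟨CfsgLib.Herm.scalU (CfsgLib.Herm.stdH σ n) a, CfsgLib.Herm.scalU_mem a⟩
      have hs : s ∈ Subgroup.center (CfsgLib.Herm.U (CfsgLib.Herm.stdH σ n)) :=
        (CfsgLib.Herm.mem_center_U hq h (by rw [hd]; exact hn) s).mpr ⟨a, rfl⟩
      have hs' : e.symm s ∈ Subgroup.center (GU n F q) := by
        rw [Subgroup.mem_center_iff]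
        intro g'
        apply e.injective
        rw [map_mul, map_mul, MulEquiv.apply_symm_apply]
        exact Subgroup.mem_center_iff.mp hs (e g')
      have hds : CfsgLib.Herm.detU hq h s = a ^ n := by
        apply Subtype.ext
        apply Units.ext
        have h5 := CfsgLib.Herm.det_scalU (B := CfsgLib.Herm.stdH σ n) a
        rw [hd] at h5
        have h6 : ((CfsgLib.Herm.detU hq h s : Fˣ) : F) = LinearMap.det (CfsgLib.Herm.scalU (CfsgLib.Herm.stdH σ n) a : (Fin n → F) →ₗ[F] (Fin n → F)) := CfsgLib.Herm.coe_detU hq h s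
        rw [h6, h5]
        rfl
      have h7 : g = (g * (e.symm s)⁻¹) * e.symm s := by group
      rw [h7]
      refine mul_mem (Subgroup.mem_sup_left ?_) (Subgroup.mem_sup_right hs')
      rw [Subgroup.mem_subgroupOf, MonoidHom.mem_ker]
      apply Units.ext
      have h8 := hdet (g * (e.symm s)⁻¹)
      rw [map_mul, map_inv, MulEquiv.apply_symm_apply, map_mul, map_inv, hds, ha, mul_inv_cancel] at h8
      change (((g * (e.symm s)⁻¹ : GU n F q) : GL (Fin n) F) : Matrix (Fin n) (Fin n) F).det = 1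
      rw [← h8]
      rfl
    · rw [sup_le_iff]
      constructor
      · intro g hg
        rw [Subgroup.mem_subgroupOf, MonoidHom.mem_ker] at hg
        rw [hker]
        have h9 : CfsgLib.Herm.detU hq h (e g) = 1 := by
          apply Subtype.ext
          apply Units.ext
          rw [hdet]
          exact congrArg Units.val hg
        rw [h9]
        exact one_mem _
      · intro g hg
        rw [hker]
        have h9 : e g ∈ Subgroup.center (CfsgLib.Herm.U (CfsgLib.Herm.stdH σ n)) := by
          rw [Subgroup.mem_center_iff]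
          intro g'
          obtain ⟨g'', rfl⟩ := e.surjective g'
          rw [← map_mul, ← map_mul, Subgroup.mem_center_iff.mp hg g'']
        obtain ⟨a, ha⟩ := (CfsgLib.Herm.mem_center_U hq h (by rw [hd]; exact hn) (e g)).mp h9
        refine ⟨a, ?_⟩
        rw [powMonoidHom_apply]
        apply Subtype.ext
        apply Units.ext
        have h5 := CfsgLib.Herm.det_scalU (B := CfsgLib.Herm.stdH σ n) a
        rw [hd] at h5
        have h6 : ((CfsgLib.Herm.detU hq h (e g) : Fˣ) : F) = LinearMap.det (((e g : CfsgLib.Herm.U (CfsgLib.Herm.stdH σ n)) : (Fin n → F) ≃ₗ[F] (Fin n → F)) : (Fin n → F) →ₗ[F] (Fin n → F)) := CfsgLib.Herm.coe_detU hq h (e g)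
        rw [h6, ha, h5]
        rfl

end Cfsg.Agent.S0783
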