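import Cfsg.Statements.S0799
import Cfsg.Agent.Lib.Mob15

set_option autoImplicit false
open Cfsg

set_option linter.style.haveILetI false
namespace Cfsg.Agent.S0799

/-- Dickson's classification of the subgroups of PSL_2(q), q a power of the prime p, d = gcd(2, q − 1): every subgroup H is (a) cyclic or dihedral with k dividing (q+1)/d or (q−1)/d (cyclic of order k, or dihedral of order 2k), (b) isomorphic to a subgroup of the normaliser of a Sylow p-subgroup, (c) isomorphic to A_4, S_4 or A_5, or (d) isomorphic to PSL_2(K) or PGL_2(K) for a finite field K with |K|^m = q. -/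
theorem result {F : Type*} [Field F] [Fintype F] {q : ℕ} (hF : Fintype.card F = q) (p : ℕ) [Fact p.Prime] [CharP F p] (H : Subgroup (Matrix.ProjectiveSpecialLinearGroup (Fin 2) F)) : (∃ k : ℕ, (k ∣ (q + 1) / Nat.gcd 2 (q - 1) ∨ k ∣ (q - 1) / Nat.gcd 2 (q - 1)) ∧ ((IsCyclic H ∧ Nat.card H = k) ∨ Nonempty (H ≃* DihedralGroup k))) ∨ (∃ (P : Sylow p (Matrix.ProjectiveSpecialLinearGroup (Fin 2) F)) (K : Subgroup (Matrix.ProjectiveSpecialLinearGroup (Fin 2) F)), K ≤ Subgroup.normalizer ((P : Subgroup (Matrix.ProjectiveSpecialLinearGroup (Fin 2) F)) : Set (Matrix.ProjectiveSpecialLinearGroup (Fin 2) F)) ∧ Nonempty (H ≃* K)) ∨ Nonempty (H ≃* alternatingGroup (Fin 4)) ∨ Nonempty (H ≃* Equiv.Perm (Fin 4)) ∨ Nonempty (H ≃* alternatingGroup (Fin 5)) ∨ (∃ (K : Type) (_ : Field K) (_ : Fintype K) (m : ℕ), Fintype.card K ^ m = q ∧ (Nonempty (H ≃* Matrix.ProjectiveSpecialLinearGroup (Fin 2) K) ∨ Nonempty (H ≃* Matrix.ProjGenLinGroup (Fin 2) K))) := by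
  subst hF
  rcases CfsgLib.Mob15.list_psl p H with h | h | h | h | h | h | h
  · right; left
    obtain ⟨P, hP⟩ := h
    exact ⟨P, H, hP, ⟨MulEquiv.refl _⟩⟩
  · left
    obtain ⟨hcyc, hp⟩ := h
    refine ⟨Nat.card H, ?_, Or.inl ⟨hcyc, rfl⟩⟩
    obtain ⟨g, hg⟩ := hcyc.exists_generator
    have ho : orderOf (g : Matrix.ProjectiveSpecialLinearGroup (Fin 2) F) = Nat.card H := by
      rw [Subgroup.orderOf_coe]
      exact orderOf_eq_card_of_forall_mem_zpowers hg
    rw [← ho]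
    rw [← ho] at hp
    exact CfsgLib.Mob14.psl_order p _ hp
  · left
    obtain ⟨g, _, hp, he⟩ := h
    exact ⟨orderOf g, CfsgLib.Mob14.psl_order p g hp, Or.inr he⟩
  · right; right; left; exact h.2.2
  · right; right; right; left; exact h.2.2
  · right; right; right; right; left; exact h.2.2
  · right; right; right; right; right
    obtain ⟨k, hk⟩ := h
    haveI : Finite k := inferInstance
    obtain ⟨k₀, i1, i2, ⟨e⟩, hc⟩ := CfsgLib.Mob12.exists_small k
    obtain ⟨m, hm⟩ := CfsgLib.Mob15.card_subfield k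
    refine ⟨k₀, i1, i2, m, by rw [hc, hm], ?_⟩
    rcases hk with ⟨⟨e1⟩⟩ | ⟨⟨e1⟩⟩
    · left
      obtain ⟨e2⟩ := CfsgLib.Mob12.psl_congr e
      exact ⟨e1.trans e2⟩
    · right
      obtain ⟨e2⟩ := CfsgLib.Mob12.pgl_congr e
      exact ⟨e1.trans e2⟩

end Cfsg.Agent.S0799
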