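import Cfsg.Statements.S0802
import Cfsg.Agent.Lib.Mob24

set_option autoImplicit false
open Cfsg

namespace Cfsg.Agent.S0802

open CfsgLib.Mob24 CfsgLib.Mob23 CfsgLib.Mob22 CfsgLib.Mob21 in


/-- PSL_2(p^n) has a subgroup isomorphic to A_4 if and only if it is not the case that p = 2 and n is odd. -/
theorem result {F : Type*} [Field F] [Fintype F] (p n : ℕ) [Fact p.Prime] [CharP F p] (hF : Fintype.card F = p ^ n) : (∃ H : Subgroup (Matrix.ProjectiveSpecialLinearGroup (Fin 2) F), Nonempty (H ≃* alternatingGroup (Fin 4))) ↔ ¬ (p = 2 ∧ Odd n) := by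
  classical
  have hF' : Nat.card F = p ^ n := by rw [Nat.card_eq_fintype_card, hF]
  constructor
  · rintro ⟨H, e⟩ ⟨rfl, hn⟩
    exact a4_even hF' hn H e
  · intro h
    by_cases hp2 : p = 2
    · subst hp2
      have hn : Even n := by
        by_contra hn
        exact h ⟨rfl, Nat.not_even_iff_odd.1 hn⟩
      obtain ⟨m, rfl⟩ := hn
      have h5 := four_embeds (F := F) (n := m) (by rw [hF', two_mul])
      rw [emb_iff] at h5 ⊢
      obtain ⟨f, hf⟩ := h5
      obtain ⟨g, hg⟩ := a4_to_a5
      exact ⟨f.comp g, hf.comp hg⟩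
    · exact exists_a4_odd p hp2

end Cfsg.Agent.S0802
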