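import Cfsg.Statements.S0805
import Cfsg.Agent.Lib.Mob17

set_option autoImplicit false
open Cfsg

namespace Cfsg.Agent.S0805

/-- Subfield subgroups: let F be a finite field of odd order q and K a finite field with |K|^m = q, m ≥ 1. Then PSL_2(F) has a subgroup isomorphic to PSL_2(K), and has a subgroup isomorphic to PGL_2(K) if and only if m is even. -/
theorem result {F K : Type*} [Field F] [Fintype F] [Field K] [Fintype K] {q : ℕ} (hF : Fintype.card F = q) (hodd : Odd q) (m : ℕ) (hm : 1 ≤ m) (hK : Fintype.card K ^ m = q) : (∃ H : Subgroup (Matrix.ProjectiveSpecialLinearGroup (Fin 2) F), Nonempty (H ≃* Matrix.ProjectiveSpecialLinearGroup (Fin 2) K)) ∧ ((∃ H : Subgroup (Matrix.ProjectiveSpecialLinearGroup (Fin 2) F), Nonempty (H ≃* Matrix.ProjGenLinGroup (Fin 2) K)) ↔ Even m) := by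
  have h : Nat.card K ^ m = Nat.card F := by rw [Nat.card_eq_fintype_card, Nat.card_eq_fintype_card, hK, hF]
  exact ⟨CfsgLib.Mob16.psl_embeds h, CfsgLib.Mob17.pgl_iff h (by rw [Nat.card_eq_fintype_card, hF]; exact hodd) hm⟩

end Cfsg.Agent.S0805
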