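import Cfsg.Statements.S0809
import Cfsg.Agent.Lib.Mob34

set_option autoImplicit false
open Cfsg

namespace Cfsg.Agent.S0809

/-- In SL_2(q), q odd: any two subgroups of order 4 are conjugate, and the normaliser of a subgroup of order 4 has order 2(q − 1) if q ≡ 1 (mod 4) and 2(q + 1) if q ≡ 3 (mod 4); consequently all involutions of PSL_2(q) are conjugate. -/
theorem result {F : Type*} [Field F] [Fintype F] {q : ℕ} (hF : Fintype.card F = q) (hodd : Odd q) (A : Subgroup (Matrix.SpecialLinearGroup (Fin 2) F)) (hA : Nat.card A = 4) : (∀ B : Subgroup (Matrix.SpecialLinearGroup (Fin 2) F), Nat.card B = 4 → ∃ g : Matrix.SpecialLinearGroup (Fin 2) F, B = A.map (MulAut.conj g).toMonoidHom) ∧ (q % 4 = 1 → Nat.card ↥(Subgroup.normalizer (A : Set (Matrix.SpecialLinearGroup (Fin 2) F))) = 2 * (q - 1)) ∧ (q % 4 = 3 → Nat.card ↥(Subgroup.normalizer (A : Set (Matrix.SpecialLinearGroup (Fin 2) F))) = 2 * (q + 1)) ∧ (∀ x y : Matrix.ProjectiveSpecialLinearGroup (Fin 2) F, orderOf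 x = 2 → orderOf y = 2 → IsConj x y) := by
  classical
  subst hF
  rw [← Nat.card_eq_fintype_card] at hodd ⊢
  have h2 := CfsgLib.Mob33.two_ne hodd
  obtain ⟨c, hc1, hc2⟩ := CfsgLib.Mob34.card_norm h2 hA
  have hX := CfsgLib.Mob34.card_tr0 (F := F)
  have hq : 1 < Nat.card F := Finite.one_lt_card
  refine ⟨fun B hB => CfsgLib.Mob34.conj_four h2 hA hB, ?_, ?_, fun x y hx hy => CfsgLib.Mob34.invol_conj h2 hx hy⟩
  · intro h
    rw [hc1]
    rw [CfsgLib.Mob34.roots_one h] at hX
    have h3 : Nat.card {A : Matrix.SpecialLinearGroup (Fin 2) F | A.1 0 0 + A.1 1 1 = 0} = Nat.card F * (Nat.card F + 1) := by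
      have : Nat.card F * (Nat.card F + 1) = Nat.card F * Nat.card F + Nat.card F := by ring
      omega
    rw [h3] at hc2
    have h4 : (Nat.card F * (Nat.card F + 1)) * c = (Nat.card F * (Nat.card F + 1)) * (Nat.card F - 1) := by rw [hc2]; ring
    rw [Nat.eq_of_mul_eq_mul_left (by positivity) h4]
  · intro h
    rw [hc1]
    rw [CfsgLib.Mob34.roots_three h] at hX
    have h3 : Nat.card {A : Matrix.SpecialLinearGroup (Fin 2) F | A.1 0 0 + A.1 1 1 = 0} = Nat.card F * (Nat.card F - 1) := by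
      rw [Nat.mul_sub_one]
      omega
    rw [h3] at hc2
    have h4 : (Nat.card F * (Nat.card F - 1)) * c = (Nat.card F * (Nat.card F - 1)) * (Nat.card F + 1) := hc2
    rw [Nat.eq_of_mul_eq_mul_left (Nat.mul_pos (by omega) (by omega)) h4]

end Cfsg.Agent.S0809
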