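import Cfsg.Statements.S0812
import Cfsg.Agent.Lib.Mob30

set_option autoImplicit false
open Cfsg

namespace Cfsg.Agent.S0812

open OnePoint CfsgLib.Mob30 CfsgLib.Mob29 CfsgLib.Mob28 CfsgLib.Mob24 CfsgLib.Mob22 CfsgLib.Mob16 CfsgLib.Mob10 in


/-- For q ∉ {2, 3, 5, 7, 9, 11}, PSL_2(q) has a maximal subgroup isomorphic to the dihedral group of order 2(q − 1)/d, d = gcd(2, q − 1). -/
theorem result {F : Type*} [Field F] [Fintype F] {q : ℕ} (hF : Fintype.card F = q) (hq : q ∉ ({2, 3, 5, 7, 9, 11} : Finset ℕ)) : ∃ H : Subgroup (Matrix.ProjectiveSpecialLinearGroup (Fin 2) F), IsCoatom H ∧ Nonempty (H ≃* DihedralGroup ((q - 1) / Nat.gcd 2 (q - 1))) := by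
  classical
  subst hF
  rw [← Nat.card_eq_fintype_card] at hq ⊢
  obtain ⟨p, r, hp, hcp, hr, hpr⟩ := exists_pn F
  have hd1 : 0 < Nat.gcd 2 (Nat.card F - 1) := Nat.gcd_pos_of_pos_left _ (by norm_num)
  obtain ⟨e⟩ := split_iso p (le_refl (sm F F)) (sm_le_pm.trans gm_range_le) hd1 card_sm ((OnePoint.coe_ne_infty (0 : F)).symm)
  obtain ⟨H, -, ⟨f⟩⟩ := exists_of_le (PS_le (sm F F) ∞ ((0 : F) : OnePoint F))
  exact ⟨H, dih_minus_max hq (f.trans e), ⟨f.trans e⟩⟩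

end Cfsg.Agent.S0812
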