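import Cfsg.Statements.S0815
import Cfsg.Agent.Lib.AutPSU11

set_option autoImplicit false
open Cfsg

namespace Cfsg.Agent.S0815


/-- |Aut(PSU_n(q))| = gcd(n, q+1) · 2f · |PSU_n(q)| for q = p^f, n ≥ 3, (n, q) ≠ (3, 2); the form is realised over F with |F| = q². -/
theorem result {F : Type*} [Field F] [Fintype F] (p f : ℕ) [Fact p.Prime] (hf : 1 ≤ f) {q : ℕ} (hq : q = p ^ f) (hF : Fintype.card F = q ^ 2) (n : ℕ) (hn : 3 ≤ n) (h32 : ¬ (n = 3 ∧ q = 2)) : Nat.card (MulAut (Cfsg.PSU n F q)) = Nat.gcd n (q + 1) * (2 * f) * Nat.card (Cfsg.PSU n F q) := by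
  obtain ⟨σ, hσ⟩ := CfsgLib.Herm.exists_sigma (F := F) (q := q) (by rw [Nat.card_eq_fintype_card, hF])
  have hq2 := hσ.two_le
  have hF' : Fintype.card F = p ^ (2 * f) := by rw [hF, hq, ← pow_mul, mul_comm]
  obtain ⟨e⟩ := CfsgLib.AutPSL.ringAut_equiv hF'
  have h1 : Nat.card (RingAut F) = 2 * f := by
    rw [Nat.card_congr e.toEquiv]
    exact Nat.card_zmod (2 * f)
  rw [CfsgLib.AutPSU.card_aut hσ hn (by omega), h1]

end Cfsg.Agent.S0815
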