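import Cfsg.Statements.S0818
import Cfsg.Agent.Lib.AutPO11

set_option autoImplicit false
open Cfsg

namespace Cfsg.Agent.S0818

theorem arith (p f m : ℕ) (hp : Odd p) : p ^ f ^ 1 % 2 = 1 ∧ ((p ^ f) ^ m % 4 = 3 ↔ ¬ Even (m * (p ^ f - 1) / 2)) := by
  have h1 : p ^ f % 2 = 1 := Nat.odd_iff.1 hp.pow
  refine ⟨by rw [pow_one]; exact h1, ?_⟩
  generalize p ^ f = q at h1
  obtain ⟨k, rfl⟩ : ∃ k, q = 2 * k + 1 := ⟨q / 2, by omega⟩
  rw [Nat.add_sub_cancel, show m * (2 * k) / 2 = m * k by rw [mul_left_comm, Nat.mul_div_cancel_left _ (by norm_num)], Nat.even_mul]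
  have h4 : (2 * k + 1) ^ m % 4 = ((2 * k + 1) % 4) ^ m % 4 := Nat.pow_mod _ _ _
  rw [h4]
  rcases Nat.even_or_odd k with hk | hk
  · have h5 : (2 * k + 1) % 4 = 1 := by obtain ⟨l, rfl⟩ := hk; omega
    rw [h5, one_pow]
    simp [hk]
  · have h5 : (2 * k + 1) % 4 = 3 := by obtain ⟨l, rfl⟩ := hk; omega
    rw [h5]
    have h6 : ¬ Even k := by rwa [Nat.not_even_iff_odd]
    simp only [h6, or_false]
    rcases Nat.even_or_odd m with hm | hm
    · obtain ⟨l, rfl⟩ := hm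
      have h7 : 3 ^ (l + l) % 4 = 1 := by
        rw [← two_mul, pow_mul, Nat.pow_mod]
        norm_num
      rw [h7]
      simp
    · have h8 : ¬ Even m := by rwa [Nat.not_even_iff_odd]
      obtain ⟨l, rfl⟩ := hm
      have h7 : 3 ^ (2 * l + 1) % 4 = 3 := by
        rw [pow_succ, pow_mul, Nat.mul_mod, Nat.pow_mod]
        norm_num
      rw [h7]
      simp [h8]


/-- |Aut(PΩ⁻_2m(q))| for q = p^f, m ≥ 4 (form quadFormMinus (m−1) with anisotropic binary part): |PΩ⁻_2m(q)| times f, times 2 if p = 2, and times 4 or 8 if p is odd according as m(q−1)/2 is even or odd. -/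
theorem result {F : Type*} [Field F] [Fintype F] (p f : ℕ) [Fact p.Prime] (hf : 1 ≤ f) (hF : Fintype.card F = p ^ f) (m : ℕ) (hm : 4 ≤ m) (a b : F) (hab : ∀ z₁ z₂ : F, z₁ ^ 2 + a * z₁ * z₂ + b * z₂ ^ 2 = 0 → z₁ = 0 ∧ z₂ = 0) : Nat.card (MulAut (Cfsg.POmega F (Cfsg.quadFormMinus (m - 1) F a b))) = (if p = 2 then 2 else (if Even (m * (p ^ f - 1) / 2) then 4 else 8)) * f * Nat.card (Cfsg.POmega F (Cfsg.quadFormMinus (m - 1) F a b)) := by
  classical
  obtain ⟨k, rfl⟩ : ∃ k, m = k + 1 := ⟨m - 1, by omega⟩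
  rw [Nat.add_sub_cancel]
  have hab' : CfsgLib.Quad.Aniso a b := hab
  have h := CfsgLib.AutPO.card_aut_minus k (by omega) hab'
  have h' := CfsgLib.AutPO.card_iso_minus k (by omega) hab'
  rw [h', CfsgLib.AutPSL.ringAut_card hF, CfsgLib.AutPO.QM_coe, Nat.card_eq_fintype_card (α := F), hF] at h
  rw [h]
  by_cases hp : p = 2
  · have h2 : (2 : F) = 0 := by
      have h3 : ((Fintype.card F : ℕ) : F) = 0 := FiniteField.cast_card_eq_zero F
      rw [hF, hp, Nat.cast_pow] at h3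
      exact pow_eq_zero_iff (by omega) |>.1 h3
    rw [if_pos h2, if_pos hp]
    ring
  · have hodd : Odd p := (Fact.out : p.Prime).odd_of_ne_two hp
    have h2 : (2 : F) ≠ 0 := CfsgLib.Quad.two_ne_zero_of_odd (by rw [Nat.card_eq_fintype_card, hF]; exact hodd.pow)
    rw [if_neg h2, if_neg hp]
    have h4 := (arith p f (k + 1) hodd).2
    by_cases h5 : Even ((k + 1) * (p ^ f - 1) / 2)
    · rw [if_pos h5, if_neg (fun h6 => h4.1 h6 h5)]
      ring
    · rw [if_neg h5, if_pos (h4.2 h5)]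
      ring

end Cfsg.Agent.S0818
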