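import Cfsg.Statements.S0828
import Cfsg.Agent.Lib.Symp3

set_option autoImplicit false
open Cfsg

namespace Cfsg.Agent.S0828

/-- The symplectic generalised quadrangle over a field with q elements: the number of 2-dimensional subspaces of F^4 on which the symplectic form vanishes is (q + 1)(q² + 1), and every non-zero vector lies in exactly q + 1 of them. -/
theorem result {F : Type*} [Field F] [Fintype F] {q : ℕ} (hF : Fintype.card F = q) : Nat.card {W : Submodule F (Fin 2 ⊕ Fin 2 → F) // Module.finrank F W = 2 ∧ ∀ u ∈ W, ∀ v ∈ W, Cfsg.sympForm 2 F u v = 0} = (q + 1) * (q ^ 2 + 1) ∧ ∀ v : Fin 2 ⊕ Fin 2 → F, v ≠ 0 → Nat.card {W : Submodule F (Fin 2 ⊕ Fin 2 → F) // Module.finrank F W = 2 ∧ v ∈ W ∧ ∀ u ∈ W, ∀ w ∈ W, Cfsg.sympForm 2 F u w = 0} = q + 1 := by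
  open CfsgLib.AltForm CfsgLib.Symp CfsgLib.CountSub in
  have h1 := card_isotropic_subspaces (sympB_nondegenerate (m := 2) (F := F)) sympB_isAlt 2
  rw [CfsgLib.Symp.finrank_symp, Nat.card_eq_fintype_card (α := F), hF] at h1
  have hq : 1 < q := by rw [← hF]; exact Fintype.one_lt_card
  obtain ⟨r, rfl⟩ := Nat.exists_eq_add_of_lt hq
  simp only [Finset.prod_range_succ, Finset.prod_range_zero, Fin.prod_univ_two, Fin.val_zero,
    Fin.val_one, pow_zero, pow_one, one_mul, CfsgLib.Symp.sympB_apply, Nat.sub_zero] at h1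
  set q := 1 + r + 1 with hqdef
  have e4 : q ^ (2 * 2) - 1 = (q ^ 2 - 1) * (q ^ 2 + 1) := by
    have : 1 ≤ q ^ 2 := Nat.one_le_pow _ _ (by omega)
    obtain ⟨t, ht⟩ := Nat.exists_eq_add_of_le this
    rw [show q ^ (2 * 2) = (q ^ 2) ^ 2 by ring, ht, Nat.add_sub_cancel_left]
    have : (1 + t) ^ 2 = t * (1 + t + 1) + 1 := by ring
    omega
  have e3 : q ^ (2 * 2 - 1) - q = (q ^ 2 - q) * (q + 1) := by
    have : q ≤ q ^ 2 := Nat.le_self_pow (by norm_num) q
    rw [Nat.mul_add, mul_one, Nat.sub_mul]
    have h2 : q ^ (2 * 2 - 1) = q ^ 2 * q := by norm_num; ring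
    have h3 : q ^ 2 ≤ q ^ 2 * q := Nat.le_mul_of_pos_right _ (by omega)
    rw [h2]
    have h4 : q * q = q ^ 2 := by ring
    omega
  have hpos2 : 0 < q ^ 2 - 1 := by
    have : 1 < q ^ 2 := Nat.one_lt_pow (by norm_num) hq
    omega
  have hpos3 : 0 < q ^ 2 - q := by
    have : q < q ^ 2 := by nlinarith
    omega
  constructor
  · rw [e4, e3] at h1
    refine Nat.eq_of_mul_eq_mul_right (Nat.mul_pos hpos2 hpos3) (h1.trans ?_)
    ring
  · intro v hv
    -- count frames `(v, w)`
    have hcount : Nat.card {w : Fin 2 ⊕ Fin 2 → F //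
        w ∈ (CfsgLib.Symp.sympB 2 F).orthogonal (Submodule.span F {v}) ∧
          w ∉ Submodule.span F {v}} = q ^ 3 - q := by
      rw [CfsgLib.CountSub.card_sdiff (F := F), LinearMap.BilinForm.finrank_orthogonal
        CfsgLib.Symp.sympB_nondegenerate, finrank_span_singleton hv, CfsgLib.Symp.finrank_symp,
        Nat.card_eq_fintype_card, hF, pow_one]
      intro x hx
      obtain ⟨a, rfl⟩ := Submodule.mem_span_singleton.mp hx
      rw [LinearMap.BilinForm.mem_orthogonal_iff]
      intro y hy
      obtain ⟨b, rfl⟩ := Submodule.mem_span_singleton.mp hy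
      rw [map_smul, map_smul, LinearMap.smul_apply, CfsgLib.Symp.sympB_isAlt.self_eq_zero]
      simp
    set B := CfsgLib.Symp.sympB 2 F with hB
    have hBA : B.IsAlt := CfsgLib.Symp.sympB_isAlt
    have hspan2 : ∀ w : Fin 2 ⊕ Fin 2 → F, w ∉ Submodule.span F {v} →
        Module.finrank F (Submodule.span F (Set.range ![v, w])) = 2 := by
      intro w hw
      have hli : LinearIndependent F ![v, w] := by
        rw [LinearIndependent.pair_iff' hv]
        intro a ha
        exact hw (Submodule.mem_span_singleton.mpr ⟨a, ha⟩)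
      rw [finrank_span_eq_card hli, Fintype.card_fin]
    have e : {w : Fin 2 ⊕ Fin 2 → F // w ∈ B.orthogonal (Submodule.span F {v}) ∧
          w ∉ Submodule.span F {v}} ≃
        Σ W : {W : Submodule F (Fin 2 ⊕ Fin 2 → F) // Module.finrank F W = 2 ∧ v ∈ W ∧
          ∀ u ∈ W, ∀ w ∈ W, sympForm 2 F u w = 0},
          {w : Fin 2 ⊕ Fin 2 → F // w ∈ W.1 ∧ w ∉ Submodule.span F {v}} :=
      { toFun := fun w => ⟨⟨Submodule.span F (Set.range ![v, w.1]), hspan2 w.1 w.2.2,
            Submodule.subset_span ⟨0, rfl⟩, by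
            have hfr : CfsgLib.AltForm.IsFrame B ![v, w.1] := by
              refine ⟨?_, ?_⟩
              · rw [LinearIndependent.pair_iff' hv]
                intro a ha
                exact w.2.2 (Submodule.mem_span_singleton.mpr ⟨a, ha⟩)
              · have h5 : B v w.1 = 0 := LinearMap.BilinForm.mem_orthogonal_iff.mp w.2.1 v
                  (Submodule.mem_span_singleton_self v)
                intro i j
                fin_cases i <;> fin_cases j
                · simp [hBA.self_eq_zero]
                · simpa using h5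
                · simpa using hBA.isRefl _ _ h5
                · simp [hBA.self_eq_zero]
            intro a ha b hb
            rw [← CfsgLib.Symp.sympB_apply]
            exact ((CfsgLib.AltForm.isFrame_iff_span B _).mp hfr).2 a ha b hb⟩,
            ⟨w.1, Submodule.subset_span ⟨1, rfl⟩, w.2.2⟩⟩
        invFun := fun p => ⟨p.2.1, by
            refine ⟨?_, p.2.2.2⟩
            rw [LinearMap.BilinForm.mem_orthogonal_iff]
            intro y hy
            obtain ⟨b, rfl⟩ := Submodule.mem_span_singleton.mp hy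
            rw [hB, map_smul, LinearMap.smul_apply, CfsgLib.Symp.sympB_apply,
              p.1.2.2.2 v p.1.2.2.1 p.2.1 p.2.2.1, smul_zero]⟩
        left_inv := fun w => rfl
        right_inv := by
          rintro ⟨⟨W, hW1, hW2, hW3⟩, ⟨w, hw1, hw2⟩⟩
          have h6 : Submodule.span F (Set.range ![v, w]) = W := by
            apply Submodule.eq_of_le_of_finrank_eq
            · rw [Submodule.span_le]
              rintro _ ⟨i, rfl⟩
              fin_cases i
              · exact hW2
              · exact hw1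
            · rw [hspan2 w hw2, hW1]
          subst h6
          rfl }
    have hfin : Finite (Submodule F (Fin 2 ⊕ Fin 2 → F)) := inferInstance
    have hft : Fintype {W : Submodule F (Fin 2 ⊕ Fin 2 → F) // Module.finrank F W = 2 ∧ v ∈ W ∧
          ∀ u ∈ W, ∀ w ∈ W, sympForm 2 F u w = 0} := Fintype.ofFinite _
    have hfib : ∀ W : {W : Submodule F (Fin 2 ⊕ Fin 2 → F) // Module.finrank F W = 2 ∧ v ∈ W ∧
          ∀ u ∈ W, ∀ w ∈ W, sympForm 2 F u w = 0},
          Nat.card {w : Fin 2 ⊕ Fin 2 → F // w ∈ W.1 ∧ w ∉ Submodule.span F {v}} = q ^ 2 - q := by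
      intro W
      rw [CfsgLib.CountSub.card_sdiff (F := F) (by
        rw [Submodule.span_singleton_le_iff_mem]; exact W.2.2.1), W.2.1, finrank_span_singleton hv,
        Nat.card_eq_fintype_card, hF, pow_one]
    rw [Nat.card_congr e, Nat.card_sigma, Finset.sum_congr rfl fun W _ => hfib W,
      Finset.sum_const, Finset.card_univ, smul_eq_mul, ← Nat.card_eq_fintype_card] at hcount
    refine Nat.eq_of_mul_eq_mul_right hpos3 (hcount.trans ?_)
    rw [show (3 : ℕ) = 2 * 2 - 1 by norm_num, e3, mul_comm]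

end Cfsg.Agent.S0828
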