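import Cfsg.Statements.S0830
import Cfsg.Agent.Lib.Herm8

set_option autoImplicit false
open Cfsg

namespace Cfsg.Agent.S0830

/-- The unitary quadrangle of PSU_5(q): with |F| = q², the number of 2-dimensional subspaces of F^5 on which the Hermitian form vanishes is (q³ + 1)(q⁵ + 1). -/
theorem result {F : Type*} [Field F] [Fintype F] {q : ℕ} (hF : Fintype.card F = q ^ 2) : Nat.card {W : Submodule F (Fin 5 → F) // Module.finrank F W = 2 ∧ ∀ u ∈ W, ∀ v ∈ W, Cfsg.hermForm 5 F q u v = 0} = (q ^ 3 + 1) * (q ^ 5 + 1) := by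
  obtain ⟨σ, hq⟩ := CfsgLib.Herm.exists_sigma (F := F) (q := q) (by rw [Nat.card_eq_fintype_card, hF])
  have hh := CfsgLib.Herm.stdH_hform hq 5
  have h2 := hq.two_le
  have h1 := CfsgLib.Herm.card_isotropic_subspacesH hq hh 2
  have h3 : Nat.card {W : Submodule F (Fin 5 → F) // Module.finrank F W = 2 ∧ ∀ u ∈ W, ∀ v ∈ W, hermForm 5 F q u v = 0} =
      Nat.card {W : Submodule F (Fin 5 → F) // Module.finrank F W = 2 ∧ ∀ u ∈ W, ∀ v ∈ W, CfsgLib.Herm.stdH σ 5 u v = 0} := by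
    apply Nat.card_congr
    refine Equiv.subtypeEquivRight fun W => and_congr_right fun _ => ?_
    constructor
    · intro h u hu v hv
      rw [← CfsgLib.Herm.hermForm_eq hq]; exact h v hv u hu
    · intro h u hu v hv
      rw [CfsgLib.Herm.hermForm_eq hq]; exact h v hv u hu
  rw [h3]
  rw [Module.finrank_fin_fun, Fin.prod_univ_two, Finset.prod_range_succ, Finset.prod_range_one, hq.card] at h1
  simp only [Fin.val_zero, Fin.val_one, mul_zero, pow_zero, one_mul, pow_one, mul_one, Nat.sub_zero] at h1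
  have e4 := CfsgLib.Herm.cnt_sub_one hq 3
  have e2 := CfsgLib.Herm.cnt_sub_one hq 1
  norm_num at e4 e2
  rw [e4, show 5 - 2 = 3 from rfl, e2] at h1
  simp only [CfsgLib.Herm.fU] at h1
  rw [if_neg (by decide), if_pos (by decide), if_neg (by decide), if_pos (by decide)] at h1
  set N := Nat.card {W : Submodule F (Fin 5 → F) // Module.finrank F W = 2 ∧ ∀ u ∈ W, ∀ v ∈ W, CfsgLib.Herm.stdH σ 5 u v = 0}
  have hpos : 0 < ((q ^ 2) ^ 2 - 1) * ((q ^ 2) ^ 2 - q ^ 2) := by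
    have a1 : q ^ 1 < q ^ 2 := Nat.pow_lt_pow_right (by omega) (by norm_num)
    have a2 : (q ^ 2) ^ 1 < (q ^ 2) ^ 2 := Nat.pow_lt_pow_right (by nlinarith) (by norm_num)
    rw [pow_one] at a2
    apply Nat.mul_pos <;> omega
  apply Nat.eq_of_mul_eq_mul_right hpos
  rw [h1]
  have b1 : 1 ≤ q ^ 2 := Nat.one_le_pow _ _ (by omega)
  have b2 : 1 ≤ (q ^ 2) ^ 2 := Nat.one_le_pow _ _ (by positivity)
  have b3 : q ^ 2 ≤ (q ^ 2) ^ 2 := by nlinarith
  have b4 : 1 ≤ q ^ (3 + 1) := Nat.one_le_pow _ _ (by omega)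
  have b5 : 1 ≤ q ^ (1 + 1) := Nat.one_le_pow _ _ (by omega)
  zify [b1, b2, b3, b4, b5]
  ring

end Cfsg.Agent.S0830
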