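import Cfsg.Statements.S0831
import Cfsg.Agent.Lib.Quad14

set_option autoImplicit false
open Cfsg

namespace Cfsg.Agent.S0831

/-- The two families of maximal totally singular subspaces of the hyperbolic quadric: for the form Σ x_i y_i on F^(2m), m ≥ 1, and m-dimensional subspaces U, W, X on which it vanishes, the parities of m − dim(U ∩ W), m − dim(W ∩ X) and m − dim(U ∩ X) sum to an even number (so 'even codimension of the intersection' is an equivalence relation), and there exist two such subspaces meeting in codimension 1 (so there are exactly two classes). -/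
theorem result {F : Type*} [Field F] (m : ℕ) (hm : 1 ≤ m) : (∀ U W X : Submodule F (Fin m ⊕ Fin m → F), (Module.finrank F U = m ∧ ∀ w ∈ U, Cfsg.quadFormPlus m F w = 0) → (Module.finrank F W = m ∧ ∀ w ∈ W, Cfsg.quadFormPlus m F w = 0) → (Module.finrank F X = m ∧ ∀ w ∈ X, Cfsg.quadFormPlus m F w = 0) → Even ((m - Module.finrank F ↥(U ⊓ W)) + (m - Module.finrank F ↥(W ⊓ X)) + (m - Module.finrank F ↥(U ⊓ X)))) ∧ ∃ U W : Submodule F (Fin m ⊕ Fin m → F), (Module.finrank F U = m ∧ ∀ w ∈ U, Cfsg.quadFormPlus m F w = 0) ∧ (Module.finrank F W = m ∧ ∀ w ∈ W, Cfsg.quadFormPlus m F w = 0) ∧ Module.finrank F ↥(U ⊓ W) + 1 = m := by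
  constructor
  · intro U W X hU hW hX
    have h := CfsgLib.Quad.even_three (CfsgLib.Quad.QP_nondegenerate m)
      (CfsgLib.Quad.finrank_QP m) U W X hU.1
      (fun w hw => (CfsgLib.Quad.QP_apply m w).trans (hU.2 w hw)) hW.1
      (fun w hw => (CfsgLib.Quad.QP_apply m w).trans (hW.2 w hw)) hX.1
      (fun w hw => (CfsgLib.Quad.QP_apply m w).trans (hX.2 w hw))
    have h1 := Submodule.finrank_mono (inf_le_left : U ⊓ W ≤ U)
    have h2 := Submodule.finrank_mono (inf_le_left : W ⊓ X ≤ W)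
    have h3 := Submodule.finrank_mono (inf_le_left : U ⊓ X ≤ U)
    rw [hU.1] at h1 h3
    rw [hW.1] at h2
    rw [Nat.even_iff] at h ⊢
    omega
  · obtain ⟨k, rfl⟩ := Nat.exists_eq_add_of_le' hm
    obtain ⟨W₀, hW₀, hs₀⟩ := CfsgLib.Quad.exists_max_singular (F := F) (k + 1)
    -- a hyperplane of `W₀`
    obtain ⟨U₀, hU₀W, hU₀⟩ : ∃ U₀ : Submodule F (Fin (k + 1) ⊕ Fin (k + 1) → F), U₀ ≤ W₀ ∧
        Module.finrank F U₀ + 1 = k + 1 := by
      let b := Module.finBasisOfFinrankEq F W₀ hW₀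
      refine ⟨(Submodule.span F (Set.range (b ∘ Fin.castSucc))).map W₀.subtype, ?_, ?_⟩
      · exact Submodule.map_subtype_le _ _
      · rw [Submodule.finrank_map_subtype_eq,
          finrank_span_eq_card (b.linearIndependent.comp _ (Fin.castSucc_injective k)),
          Fintype.card_fin]
    have h := CfsgLib.Quad.card_two_of_hyperplane (CfsgLib.Quad.QP_nondegenerate (k + 1))
      (CfsgLib.Quad.finrank_QP (k + 1)) U₀ hU₀ W₀ hW₀ hs₀ hU₀W
    rw [Nat.card_eq_two_iff] at h
    obtain ⟨⟨X, hX, hXs, hXU⟩, ⟨Y, hY, hYs, hYU⟩, hne, -⟩ := h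
    refine ⟨X, Y, ⟨hX, fun w hw => (CfsgLib.Quad.QP_apply _ w).symm.trans (hXs w hw)⟩,
      ⟨hY, fun w hw => (CfsgLib.Quad.QP_apply _ w).symm.trans (hYs w hw)⟩, ?_⟩
    have h1 := Submodule.finrank_mono (le_inf hXU hYU)
    have h2 : Module.finrank F ↥(X ⊓ Y) < k + 1 := by
      by_contra hge
      push Not at hge
      apply hne
      have h3 := Submodule.finrank_mono (inf_le_left : X ⊓ Y ≤ X)
      have h4 := Submodule.eq_of_le_of_finrank_eq (inf_le_left : X ⊓ Y ≤ X) (by omega)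
      have h5 := Submodule.eq_of_le_of_finrank_eq (inf_le_right : X ⊓ Y ≤ Y) (by omega)
      exact Subtype.ext (h4.symm.trans h5)
    omega

end Cfsg.Agent.S0831
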