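import Cfsg.Statements.S0832
import Cfsg.Agent.Lib.Quad14

set_option autoImplicit false
open Cfsg

namespace Cfsg.Agent.S0832

/-- For the form Σ x_i y_i on F^(2m) over a finite field, m ≥ 1: an (m−1)-dimensional subspace on which the form vanishes is contained in exactly two m-dimensional subspaces on which it vanishes. -/
theorem result {F : Type*} [Field F] [Finite F] (m : ℕ) (hm : 1 ≤ m) (U : Submodule F (Fin m ⊕ Fin m → F)) (hU : Module.finrank F U + 1 = m ∧ ∀ u ∈ U, Cfsg.quadFormPlus m F u = 0) : Nat.card {W : Submodule F (Fin m ⊕ Fin m → F) // Module.finrank F W = m ∧ (∀ w ∈ W, Cfsg.quadFormPlus m F w = 0) ∧ U ≤ W} = 2 := by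
  obtain ⟨W, hW, hWs⟩ := CfsgLib.Quad.exists_max_singular (F := F) m
  obtain ⟨W₀, h1, h2, h3⟩ := CfsgLib.Quad.exists_singular_ge (CfsgLib.Quad.QP_nondegenerate m)
    (U := U) (W := W) (fun w hw => (CfsgLib.Quad.QP_apply m w).trans (hU.2 w hw)) hWs (by omega)
  have h := CfsgLib.Quad.card_two_of_hyperplane (CfsgLib.Quad.QP_nondegenerate m)
    (CfsgLib.Quad.finrank_QP m) U hU.1 W₀ (h2.trans hW) h3 h1
  simpa only [CfsgLib.Quad.QP_apply] using h

end Cfsg.Agent.S0832
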