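import Cfsg.Statements.S0833
import Cfsg.Agent.Lib.Disc
import Cfsg.Agent.Lib.AltForm3

set_option autoImplicit false
open Cfsg

namespace Cfsg.Agent.S0833

open scoped TensorProduct in


/-- If B₁, B₂ are non-degenerate alternating forms on U (dim 2k) and W (dim 2l), then B₁ ⊗ B₂ on U ⊗ W is symmetric, non-degenerate, and vanishes identically on some subspace of dimension 2kl (half of dim U ⊗ W). -/
theorem result {F U W : Type*} [Field F] [Fintype F] [AddCommGroup U] [Module F U] [FiniteDimensional F U] [AddCommGroup W] [Module F W] [FiniteDimensional F W] (B₁ : LinearMap.BilinForm F U) (B₂ : LinearMap.BilinForm F W) (h₁ : B₁.Nondegenerate) (h₂ : B₂.Nondegenerate) (hA₁ : B₁.IsAlt) (hA₂ : B₂.IsAlt) (k l : ℕ) (hU : Module.finrank F U = 2 * k) (hW : Module.finrank F W = 2 * l) : (B₁.tmul B₂).IsSymm ∧ (B₁.tmul B₂).Nondegenerate ∧ (∃ X : Submodule F (TensorProduct F U W), Module.finrank F X = 2 * k * l ∧ ∀ x ∈ X, ∀ y ∈ X, (B₁.tmul B₂) x y = 0) := by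
  have hsy : ∀ {V : Type _} [AddCommGroup V] [Module F V] (B : LinearMap.BilinForm F V) (_ : B.IsAlt) (x y : V), B x y = (-1) * B y x := by
    intro V _ _ B hA x y
    rw [neg_one_mul, hA.neg_eq]
  refine ⟨CfsgLib.Disc.tmul_symm (-1) (by ring) (hsy B₁ hA₁) (fun x y => ?_), CfsgLib.Disc.tmul_nondegenerate h₁ h₂, ?_⟩
  · rw [neg_one_mul, hA₂.neg_eq]
  obtain ⟨m', k', b, hb1, hb2, hb3, hb4⟩ := CfsgLib.AltForm.exists_symplectic_basis B₁ hA₁
  have hk' : k' = 0 := by
    rcases Nat.eq_zero_or_pos k' with h | h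
    · exact h
    · exfalso
      have h5 := h₁.1 (b (Sum.inr ⟨0, h⟩)) (hb4 ⟨0, h⟩)
      exact b.ne_zero _ h5
  subst hk'
  have hm' : m' = k := by
    have := Module.finrank_eq_card_basis b
    simp at this
    omega
  subst hm'
  set L := Submodule.span F (Set.range fun i : Fin m' => b (Sum.inl (Sum.inl i))) with hL
  have hLd : Module.finrank F L = m' := by
    rw [hL, finrank_span_eq_card, Fintype.card_fin]
    exact b.linearIndependent.comp (fun i : Fin m' => Sum.inl (Sum.inl i)) (fun i j h => by simpa using h)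
  have hLiso : ∀ x ∈ L, ∀ y ∈ L, B₁ x y = 0 := by
    intro x hx y hy
    rw [hL, Submodule.mem_span_range_iff_exists_fun] at hx hy
    obtain ⟨c, rfl⟩ := hx
    obtain ⟨d, rfl⟩ := hy
    simp only [map_sum, LinearMap.map_smul, LinearMap.sum_apply, LinearMap.smul_apply, hb2, smul_zero, Finset.sum_const_zero]
  let φ := LinearMap.rTensor W L.subtype
  have hφ : Function.Injective φ := Module.Flat.rTensor_preserves_injective_linearMap _ L.injective_subtype
  refine ⟨LinearMap.range φ, ?_, ?_⟩
  · rw [LinearMap.finrank_range_of_inj hφ, Module.finrank_tensorProduct, hLd, hW]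
    ring
  · rintro _ ⟨x, rfl⟩ _ ⟨y, rfl⟩
    induction x using TensorProduct.induction_on with
    | zero => simp
    | add x x' hx hx' => rw [LinearMap.map_add, LinearMap.map_add, LinearMap.add_apply, hx, hx', add_zero]
    | tmul a w =>
      induction y using TensorProduct.induction_on with
      | zero => simp
      | add y y' hy hy' => rw [LinearMap.map_add, LinearMap.map_add, hy, hy', add_zero]
      | tmul c d =>
        have h5 : φ (a ⊗ₜ[F] w) = (a : U) ⊗ₜ[F] w := rfl
        have h6 : φ (c ⊗ₜ[F] d) = (c : U) ⊗ₜ[F] d := rfl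
        rw [h5, h6, CfsgLib.Disc.tmul_apply, hLiso a.1 a.2 c.1 c.2, zero_mul]

end Cfsg.Agent.S0833
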