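import Cfsg.Statements.S0834
import Cfsg.Agent.Lib.Disc

set_option autoImplicit false
open Cfsg

namespace Cfsg.Agent.S0834

/-- Over a finite field with 2 ≠ 0: if B₁ on U (dim 2k, k ≥ 1) and B₂ on W (dim 2l, l ≥ 1) are non-degenerate symmetric forms admitting no totally isotropic subspaces of dimensions k, resp. l (minus type), then B₁ ⊗ B₂ admits a totally isotropic subspace of dimension 2kl (plus type). -/
theorem result {F U W : Type*} [Field F] [Fintype F] [AddCommGroup U] [Module F U] [FiniteDimensional F U] [AddCommGroup W] [Module F W] [FiniteDimensional F W] (h2 : (2 : F) ≠ 0) (B₁ : LinearMap.BilinForm F U) (B₂ : LinearMap.BilinForm F W) (h₁ : B₁.Nondegenerate) (h₂ : B₂.Nondegenerate) (hS₁ : B₁.IsSymm) (hS₂ : B₂.IsSymm) (k l : ℕ) (hk : 1 ≤ k) (hl : 1 ≤ l) (hU : Module.finrank F U = 2 * k) (hW : Module.finrank F W = 2 * l) (hm₁ : ¬ (∃ X : Submodule F (U), Module.finrank F X = k ∧ ∀ x ∈ X, ∀ y ∈ X, (B₁) x y = 0))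 (hm₂ : ¬ (∃ X : Submodule F (W), Module.finrank F X = l ∧ ∀ x ∈ X, ∀ y ∈ X, (B₂) x y = 0)) : (∃ X : Submodule F (TensorProduct F U W), Module.finrank F X = 2 * k * l ∧ ∀ x ∈ X, ∀ y ∈ X, (B₁.tmul B₂) x y = 0) := by
  have hSS : LinearMap.BilinForm.IsSymm (B₁.tmul B₂) := ⟨fun x y => (CfsgLib.Disc.tmul_symm
    (B₁ := B₁) (B₂ := B₂) 1 (one_mul 1) (fun x y => by rw [one_mul]; exact hS₁.eq x y)
    (fun x y => by rw [one_mul]; exact hS₂.eq x y)).eq x y⟩
  refine CfsgLib.Disc.exists_isotropic_half h2 hSS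
    (CfsgLib.Disc.tmul_nondegenerate h₁ h₂) ?_
    ((Module.finBasisOfFinrankEq F U hU).tensorProduct (Module.finBasisOfFinrankEq F W hW)) ?_
  · rw [Module.finrank_tensorProduct, hU, hW]; ring
  · rw [CfsgLib.Disc.gd_tmul, Fintype.card_fin, Fintype.card_fin]
    have e : ((-1 : F) ^ (2 * k * l)) = 1 := by
      rw [mul_assoc, pow_mul]; simp
    rw [e, one_mul]
    exact ⟨CfsgLib.Disc.gd B₁ (Module.finBasisOfFinrankEq F U hU) ^ l *
      CfsgLib.Disc.gd B₂ (Module.finBasisOfFinrankEq F W hW) ^ k, by ring⟩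

end Cfsg.Agent.S0834
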