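import Cfsg.Statements.S0835
import Cfsg.Agent.Lib.Disc

set_option autoImplicit false
open Cfsg

namespace Cfsg.Agent.S0835

/-- Over a finite field with 2 ≠ 0: if B₁ on U (dim 2k, k ≥ 1) is non-degenerate symmetric of minus type (no totally isotropic k-subspace) and B₂ on W (dim 2l + 1) is non-degenerate symmetric, then B₁ ⊗ B₂ (dimension 2k(2l+1)) admits no totally isotropic subspace of dimension k(2l+1) (minus type). -/
theorem result {F U W : Type*} [Field F] [Fintype F] [AddCommGroup U] [Module F U] [FiniteDimensional F U] [AddCommGroup W] [Module F W] [FiniteDimensional F W] (h2 : (2 : F) ≠ 0) (B₁ : LinearMap.BilinForm F U) (B₂ : LinearMap.BilinForm F W) (h₁ : B₁.Nondegenerate) (h₂ : B₂.Nondegenerate) (hS₁ : B₁.IsSymm) (hS₂ : B₂.IsSymm) (k l : ℕ) (hk : 1 ≤ k) (hU : Module.finrank F U = 2 * k) (hW : Module.finrank F W = 2 * l + 1) (hm₁ : ¬ (∃ X : Submodule F (U), Module.finrank F X = k ∧ ∀ x ∈ X, ∀ y ∈ X, (B₁) x y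 = 0)) : ¬ (∃ X : Submodule F (TensorProduct F U W), Module.finrank F X = k * (2 * l + 1) ∧ ∀ x ∈ X, ∀ y ∈ X, (B₁.tmul B₂) x y = 0) := by
  rintro ⟨X, hX, hX'⟩
  apply hm₁
  have hb₁ := CfsgLib.Disc.gd_ne_zero h₁ (Module.finBasisOfFinrankEq F U hU)
  have hb₂ := CfsgLib.Disc.gd_ne_zero h₂ (Module.finBasisOfFinrankEq F W hW)
  have hSS : LinearMap.BilinForm.IsSymm (B₁.tmul B₂) := ⟨fun x y => (CfsgLib.Disc.tmul_symm
    (B₁ := B₁) (B₂ := B₂) 1 (one_mul 1) (fun x y => by rw [one_mul]; exact hS₁.eq x y)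
    (fun x y => by rw [one_mul]; exact hS₂.eq x y)).eq x y⟩
  refine CfsgLib.Disc.exists_isotropic_half h2 hS₁ h₁ hU (Module.finBasisOfFinrankEq F U hU) ?_
  have h := CfsgLib.Disc.isSquare_of_isotropic hSS
    (by rw [Module.finrank_tensorProduct, hU, hW]; ring) X hX hX'
    ((Module.finBasisOfFinrankEq F U hU).tensorProduct (Module.finBasisOfFinrankEq F W hW))
  rw [CfsgLib.Disc.gd_tmul, Fintype.card_fin, Fintype.card_fin] at h
  apply CfsgLib.Disc.isSquare_of_sq_mul (k := ((-1 : F) ^ k * CfsgLib.Disc.gd B₁ (Module.finBasisOfFinrankEq F U hU)) ^ l * CfsgLib.Disc.gd B₂ (Module.finBasisOfFinrankEq F W hW) ^ k)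
  · exact mul_ne_zero (pow_ne_zero _ (mul_ne_zero (pow_ne_zero _ (neg_ne_zero.mpr one_ne_zero)) hb₁)) (pow_ne_zero _ hb₂)
  · convert h using 1
    ring

end Cfsg.Agent.S0835
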