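import Cfsg.Statements.S0837
import Cfsg.Agent.Lib.Herm8

set_option autoImplicit false
open Cfsg

namespace Cfsg.Agent.S0837

/-- If W ≤ F^n (|F| = q²) is a k-dimensional subspace on which the Hermitian form Σ x_i y_i^q is non-degenerate, then the stabiliser of W in GU_n(q) is isomorphic to GU_k(q) × GU_(n−k)(q). -/
theorem result {F : Type*} [Field F] [Fintype F] {q : ℕ} (hF : Fintype.card F = q ^ 2) (n k : ℕ) (hk : k ≤ n) (W : Submodule F (Fin n → F)) (hWk : Module.finrank F W = k) (hW : ∀ u ∈ W, (∀ v ∈ W, Cfsg.hermForm n F q u v = 0) → u = 0) : Nonempty (↥((Cfsg.stabilizing (Cfsg.glToMat (Fin n) F) (W : Set (Fin n → F))).subgroupOf (Cfsg.GU n F q)) ≃* ↥(Cfsg.GU k F q) × ↥(Cfsg.GU (n - k) F q)) := by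
  obtain ⟨σ, hq⟩ := CfsgLib.Herm.exists_sigma (F := F) (q := q) (by rw [Nat.card_eq_fintype_card, hF])
  have hh := CfsgLib.Herm.stdH_hform hq n
  have hd : Module.finrank F (Fin n → F) = n := by simp
  have hWf : CfsgLib.Herm.HForm (CfsgLib.Herm.resB (CfsgLib.Herm.stdH σ n) W) := by
    refine ⟨fun x y => hh.symm _ _, fun x hx => ?_⟩
    apply Subtype.ext
    apply hW x.1 x.2
    intro v hv
    rw [CfsgLib.Herm.hermForm_eq hq]
    exact hh.eq_zero_comm (hx ⟨v, hv⟩)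
  have hc := CfsgLib.Herm.isCompl_perp hq hh hWf
  have hP := CfsgLib.Herm.perp_hform hq hh hWf
  have hpp : ∀ x ∈ W, ∀ y ∈ CfsgLib.Herm.perp (CfsgLib.Herm.stdH σ n) W, CfsgLib.Herm.stdH σ n x y = 0 := fun x hx y hy => hy x hx
  have hdP : Module.finrank F (CfsgLib.Herm.perp (CfsgLib.Herm.stdH σ n) W) = n - k := by
    have := CfsgLib.Herm.finrank_perp hq hh W
    omega
  obtain ⟨e₁, he₁⟩ := CfsgLib.Herm.exists_isometry hq hWf (CfsgLib.Herm.stdH_hform hq k) (by rw [hWk]; simp)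
  obtain ⟨e₂, he₂⟩ := CfsgLib.Herm.exists_isometry hq hP (CfsgLib.Herm.stdH_hform hq (n - k)) (by rw [hdP]; simp)
  let E₁ := (CfsgLib.Herm.UCongr e₁ he₁).trans (CfsgLib.Herm.GUEquiv hq k).symm
  let E₂ := (CfsgLib.Herm.UCongr e₂ he₂).trans (CfsgLib.Herm.GUEquiv hq (n - k)).symm
  let E₃ := CfsgLib.IsomDecomp.prodEquiv hc (CfsgLib.Herm.isOrthoSum_of_perp hh hpp)
  -- the stabiliser
  let φ : GU n F q →* ((Fin n → F) ≃ₗ[F] (Fin n → F)) :=
    (CfsgLib.Herm.U (CfsgLib.Herm.stdH σ n)).subtype.comp (CfsgLib.Herm.GUEquiv hq n).toMonoidHom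
  have hφ : Function.Injective φ := Subtype.val_injective.comp (CfsgLib.Herm.GUEquiv hq n).injective
  have hmap : ((stabilizing (glToMat (Fin n) F) (W : Set (Fin n → F))).subgroupOf (GU n F q)).map φ =
      CfsgLib.IsomDecomp.isomPair (fun x y => CfsgLib.Herm.stdH σ n x y) W
        (CfsgLib.Herm.perp (CfsgLib.Herm.stdH σ n) W) := by
    ext g
    constructor
    · rintro ⟨A, hA, rfl⟩
      have h1 : ∀ x, x ∈ W ↔ φ A x ∈ W := by
        intro x
        have h2 := hA x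
        change x ∈ W ↔ ((A : GL (Fin n) F) : Matrix (Fin n) (Fin n) F).mulVec x ∈ W at h2
        rw [h2]
        change _ ↔ ((CfsgLib.Herm.GUEquiv hq n A : (Fin n → F) ≃ₗ[F] (Fin n → F)) x) ∈ W
        rw [CfsgLib.Herm.GUEquiv_apply]
      refine ⟨(CfsgLib.Herm.GUEquiv hq n A).2, h1, ?_⟩
      have hU := CfsgLib.Herm.mem_U.mp (CfsgLib.Herm.GUEquiv hq n A).2
      intro x
      constructor
      · intro hx y hy
        obtain ⟨z, rfl⟩ := (φ A).surjective y
        have h3 := hU z x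
        change CfsgLib.Herm.stdH σ n (φ A z) (φ A x) = _ at h3
        rw [h3]
        exact hx z ((h1 z).mpr hy)
      · intro hx y hy
        have h3 := hU y x
        rw [← h3]
        exact hx _ ((h1 y).mp hy)
    · rintro ⟨h1, h2, h3⟩
      refine ⟨(CfsgLib.Herm.GUEquiv hq n).symm ⟨g, h1⟩, ?_, ?_⟩
      · intro x
        change x ∈ W ↔ ((((CfsgLib.Herm.GUEquiv hq n).symm ⟨g, h1⟩ : GU n F q) : GL (Fin n) F) : Matrix (Fin n) (Fin n) F).mulVec x ∈ W
        rw [← CfsgLib.Herm.GUEquiv_apply hq, MulEquiv.apply_symm_apply]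
        exact h2 x
      · change ((CfsgLib.Herm.GUEquiv hq n ((CfsgLib.Herm.GUEquiv hq n).symm ⟨g, h1⟩)) : (Fin n → F) ≃ₗ[F] (Fin n → F)) = g
        rw [MulEquiv.apply_symm_apply]
  exact ⟨(((Subgroup.equivMapOfInjective _ φ hφ).trans (MulEquiv.subgroupCongr hmap)).trans E₃.symm).trans
    (MulEquiv.prodCongr E₁ E₂)⟩

end Cfsg.Agent.S0837
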