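import Cfsg.Statements.S0838
import Cfsg.Agent.Lib.Disc

set_option autoImplicit false
open Cfsg

open scoped Pointwise
namespace Cfsg.Agent.S0838

/-- Over a finite field with 2 ≠ 0 and n odd: two quadratic forms Q₁, Q₂ on F^n with non-degenerate polar forms are similar — there are an invertible linear map g and a scalar c ≠ 0 with Q₂ (g v) = c · Q₁ v for all v. -/
theorem result {F : Type*} [Field F] [Fintype F] (h2 : (2 : F) ≠ 0) {n : ℕ} (hn : Odd n) (Q₁ Q₂ : QuadraticForm F (Fin n → F)) (h₁ : (QuadraticMap.polarBilin Q₁).Nondegenerate) (h₂ : (QuadraticMap.polarBilin Q₂).Nondegenerate) : ∃ (g : (Fin n → F) ≃ₗ[F] (Fin n → F)) (c : F), c ≠ 0 ∧ ∀ v, Q₂ (g v) = c * Q₁ v := by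
  obtain ⟨m, rfl⟩ := hn
  -- symmetric bilinear forms
  let B : QuadraticForm F (Fin (2 * m + 1) → F) → LinearMap.BilinForm F (Fin (2 * m + 1) → F) :=
    fun Q => (2 : F)⁻¹ • QuadraticMap.polarBilin Q
  have hB : ∀ Q x y, B Q x y = 2⁻¹ * QuadraticMap.polarBilin Q x y := fun Q x y => rfl
  have hBB : ∀ Q x, B Q x x = Q x := by
    intro Q x
    rw [hB, CfsgLib.Quad.polar_self]
    field_simp
  have hS : ∀ Q, (B Q).IsSymm := fun Q => ⟨fun x y => by
    rw [hB, hB, CfsgLib.Quad.polar_comm]⟩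
  have hN : ∀ (c : F) (Q : QuadraticForm F (Fin (2 * m + 1) → F)), c ≠ 0 → 
      (QuadraticMap.polarBilin Q).Nondegenerate → (c • B Q).Nondegenerate := by
    intro c Q hc hQ
    constructor
    · intro x hx
      apply hQ.1
      intro y
      have h1 := hx y
      rw [LinearMap.smul_apply, LinearMap.smul_apply, hB, smul_eq_mul] at h1
      exact (mul_eq_zero.mp ((mul_eq_zero.mp h1).resolve_left hc)).resolve_left (inv_ne_zero h2)
    · intro x hx
      apply hQ.2
      intro y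
      have h1 := hx y
      rw [LinearMap.smul_apply, LinearMap.smul_apply, hB, smul_eq_mul] at h1
      exact (mul_eq_zero.mp ((mul_eq_zero.mp h1).resolve_left hc)).resolve_left (inv_ne_zero h2)
  have hN1 : ∀ (Q : QuadraticForm F (Fin (2 * m + 1) → F)),
      (QuadraticMap.polarBilin Q).Nondegenerate → (B Q).Nondegenerate := by
    intro Q hQ
    have := hN 1 Q one_ne_zero hQ
    rwa [one_smul] at this
  let b := Pi.basisFun F (Fin (2 * m + 1))
  set c := CfsgLib.Disc.gd (B Q₁) b * CfsgLib.Disc.gd (B Q₂) b with hc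
  have hc0 : c ≠ 0 := mul_ne_zero (CfsgLib.Disc.gd_ne_zero (hN1 _ h₁) b)
    (CfsgLib.Disc.gd_ne_zero (hN1 _ h₂) b)
  have hg : CfsgLib.Disc.gd (c • B Q₁) b = c ^ (2 * m + 1) * CfsgLib.Disc.gd (B Q₁) b := by
    rw [CfsgLib.Disc.gd, CfsgLib.Disc.gd]
    have : (Matrix.of fun i j => (c • B Q₁) (b i) (b j)) = c • (Matrix.of fun i j => (B Q₁) (b i) (b j)) := by
      ext i j
      rfl
    rw [this, Matrix.det_smul, Fintype.card_fin]
  have hSc : (c • B Q₁).IsSymm := ⟨fun x y => by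
    change c * B Q₁ x y = c * B Q₁ y x
    rw [hB, hB, CfsgLib.Quad.polar_comm]⟩
  obtain ⟨e, he⟩ := CfsgLib.Disc.exists_isometry_of_gd (n := 2 * m) h2 hSc (hS Q₂) (hN c Q₁ hc0 h₁) (hN1 _ h₂)
    (by simp) (by simp) b b (by
      rw [hg]
      exact ⟨c ^ (m + 1), by rw [mul_assoc, ← hc]; ring⟩)
  exact ⟨e, c, hc0, fun v => by rw [← hBB, he, LinearMap.smul_apply, LinearMap.smul_apply, hBB, smul_eq_mul]⟩

end Cfsg.Agent.S0838
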