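import Cfsg.Statements.S0839
import Cfsg.Agent.Lib.SL2

set_option autoImplicit false
open Cfsg

namespace Cfsg.Agent.S0839

/-- Every transvection t ∈ SL_(n+2)(F) (rank(t − 1) = 1, (t − 1)² = 0) is conjugate in SL_(n+2)(F) to 1 + v·e_0ᵀ for some column vector v with v_0 = 0 (the group A of matrices that are the identity except in the first column below the diagonal); the dimension is written n + 2 ≥ 2. -/
theorem result {F : Type*} [Field F] (n : ℕ) (t : Matrix.SpecialLinearGroup (Fin (n + 2)) F) (ht : Cfsg.IsTransvection (t : Matrix (Fin (n + 2)) (Fin (n + 2)) F)) : ∃ (g : Matrix.SpecialLinearGroup (Fin (n + 2)) F) (v : Fin (n + 2) → F), v 0 = 0 ∧ ((g⁻¹ * t * g : Matrix.SpecialLinearGroup (Fin (n + 2)) F) : Matrix (Fin (n + 2)) (Fin (n + 2)) F) = 1 + Matrix.vecMulVec v (Pi.single 0 1) := by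
  obtain ⟨hr, hsq⟩ := ht
  -- write t - 1 = u ⊗ φ
  obtain ⟨u, φ, huφ⟩ : ∃ u φ : Fin (n + 2) → F,
      (t : Matrix (Fin (n + 2)) (Fin (n + 2)) F) - 1 = Matrix.vecMulVec u φ := by
    generalize (t : Matrix (Fin (n + 2)) (Fin (n + 2)) F) - 1 = M at hr hsq ⊢
    rw [Matrix.rank, finrank_eq_one_iff'] at hr
    obtain ⟨u, -, hu⟩ := hr
    choose c hc using fun j : Fin (n + 2) =>
      hu ⟨M.mulVecLin (Pi.single j 1), LinearMap.mem_range_self _ _⟩
    refine ⟨u, c, ?_⟩
    ext i j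
    have := congrFun (congrArg Subtype.val (hc j)) i
    simp at this
    rw [Matrix.vecMulVec_apply, mul_comm]
    exact this.symm
  have hne : (t : Matrix (Fin (n + 2)) (Fin (n + 2)) F) - 1 ≠ 0 := by
    intro h
    rw [h, Matrix.rank_zero] at hr
    exact zero_ne_one hr
  have hu : u ≠ 0 := by
    rintro rfl
    exact hne (by rw [huφ, Matrix.zero_vecMulVec])
  have hφ : φ ≠ 0 := by
    rintro rfl
    exact hne (by rw [huφ, Matrix.vecMulVec_zero])
  have hφu : φ ⬝ᵥ u = 0 := by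
    rw [huφ, Matrix.vecMulVec_mul_vecMulVec] at hsq
    by_contra h
    rw [Matrix.vecMulVec_eq_zero] at hsq
    rcases hsq with h1 | h1
    · exact hu h1
    · rcases smul_eq_zero.mp h1 with h2 | h2
      · exact h h2
      · exact hφ h2
  obtain ⟨h, hh⟩ := CfsgLib.SL2.exists_SL_smul_eq
    (Pi.single_ne_zero_iff.2 one_ne_zero : (Pi.single 0 1 : Fin (n + 2) → F) ≠ 0) hφ
  have hh' : (h : Matrix (Fin (n + 2)) (Fin (n + 2)) F).mulVec (Pi.single 0 1) = φ := hh
  refine ⟨h.transpose⁻¹, (h.transpose : Matrix (Fin (n + 2)) (Fin (n + 2)) F).mulVec u, ?_, ?_⟩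
  · rw [← hφu, ← hh', Matrix.SpecialLinearGroup.coe_transpose]
    rw [Matrix.mulVec_single_one]
    simp only [Matrix.mulVec, Matrix.transpose_apply, dotProduct, Matrix.col_apply]
  · rw [inv_inv]
    have ht1 : (t : Matrix (Fin (n + 2)) (Fin (n + 2)) F) = 1 + Matrix.vecMulVec u φ := by
      rw [← huφ]; abel
    have hmul : ((h.transpose : Matrix.SpecialLinearGroup (Fin (n + 2)) F) : Matrix (Fin (n + 2)) (Fin (n + 2)) F) *
        ((h.transpose⁻¹ : Matrix.SpecialLinearGroup (Fin (n + 2)) F) : Matrix (Fin (n + 2)) (Fin (n + 2)) F) = 1 := by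
      rw [← Matrix.SpecialLinearGroup.coe_mul, mul_inv_cancel, Matrix.SpecialLinearGroup.coe_one]
    rw [Matrix.SpecialLinearGroup.coe_mul, Matrix.SpecialLinearGroup.coe_mul, ht1, mul_add, add_mul,
      mul_one, hmul, Matrix.mul_vecMulVec, Matrix.vecMulVec_mul]
    congr 2
    have h3 : Matrix.vecMul (Pi.single 0 1 : Fin (n + 2) → F) (h.transpose : Matrix (Fin (n + 2)) (Fin (n + 2)) F) = φ := by
      rw [Matrix.SpecialLinearGroup.coe_transpose, Matrix.vecMul_transpose, hh']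
    rw [← h3, Matrix.vecMul_vecMul, hmul, Matrix.vecMul_one]

end Cfsg.Agent.S0839
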