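import Cfsg.Statements.S0841
import Mathlib

set_option autoImplicit false
open Cfsg

open scoped commutatorElement
namespace Cfsg.Agent.S0841

/-- If the commutator subgroup of G lies in the centre, then for all x, y in G and every natural number n one has (x * y) ^ n = x ^ n * y ^ n * c ^ (n * (n - 1) / 2) with c = y⁻¹ * x⁻¹ * y * x. -/
theorem result {G : Type*} [Group G] (hG : commutator G ≤ Subgroup.center G) (x y : G) (n : ℕ) : (x * y) ^ n = x ^ n * y ^ n * (y⁻¹ * x⁻¹ * y * x) ^ (n * (n - 1) / 2) := by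
  have key : ∀ c g : G, c ∈ Subgroup.center G → g * c = c * g := fun c g hc => Subgroup.mem_center_iff.mp hc g
  obtain ⟨c, hc⟩ : ∃ c, c = y⁻¹ * x⁻¹ * y * x := ⟨_, rfl⟩
  have hcc : c ∈ Subgroup.center G := by
    apply hG
    rw [hc]
    have : y⁻¹ * x⁻¹ * y * x = ⁅y⁻¹, x⁻¹⁆ := by simp [commutatorElement_def]
    rw [this]
    exact Subgroup.commutator_mem_commutator (Subgroup.mem_top _) (Subgroup.mem_top _)
  have hcg : ∀ g : G, g * c = c * g := fun g => key c g hcc
  rw [← hc]
  have hyx : y * x = x * y * c := by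
    rw [hc]; group
  have hpow : ∀ k : ℕ, ∀ g : G, g * c ^ k = c ^ k * g := by
    intro k g
    exact key _ g (Subgroup.pow_mem _ hcc k)
  have h1 : ∀ k : ℕ, y ^ k * x = x * y ^ k * c ^ k := by
    intro k
    induction k with
    | zero => simp
    | succ k ih =>
      calc y ^ (k + 1) * x = y * (y ^ k * x) := by rw [pow_succ']; group
        _ = y * (x * y ^ k * c ^ k) := by rw [ih]
        _ = (y * x) * y ^ k * c ^ k := by group
        _ = x * y * (c * y ^ k) * c ^ k := by rw [hyx]; group
        _ = x * y * (y ^ k * c) * c ^ k := by rw [hcg]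
        _ = x * y ^ (k + 1) * c ^ (k + 1) := by rw [pow_succ' y, pow_succ' c]; group
  induction n with
  | zero => simp
  | succ n ih =>
    have h2 : (n + 1) * (n + 1 - 1) / 2 = n * (n - 1) / 2 + n := by
      rw [Nat.add_sub_cancel]
      have h3 : (n + 1) * n = n * (n - 1) + n * 2 := by
        cases n with
        | zero => simp
        | succ m => rw [Nat.add_sub_cancel]; ring
      rw [h3, Nat.add_mul_div_right _ _ (by norm_num)]
    calc (x * y) ^ (n + 1) = (x * y) ^ n * (x * y) := pow_succ _ _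
      _ = x ^ n * y ^ n * c ^ (n * (n - 1) / 2) * (x * y) := by rw [ih]
      _ = x ^ n * y ^ n * ((x * y) * c ^ (n * (n - 1) / 2)) := by rw [hpow _ (x * y)]; simp only [mul_assoc]
      _ = x ^ n * (y ^ n * x) * y * c ^ (n * (n - 1) / 2) := by group
      _ = x ^ n * x * y ^ n * (c ^ n * y) * c ^ (n * (n - 1) / 2) := by rw [h1]; group
      _ = x ^ n * x * y ^ n * (y * c ^ n) * c ^ (n * (n - 1) / 2) := by rw [hpow n y]
      _ = x ^ (n + 1) * y ^ (n + 1) * (c ^ n * c ^ (n * (n - 1) / 2)) := by rw [pow_succ x, pow_succ y]; simp only [mul_assoc]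
      _ = x ^ (n + 1) * y ^ (n + 1) * c ^ ((n + 1) * (n + 1 - 1) / 2) := by rw [h2, Nat.add_comm (n * (n - 1) / 2) n, pow_add c]

end Cfsg.Agent.S0841
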