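import Cfsg.Statements.S0842
import Cfsg.Agent.Lib.H7BS2

set_option autoImplicit false
open Cfsg

namespace Cfsg.Agent.S0842

/-- Suppose a Sylow 2-subgroup S of the finite group G is generalized quaternion of order at least 16, and let D be the commutator subgroup of S, C its centralizer and N its normalizer in G. Then there is a subgroup K of odd order, contained in C and normalized by N, with K ⊔ S = N and K ⊔ (S ⊓ C) = C, and C has index 2 in N. -/
theorem result {G : Type*} [Group G] [Finite G] (S : Sylow 2 G) (n : ℕ) (e : (S : Subgroup G) ≃* QuaternionGroup (2 ^ (n + 2))) (D : Subgroup G) (hD : D = ⁅(S : Subgroup G), (S : Subgroup G)⁆) : ∃ K : Subgroup G, Odd (Nat.card K) ∧ K ≤ Subgroup.centralizer (D : Set G) ∧ Subgroup.normalizer (D : Set G) ≤ Subgroup.normalizer (K : Set G) ∧ K ⊔ (S : Subgroup G) = Subgroup.normalizer (D : Set G) ∧ K ⊔ ((S : Subgroup G) ⊓ Subgroup.centralizer (D : Set G)) = Subgroup.centralizer (D : Set G) ∧ ((Subgroup.centralizer (D : Set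 G)).subgroupOf (Subgroup.normalizer (D : Set G))).index = 2 := by
  classical
  obtain ⟨x, y, c⟩ := CfsgLib.H7BS.exists_cfg S n e
  have hDx : D = CfsgLib.H7BS.DD x := by rw [hD, c.comm]; rfl
  subst hDx
  obtain ⟨K, hKo, hKC, hodd, hfac, hn⟩ := c.exists_K
  have hX : Subgroup.zpowers x ≤ K ⊔ ((S : Subgroup G) ⊓ Subgroup.centralizer ((CfsgLib.H7BS.DD x : Subgroup G) : Set G)) := by
    have := c.inf_eq
    rw [CfsgLib.H7BS.CC] at this
    rw [this]
    exact le_sup_right
  have h2 : K ⊔ ((S : Subgroup G) ⊓ Subgroup.centralizer ((CfsgLib.H7BS.DD x : Subgroup G) : Set G)) = Subgroup.centralizer ((CfsgLib.H7BS.DD x : Subgroup G) : Set G) := by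
    refine le_antisymm (sup_le hKC inf_le_right) ?_
    intro z hz
    obtain ⟨k, hk, s, hs, rfl⟩ := hfac z hz
    exact mul_mem (Subgroup.mem_sup_left hk) (hX hs)
  refine ⟨K, hKo, hKC, hn, ?_, h2, c.index_two⟩
  refine le_antisymm (sup_le (hKC.trans CfsgLib.H7BS.Cfg.C_le_N) c.S_le_N) ?_
  have h3 := c.sup_eq
  have h4 : Subgroup.normalizer ((CfsgLib.H7BS.DD x : Subgroup G) : Set G) = CfsgLib.H7BS.CC x ⊔ (S : Subgroup G) := h3.symm
  rw [h4]
  refine sup_le ?_ le_sup_right
  have h5 : CfsgLib.H7BS.CC x = K ⊔ ((S : Subgroup G) ⊓ Subgroup.centralizer ((CfsgLib.H7BS.DD x : Subgroup G) : Set G)) := h2.symm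
  rw [h5]
  exact sup_le_sup_left inf_le_left K

end Cfsg.Agent.S0842
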