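import Cfsg.Statements.S0845
import Cfsg.Agent.Lib.H7BS4

set_option autoImplicit false
open Cfsg

set_option linter.style.haveILetI false
namespace Cfsg.Agent.S0845

/-- Suppose a Sylow 2-subgroup S of the finite group G is generalized quaternion of order at least 16. Then G has a normal subgroup M of even order such that G / M is non-abelian, that is, M does not contain the commutator subgroup of G. -/
theorem result {G : Type*} [Group G] [Finite G] (S : Sylow 2 G) (n : ℕ) (e : (S : Subgroup G) ≃* QuaternionGroup (2 ^ (n + 2))) : ∃ M : Subgroup G, M.Normal ∧ Even (Nat.card M) ∧ ¬ commutator G ≤ M := by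
  classical
  haveI : Fintype G := Fintype.ofFinite G
  obtain ⟨x, y, c⟩ := CfsgLib.H7BS.exists_cfg S n e
  obtain ⟨χ₁, χ₂, hd, hk, -⟩ := c.ker_z
  refine ⟨CfsgLib.CharBasic.charKer (CfsgLib.CharBasic.irr_isCharacter χ₁), CfsgLib.CharBasic.charKer_normal _, ?_, ?_⟩
  · have hz := c.zo
    have h1 : x ^ 2 ^ (n + 2) ∈ CfsgLib.CharBasic.charKer (CfsgLib.CharBasic.irr_isCharacter χ₁) :=
      (CfsgLib.CharBasic.mem_charKer _).mpr (hk _ hz).1
    have h2 := Subgroup.orderOf_dvd_natCard _ h1
    rw [hz] at h2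
    exact even_iff_two_dvd.mpr h2
  · intro hle
    have h1 : (χ₁ : G → ℂ) 1 = 1 := (CfsgLib.CharBasic.degree_one_iff χ₁).mpr (fun n hn => (CfsgLib.CharBasic.mem_charKer _).mp (hle hn))
    rw [hd] at h1
    have h2 := CfsgLib.CharBasic.IsIrrCharacter.one_ne_zero χ₂.2
    apply h2
    linear_combination h1

end Cfsg.Agent.S0845
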