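import Cfsg.Statements.S0846
import Cfsg.Agent.Lib.H7BS5

set_option autoImplicit false
open Cfsg

namespace Cfsg.Agent.S0846

/-- Suppose a Sylow 2-subgroup S of the finite group G is generalized quaternion of order at least 16. Then every Sylow 2-subgroup of the subgroup generated by the involutions of G is cyclic. -/
theorem result {G : Type*} [Group G] [Finite G] (S : Sylow 2 G) (n : ℕ) (e : (S : Subgroup G) ≃* QuaternionGroup (2 ^ (n + 2))) (Q : Sylow 2 ↥(Subgroup.closure {g : G | orderOf g = 2})) : IsCyclic Q := by
  classical
  obtain ⟨x, y, c⟩ := CfsgLib.H7BS.exists_cfg S n e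
  have h1 : IsPGroup 2 ((Q : Subgroup ↥(Subgroup.closure {g : G | orderOf g = 2})).map (Subgroup.closure {g : G | orderOf g = 2}).subtype) := Q.isPGroup'.map _
  have h2 := c.isCyclic_of_le h1 (Subgroup.map_subtype_le _)
  exact isCyclic_of_injective ((Q : Subgroup ↥(Subgroup.closure {g : G | orderOf g = 2})).equivMapOfInjective (Subgroup.closure {g : G | orderOf g = 2}).subtype (Subgroup.subtype_injective _)).toMonoidHom
      ((Q : Subgroup ↥(Subgroup.closure {g : G | orderOf g = 2})).equivMapOfInjective (Subgroup.closure {g : G | orderOf g = 2}).subtype (Subgroup.subtype_injective _)).injective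

end Cfsg.Agent.S0846
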