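import Cfsg.Statements.S0848
import Mathlib
import Cfsg.Agent.Lib.H7BS3
import Cfsg.Agent.Lib.Invol
import Cfsg.Agent.S0111

set_option autoImplicit false
open Cfsg

open scoped Pointwise
set_option linter.style.haveILetI false
namespace Cfsg.Agent.S0848

open CfsgLib.CharBasic CfsgLib.CharInd
open scoped ComplexConjugate

universe u

/-- the configuration: the centralizer of the involution `t` is dihedral of order eight -/
structure Cf {G : Type u} [Group G] (t r s : G) : Prop where
  ro : orderOf r = 4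
  r2 : r * r = t
  sC : s ∈ Subgroup.centralizer ({t} : Set G)
  sY : s ∉ Subgroup.zpowers r
  card : Nat.card (Subgroup.centralizer ({t} : Set G)) = 8
  out : ∀ g ∈ Subgroup.centralizer ({t} : Set G), g ∉ Subgroup.zpowers r → g * g = 1 ∧ g * r * g⁻¹ = r⁻¹
  fac : ∀ g ∈ Subgroup.centralizer ({t} : Set G), ∀ h ∈ Subgroup.centralizer ({t} : Set G), g ∉ Subgroup.zpowers r → h ∉ Subgroup.zpowers r →
    g * h ∈ Subgroup.zpowers r
  cen : ∀ g ∈ Subgroup.centralizer ({t} : Set G), g ≠ 1 → (∀ h ∈ Subgroup.centralizer ({t} : Set G), g * h = h * g) → g = t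

theorem dec1 : ∀ d : DihedralGroup 4, d ≠ 1 → (∀ x, d * x = x * d) → d = DihedralGroup.r 2 := by decide

theorem exists_cf {G : Type u} [Group G] {t : G} (ht : orderOf t = 2) (e : Subgroup.centralizer ({t} : Set G) ≃* DihedralGroup 4) :
    ∃ r s : G, Cf t r s := by
  have htC : t ∈ Subgroup.centralizer ({t} : Set G) := by
    rw [Subgroup.mem_centralizer_singleton_iff]
  have ht1 : t ≠ 1 := by
    rintro rfl
    rw [orderOf_one] at ht
    norm_num at ht
  have hcen : ∀ g (hg : g ∈ Subgroup.centralizer ({t} : Set G)), g ≠ 1 → (∀ h ∈ Subgroup.centralizer ({t} : Set G), g * h = h * g) →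
      e ⟨g, hg⟩ = DihedralGroup.r 2 := by
    intro g hg hg1 hh
    apply dec1
    · intro h
      apply hg1
      have := e.injective (h.trans (map_one e).symm)
      exact congrArg Subtype.val this
    · intro x
      obtain ⟨c, rfl⟩ := e.surjective x
      rw [← map_mul, ← map_mul]
      congr 1
      exact Subtype.ext (hh c c.2)
  have hte : e ⟨t, htC⟩ = DihedralGroup.r 2 := by
    refine hcen t htC ht1 fun h hh => ?_
    rw [Subgroup.mem_centralizer_singleton_iff] at hh
    exact hh.symm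
  obtain ⟨r, hr⟩ : ∃ r, r = e.symm (DihedralGroup.r 1) := ⟨_, rfl⟩
  obtain ⟨s, hs⟩ : ∃ s, s = e.symm (DihedralGroup.sr 0) := ⟨_, rfl⟩
  have her : e r = DihedralGroup.r 1 := by rw [hr]; exact e.apply_symm_apply _
  have hes : e s = DihedralGroup.sr 0 := by rw [hs]; exact e.apply_symm_apply _
  have hpow : ∀ c : Subgroup.centralizer ({t} : Set G), ∀ i : ZMod 4, e c = DihedralGroup.r i → c = r ^ i.val := by
    intro c i h
    apply e.injective
    rw [h, map_pow, her, DihedralGroup.r_one_pow, ZMod.natCast_val, ZMod.cast_id]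
  have hnot : ∀ c : Subgroup.centralizer ({t} : Set G), (c : G) ∉ Subgroup.zpowers (r : G) → ∃ i, e c = DihedralGroup.sr i := by
    intro c hc
    rcases h : e c with i | i
    · exfalso
      apply hc
      rw [hpow c i h, Subgroup.coe_pow]
      exact Subgroup.npow_mem_zpowers _ _
    · exact ⟨i, rfl⟩
  refine ⟨r, s, ?_, ?_, s.2, ?_, ?_, ?_, ?_, ?_⟩
  · rw [Subgroup.orderOf_coe, ← MulEquiv.orderOf_eq e, her, DihedralGroup.orderOf_r_one]
  · have : r * r = ⟨t, htC⟩ := by
      apply e.injective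
      rw [map_mul, her, hte]
      rfl
    exact congrArg Subtype.val this
  · intro h
    obtain ⟨i, hi⟩ := Subgroup.mem_zpowers_iff.mp h
    have h1 : r ^ i = s := Subtype.ext hi
    have h2 := congrArg e h1
    rw [map_zpow, her, hes] at h2
    rw [DihedralGroup.r_one_zpow] at h2
    exact absurd h2 (by simp)
  · rw [Nat.card_congr e.toEquiv, DihedralGroup.nat_card]
  · intro g hg hgY
    obtain ⟨i, hi⟩ := hnot ⟨g, hg⟩ hgY
    constructor
    · have : (⟨g, hg⟩ : Subgroup.centralizer ({t} : Set G)) * ⟨g, hg⟩ = 1 := by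
        apply e.injective
        rw [map_mul, hi, map_one, DihedralGroup.sr_mul_sr, sub_self]
        rfl
      exact congrArg Subtype.val this
    · have : (⟨g, hg⟩ : Subgroup.centralizer ({t} : Set G)) * r = r⁻¹ * ⟨g, hg⟩ := by
        apply e.injective
        rw [map_mul, map_mul, hi, map_inv, her]
        have : ∀ i : ZMod 4, DihedralGroup.sr i * DihedralGroup.r 1 = (DihedralGroup.r 1)⁻¹ * DihedralGroup.sr i := by decide
        exact this i
      have h2 : g * r = (r : G)⁻¹ * g := congrArg Subtype.val this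
      rw [h2, mul_inv_cancel_right]
  · intro g hg h hh hgY hhY
    obtain ⟨i, hi⟩ := hnot ⟨g, hg⟩ hgY
    obtain ⟨j, hj⟩ := hnot ⟨h, hh⟩ hhY
    have h1 := hpow (⟨g, hg⟩ * ⟨h, hh⟩) (j - i) (by rw [map_mul, hi, hj, DihedralGroup.sr_mul_sr])
    have h2 : g * h = (r : G) ^ (j - i).val := congrArg Subtype.val h1
    rw [h2]
    exact Subgroup.npow_mem_zpowers _ _
  · intro g hg hg1 hh
    have h1 := hcen g hg hg1 hh
    have h2 := e.injective (h1.trans hte.symm)
    exact congrArg Subtype.val h2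

theorem char_at_inv {G : Type u} [Group G] [Finite G] {χ : G → ℂ} (h : IsCharacter G χ) {z : G} (hz : z * z = 1) :
    ∃ a b : ℕ, χ 1 = a + b ∧ χ z = a - b := by
  classical
  obtain ⟨n, ρ, rfl⟩ := h
  obtain ⟨b, ζ, h1, -, h3⟩ := exists_eigenbasis_rep ρ z
  have hζ : ∀ i, ζ i = 1 ∨ ζ i = -1 := by
    intro i
    have h2 : orderOf z ∣ 2 := orderOf_dvd_of_pow_eq_one (by rw [pow_two]; exact hz)
    have h4 : ζ i ^ 2 = 1 := by
      obtain ⟨k, hk⟩ := h2
      rw [hk, pow_mul, h1, one_pow]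
    have h5 : (ζ i - 1) * (ζ i + 1) = 0 := by
      linear_combination h4
    rcases mul_eq_zero.mp h5 with h | h
    · left
      linear_combination h
    · right
      linear_combination h
  refine ⟨(Finset.univ.filter (fun i => ζ i = 1)).card, (Finset.univ.filter (fun i => ¬ ζ i = 1)).card, ?_, ?_⟩
  · have := h3 0
    rw [zpow_zero] at this
    rw [this]
    simp only [zpow_zero, Finset.sum_const, nsmul_eq_mul, mul_one]
    rw [← Nat.cast_add, Finset.card_filter_add_card_filter_not]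
  · have := h3 1
    rw [zpow_one] at this
    rw [this]
    simp only [zpow_one]
    rw [← Finset.sum_filter_add_sum_filter_not Finset.univ (fun i => ζ i = 1) ζ, sub_eq_add_neg]
    congr 1
    · rw [Finset.sum_congr rfl (fun i hi => (Finset.mem_filter.mp hi).2)]
      simp
    · rw [Finset.sum_congr rfl (fun i hi => (hζ i).resolve_left (Finset.mem_filter.mp hi).2)]
      simp

section

variable {G : Type u} [Group G] {t r s : G}

namespace Cf

theorem card_Y (c : Cf t r s) : Nat.card (Subgroup.zpowers r) = 4 := by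
  rw [Nat.card_zpowers, c.ro]

theorem r4 (c : Cf t r s) : r ^ 4 = 1 := by rw [← c.ro, pow_orderOf_eq_one]

theorem tord (c : Cf t r s) : orderOf t = 2 := by
  rw [← c.r2, ← pow_two, orderOf_pow_of_dvd (by norm_num) (by rw [c.ro]; norm_num), c.ro]

theorem Y_le (c : Cf t r s) : Subgroup.zpowers r ≤ Subgroup.centralizer ({t} : Set G) := by
  rw [Subgroup.zpowers_le, Subgroup.mem_centralizer_singleton_iff, ← c.r2, mul_assoc]

theorem t_mem (c : Cf t r s) : t ∈ Subgroup.zpowers r := by
  rw [← c.r2]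
  exact mul_mem (Subgroup.mem_zpowers r) (Subgroup.mem_zpowers r)

/-- the involution of `Y` is unique -/
theorem inv_unique [Finite G] (c : Cf t r s) {u : G} (hu : orderOf u = 2) (huY : u ∈ Subgroup.zpowers r) : u = t := by
  have h1 := CfsgLib.Invol.eq_of_isCyclic (H := Subgroup.zpowers r) (x := ⟨u, huY⟩) (y := ⟨t, c.t_mem⟩)
    (by rw [Subgroup.orderOf_mk, hu]) (by rw [Subgroup.orderOf_mk, c.tord])
  exact congrArg Subtype.val h1

/-- elements of `Y` other than `1` power to `t` -/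
theorem dich [Finite G] (c : Cf t r s) {w : G} (hw : w ∈ Subgroup.zpowers r) (hw1 : w ≠ 1) : w = t ∨ w * w = t := by
  by_cases h2 : w * w = 1
  · left
    apply c.inv_unique _ hw
    exact orderOf_eq_prime (by rw [pow_two, h2]) hw1
  · right
    apply c.inv_unique _ (mul_mem hw hw)
    refine orderOf_eq_prime ?_ h2
    have h3 : w ^ 4 = 1 := by
      obtain ⟨i, rfl⟩ := Subgroup.mem_zpowers_iff.mp hw
      rw [← zpow_natCast, ← zpow_mul, mul_comm, zpow_mul, zpow_natCast, c.r4, one_zpow]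
    rw [← pow_two, ← pow_mul]
    exact h3

theorem s_inv (c : Cf t r s) {g : G} (hg : g ∈ Subgroup.centralizer ({t} : Set G)) (hgY : g ∉ Subgroup.zpowers r) {w : G} (hw : w ∈ Subgroup.zpowers r) :
    g * w * g⁻¹ = w⁻¹ := by
  obtain ⟨i, rfl⟩ := Subgroup.mem_zpowers_iff.mp hw
  rw [CfsgLib.H7BS.cj_zpow (c.out g hg hgY).2 i, zpow_neg]

/-- TI property -/
theorem ti [Finite G] (c : Cf t r s) {w g : G} (hw : w ∈ Subgroup.zpowers r) (hw1 : w ≠ 1) (hg : g⁻¹ * w * g ∈ Subgroup.zpowers r) :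
    g ∈ Subgroup.centralizer ({t} : Set G) := by
  have h1 : g⁻¹ * t * g ∈ Subgroup.zpowers r := by
    rcases c.dich hw hw1 with h | h
    · rwa [← h]
    · have := mul_mem hg hg
      have e : g⁻¹ * w * g * (g⁻¹ * w * g) = g⁻¹ * (w * w) * g := by group
      rwa [e, h] at this
  have h2 : g⁻¹ * t * g = t := by
    apply c.inv_unique _ h1
    have := MulEquiv.orderOf_eq (MulAut.conj g⁻¹) t
    rw [MulAut.conj_apply, inv_inv] at this
    rw [this, c.tord]
  rw [Subgroup.mem_centralizer_singleton_iff]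
  calc g * t = g * (g⁻¹ * t * g) := by rw [h2]
    _ = t * g := by group

theorem beta_res [Fintype G] (c : Cf t r s) {μ : Subgroup.zpowers r →* ℂˣ} (w : Subgroup.zpowers r) :
    indFun (Subgroup.zpowers r) (fun w => 1 - (μ w : ℂ)) (w : G) = 2 - (μ w : ℂ) - ((μ w)⁻¹ : ℂˣ) := by
  classical
  haveI : Fintype (Subgroup.zpowers r) := Fintype.ofFinite _
  rw [indFun_apply]
  have hμs : ∀ g : G, g ∈ Subgroup.centralizer ({t} : Set G) → g ∉ Subgroup.zpowers r → ∀ h : g⁻¹ * (w : G) * g ∈ Subgroup.zpowers r,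
      μ ⟨_, h⟩ = (μ w)⁻¹ := by
    intro g hg hgY h
    rw [← map_inv]
    congr 1
    apply Subtype.ext
    show g⁻¹ * (w : G) * g = (w : G)⁻¹
    have := c.s_inv (inv_mem hg) (fun h' => hgY ((Subgroup.inv_mem_iff _).mp h')) w.2
    rwa [inv_inv] at this
  by_cases hw1 : (w : G) = 1
  · have h1 : ∀ g : G, extendByZero (Subgroup.zpowers r) (fun w => 1 - (μ w : ℂ)) (g⁻¹ * (w : G) * g) = 0 := by
      intro g
      have e : g⁻¹ * (w : G) * g = 1 := by rw [hw1]; group
      rw [e, ext_of_mem (one_mem _)]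
      have : (⟨1, one_mem _⟩ : Subgroup.zpowers r) = 1 := rfl
      rw [this, map_one]; simp
    have hw : w = 1 := Subtype.ext hw1
    rw [Finset.sum_congr rfl fun g _ => h1 g, Finset.sum_const_zero, mul_zero, hw, map_one]
    norm_num
  · have h1 : ∀ g : G, extendByZero (Subgroup.zpowers r) (fun w => 1 - (μ w : ℂ)) (g⁻¹ * (w : G) * g) =
        extendByZero (Subgroup.zpowers r) (fun _ => 1 - (μ w : ℂ)) g + extendByZero (Subgroup.zpowers r) (fun _ => 1 - ((μ w)⁻¹ : ℂˣ)) (g * s) := by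
      intro g
      by_cases hg : g ∈ Subgroup.centralizer ({t} : Set G)
      · by_cases hgC : g ∈ Subgroup.zpowers r
        · have hgy : g * s ∉ Subgroup.zpowers r := by
            intro h
            apply c.sY
            have := mul_mem (inv_mem hgC) h
            rwa [inv_mul_cancel_left] at this
          have hm : g⁻¹ * (w : G) * g ∈ Subgroup.zpowers r := mul_mem (mul_mem (inv_mem hgC) w.2) hgC
          rw [ext_of_mem hm, ext_of_mem hgC, ext_of_not_mem hgy, add_zero]
          have e : (⟨g⁻¹ * (w : G) * g, hm⟩ : Subgroup.zpowers r) = (⟨g, hgC⟩ : Subgroup.zpowers r)⁻¹ * w * ⟨g, hgC⟩ := rfl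
          rw [e, map_mul, map_mul, map_inv, mul_comm (μ ⟨g, hgC⟩)⁻¹, inv_mul_cancel_right]
        · have hgy : g * s ∈ Subgroup.zpowers r := c.fac g hg s c.sC hgC c.sY
          have h2 := c.s_inv (inv_mem hg) (fun h' => hgC ((Subgroup.inv_mem_iff _).mp h')) w.2
          rw [inv_inv] at h2
          have hm : g⁻¹ * (w : G) * g ∈ Subgroup.zpowers r := by rw [h2]; exact inv_mem w.2
          rw [ext_of_mem hm, ext_of_not_mem hgC, ext_of_mem hgy, zero_add, hμs g hg hgC hm]
      · have hgC : g ∉ Subgroup.zpowers r := fun h => hg (c.Y_le h)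
        have hgy : g * s ∉ Subgroup.zpowers r := by
          intro h
          apply hg
          have := mul_mem (c.Y_le h) (inv_mem c.sC)
          rwa [mul_inv_cancel_right] at this
        have hm : g⁻¹ * (w : G) * g ∉ Subgroup.zpowers r := fun hm => hg (c.ti w.2 hw1 hm)
        rw [ext_of_not_mem hm, ext_of_not_mem hgC, ext_of_not_mem hgy, add_zero]
    rw [Finset.sum_congr rfl fun g _ => h1 g, Finset.sum_add_distrib, sum_ext]
    have h2 : ∑ g : G, extendByZero (Subgroup.zpowers r) (fun _ => 1 - ((μ w)⁻¹ : ℂˣ)) (g * s) = ∑ g : G, extendByZero (Subgroup.zpowers r) (fun _ => (1 : ℂ) - ((μ w)⁻¹ : ℂˣ)) g :=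
      Fintype.sum_equiv (Equiv.mulRight s) _ _ fun g => rfl
    rw [h2, sum_ext, Finset.sum_const, Finset.sum_const, Finset.card_univ, nsmul_eq_mul, nsmul_eq_mul, ← Nat.card_eq_fintype_card, ← mul_add, ← mul_assoc,
      inv_mul_cancel₀ (card_sub_ne_zero _), one_mul]
    ring

/-- the exceptional characters -/
theorem exists_chars [Fintype G] (c : Cf t r s) : ∃ μ : Subgroup.zpowers r →* ℂˣ, ∃ χ₁ χ₂ : IrrCharacter G,
    indFun (Subgroup.zpowers r) (fun w => 1 - (μ w : ℂ)) = 1 + (χ₂ : G → ℂ) - (χ₁ : G → ℂ) ∧ (∑ᶠ w, (μ w : ℂ)) = 0 ∧ 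
    (χ₁ : G → ℂ) ≠ 1 ∧ (χ₂ : G → ℂ) ≠ 1 ∧ χ₁ ≠ χ₂ ∧ (χ₁ : G → ℂ) 1 = (χ₂ : G → ℂ) 1 + 1 ∧ 1 + (χ₂ : G → ℂ) t - (χ₁ : G → ℂ) t = 4 := by
  classical
  haveI : Fintype (Subgroup.zpowers r) := Fintype.ofFinite _
  obtain ⟨μ, hμ⟩ := CfsgLib.H7BS.exists_faithful (T := Subgroup.zpowers r) (Subgroup.isCyclic_zpowers r)
  obtain ⟨β, hβ⟩ : ∃ β, β = indFun (Subgroup.zpowers r) (fun w => 1 - (μ w : ℂ)) := ⟨_, rfl⟩
  have hr2 : (⟨r, Subgroup.mem_zpowers r⟩ : Subgroup.zpowers r) ^ 2 ≠ 1 := by
    intro h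
    have h1 : r ^ 2 = 1 := congrArg Subtype.val h
    have h2 := orderOf_dvd_of_pow_eq_one h1
    rw [c.ro] at h2
    norm_num at h2
  have hμx : μ ⟨r, Subgroup.mem_zpowers r⟩ ^ 2 ≠ 1 := by
    rw [← map_pow]
    intro h
    exact hr2 (hμ (h.trans (map_one μ).symm))
  have hμne1 : (fun w : Subgroup.zpowers r => (μ w : ℂ)) ≠ 1 := by
    intro h
    apply hμx
    have := congrFun h ⟨r, Subgroup.mem_zpowers r⟩
    have h2 : μ ⟨r, Subgroup.mem_zpowers r⟩ = 1 := Units.ext this
    rw [h2, one_pow]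
  have hμneinv : (fun w : Subgroup.zpowers r => (μ w : ℂ)) ≠ fun w : Subgroup.zpowers r => ((μ⁻¹ : Subgroup.zpowers r →* ℂˣ) w : ℂ) := by
    intro h
    apply hμx
    have := congrFun h ⟨r, Subgroup.mem_zpowers r⟩
    have h2 : μ ⟨r, Subgroup.mem_zpowers r⟩ = (μ ⟨r, Subgroup.mem_zpowers r⟩)⁻¹ := Units.ext this
    rw [pow_two]
    nth_rewrite 1 [h2]
    exact inv_mul_cancel _
  have hμinvne1 : (fun w : Subgroup.zpowers r => ((μ⁻¹ : Subgroup.zpowers r →* ℂˣ) w : ℂ)) ≠ 1 := by
    intro h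
    apply hμx
    have := congrFun h ⟨r, Subgroup.mem_zpowers r⟩
    have h2 : (μ ⟨r, Subgroup.mem_zpowers r⟩)⁻¹ = 1 := Units.ext this
    rw [inv_eq_one.mp h2, one_pow]
  have hirr1 := isIrr_one (G := Subgroup.zpowers r)
  have hirrμ := isIrr_linear μ
  have hirrμ' := isIrr_linear (μ⁻¹ : Subgroup.zpowers r →* ℂˣ)
  have hcl : IsClassFunction G β := by rw [hβ]; exact isClassFunction_indFun _ _
  have e1 : (fun w : Subgroup.zpowers r => 1 - (μ w : ℂ)) = (1 : Subgroup.zpowers r → ℂ) - (fun w => (μ w : ℂ)) := by ext w; simp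
  have hres : (fun w : Subgroup.zpowers r => β (w : G)) = (2 : ℂ) • (1 : Subgroup.zpowers r → ℂ) - (fun w => (μ w : ℂ)) - (fun w => ((μ⁻¹ : Subgroup.zpowers r →* ℂˣ) w : ℂ)) := by
    ext w
    rw [hβ, beta_res c]
    simp
  have hββ : classInner β β = 3 := by
    nth_rewrite 1 [hβ]
    rw [CfsgLib.CharInd.frobenius (Subgroup.zpowers r) _ hcl, hres, e1, classInner_sub_left, classInner_sub_right, classInner_sub_right, classInner_sub_right, classInner_sub_right,
      classInner_smul_right, classInner_smul_right, IsIrrCharacter.inner_self hirr1, IsIrrCharacter.inner_self hirrμ,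
      IsIrrCharacter.inner_eq_zero hirr1 hirrμ (Ne.symm hμne1), IsIrrCharacter.inner_eq_zero hirr1 hirrμ' (Ne.symm hμinvne1),
      IsIrrCharacter.inner_eq_zero hirrμ hirr1 hμne1, IsIrrCharacter.inner_eq_zero hirrμ hirrμ' hμneinv, Complex.conj_ofNat]
    norm_num
  have hβ1 : classInner β (1 : G → ℂ) = 1 := by
    rw [hβ, CfsgLib.CharInd.frobenius (Subgroup.zpowers r) _ (IsCharacter.isClassFunction isCharacter_one), e1]
    have : (fun h : Subgroup.zpowers r => (1 : G → ℂ) h) = (1 : Subgroup.zpowers r → ℂ) := rfl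
    rw [this, classInner_sub_left, IsIrrCharacter.inner_self hirr1, IsIrrCharacter.inner_eq_zero hirrμ hirr1 hμne1, sub_zero]
  have hgen : IsGeneralizedCharacter G β := by
    rw [hβ, e1]
    exact isGeneralized_indFun _ (IsGeneralizedCharacter.sub isGeneralized_one (IsCharacter.isGeneralized (isCharacter_linear μ)))
  have hβone : β 1 = 0 := by
    rw [hβ, indFun_one, map_one]; simp
  have hirrG := isIrr_one (G := G)
  obtain ⟨χ₂, χ₁, hne, hsub⟩ := CfsgLib.H7BS.Cfg.exists_sub_of_norm_two' (θ := β - 1) (IsGeneralizedCharacter.sub hgen isGeneralized_one) (by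
    rw [classInner_sub_left, classInner_sub_right, classInner_sub_right, hββ, hβ1, IsIrrCharacter.inner_self hirrG]
    have : classInner (1 : G → ℂ) β = 1 := by rw [← classInner_conj_symm, hβ1, map_one]
    rw [this]; norm_num) (by rw [Pi.sub_apply, hβone]; simp)
  have hβe : β = 1 + (χ₂ : G → ℂ) - (χ₁ : G → ℂ) := by
    have : β = 1 + (β - 1) := by ring
    rw [this, hsub]; ring
  have hinn : classInner (χ₂ : G → ℂ) (1 : G → ℂ) - classInner (χ₁ : G → ℂ) (1 : G → ℂ) = 0 := by
    rw [← classInner_sub_left, ← hsub, classInner_sub_left, hβ1, IsIrrCharacter.inner_self hirrG, sub_self]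
  have hχ2 : (χ₂ : G → ℂ) ≠ 1 := by
    intro h
    rw [h, IsIrrCharacter.inner_self hirrG] at hinn
    have h1 : (χ₁ : G → ℂ) ≠ 1 := by
      intro h'
      apply hne
      exact Subtype.ext (h.trans h'.symm)
    rw [IsIrrCharacter.inner_eq_zero χ₁.2 hirrG h1] at hinn
    norm_num at hinn
  have hχ1 : (χ₁ : G → ℂ) ≠ 1 := by
    intro h
    rw [h, IsIrrCharacter.inner_self hirrG, IsIrrCharacter.inner_eq_zero χ₂.2 hirrG hχ2] at hinn
    norm_num at hinn
  refine ⟨μ, χ₁, χ₂, hβ ▸ hβe, ?_, hχ1, hχ2, hne.symm, ?_, ?_⟩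
  · have h1 := IsIrrCharacter.inner_eq_zero hirrμ hirr1 hμne1
    rw [classInner] at h1
    simp only [Pi.one_apply, map_one, mul_one] at h1
    rw [finsum_eq_sum_of_fintype]
    exact (mul_eq_zero.mp h1).resolve_left (inv_ne_zero (card_sub_ne_zero _))
  · have := congrFun hβe 1
    rw [hβone, Pi.sub_apply, Pi.add_apply, Pi.one_apply] at this
    linear_combination this
  · have h0 : (⟨t, c.t_mem⟩ : Subgroup.zpowers r) ^ 2 = 1 := by
      apply Subtype.ext
      show t ^ 2 = 1
      rw [← c.tord, pow_orderOf_eq_one]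
    have h1 : (μ ⟨t, c.t_mem⟩ : ℂ) = -1 := by
      have h2 : μ ⟨t, c.t_mem⟩ ^ 2 = 1 := by rw [← map_pow, h0, map_one]
      have h3 : (μ ⟨t, c.t_mem⟩ : ℂ) ^ 2 = 1 := by rw [← Units.val_pow_eq_pow_val, h2, Units.val_one]
      have h3' : ((μ ⟨t, c.t_mem⟩ : ℂ) - 1) * ((μ ⟨t, c.t_mem⟩ : ℂ) + 1) = 0 := by linear_combination h3
      rcases mul_eq_zero.mp h3' with h | h
      · exfalso
        have h4 : μ ⟨t, c.t_mem⟩ = 1 := Units.ext (by rw [Units.val_one]; linear_combination h)
        have h5 := hμ (h4.trans (map_one μ).symm)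
        have h6 : t = 1 := congrArg Subtype.val h5
        have := c.tord
        rw [h6, orderOf_one] at this
        norm_num at this
      · linear_combination h
    have h2 := beta_res c (μ := μ) ⟨t, c.t_mem⟩
    rw [← hβ, hβe] at h2
    have h3 : 1 + (χ₂ : G → ℂ) t - (χ₁ : G → ℂ) t = 2 - (μ ⟨t, c.t_mem⟩ : ℂ) - ((μ ⟨t, c.t_mem⟩)⁻¹ : ℂˣ) := h2
    rw [h3, Units.val_inv_eq_inv_val, h1]
    norm_num

/-- the centralizer of `t` is a Sylow `2`-subgroup -/
theorem sylow [Finite G] (c : Cf t r s) : ∃ P : Sylow 2 G, (P : Subgroup G) = Subgroup.centralizer ({t} : Set G) := by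
  have h1 : IsPGroup 2 (Subgroup.centralizer ({t} : Set G)) := IsPGroup.of_card (n := 3) (by rw [c.card]; norm_num)
  obtain ⟨P, hP⟩ := h1.exists_le_sylow
  refine ⟨P, le_antisymm ?_ hP⟩
  have htP : t ∈ (P : Subgroup G) := hP (c.Y_le c.t_mem)
  haveI : Nontrivial P := by
    refine ⟨⟨⟨t, htP⟩, 1, ?_⟩⟩
    intro h
    have h2 : t = 1 := congrArg Subtype.val h
    have := c.tord
    rw [h2, orderOf_one] at this
    norm_num at this
  haveI := P.2.center_nontrivial
  obtain ⟨z, hz⟩ := exists_ne (1 : Subgroup.center P)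
  have hzc : ∀ g ∈ (P : Subgroup G), ((z : P) : G) * g = g * ((z : P) : G) := by
    intro g hg
    exact (congrArg Subtype.val (Subgroup.mem_center_iff.mp z.2 ⟨g, hg⟩)).symm
  have hzC : ((z : P) : G) ∈ Subgroup.centralizer ({t} : Set G) := by
    rw [Subgroup.mem_centralizer_singleton_iff]
    exact hzc t htP
  have hz1 : ((z : P) : G) ≠ 1 := by
    intro h
    apply hz
    exact Subtype.ext (Subtype.ext h)
  have hzt := c.cen _ hzC hz1 (fun h hh => hzc h (hP hh))
  intro g hg
  rw [Subgroup.mem_centralizer_singleton_iff, ← hzt]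
  exact (hzc g hg).symm

theorem exists_odd [Finite G] (c : Cf t r s) : ∃ m : ℕ, Odd m ∧ Nat.card G = 8 * m := by
  obtain ⟨P, hP⟩ := c.sylow
  refine ⟨(P : Subgroup G).index, ?_, ?_⟩
  · rw [Nat.odd_iff, ← Nat.two_dvd_ne_zero]
    exact P.not_dvd_index
  · rw [← (P : Subgroup G).card_mul_index, hP, c.card]

theorem isConj_t [Finite G] (c : Cf t r s) (hperf : commutator G = ⊤) {u : G} (hu : orderOf u = 2) : IsConj t u := by
  obtain ⟨P, hP⟩ := c.sylow
  have h1 : IsPGroup 2 (Subgroup.zpowers u) := IsPGroup.of_card (n := 1) (by rw [Nat.card_zpowers, hu, pow_one])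
  obtain ⟨S', hS'⟩ := h1.exists_le_sylow
  obtain ⟨g, hg⟩ := MulAction.exists_smul_eq G P S'
  have h2 : u ∈ (S' : Subgroup G) := hS' (Subgroup.mem_zpowers u)
  rw [← hg, Sylow.coe_subgroup_smul, CfsgLib.SZ.mem_conj_iff] at h2
  have h3 : orderOf (g⁻¹ * u * g) = 2 := by
    have := MulEquiv.orderOf_eq (MulAut.conj g⁻¹) u
    rw [MulAut.conj_apply, inv_inv] at this
    rw [this, hu]
  have h4 : IsConj u (g⁻¹ * u * g) := isConj_iff.mpr ⟨g⁻¹, by rw [inv_inv]⟩
  refine IsConj.trans ?_ h4.symm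
  obtain ⟨v, hv⟩ : ∃ v, v = g⁻¹ * u * g := ⟨_, rfl⟩
  rw [← hv] at h2 h3 ⊢
  by_cases hvY : v ∈ Subgroup.zpowers r
  · rw [c.inv_unique h3 hvY]
  · have hrel : (Subgroup.zpowers r).relIndex (P : Subgroup G) = 2 := by
      have h5 := Subgroup.card_mul_index ((Subgroup.zpowers r).subgroupOf (P : Subgroup G))
      rw [Nat.card_congr (Subgroup.subgroupOfEquivOfLe (by rw [hP]; exact c.Y_le)).toEquiv, c.card_Y, hP, c.card, ← Subgroup.relIndex] at h5
      rw [hP]
      omega
    rcases Cfsg.Agent.S0111.result P (Subgroup.zpowers r) (by rw [hP]; exact c.Y_le) hrel v h3 h2 hvY with ⟨M, hMn, hMi, -⟩ | ⟨k, hk⟩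
    · exfalso
      have h6 : commutator G ≤ M := by
        haveI : IsMulCommutative (G ⧸ M) := by
          haveI : Fact (Nat.Prime 2) := ⟨Nat.prime_two⟩
          haveI : IsCyclic (G ⧸ M) := isCyclic_of_prime_card (p := 2) (by rw [← Subgroup.index_eq_card, hMi])
          exact inferInstance
        rw [commutator_def, Subgroup.commutator_le]
        intro a _ b _
        rw [← QuotientGroup.eq_one_iff, commutatorElement_def]
        show (a : G ⧸ M) * b * (a : G ⧸ M)⁻¹ * (b : G ⧸ M)⁻¹ = 1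
        rw [mul_comm' (a : G ⧸ M) b]
        group
      rw [hperf, top_le_iff] at h6
      rw [h6, Subgroup.index_top] at hMi
      norm_num at hMi
    · have h7 : orderOf (k * v * k⁻¹) = 2 := by
        have := MulEquiv.orderOf_eq (MulAut.conj k) v
        rw [MulAut.conj_apply] at this
        rw [this, h3]
      rw [← c.inv_unique h7 hk]
      exact (isConj_iff.mpr ⟨k, rfl⟩ : IsConj v _).symm

theorem count [Fintype G] (c : Cf t r s) (hperf : commutator G = ⊤) {μ : Subgroup.zpowers r →* ℂˣ} (hμ : (∑ᶠ w, (μ w : ℂ)) = 0) :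
    ∑ v, ∑ u, classInd t u * classInd t v * indFun (Subgroup.zpowers r) (fun w => 1 - (μ w : ℂ)) (u * v) = 4 * (Nat.card G : ℂ) := by
  classical
  haveI : Fintype (Subgroup.zpowers r) := Fintype.ofFinite _
  obtain ⟨E, hE⟩ : ∃ E, E = extendByZero (Subgroup.zpowers r) (fun w => 1 - (μ w : ℂ)) := ⟨_, rfl⟩
  have h1 : ∀ v u : G, classInd t u * classInd t v * indFun (Subgroup.zpowers r) (fun w => 1 - (μ w : ℂ)) (u * v) =
      (Nat.card (Subgroup.zpowers r) : ℂ)⁻¹ * ∑ x : G, classInd t u * classInd t v * E (x⁻¹ * (u * v) * x) := by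
    intro v u
    rw [indFun_apply, ← hE, ← Finset.mul_sum]
    ring
  have h2 : ∀ x : G, ∑ v, ∑ u, classInd t u * classInd t v * E (x⁻¹ * (u * v) * x) = ∑ v, ∑ u, classInd t u * classInd t v * E (u * v) := by
    intro x
    refine Fintype.sum_equiv (MulAut.conj x⁻¹).toEquiv _ _ fun v => Fintype.sum_equiv (MulAut.conj x⁻¹).toEquiv _ _ fun u => ?_
    have e : ∀ g : G, (MulAut.conj x⁻¹).toEquiv g = x⁻¹ * g * x := fun g => by
      show x⁻¹ * g * x⁻¹⁻¹ = _
      rw [inv_inv]
    have e2 : ∀ g : G, classInd t (x⁻¹ * g * x) = classInd t g := by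
      intro g
      have := isClassFunction_classInd t g x⁻¹
      rwa [inv_inv] at this
    rw [e, e, e2, e2]
    congr 2
    group
  have hinv : ∀ g ∈ Subgroup.centralizer ({t} : Set G), g ∉ Subgroup.zpowers r → classInd t g = 1 := by
    intro g hg hgY
    refine classInd_of_isConj (c.isConj_t hperf ?_)
    refine orderOf_eq_prime (by rw [pow_two]; exact (c.out g hg hgY).1) ?_
    rintro rfl
    exact hgY (one_mem _)
  have h3 : ∀ u : G, ∑ v, classInd t u * classInd t v * E (u * v) = extendByZero (Subgroup.centralizer ({t} : Set G)) (fun _ => (4 : ℂ)) u - extendByZero (Subgroup.zpowers r) (fun _ => (4 : ℂ)) u := by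
    intro u
    by_cases hu : u ∈ Subgroup.centralizer ({t} : Set G) ∧ u ∉ Subgroup.zpowers r
    · rw [ext_of_mem hu.1, ext_of_not_mem hu.2, hinv u hu.1 hu.2, sub_zero]
      have h4 : ∑ v, 1 * classInd t v * E (u * v) = ∑ w, classInd t (u⁻¹ * w) * E w :=
        Fintype.sum_equiv (Equiv.mulLeft u) _ _ fun v => by
          rw [one_mul]
          congr 2
          show v = u⁻¹ * (u * v)
          group
      have h5 : ∀ w : G, classInd t (u⁻¹ * w) * E w = E w := by
        intro w
        by_cases hw : w ∈ Subgroup.zpowers r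
        · rw [hinv, one_mul]
          · exact mul_mem (inv_mem hu.1) (c.Y_le hw)
          · intro h
            apply hu.2
            have := mul_mem hw (inv_mem h)
            have e : w * (u⁻¹ * w)⁻¹ = u := by group
            rwa [e] at this
        · rw [hE, ext_of_not_mem hw, mul_zero]
      rw [h4, Finset.sum_congr rfl fun w _ => h5 w, hE, sum_ext, Finset.sum_sub_distrib, ← finsum_eq_sum_of_fintype, ← finsum_eq_sum_of_fintype, hμ, sub_zero,
        finsum_eq_sum_of_fintype, Finset.sum_const, Finset.card_univ, ← Nat.card_eq_fintype_card, c.card_Y]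
      norm_num
    · have h4 : extendByZero (Subgroup.centralizer ({t} : Set G)) (fun _ => (4 : ℂ)) u - extendByZero (Subgroup.zpowers r) (fun _ => (4 : ℂ)) u = 0 := by
        by_cases huY : u ∈ Subgroup.zpowers r
        · rw [ext_of_mem huY, ext_of_mem (c.Y_le huY), sub_self]
        · have huC : u ∉ Subgroup.centralizer ({t} : Set G) := fun h => hu ⟨h, huY⟩
          rw [ext_of_not_mem huY, ext_of_not_mem huC, sub_self]
      rw [h4]
      refine Finset.sum_eq_zero fun v _ => ?_
      by_cases hcu : IsConj t u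
      · by_cases hcv : IsConj t v
        · have huo : orderOf u = 2 := by rw [← CfsgLib.Invol.orderOf_of_isConj hcu, c.tord]
          have hvo : orderOf v = 2 := by rw [← CfsgLib.Invol.orderOf_of_isConj hcv, c.tord]
          have hu' := CfsgLib.Invol.mul_self_of_orderOf huo
          have hv' := CfsgLib.Invol.mul_self_of_orderOf hvo
          by_cases hm : u * v ∈ Subgroup.zpowers r
          · by_cases h1 : u * v = 1
            · rw [h1, hE, ext_of_mem (one_mem _)]
              have : (⟨1, one_mem _⟩ : Subgroup.zpowers r) = 1 := rfl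
              rw [this, map_one]; simp
            · exfalso
              have hui : u⁻¹ = u := inv_eq_of_mul_eq_one_left hu'
              have hvi : v⁻¹ = v := inv_eq_of_mul_eq_one_left hv'
              have h5 : u⁻¹ * (u * v) * u ∈ Subgroup.zpowers r := by
                have e : u⁻¹ * (u * v) * u = (u * v)⁻¹ := by
                  rw [mul_inv_rev, hui, hvi, ← mul_assoc u u v, hu', one_mul]
                rw [e]
                exact inv_mem hm
              have huC := c.ti hm h1 h5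
              by_cases huY : u ∈ Subgroup.zpowers r
              · have hvY : v ∈ Subgroup.zpowers r := by
                  have := mul_mem (inv_mem huY) hm
                  rwa [inv_mul_cancel_left] at this
                apply h1
                rw [c.inv_unique huo huY, c.inv_unique hvo hvY]
                exact CfsgLib.Invol.mul_self_of_orderOf c.tord
              · exact hu ⟨huC, huY⟩
          · rw [hE, ext_of_not_mem hm, mul_zero]
        · rw [classInd_of_not_isConj hcv]; ring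
      · rw [classInd_of_not_isConj hcu]; ring
  haveI : Fintype (Subgroup.centralizer ({t} : Set G)) := Fintype.ofFinite _
  have h6 : ∑ v, ∑ u, classInd t u * classInd t v * E (u * v) = 16 := by
    rw [Finset.sum_comm, Finset.sum_congr rfl fun u _ => h3 u, Finset.sum_sub_distrib, sum_ext, sum_ext, Finset.sum_const, Finset.sum_const,
      Finset.card_univ, Finset.card_univ, ← Nat.card_eq_fintype_card, ← Nat.card_eq_fintype_card, c.card, c.card_Y]
    norm_num
  have h7 : ∑ v, ∑ u, classInd t u * classInd t v * indFun (Subgroup.zpowers r) (fun w => 1 - (μ w : ℂ)) (u * v) =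
      (Nat.card (Subgroup.zpowers r) : ℂ)⁻¹ * ∑ x : G, ∑ v, ∑ u, classInd t u * classInd t v * E (x⁻¹ * (u * v) * x) := by
    rw [Finset.sum_congr rfl fun v _ => Finset.sum_congr rfl fun u _ => h1 v u, Finset.sum_congr rfl fun v _ => (Finset.mul_sum _ _ _).symm, ← Finset.mul_sum,
      Finset.sum_congr rfl fun v _ => Finset.sum_comm, Finset.sum_comm]
  rw [h7, Finset.sum_congr rfl fun x _ => h2 x, h6, Finset.sum_const, Finset.card_univ, ← Nat.card_eq_fintype_card, c.card_Y, nsmul_eq_mul]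
  push_cast
  ring

end Cf

end


/-- If a finite group equals its own commutator subgroup and contains an involution whose centralizer is isomorphic to the dihedral group of order 8, then the group has order 168 or 360. -/
theorem result {G : Type*} [Group G] [Finite G] (hperf : commutator G = ⊤) (t : G) (ht : orderOf t = 2) (e : Subgroup.centralizer ({t} : Set G) ≃* DihedralGroup 4) : Nat.card G = 168 ∨ Nat.card G = 360 := by
  classical
  haveI : Fintype G := Fintype.ofFinite G
  obtain ⟨r, s, c⟩ := exists_cf ht e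
  obtain ⟨m, hm, hmG⟩ := c.exists_odd
  obtain ⟨μ, χ₁, χ₂, hβ, hμ, hχ1, hχ2, hne, hd, h4⟩ := c.exists_chars
  have hcount := c.count hperf hμ
  rw [hβ] at hcount
  obtain ⟨κ, hκ⟩ : ∃ κ : ℂ, κ = (Nat.card {x : G // IsConj t x} : ℂ) := ⟨_, rfl⟩
  have key : ∀ χ : IrrCharacter G, ∑ v, ∑ u, classInd t u * classInd t v * (χ : G → ℂ) (u * v) =
      (κ * (χ : G → ℂ) t) * (κ * (χ : G → ℂ) t) / (χ : G → ℂ) 1 := by
    intro χ
    rw [IsIrrCharacter.sum_sum_mul_mul χ.2 (isClassFunction_classInd t), sum_classInd_mul (irr_isClassFunction χ), hκ]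
  have hone : ∑ v : G, ∑ u : G, classInd t u * classInd t v * (1 : ℂ) = κ * κ := by
    simp only [mul_one]
    rw [Finset.sum_congr rfl fun v _ => (Finset.sum_mul _ _ _).symm, ← Finset.mul_sum, sum_classInd, hκ]
  have hκ8 : κ * 8 = 8 * m := by
    have := card_isConj_mul_card_centralizer t
    rw [c.card, hmG] at this
    rw [hκ]
    exact_mod_cast this
  have hκm : κ = m := by linear_combination hκ8 / 8
  have heq : κ * κ + κ * (χ₂ : G → ℂ) t * (κ * (χ₂ : G → ℂ) t) / (χ₂ : G → ℂ) 1 - κ * (χ₁ : G → ℂ) t * (κ * (χ₁ : G → ℂ) t) / (χ₁ : G → ℂ) 1 = 4 * (Nat.card G : ℂ) := by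
    rw [← hcount, ← key χ₂, ← key χ₁, ← hone, ← Finset.sum_add_distrib, ← Finset.sum_sub_distrib]
    refine Finset.sum_congr rfl fun v _ => ?_
    rw [← Finset.sum_add_distrib, ← Finset.sum_sub_distrib]
    refine Finset.sum_congr rfl fun u _ => ?_
    simp only [Pi.sub_apply, Pi.add_apply, Pi.one_apply]
    ring
  -- integrality
  have htt : t * t = 1 := by rw [← pow_two, ← ht, pow_orderOf_eq_one]
  obtain ⟨p, q, hp1, hpt⟩ := char_at_inv (irr_isCharacter χ₂) htt
  obtain ⟨a, ha⟩ : ∃ a : ℤ, (χ₂ : G → ℂ) t = a := ⟨(p : ℤ) - q, by rw [hpt]; push_cast; ring⟩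
  obtain ⟨f, hf, hf1⟩ := IsIrrCharacter.exists_pos χ₂.2
  have ha' : (χ₁ : G → ℂ) t = (a - 3 : ℤ) := by
    push_cast
    rw [← ha]
    linear_combination -h4
  have hd1 : (χ₁ : G → ℂ) 1 = f + 1 := by rw [hd, hf1]
  -- column orthogonality
  have hcol := sum_irr_mul_conj_of_isConj (IsConj.refl t)
  rw [c.card] at hcol
  have hle : 1 + a ^ 2 + (a - 3) ^ 2 ≤ 8 := by
    obtain ⟨χ₀, h0⟩ : ∃ χ₀ : IrrCharacter G, χ₀ = irrOne G := ⟨_, rfl⟩
    have h01 : χ₀ ≠ χ₁ := by
      rintro rfl
      apply hχ1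
      rw [h0]; rfl
    have h02 : χ₀ ≠ χ₂ := by
      rintro rfl
      apply hχ2
      rw [h0]; rfl
    have h5 : ∀ χ : IrrCharacter G, (χ : G → ℂ) t * conj ((χ : G → ℂ) t) = ((Complex.normSq ((χ : G → ℂ) t) : ℝ) : ℂ) := fun χ => Complex.mul_conj _
    rw [Finset.sum_congr rfl fun χ _ => h5 χ, ← Complex.ofReal_sum] at hcol
    have h6 : ∑ χ : IrrCharacter G, Complex.normSq ((χ : G → ℂ) t) = 8 := by exact_mod_cast hcol
    have h7 : ∑ χ ∈ ({χ₀, χ₁, χ₂} : Finset (IrrCharacter G)), Complex.normSq ((χ : G → ℂ) t) ≤ ∑ χ : IrrCharacter G, Complex.normSq ((χ : G → ℂ) t) :=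
      Finset.sum_le_sum_of_subset_of_nonneg (Finset.subset_univ _) fun _ _ _ => Complex.normSq_nonneg _
    rw [Finset.sum_insert (by simp [h01, h02]), Finset.sum_insert (by simp [hne]), Finset.sum_singleton, h6, ha, ha'] at h7
    have h8 : Complex.normSq ((χ₀ : G → ℂ) t) = 1 := by
      rw [h0]
      simp
    rw [h8] at h7
    have h9 : ∀ z : ℤ, Complex.normSq (z : ℂ) = ((z ^ 2 : ℤ) : ℝ) := by
      intro z
      rw [Complex.normSq_intCast]
      push_cast
      ring
    rw [h9, h9] at h7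
    have h10 : (((1 + ((a - 3) ^ 2 + a ^ 2) : ℤ)) : ℝ) ≤ ((8 : ℤ) : ℝ) := by
      push_cast
      push_cast at h7
      exact h7
    have h11 := Int.cast_le.mp h10
    linarith
  have hm0 : (m : ℂ) ≠ 0 := by
    have : 0 < m := hm.pos
    exact_mod_cast this.ne'
  have hf0 : (f : ℂ) ≠ 0 := by exact_mod_cast hf.ne'
  have hf10 : (f : ℂ) + 1 ≠ 0 := by exact_mod_cast (Nat.succ_ne_zero f)
  have hG8 : (Nat.card G : ℂ) = 8 * m := by rw [hmG]; push_cast; ring
  rw [hκm, ha, ha', hf1, hd1, hG8] at heq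
  have heq2 : (m : ℂ) * (f * (f + 1) + a ^ 2 * (f + 1) - (a - 3) ^ 2 * f) = 32 * f * (f + 1) := by
    push_cast at heq
    field_simp at heq
    linear_combination heq
  have heq3 : (m : ℤ) * (f * (f + 1) + a ^ 2 * (f + 1) - (a - 3) ^ 2 * f) = 32 * f * (f + 1) := by exact_mod_cast heq2
  have ha12 : a = 1 ∨ a = 2 := by
    have h1 : a ≤ 2 := by nlinarith
    have h2 : 1 ≤ a := by nlinarith
    omega
  obtain ⟨k, hk⟩ := hm
  rcases ha12 with rfl | rfl
  · right
    have h1 : (m : ℤ) * (f - 1) ^ 2 = 32 * f * (f + 1) := by linear_combination heq3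
    have h2 : ((f : ℤ) - 1) ∣ 64 := ⟨m * (f - 1) - 32 * (f - 1) - 96, by linear_combination -h1⟩
    obtain ⟨g, rfl⟩ : ∃ g, f = g + 1 := ⟨f - 1, by omega⟩
    have h3 : g ∣ 64 := by
      push_cast at h2
      rw [add_sub_cancel_right] at h2
      exact_mod_cast h2
    have h4 : g ∈ Nat.divisors 64 := Nat.mem_divisors.mpr ⟨h3, by norm_num⟩
    have h5 : Nat.divisors 64 = {1, 2, 4, 8, 16, 32, 64} := by decide +kernel
    rw [h5] at h4
    simp only [Finset.mem_insert, Finset.mem_singleton] at h4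
    rcases h4 with rfl | rfl | rfl | rfl | rfl | rfl | rfl <;> push_cast at h1 <;> omega
  · left
    have h1 : (m : ℤ) * (f + 2) ^ 2 = 32 * f * (f + 1) := by linear_combination heq3
    have h2 : ((f : ℤ) + 2) ∣ 64 := ⟨m * (f + 2) - 32 * (f + 2) + 96, by linear_combination -h1⟩
    have h3 : (f + 2) ∣ 64 := by exact_mod_cast h2
    have h4 : f + 2 ∈ Nat.divisors 64 := Nat.mem_divisors.mpr ⟨h3, by norm_num⟩
    have h5 : Nat.divisors 64 = {1, 2, 4, 8, 16, 32, 64} := by decide +kernel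
    rw [h5] at h4
    simp only [Finset.mem_insert, Finset.mem_singleton] at h4
    obtain ⟨g, hg⟩ : ∃ g, g = f + 2 := ⟨_, rfl⟩
    have h6 : (f : ℤ) = g - 2 := by rw [hg]; push_cast; ring
    rw [h6] at h1
    rw [← hg] at h4
    rcases h4 with rfl | rfl | rfl | rfl | rfl | rfl | rfl <;> push_cast at h1 <;> omega

end Cfsg.Agent.S0848
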