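import Cfsg.Statements.S0849
import Mathlib
import Cfsg.Agent.Lib.CharInd

set_option autoImplicit false
open Cfsg

set_option linter.style.haveILetI false
namespace Cfsg.Agent.S0849

open CfsgLib.CharInd
theorem fsum {α : Type*} [Fintype α] (s : Set α) (f : α → ℂ) (dp : DecidablePred (· ∈ s)) : ∑ᶠ p ∈ s, f p = ∑ p, if p ∈ s then f p else 0 := by
  rw [finsum_mem_def, finsum_eq_sum_of_fintype]
  refine Finset.sum_congr rfl fun p _ => ?_
  rw [Set.indicator_apply]


/-- Let H be a subgroup of a finite group G and S a subset of H that is mapped to itself under conjugation by H, is disjoint from its conjugate by any element outside H, and is closed under inverses. Let φ be a class function of H vanishing on H away from S, and let u, v be involutions of G. Then the sum of the induced function of φ over all products a * b with a conjugate to u and b conjugate to v equals the index of H times the sum of φ (a * b) over such pairs with a and b in H. -/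
theorem result {G : Type*} [Group G] [Fintype G] (H : Subgroup G) (S : Set G) (hSH : S ⊆ H) (hHS : ∀ h ∈ H, ∀ s ∈ S, h * s * h⁻¹ ∈ S) (hTI : ∀ g : G, g ∉ H → ∀ s ∈ S, g * s * g⁻¹ ∉ S) (hinv : ∀ s ∈ S, s⁻¹ ∈ S) (φ : H → ℂ) (hφ : Cfsg.IsClassFunction H φ) (hφS : ∀ x : H, (x : G) ∉ S → φ x = 0) (u v : G) (hu : orderOf u = 2) (hv : orderOf v = 2) : ∑ᶠ p ∈ {p : G × G | IsConj u p.1 ∧ IsConj v p.2}, Cfsg.indFun H φ (p.1 * p.2) = (H.index : ℂ) * ∑ᶠ p ∈ {p : H × H | IsConj u (p.1 : G) ∧ IsConj v (p.2 : G)}, φ (p.1 * p.2) := by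
  classical
  haveI : Fintype H := Fintype.ofFinite H
  rw [fsum _ _ (Classical.decPred _), fsum _ _ (Classical.decPred _)]
  have key : ∑ p : G × G, (if p ∈ {p : G × G | IsConj u p.1 ∧ IsConj v p.2} then Cfsg.indFun H φ (p.1 * p.2) else 0) =
      (H.index : ℂ) * ∑ p : G × G, (if p ∈ {p : G × G | IsConj u p.1 ∧ IsConj v p.2} then Cfsg.extendByZero H φ (p.1 * p.2) else 0) := by
    have h1 : ∀ p : G × G, (if p ∈ {p : G × G | IsConj u p.1 ∧ IsConj v p.2} then Cfsg.indFun H φ (p.1 * p.2) else 0) =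
        (Nat.card H : ℂ)⁻¹ * ∑ g : G, (if p ∈ {p : G × G | IsConj u p.1 ∧ IsConj v p.2} then Cfsg.extendByZero H φ (g⁻¹ * (p.1 * p.2) * g) else 0) := by
      intro p
      split_ifs with hp
      · rw [indFun_apply]
      · simp
    rw [Finset.sum_congr rfl fun p _ => h1 p, ← Finset.mul_sum, Finset.sum_comm]
    have h2 : ∀ g : G, ∑ p : G × G, (if p ∈ {p : G × G | IsConj u p.1 ∧ IsConj v p.2} then Cfsg.extendByZero H φ (g⁻¹ * (p.1 * p.2) * g) else 0) =
        ∑ p : G × G, (if p ∈ {p : G × G | IsConj u p.1 ∧ IsConj v p.2} then Cfsg.extendByZero H φ (p.1 * p.2) else 0) := by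
      intro g
      refine Fintype.sum_equiv ((MulAut.conj g⁻¹).toEquiv.prodCongr (MulAut.conj g⁻¹).toEquiv) _ _ fun p => ?_
      have e1 : ((MulAut.conj g⁻¹).toEquiv.prodCongr (MulAut.conj g⁻¹).toEquiv) p = (g⁻¹ * p.1 * g, g⁻¹ * p.2 * g) := by
        ext <;> simp
      rw [e1]
      have hc : ∀ a b : G, IsConj a (g⁻¹ * b * g) ↔ IsConj a b := by
        intro a b
        have h3 : IsConj b (g⁻¹ * b * g) := isConj_iff.mpr ⟨g⁻¹, by rw [inv_inv]⟩
        exact ⟨fun h => h.trans h3.symm, fun h => h.trans h3⟩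
      have e2 : ((g⁻¹ * p.1 * g, g⁻¹ * p.2 * g) ∈ {p : G × G | IsConj u p.1 ∧ IsConj v p.2}) ↔ p ∈ {p : G × G | IsConj u p.1 ∧ IsConj v p.2} := by
        simp only [Set.mem_setOf_eq, hc]
      have e3 : g⁻¹ * (p.1 * p.2) * g = (g⁻¹ * p.1 * g) * (g⁻¹ * p.2 * g) := by group
      by_cases hp : p ∈ {p : G × G | IsConj u p.1 ∧ IsConj v p.2}
      · rw [if_pos hp, if_pos (e2.mpr hp), e3]
      · rw [if_neg hp, if_neg (fun h => hp (e2.mp h))]
    rw [Finset.sum_congr rfl fun g _ => h2 g, Finset.sum_const, Finset.card_univ, nsmul_eq_mul, ← mul_assoc, ← Nat.card_eq_fintype_card]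
    congr 1
    have h4 := H.card_mul_index
    have h5 : (Nat.card G : ℂ) = (Nat.card H : ℂ) * (H.index : ℂ) := by rw [← h4]; push_cast; ring
    rw [h5, ← mul_assoc, inv_mul_cancel₀ (card_sub_ne_zero H), one_mul]
  refine Eq.trans (Eq.trans ?_ key) ?_
  · exact Finset.sum_congr rfl fun _ _ => by congr
  congr 1
  symm
  refine Fintype.sum_of_injective (fun p : H × H => ((p.1 : G), (p.2 : G))) ?_ _ _ ?_ ?_
  · rintro ⟨a, b⟩ ⟨a', b'⟩ h
    exact Prod.ext (Subtype.ext (congrArg Prod.fst h)) (Subtype.ext (congrArg Prod.snd h))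
  · rintro ⟨a, b⟩ hab
    dsimp only
    split_ifs with hp
    · obtain ⟨ha, hb⟩ := hp
      change IsConj u a at ha
      change IsConj v b at hb
      by_cases hm : a * b ∈ H
      · rw [ext_of_mem hm]
        apply hφS
        intro hs
        apply hab
        have hao : orderOf a = 2 := by
          obtain ⟨g, hg⟩ := isConj_iff.mp ha
          rw [← hg, ← hu]
          exact MulEquiv.orderOf_eq (MulAut.conj g) u
        have hbo : orderOf b = 2 := by
          obtain ⟨g, hg⟩ := isConj_iff.mp hb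
          rw [← hg, ← hv]
          exact MulEquiv.orderOf_eq (MulAut.conj g) v
        have ha2 : a * a = 1 := by rw [← pow_two, ← hao]; exact pow_orderOf_eq_one a
        have hb2 : b * b = 1 := by rw [← pow_two, ← hbo]; exact pow_orderOf_eq_one b
        have h6 : a * (a * b) * a⁻¹ = (a * b)⁻¹ := by
          have h7 : a⁻¹ = a := inv_eq_of_mul_eq_one_left ha2
          have h8 : b⁻¹ = b := inv_eq_of_mul_eq_one_left hb2
          rw [mul_inv_rev, h8, h7, ← mul_assoc a a b, ha2, one_mul]
        have haH : a ∈ H := by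
          by_contra haH
          exact hTI a haH (a * b) hs (by rw [h6]; exact hinv _ hs)
        have hbH : b ∈ H := by
          have := H.mul_mem (H.inv_mem haH) hm
          rwa [inv_mul_cancel_left] at this
        exact ⟨(⟨a, haH⟩, ⟨b, hbH⟩), rfl⟩
      · rw [ext_of_not_mem hm]
    · rfl
  · rintro ⟨a, b⟩
    dsimp only
    simp only [Set.mem_setOf_eq]
    split_ifs with hp
    · rw [ext_of_mem (H.mul_mem a.2 b.2)]
      rfl
    · rfl

end Cfsg.Agent.S0849
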