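import Cfsg.Statements.S0851
import Mathlib
import Cfsg.Agent.Lib.TIFrob
import Cfsg.Agent.Lib.Sibley3
import Cfsg.Agent.S1529

set_option autoImplicit false
open Cfsg

open scoped Pointwise
open scoped commutatorElement
set_option linter.style.haveILetI false
namespace Cfsg.Agent.S0851

open Cfsg CfsgLib.CharBasic CfsgLib.CharInd CfsgLib.CharClifford CfsgLib.CharCoh CfsgLib.FrobQuot CfsgLib.FrobCoh CfsgLib.CNOdd CfsgLib.CNOdd3 CfsgLib.CNOdd4 CfsgLib.TIFrob
open scoped commutatorElement


/-- Let K be a subgroup of the finite group G that meets each conjugate by an element outside its normalizer N trivially, is properly contained in N, and contains the centralizer of each of its non-identity elements (a T.I. subgroup with Frobenius normalizer). Suppose K is abelian, let e be the index of K in N, and call an irreducible character of N relevant when it takes at some element of K a value different from its degree. Then either there is exactly one relevant character and K is an elementary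 abelian p-group of order e + 1 for some prime p, or there are a sign ε and an injective map f from the relevant characters to the irreducible characters of G such that inducing χ - ξ to G gives ε (f χ - f ξ) for all relevant χ and ξ. -/
theorem result {G : Type*} [Group G] [Fintype G] (K : Subgroup G) (hTI : ∀ g : G, g ∉ Subgroup.normalizer (K : Set G) → ∀ k ∈ K, g * k * g⁻¹ ∈ K → k = 1) (hlt : K < Subgroup.normalizer (K : Set G)) (hC : ∀ k ∈ K, k ≠ 1 → Subgroup.centralizer ({k} : Set G) ≤ K) (hab : ∀ a ∈ K, ∀ b ∈ K, a * b = b * a) : (Nat.card {χ : Cfsg.IrrCharacter (Subgroup.normalizer (K : Set G)) // ∃ k : Subgroup.normalizer (K : Set G), (k : G) ∈ K ∧ (χ : ↥(Subgroup.normalizer (K : Set G)) → ℂ) k ≠ (χ : ↥(Subgroup.normalizer (K : Set G)) → ℂ) 1} = 1 ∧ ∃ p : ℕ, p.Prime ∧ Cfsg.IsElementaryAbelian p K ∧ Nat.card K = (K.subgroupOf (Subgroup.normalizer (K : Set G))).index + 1) ∨ ∃ (ε : ℂ) (f : {χ : Cfsg.IrrCharacter (Subgroup.normalizer (K : Set G)) // ∃ k : Subgroup.normalizer (K : Set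 G), (k : G) ∈ K ∧ (χ : ↥(Subgroup.normalizer (K : Set G)) → ℂ) k ≠ (χ : ↥(Subgroup.normalizer (K : Set G)) → ℂ) 1} → Cfsg.IrrCharacter G), (ε = 1 ∨ ε = -1) ∧ Function.Injective f ∧ ∀ χ ξ, Cfsg.indFun (Subgroup.normalizer (K : Set G)) ((χ.1 : ↥(Subgroup.normalizer (K : Set G)) → ℂ) - (ξ.1 : ↥(Subgroup.normalizer (K : Set G)) → ℂ)) = ε • ((f χ : G → ℂ) - (f ξ : G → ℂ)) := by
  classical
  haveI : Fintype (Subgroup.normalizer (K : Set G)) := Fintype.ofFinite _
  by_cases hK1 : K = ⊥
  · right
    refine ⟨1, fun χ => ?_, Or.inl rfl, ?_, ?_⟩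
    · exfalso
      obtain ⟨k, hk, hne⟩ := χ.2
      apply hne
      have : k = 1 := Subtype.ext ((Subgroup.eq_bot_iff_forall K).mp hK1 _ hk)
      rw [this]
    · intro χ
      exfalso
      obtain ⟨k, hk, hne⟩ := χ.2
      apply hne
      have : k = 1 := Subtype.ext ((Subgroup.eq_bot_iff_forall K).mp hK1 _ hk)
      rw [this]
    · intro χ
      exfalso
      obtain ⟨k, hk, hne⟩ := χ.2
      apply hne
      have : k = 1 := Subtype.ext ((Subgroup.eq_bot_iff_forall K).mp hK1 _ hk)
      rw [this]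
  have hKN := hlt.le
  have hCN := CfsgLib.CohTI.hC_sub (N := Subgroup.normalizer (K : Set G)) hC
  have hcardK : Nat.card (K.subgroupOf (Subgroup.normalizer (K : Set G))) = Nat.card K := Nat.card_congr (Subgroup.subgroupOfEquivOfLe hKN).toEquiv
  have hHtop : K.subgroupOf (Subgroup.normalizer (K : Set G)) ≠ ⊤ := by
    intro h
    rw [Subgroup.subgroupOf_eq_top] at h
    exact hlt.not_ge h
  have hHbot : K.subgroupOf (Subgroup.normalizer (K : Set G)) ≠ ⊥ := by
    intro h
    apply hK1
    rw [Subgroup.eq_bot_iff_forall]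
    intro w hw
    have h1 : (⟨w, hKN hw⟩ : Subgroup.normalizer (K : Set G)) ∈ K.subgroupOf (Subgroup.normalizer (K : Set G)) := by rw [Subgroup.mem_subgroupOf]; exact hw
    rw [h, Subgroup.mem_bot] at h1
    exact congrArg (Subtype.val : Subgroup.normalizer (K : Set G) → G) h1
  have hder : ⁅K.subgroupOf (Subgroup.normalizer (K : Set G)), K.subgroupOf (Subgroup.normalizer (K : Set G))⁆ = ⊥ := by
    rw [Subgroup.commutator_eq_bot_iff_le_centralizer]
    intro x hx
    rw [Subgroup.mem_centralizer_iff]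
    intro y hy
    exact Subtype.ext (hab y hy x hx)
  have hI0 : (K.subgroupOf (Subgroup.normalizer (K : Set G))).index ≠ 0 := Subgroup.index_ne_zero_of_finite
  have hfin : (inducedIrrAbove (K.subgroupOf (Subgroup.normalizer (K : Set G))) (⊥ : Subgroup (Subgroup.normalizer (K : Set G)))).Finite := above_finite _ ⊥
  obtain ⟨F, hF⟩ := hfin.exists_finset_coe
  have hFm : ∀ φ, φ ∈ F ↔ φ ∈ inducedIrrAbove (K.subgroupOf (Subgroup.normalizer (K : Set G))) (⊥ : Subgroup (Subgroup.normalizer (K : Set G))) :=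
    fun φ => by rw [← hF, Finset.mem_coe]
  have hFcard := frob_card hCN (A := ⊥) (by rw [hder]) F hFm
  rw [Subgroup.relIndex_bot_left, hcardK] at hFcard
  have hset := set_eq (N := Subgroup.normalizer (K : Set G)) hC
  by_cases hcard : Nat.card K = (K.subgroupOf (Subgroup.normalizer (K : Set G))).index + 1
  · left
    obtain ⟨hcomm, p, hp, hexp⟩ := CfsgLib.Sibley3.small_case hHbot hCN (by rw [hcardK]; exact hcard)
    refine ⟨?_, p, hp, ⟨⟨⟨fun a b => Subtype.ext (hab a a.2 b b.2)⟩⟩, ?_⟩, hcard⟩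
    · rw [hcard, Nat.add_sub_cancel] at hFcard
      have h2 : F.card = 1 := by
        have : F.card * (K.subgroupOf (Subgroup.normalizer (K : Set G))).index = 1 * (K.subgroupOf (Subgroup.normalizer (K : Set G))).index := by rw [hFcard, one_mul]
        exact Nat.eq_of_mul_eq_mul_right (Nat.pos_of_ne_zero hI0) this
      have hmem : ∀ φ, φ ∈ F ↔ (IsIrrCharacter (Subgroup.normalizer (K : Set G)) φ ∧ ∃ k : Subgroup.normalizer (K : Set G), (k : G) ∈ K ∧ φ k ≠ φ 1) := by
        intro φ
        rw [hFm, ← hset]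
        rfl
      have hequiv : {χ : IrrCharacter (Subgroup.normalizer (K : Set G)) // ∃ k : Subgroup.normalizer (K : Set G), (k : G) ∈ K ∧ (χ : ↥(Subgroup.normalizer (K : Set G)) → ℂ) k ≠ (χ : ↥(Subgroup.normalizer (K : Set G)) → ℂ) 1} ≃ {φ // φ ∈ F} :=
        { toFun := fun χ => ⟨χ.1, (hmem _).mpr ⟨χ.1.2, χ.2⟩⟩
          invFun := fun φ => ⟨⟨φ.1, ((hmem _).mp φ.2).1⟩, ((hmem _).mp φ.2).2⟩
          left_inv := fun χ => rfl
          right_inv := fun φ => rfl }
      rw [Nat.card_congr hequiv, Nat.card_eq_fintype_card, Fintype.card_coe, h2]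
    · intro a ha
      have h1 : (⟨a, hKN ha⟩ : Subgroup.normalizer (K : Set G)) ∈ K.subgroupOf (Subgroup.normalizer (K : Set G)) := by rw [Subgroup.mem_subgroupOf]; exact ha
      exact congrArg (Subtype.val : Subgroup.normalizer (K : Set G) → G) (hexp _ h1)
  · right
    have hnil := sub_nilpotent hlt hC
    rcases frob_main hCN (CfsgLib.CohTI.ti_isometry hTI) (fun α hα => CfsgLib.CohTI.ti_one hα) hnil hHtop hHbot (by rw [hcardK]; exact hcard) with h | ⟨p, hp, hm, hna, -⟩
    · obtain ⟨-, σ, hσ, hσα⟩ := h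
      have hmemF : ∀ χ : {χ : IrrCharacter (Subgroup.normalizer (K : Set G)) // ∃ k : Subgroup.normalizer (K : Set G), (k : G) ∈ K ∧ (χ : ↥(Subgroup.normalizer (K : Set G)) → ℂ) k ≠ (χ : ↥(Subgroup.normalizer (K : Set G)) → ℂ) 1},
          ((χ.1 : IrrCharacter (Subgroup.normalizer (K : Set G))) : ↥(Subgroup.normalizer (K : Set G)) → ℂ) ∈ inducedIrrAbove (K.subgroupOf (Subgroup.normalizer (K : Set G))) (⊥ : Subgroup (Subgroup.normalizer (K : Set G))) := by
        intro χ
        rw [← hset]
        exact ⟨χ.1.2, χ.2⟩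
      have htwo : ∃ a ∈ inducedIrrAbove (K.subgroupOf (Subgroup.normalizer (K : Set G))) (⊥ : Subgroup (Subgroup.normalizer (K : Set G))),
          ∃ b ∈ inducedIrrAbove (K.subgroupOf (Subgroup.normalizer (K : Set G))) (⊥ : Subgroup (Subgroup.normalizer (K : Set G))), a ≠ b := by
        have h1 : 1 < F.card := by
          have hK0 : Nat.card K ≠ 1 := fun h => hK1 (Subgroup.card_eq_one.mp h)
          have hK0' : 0 < Nat.card K := Nat.card_pos
          by_contra hle
          have h3 : F.card = 0 ∨ F.card = 1 := by omega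
          rcases h3 with h3 | h3
          · rw [h3, zero_mul] at hFcard; omega
          · rw [h3, one_mul] at hFcard; omega
        obtain ⟨a, ha, b, hb, hab'⟩ := Finset.one_lt_card.mp h1
        exact ⟨a, (hFm a).mp ha, b, (hFm b).mp hb, hab'⟩
      obtain ⟨ε, hε, hirr, hinj⟩ := Cfsg.Agent.S1529.result (Subgroup.normalizer (K : Set G)) _ (fun χ hχ => frob_isIrr hCN hχ) htwo σ hσ (by
        intro θ hθ h1
        have hm : θ ∈ zspanOn (inducedIrrAbove (K.subgroupOf (Subgroup.normalizer (K : Set G))) (⊥ : Subgroup (Subgroup.normalizer (K : Set G)))) {1}ᶜ := mem_zspanOn_one.mpr ⟨hθ, h1⟩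
        rw [hσα θ hm]
        exact CfsgLib.CohTI.ti_one hm)
      have hε2 : ε * ε = 1 := by rcases hε with rfl | rfl <;> norm_num
      have hε0 : ε ≠ 0 := by rintro rfl; norm_num at hε2
      refine ⟨ε, fun χ => ⟨ε • σ χ.1, hirr _ (hmemF χ)⟩, hε, ?_, ?_⟩
      · intro χ ξ h
        have h1 : ε • σ χ.1 = ε • σ ξ.1 := congrArg Subtype.val h
        apply Subtype.ext
        apply Subtype.ext
        exact hinj _ (hmemF χ) _ (hmemF ξ) (smul_right_injective _ hε0 h1)
      · intro χ ξ
        have hdeg : ∀ χ ∈ inducedIrrAbove (K.subgroupOf (Subgroup.normalizer (K : Set G))) (⊥ : Subgroup (Subgroup.normalizer (K : Set G))), χ 1 = ((K.subgroupOf (Subgroup.normalizer (K : Set G))).index : ℂ) :=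
          fun χ hχ => linear_degree (A := ⊥) (by rw [hder]) hχ
        have hm : ((χ.1 : IrrCharacter (Subgroup.normalizer (K : Set G))) : ↥(Subgroup.normalizer (K : Set G)) → ℂ) - ((ξ.1 : IrrCharacter (Subgroup.normalizer (K : Set G))) : ↥(Subgroup.normalizer (K : Set G)) → ℂ) ∈
            zspanOn (inducedIrrAbove (K.subgroupOf (Subgroup.normalizer (K : Set G))) (⊥ : Subgroup (Subgroup.normalizer (K : Set G)))) {1}ᶜ := by
          rw [mem_zspanOn_one]
          exact ⟨zspan_sub (mem_zspan_of_mem (hmemF χ)) (mem_zspan_of_mem (hmemF ξ)), by rw [Pi.sub_apply, hdeg _ (hmemF χ), hdeg _ (hmemF ξ), sub_self]⟩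
        have h1 := hσα _ hm
        rw [iso_sub (isZClosed_zspan _) hσ (mem_zspan_of_mem (hmemF χ)) (mem_zspan_of_mem (hmemF ξ))] at h1
        have h2 : ε • ((ε • σ χ.1 : G → ℂ) - ε • σ ξ.1) = σ χ.1 - σ ξ.1 := by
          rw [← smul_sub, smul_smul, hε2, one_smul]
        exact (h1.symm.trans h2.symm)
    · exact absurd hder hna

end Cfsg.Agent.S0851
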