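import Cfsg.Statements.S0855
import Mathlib
import Cfsg.Agent.Lib.CharBasic
import Cfsg.Agent.Lib.CharClifford
import Cfsg.Agent.Lib.CharInd
import Cfsg.Agent.Lib.Cover3
import Cfsg.Agent.Lib.CharGalois
import Cfsg.Agent.Lib.NPC

set_option autoImplicit false
open Cfsg

open scoped commutatorElement
set_option linter.style.haveILetI false
namespace Cfsg.Agent.S0855

universe u
open CfsgLib.CharBasic CfsgLib.CharClifford CfsgLib.Cover3 CfsgLib.CharGalois CfsgLib.NPC

/-- a constituent upstairs -/
theorem exists_above {G : Type*} [Group G] [Fintype G] (N : Subgroup G) [Fintype N] {φ : N → ℂ} (hφ : IsIrrCharacter N φ) : ∃ χ : G → ℂ, IsIrrCharacter G χ ∧ classInner (fun n : N => χ n) φ ≠ 0 := by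
  obtain ⟨χ, hχ⟩ := exists_constituent (CfsgLib.CharInd.isCharacter_indFun N (IsIrrCharacter.isCharacter hφ)) (by
    intro h0
    have h1 := CfsgLib.CharInd.indFun_one N φ
    rw [h0, Pi.zero_apply] at h1
    have h2 : (N.index : ℂ) ≠ 0 := by exact_mod_cast Subgroup.index_ne_zero_of_finite
    exact mul_ne_zero h2 (IsIrrCharacter.one_ne_zero hφ) h1.symm)
  refine ⟨χ, χ.2, ?_⟩
  intro h0
  apply hχ
  rw [CfsgLib.CharInd.frobenius N φ (irr_isClassFunction χ), ← classInner_conj_symm, h0, map_zero]

theorem npc_aux (p : ℕ) [hp : Fact p.Prime] : ∀ (n : ℕ) (G : Type u) [Group G] [Finite G], Nat.card G = n → (∀ χ : Cfsg.IrrCharacter G, ∃ k : ℕ, (χ : G → ℂ) 1 = (p : ℂ) ^ k) → NPC p G := by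
  intro n
  induction n using Nat.strong_induction_on with
  | _ n ih =>
  intro G _ _ hn h
  classical
  haveI : Fintype G := Fintype.ofFinite G
  by_cases hdvd : p ∣ Nat.card G
  swap
  · exact npc_of_not_dvd hdvd
  -- p divides the index of the commutator subgroup
  have h1 : p ∣ (commutator G).index := by
    choose k hk using h
    have h2 : (Nat.card G : ℂ) = ((∑ χ : IrrCharacter G, (p ^ k χ) ^ 2 : ℕ) : ℂ) := by
      rw [← sum_irr_one_sq G]
      push_cast
      exact Finset.sum_congr rfl (fun χ _ => by rw [hk])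
    have h3 : Nat.card G = ∑ χ : IrrCharacter G, (p ^ k χ) ^ 2 := by exact_mod_cast h2
    have h4 : (commutator G).index = (Finset.univ.filter (fun χ : IrrCharacter G => k χ = 0)).card := by
      rw [← card_linear G, Nat.card_eq_fintype_card, Fintype.card_subtype]
      congr 1
      ext χ
      simp only [Finset.mem_filter, Finset.mem_univ, true_and]
      rw [hk]
      constructor
      · intro h5
        have h6 : p ^ k χ = 1 := by exact_mod_cast h5
        rcases Nat.pow_eq_one.mp h6 with h7 | h7
        · exact absurd h7 hp.out.one_lt.ne'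
        · exact h7
      · intro h5; rw [h5, pow_zero]
    rw [← Finset.sum_filter_add_sum_filter_not Finset.univ (fun χ : IrrCharacter G => k χ = 0)] at h3
    have h5 : ∑ χ ∈ Finset.univ.filter (fun χ : IrrCharacter G => k χ = 0), (p ^ k χ) ^ 2 = (commutator G).index := by
      rw [h4, Finset.card_eq_sum_ones]
      apply Finset.sum_congr rfl
      intro χ hχ
      rw [(Finset.mem_filter.mp hχ).2]; norm_num
    have h6 : p ∣ ∑ χ ∈ Finset.univ.filter (fun χ : IrrCharacter G => ¬ k χ = 0), (p ^ k χ) ^ 2 := by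
      apply Finset.dvd_sum
      intro χ hχ
      exact (dvd_pow_self p (Finset.mem_filter.mp hχ).2).trans (dvd_pow_self _ two_ne_zero)
    rw [h5] at h3
    rw [h3] at hdvd
    exact (Nat.dvd_add_left h6).mp hdvd
  -- a proper normal subgroup of p-power index
  obtain ⟨M, hMn, hM1, j, hj⟩ : ∃ M : Subgroup G, M.Normal ∧ M ≠ ⊤ ∧ ∃ j : ℕ, M.index = p ^ j := by
    let f : Abelianization G →* Abelianization G := powMonoidHom p
    have hcard : Nat.card (Abelianization G) = (commutator G).index := rfl
    have hnt : f.range ≠ ⊤ := by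
      intro htop
      have hsurj : Function.Surjective f := MonoidHom.range_eq_top.mp htop
      have hinj := Finite.injective_iff_surjective.mpr hsurj
      obtain ⟨x, hx⟩ := exists_prime_orderOf_dvd_card' p (hcard ▸ h1)
      have h2 : f x = f 1 := by
        show x ^ p = 1 ^ p
        rw [one_pow, ← hx, pow_orderOf_eq_one]
      have h3 := hinj h2
      rw [h3, orderOf_one] at hx
      exact hp.out.one_lt.ne hx
    haveI : f.range.Normal := inferInstance
    have hpg : IsPGroup p (Abelianization G ⧸ f.range) := by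
      intro x
      obtain ⟨y, rfl⟩ := QuotientGroup.mk_surjective x
      refine ⟨1, ?_⟩
      rw [pow_one, ← QuotientGroup.mk_pow, QuotientGroup.eq_one_iff]
      exact ⟨y, rfl⟩
    obtain ⟨j, hj⟩ := IsPGroup.iff_card.mp hpg
    have hsurj : Function.Surjective (Abelianization.of : G →* Abelianization G) := QuotientGroup.mk_surjective
    refine ⟨f.range.comap Abelianization.of, inferInstance, ?_, j, ?_⟩
    · intro htop
      apply hnt
      rw [eq_top_iff]
      intro x _
      obtain ⟨y, rfl⟩ := hsurj x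
      have : y ∈ f.range.comap Abelianization.of := htop ▸ Subgroup.mem_top y
      exact this
    · rw [Subgroup.index_comap_of_surjective _ hsurj]
      exact hj
  haveI := hMn
  haveI : Fintype M := Fintype.ofFinite M
  refine NPC.of_normal hj (ih (Nat.card M) ?_ M rfl ?_)
  · have : Nat.card M < Nat.card G :=
      lt_of_le_of_ne (Subgroup.card_le_card_group M) fun h => hM1 ((Subgroup.card_eq_iff_eq_top M).mp h)
    omega
  · intro φ
    obtain ⟨χ, hχ, hne⟩ := exists_above M φ.2
    obtain ⟨k, hk⟩ := h ⟨χ, hχ⟩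
    have h2 := clifford_degree hχ φ.2 hne
    obtain ⟨e, he⟩ := IsCharacter.inner_nat (IsCharacter.restrict (IsIrrCharacter.isCharacter hχ) M) (irr_isCharacter φ)
    obtain ⟨d, hd0, hd⟩ := IsIrrCharacter.exists_pos φ.2
    have hk' : χ 1 = (p : ℂ) ^ k := hk
    rw [he, hk', hd] at h2
    have h3 : p ^ k = e * (inertia (φ : M → ℂ)).index * d := by exact_mod_cast h2
    obtain ⟨m, hm, rfl⟩ := (Nat.dvd_prime_pow hp.out).mp (⟨e * (inertia (φ : M → ℂ)).index, by rw [h3]; ring⟩ : d ∣ p ^ k)
    exact ⟨m, by rw [hd]; push_cast; rfl⟩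


/-- For a finite group G and a prime p: every irreducible character of G has degree a power of p if and only if G has an abelian normal subgroup whose order is prime to p and whose index is a power of p. -/
theorem result {G : Type*} [Group G] [Finite G] (p : ℕ) (hp : p.Prime) : (∀ χ : Cfsg.IrrCharacter G, ∃ k : ℕ, (χ : G → ℂ) 1 = (p : ℂ) ^ k) ↔ ∃ A : Subgroup G, A.Normal ∧ (∀ a ∈ A, ∀ b ∈ A, a * b = b * a) ∧ Nat.Coprime (Nat.card A) p ∧ ∃ k : ℕ, A.index = p ^ k := by
  classical
  haveI : Fintype G := Fintype.ofFinite G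
  haveI : Fact p.Prime := ⟨hp⟩
  constructor
  · intro h
    obtain ⟨A, hA, hc, k, hk⟩ := npc_aux p (Nat.card G) G rfl h
    refine ⟨A, hA, ?_, hc, k, hk⟩
    haveI : Fintype A := Fintype.ofFinite A
    -- all irreducible characters of A are linear
    have hlin : ∀ φ : IrrCharacter A, (φ : A → ℂ) 1 = 1 := by
      intro φ
      obtain ⟨χ, hχ, hne⟩ := exists_above A φ.2
      obtain ⟨k, hk⟩ := h ⟨χ, hχ⟩
      have h2 := clifford_degree hχ φ.2 hne
      obtain ⟨e, he⟩ := IsCharacter.inner_nat (IsCharacter.restrict (IsIrrCharacter.isCharacter hχ) A) (irr_isCharacter φ)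
      obtain ⟨d, hd0, hd⟩ := IsIrrCharacter.exists_pos φ.2
      have hk' : χ 1 = (p : ℂ) ^ k := hk
      rw [he, hk', hd] at h2
      have h3 : p ^ k = e * (inertia (φ : A → ℂ)).index * d := by exact_mod_cast h2
      obtain ⟨m, hm, rfl⟩ := (Nat.dvd_prime_pow hp).mp (⟨e * (inertia (φ : A → ℂ)).index, by rw [h3]; ring⟩ : d ∣ p ^ k)
      have h4 := IsIrrCharacter.degree_dvd φ.2 hd
      have h5 : m = 0 := by
        by_contra hm0
        have : p ∣ Nat.card A := (dvd_pow_self p hm0).trans h4
        exact (Nat.Prime.coprime_iff_not_dvd hp).mp hc.symm this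
      rw [hd, h5, pow_zero, Nat.cast_one]
    have hcomm : commutator A = ⊥ := by
      rw [eq_bot_iff]
      intro c hc
      have : IsConj c 1 := by
        rw [isConj_iff_forall_irr]
        intro ψ
        rw [hlin ψ]
        exact IsCharacter.eq_one_of_mem_commutator (irr_isCharacter ψ) (hlin ψ) hc
      rw [isConj_one_left] at this
      exact this
    intro a ha b hb
    have h1 : (⁅(⟨a, ha⟩ : A), (⟨b, hb⟩ : A)⁆ : A) ∈ commutator A := Subgroup.commutator_mem_commutator (Subgroup.mem_top _) (Subgroup.mem_top _)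
    rw [hcomm, Subgroup.mem_bot, commutatorElement_eq_one_iff_mul_comm] at h1
    exact congrArg Subtype.val h1
  · rintro ⟨A, hA, hab, hc, k, hk⟩ χ
    haveI := hA
    haveI : Fintype A := Fintype.ofFinite A
    have hα := IsCharacter.restrict (irr_isCharacter χ) A
    obtain ⟨ψ, hψ⟩ := exists_constituent hα (by
      intro h0
      have := congrFun h0 1
      simp only [Subgroup.coe_one, Pi.zero_apply] at this
      exact IsIrrCharacter.one_ne_zero χ.2 this)
    obtain ⟨e, he, hd⟩ := degree_ratio' ψ.2 χ.2 hψ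
    rw [IsIrrCharacter.degree_one_of_comm ψ.2 (fun a b => Subtype.ext (hab a a.2 b b.2)), mul_one] at he
    rw [hk] at hd
    obtain ⟨m, hm, rfl⟩ := (Nat.dvd_prime_pow hp).mp hd
    exact ⟨m, by rw [he]; push_cast; rfl⟩

end Cfsg.Agent.S0855
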