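import Cfsg.Statements.S0859
import Mathlib
import Cfsg.Agent.Lib.CharBasic
import Cfsg.Agent.Lib.CharClifford
import Cfsg.Agent.Lib.RelMono
import Cfsg.Agent.Lib.RelMono2
import Cfsg.Agent.Lib.MonoChar

set_option autoImplicit false
open Cfsg

set_option linter.style.haveILetI false
namespace Cfsg.Agent.S0859

open CfsgLib.CharBasic CfsgLib.CharClifford CfsgLib.RelMono CfsgLib.RelMono2 CfsgLib.MonoChar


/-- Let G be a finite solvable group and N a normal subgroup such that for every prime p every Sylow p-subgroup of N is abelian. Suppose every irreducible character of G is induced from an irreducible character of some subgroup containing N whose restriction to N is irreducible. Then every irreducible character of G is induced from a character of degree 1 of some subgroup. -/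
theorem result {G : Type*} [Group G] [Fintype G] [Group.IsSolvable G] (N : Subgroup G) [N.Normal] (hab : ∀ (p : ℕ) [Fact p.Prime] (P : Sylow p N), ∀ a ∈ P, ∀ b ∈ P, a * b = b * a) (hrel : ∀ χ : G → ℂ, Cfsg.IsIrrCharacter G χ → ∃ (H : Subgroup G) (hNH : N ≤ H) (ψ : H → ℂ), Cfsg.IsIrrCharacter H ψ ∧ Cfsg.indFun H ψ = χ ∧ Cfsg.IsIrrCharacter N (fun n : N => ψ ⟨(n : G), hNH n.2⟩)) (χ : G → ℂ) (hχ : Cfsg.IsIrrCharacter G χ) : ∃ (U : Subgroup G) (lam : U → ℂ), Cfsg.IsCharacter U lam ∧ lam 1 = 1 ∧ Cfsg.indFun U lam = χ := by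
  classical
  have hAS : AS N := by
    intro p hp P hP hPp a ha b hb
    haveI : Fact p.Prime := ⟨hp⟩
    have h1 : IsPGroup p (P.subgroupOf N) := hPp.comap_of_injective N.subtype N.subtype_injective
    obtain ⟨Q, hQ⟩ := h1.exists_le_sylow
    exact congrArg Subtype.val (hab p Q ⟨a, hP ha⟩ (hQ (Subgroup.mem_subgroupOf.mpr ha)) ⟨b, hP hb⟩ (hQ (Subgroup.mem_subgroupOf.mpr hb)))
  obtain ⟨H, hNH, ψ, hψ, hind, hres⟩ := hrel χ hχ
  haveI : Fintype H := Fintype.ofFinite H
  have hres' : IsIrrCharacter (N.subgroupOf H) (fun x : N.subgroupOf H => ψ x) :=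
    IsIrrCharacter.comp_equiv hres (Subgroup.subgroupOfEquivOfLe hNH)
  obtain ⟨U, lam, hU⟩ := mono_of_res _ H rfl (N.subgroupOf H) (hAS.sub H) ψ hψ hres'
  obtain ⟨V, mu, -, hV⟩ := ind_ind_linear H U lam
  refine ⟨V, fun v => (mu v : ℂ), isCharacter_linear mu, by simp, ?_⟩
  rw [← hV, ← hU, hind]

end Cfsg.Agent.S0859
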