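import Cfsg.Statements.S0860
import Mathlib
import Cfsg.Agent.Lib.CharBasic
import Cfsg.Agent.Lib.CharFS

set_option autoImplicit false
open Cfsg

open scoped Pointwise
set_option linter.style.haveILetI false
namespace Cfsg.Agent.S0860

open CfsgLib.CharBasic CfsgLib.CharFS


/-- Let a group A act on the set of irreducible characters and on the set of conjugacy classes of a finite group G in such a way that (a • χ) evaluated on the class a • C equals χ evaluated on C, for all a, χ and C. Then every element of A fixes exactly as many irreducible characters as it fixes conjugacy classes. -/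
theorem result {G : Type*} [Group G] [Finite G] {A : Type*} [Group A] [MulAction A (Cfsg.IrrCharacter G)] [MulAction A (ConjClasses G)] (hcompat : ∀ (a : A) (χ : Cfsg.IrrCharacter G) (g g' : G), ConjClasses.mk g' = a • ConjClasses.mk g → ((a • χ : Cfsg.IrrCharacter G) : G → ℂ) g' = (χ : G → ℂ) g) (a : A) : Nat.card {χ : Cfsg.IrrCharacter G // a • χ = χ} = Nat.card {C : ConjClasses G // a • C = C} := by
  classical
  haveI : Fintype G := Fintype.ofFinite G
  have hex : ∀ g : G, ∃ g' : G, ConjClasses.mk g' = a⁻¹ • ConjClasses.mk g := fun g => ConjClasses.mk_surjective _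
  choose α hα using hex
  have h1 := permutation_lemma α (fun χ : Cfsg.IrrCharacter G => a • χ) (fun χ g => hcompat a χ (α g) g (by rw [hα, smul_inv_smul]))
  rw [h1]
  apply Nat.card_congr
  refine Equiv.subtypeEquivRight fun C => ?_
  obtain ⟨g, rfl⟩ := ConjClasses.mk_surjective C
  constructor
  · intro h
    have h2 := h g rfl
    have h3 : ConjClasses.mk (α g) = ConjClasses.mk g := ConjClasses.mk_eq_mk_iff_isConj.mpr h2
    rw [hα] at h3
    exact (inv_smul_eq_iff.mp h3).symm
  · intro h x hx
    rw [← ConjClasses.mk_eq_mk_iff_isConj, hα, hx]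
    exact inv_smul_eq_iff.mpr h.symm

end Cfsg.Agent.S0860
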