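import Cfsg.Statements.S0861
import Mathlib
import Cfsg.Agent.Lib.CharBasic
import Cfsg.Agent.Lib.CharClifford
import Cfsg.Agent.Lib.Cover3
import Cfsg.Agent.Lib.CharGalois
import Cfsg.Agent.Lib.CharAvg

set_option autoImplicit false
open Cfsg

set_option linter.style.haveILetI false
namespace Cfsg.Agent.S0861

open CfsgLib.CharBasic CfsgLib.CharClifford CfsgLib.Cover3 CfsgLib.CharGalois CfsgLib.CharAvg
open scoped ComplexConjugate


/-- Let P be a normal abelian Sylow p-subgroup of the finite group G and suppose some element g of P has centralizer exactly P. Then the number of irreducible characters of G is at most the order of P, and if equality holds then G / P is abelian (the commutator subgroup lies in P). -/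
theorem result {G : Type*} [Group G] [Finite G] (p : ℕ) [Fact p.Prime] (P : Sylow p G) [(P : Subgroup G).Normal] (hab : ∀ a ∈ P, ∀ b ∈ P, a * b = b * a) (g : G) (hg : g ∈ P) (hC : Subgroup.centralizer ({g} : Set G) = P) : Nat.card (Cfsg.IrrCharacter G) ≤ Nat.card P ∧ (Nat.card (Cfsg.IrrCharacter G) = Nat.card P → commutator G ≤ P) := by
  classical
  haveI : Fintype G := Fintype.ofFinite G
  haveI : Fintype (P : Subgroup G) := Fintype.ofFinite _
  haveI : NeZero (Nat.card G) := ⟨Nat.card_pos.ne'⟩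
  haveI : Fintype (Cfsg.IrrCharacter G) := Fintype.ofFinite _
  have hp := (Fact.out : p.Prime)
  have hPab : ∀ a b : (P : Subgroup G), a * b = b * a := fun a b => Subtype.ext (hab a a.2 b b.2)
  have hgo : orderOf g ∣ Nat.card G := orderOf_dvd_natCard g
  -- Itô
  have hdeg : ∀ χ : Cfsg.IrrCharacter G, ∃ e : ℕ, (χ : G → ℂ) 1 = e ∧ e ∣ (P : Subgroup G).index := by
    intro χ
    have hα := IsCharacter.restrict (irr_isCharacter χ) (P : Subgroup G)
    obtain ⟨ψ, hψ⟩ := exists_constituent hα (by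
      intro h0
      have := congrFun h0 1
      simp only [Subgroup.coe_one, Pi.zero_apply] at this
      exact IsIrrCharacter.one_ne_zero χ.2 this)
    obtain ⟨e, he, hd⟩ := degree_ratio' ψ.2 χ.2 hψ
    rw [IsIrrCharacter.degree_one_of_comm ψ.2 hPab, mul_one] at he
    exact ⟨e, he, hd⟩
  have hne : ∀ χ : Cfsg.IrrCharacter G, (χ : G → ℂ) g ≠ 0 := by
    intro χ h0
    obtain ⟨e, he, hd⟩ := hdeg χ
    obtain ⟨a, ha⟩ := P.isPGroup' ⟨g, hg⟩
    have ha' : g ^ p ^ a = 1 := by
      have := congrArg Subtype.val ha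
      simpa using this
    obtain ⟨ω, hω, hω'⟩ := exists_pow_sub (IsCharacter.isGeneralized (irr_isCharacter χ)) hp g a
    rw [h0, zero_pow (pow_ne_zero _ hp.ne_zero), ha', he, zero_sub] at hω'
    have hpc : (p : ℂ) ≠ 0 := by exact_mod_cast hp.ne_zero
    have h1 : p ∣ e := by
      apply dvd_of_isIntegral_div hp.ne_zero
      have : (e : ℂ) / p = -ω := by
        field_simp
        linear_combination -hω'
      rw [this]
      exact hω.neg
    exact P.not_dvd_index (h1.trans hd)
  have hU : (0 : ℝ) < Fintype.card (ZMod (Nat.card G))ˣ := by exact_mod_cast Fintype.card_pos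
  have hsum : ∑ χ : Cfsg.IrrCharacter G, ∑ u : (ZMod (Nat.card G))ˣ, ‖(χ : G → ℂ) (g ^ (u : ZMod (Nat.card G)).val)‖ ^ 2 = (Fintype.card (ZMod (Nat.card G))ˣ : ℝ) * Nat.card P := by
    rw [Finset.sum_comm]
    have : ∀ u : (ZMod (Nat.card G))ˣ, ∑ χ : Cfsg.IrrCharacter G, ‖(χ : G → ℂ) (g ^ (u : ZMod (Nat.card G)).val)‖ ^ 2 = (Nat.card P : ℝ) := by
      intro u
      have h1 := sum_norm_sq (g ^ (u : ZMod (Nat.card G)).val)
      rw [centralizer_pow_val hgo, hC] at h1
      rw [← h1]
      exact Finset.sum_congr (by ext; simp) (fun _ _ => rfl)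
    rw [Finset.sum_congr rfl (fun u _ => this u), Finset.sum_const, Finset.card_univ, nsmul_eq_mul]
  have hle : ∀ χ : Cfsg.IrrCharacter G, (Fintype.card (ZMod (Nat.card G))ˣ : ℝ) ≤ ∑ u : (ZMod (Nat.card G))ˣ, ‖(χ : G → ℂ) (g ^ (u : ZMod (Nat.card G)).val)‖ ^ 2 := fun χ =>
    avg (IsCharacter.isGeneralized (irr_isCharacter χ)) hgo (hne χ)
  have hk : (Nat.card (Cfsg.IrrCharacter G) : ℝ) * Fintype.card (ZMod (Nat.card G))ˣ = ∑ χ : Cfsg.IrrCharacter G, (Fintype.card (ZMod (Nat.card G))ˣ : ℝ) := by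
    rw [Finset.sum_const, Finset.card_univ, nsmul_eq_mul, Nat.card_eq_fintype_card]
  constructor
  · have h1 := Finset.sum_le_sum (s := Finset.univ) (fun χ _ => hle χ)
    rw [← hk, hsum, mul_comm] at h1
    have := le_of_mul_le_mul_left h1 hU
    exact_mod_cast this
  · intro heq
    have hall : ∀ χ : Cfsg.IrrCharacter G, (Fintype.card (ZMod (Nat.card G))ˣ : ℝ) = ∑ u : (ZMod (Nat.card G))ˣ, ‖(χ : G → ℂ) (g ^ (u : ZMod (Nat.card G)).val)‖ ^ 2 := by
      have h2 := (Finset.sum_eq_sum_iff_of_le (s := Finset.univ) (fun χ _ => hle χ)).mp (by rw [← hk, hsum, heq, mul_comm])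
      exact fun χ => h2 χ (Finset.mem_univ _)
    intro c hc
    have hconj : IsConj (QuotientGroup.mk' (P : Subgroup G) c) 1 := by
      rw [isConj_iff_forall_irr]
      intro ψ
      have h1 := IsIrrCharacter.comp ψ.2 (QuotientGroup.mk' (P : Subgroup G)) (QuotientGroup.mk'_surjective _)
      have h2 := hall ⟨_, h1⟩
      have h3 : ∀ u : (ZMod (Nat.card G))ˣ, ((ψ : G ⧸ (P : Subgroup G) → ℂ) ∘ (QuotientGroup.mk' (P : Subgroup G))) (g ^ (u : ZMod (Nat.card G)).val) = (ψ : G ⧸ (P : Subgroup G) → ℂ) 1 := by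
        intro u
        simp only [Function.comp_apply]
        have h3 : QuotientGroup.mk' (P : Subgroup G) (g ^ (u : ZMod (Nat.card G)).val) = 1 := (QuotientGroup.eq_one_iff _).mpr (Subgroup.pow_mem _ hg _)
        rw [h3]
      simp only [h3] at h2
      rw [Finset.sum_const, Finset.card_univ, nsmul_eq_mul] at h2
      obtain ⟨m, hm0, hm⟩ := IsIrrCharacter.exists_pos ψ.2
      rw [hm, Complex.norm_natCast] at h2
      have h4 : (m : ℝ) ^ 2 = 1 := by
        have := mul_left_cancel₀ hU.ne' (h2.symm.trans (mul_one _).symm)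
        exact this
      have h5 : m = 1 := by
        have : m ^ 2 = 1 := by exact_mod_cast h4
        exact (Nat.pow_eq_one.mp this).resolve_right (by norm_num)
      have h6 : (ψ : G ⧸ (P : Subgroup G) → ℂ) 1 = 1 := by rw [hm, h5, Nat.cast_one]
      have h7 := IsCharacter.eq_one_of_mem_commutator (IsIrrCharacter.isCharacter h1) (by simpa using h6) hc
      rw [h6]
      exact h7
    rw [isConj_one_left] at hconj
    exact (QuotientGroup.eq_one_iff _).mp hconj

end Cfsg.Agent.S0861
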