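import Cfsg.Statements.S0863
import Mathlib
import Cfsg.Agent.Lib.DetExt2

set_option autoImplicit false
open Cfsg

namespace Cfsg.Agent.S0863

open Cfsg CfsgLib.CharBasic CfsgLib.DetChar CfsgLib.DetExt2


/-- Let N be a normal subgroup of the finite group G with G / N solvable, and ϑ an irreducible character of N, invariant under conjugation by G, of degree d coprime to the index of N. Then ϑ is the restriction of an irreducible character of G if and only if the determinantal character of ϑ is the restriction of a character of G of degree 1. -/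
theorem result {G : Type*} [Group G] [Finite G] (N : Subgroup G) [hN : N.Normal] (hsolv : Group.IsSolvable (G ⧸ N)) (ϑ : N → ℂ) (hϑ : Cfsg.IsIrrCharacter N ϑ) (hinv : ∀ (g : G) (n : N), ϑ ⟨g * n * g⁻¹, hN.conj_mem (n : G) n.2 g⟩ = ϑ n) (d : ℕ) (hd : ϑ 1 = d) (hcop : Nat.Coprime N.index d) : (∃ χ : G → ℂ, Cfsg.IsIrrCharacter G χ ∧ (∀ n : N, χ n = ϑ n)) ↔ ∃ μ : G → ℂ, Cfsg.IsCharacter G μ ∧ μ 1 = 1 ∧ ∀ n : N, μ n = Cfsg.detChar ϑ n := by
  constructor
  · rintro ⟨χ, hχ, h⟩
    have hχc := IsIrrCharacter.isCharacter hχ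
    refine ⟨Cfsg.detChar χ, isCharacter_detChar hχc, detChar_one hχc, fun n => ?_⟩
    rw [← detChar_restrict hχc N n]
    have : (fun k : N => χ k) = ϑ := funext h
    rw [this]
  · rintro ⟨μ, hμ, hμ1, hμN⟩
    obtain ⟨M, hM⟩ := IsCharacter.exists_linear hμ hμ1
    obtain ⟨χ, h1, h2, -⟩ := ext_solv _ G N rfl hsolv ϑ hϑ (fun g => funext (hinv g)) d hd hcop M (fun n => by rw [← hM]; exact hμN n)
    exact ⟨χ, h1, h2⟩

end Cfsg.Agent.S0863
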