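import Cfsg.Statements.S0865
import Mathlib
import Cfsg.Agent.Lib.DetExt3

set_option autoImplicit false
open Cfsg

namespace Cfsg.Agent.S0865

open Cfsg CfsgLib.CharBasic CfsgLib.DetExt3


/-- Let N be a normal subgroup of the finite group G and λ a character of N of degree 1, invariant under conjugation by G, whose order (under pointwise multiplication) is coprime to the index of N. Then there is a character μ of G of degree 1 restricting to λ with the same order as λ, and μ is the only degree-1 character of G restricting to λ whose order is coprime to the index of N. -/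
theorem result {G : Type*} [Group G] [Finite G] (N : Subgroup G) [hN : N.Normal] (lam : N → ℂ) (hlam : Cfsg.IsCharacter N lam ∧ lam 1 = 1) (hinv : ∀ (g : G) (n : N), lam ⟨g * n * g⁻¹, hN.conj_mem (n : G) n.2 g⟩ = lam n) (hcop : Nat.Coprime N.index (orderOf lam)) : ∃ μ : G → ℂ, (Cfsg.IsCharacter G μ ∧ μ 1 = 1 ∧ (∀ n : N, μ n = lam n) ∧ orderOf μ = orderOf lam) ∧ ∀ μ' : G → ℂ, Cfsg.IsCharacter G μ' ∧ μ' 1 = 1 → (∀ n : N, μ' n = lam n) → Nat.Coprime N.index (orderOf μ') → μ' = μ := by
  obtain ⟨L, hL⟩ := IsCharacter.exists_linear hlam.1 hlam.2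
  have hlam' : lam = fun n => (L n : ℂ) := funext hL
  have hord : orderOf lam = orderOf L := by rw [hlam', orderOf_linear]
  rw [hord] at hcop ⊢
  obtain ⟨μ, hμ, hμo⟩ := ext_linear_coprime (lam := L) (fun g n => by
      apply Units.ext; rw [← hL, ← hL]; exact hinv g n) hcop
  have hμo' : orderOf μ = orderOf L := by
    apply Nat.dvd_antisymm
    · rw [orderOf_dvd_iff_pow_eq_one]
      ext g
      rw [MonoidHom.pow_apply, hμo]; rfl
    · rw [orderOf_dvd_iff_pow_eq_one]
      ext n
      rw [MonoidHom.pow_apply, ← hμ, ← MonoidHom.pow_apply, pow_orderOf_eq_one]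
      rfl
  refine ⟨fun g => (μ g : ℂ), ⟨isCharacter_linear μ, by show ((μ 1 : ℂˣ) : ℂ) = 1; rw [map_one, Units.val_one], fun n => by show ((μ n : ℂˣ) : ℂ) = _; rw [hμ, hL], by rw [orderOf_linear, hμo']⟩, ?_⟩
  rintro μ' ⟨hμ'c, hμ'1⟩ hμ'N hμ'o
  obtain ⟨M, hM⟩ := IsCharacter.exists_linear hμ'c hμ'1
  have hμ'' : μ' = fun g => (M g : ℂ) := funext hM
  rw [hμ'', orderOf_linear] at hμ'o
  have h1 := linear_unique (N := N) (μ := μ) (μ' := M) hcop hμ'o hμo (fun g => by
    rw [← MonoidHom.pow_apply, pow_orderOf_eq_one]; rfl) (fun n hn => by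
    have h2 := hμ ⟨n, hn⟩
    simp only at h2
    rw [h2]
    apply Units.ext
    rw [← hM, ← hL]
    exact (hμ'N ⟨n, hn⟩).symm)
  rw [hμ'', h1]

end Cfsg.Agent.S0865
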