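import Cfsg.Statements.S0868
import Mathlib
import Cfsg.Agent.Lib.Gallagher

set_option autoImplicit false
open scoped ComplexConjugate
open Cfsg

namespace Cfsg.Agent.S0868

open Cfsg CfsgLib.CharBasic CfsgLib.CharInd CfsgLib.CharClifford CfsgLib.CliffordCorr CfsgLib.Gallagher
open scoped ComplexConjugate


/-- Let N be a normal subgroup of the finite group G, χ an irreducible character of G whose restriction ϑ to N is irreducible, and ψ an irreducible character of G. Define η on G by η g = (1 / order of N) * Σ over n in N of ψ (n * g) * conj (χ (n * g)). Then: if the restriction of ψ to N has nonzero inner product with ϑ, η is an irreducible character of G; if that inner product is zero, η vanishes identically; and if ψ = χ then η is identically 1. -/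
theorem result {G : Type*} [Group G] [Fintype G] (N : Subgroup G) [N.Normal] [Fintype N] (χ : G → ℂ) (hχ : Cfsg.IsIrrCharacter G χ) (hχN : Cfsg.IsIrrCharacter N (fun n : N => χ n)) (ψ : G → ℂ) (hψ : Cfsg.IsIrrCharacter G ψ) (η : G → ℂ) (hη : η = fun g => (Nat.card N : ℂ)⁻¹ * ∑ n : N, ψ ((n : G) * g) * conj (χ ((n : G) * g))) : (Cfsg.classInner (fun n : N => ψ n) (fun n : N => χ n) ≠ 0 → Cfsg.IsIrrCharacter G η) ∧ (Cfsg.classInner (fun n : N => ψ n) (fun n : N => χ n) = 0 → η = 0) ∧ (ψ = χ → η = fun _ => 1) := by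
  classical
  have hχc := IsIrrCharacter.isCharacter hχ
  have hχf := IsCharacter.isClassFunction hχc
  have hψc := IsIrrCharacter.isCharacter hψ
  have hψf := IsCharacter.isClassFunction hψc
  have hN0 : (Nat.card N : ℂ) ≠ 0 := card_ne_zero
  have h1irr : IsIrrCharacter N (fun _ : N => (1 : ℂ)) := isIrr_one'
  have hprod : (fun _ : N => (1 : ℂ)) * (fun n : N => χ n) = fun n : N => χ n := by funext n; simp
  have hbij := gallagher (G := G) (φ := fun _ : N => (1 : ℂ)) (θ := fun n : N => χ n) h1irr (fun g => rfl) (fun g => conjFn_res hχf g)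
    (by rw [hprod]; exact hχN) hχ (fun n => rfl)
  rw [hprod] at hbij
  -- characters with N in the kernel
  have hone : ∀ β : G → ℂ, IsIrrCharacter G β → classInner (indFun N (fun _ => 1)) β ≠ 0 → ∀ n : N, β n = β 1 := by
    intro β hβ h n
    have hβc := IsIrrCharacter.isCharacter hβ
    have hβf := IsCharacter.isClassFunction hβc
    have hT : ∀ g : G, g ∈ (⊤ : Subgroup G) ↔ conjFn g (fun _ : N => (1 : ℂ)) = fun _ => 1 := by
      intro g
      constructor
      · intro _; rfl
      · intro _; trivial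
    have hin : inertia (G := G) (fun _ : N => (1 : ℂ)) = ⊤ := (T_eq hT).symm
    have h2 : orb (G := G) (fun _ : N => (1 : ℂ)) = {⟨fun _ : N => (1 : ℂ), h1irr⟩} := by
      have hc := card_orb (G := G) h1irr
      rw [hin, Subgroup.index_top] at hc
      obtain ⟨a, ha⟩ := Finset.card_eq_one.mp hc
      have hmem : (⟨fun _ : N => (1 : ℂ), h1irr⟩ : IrrCharacter N) ∈ orb (G := G) (fun _ : N => (1 : ℂ)) := by
        rw [mem_orb]
        exact ⟨1, conjFn_one _⟩
      rw [ha, Finset.mem_singleton] at hmem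
      rw [ha, hmem]
    have h3 : classInner (fun n : N => β n) (fun _ : N => (1 : ℂ)) ≠ 0 := by
      rw [frobenius N _ hβf] at h
      rw [IsCharacter.inner_comm (IsCharacter.restrict hβc N) (IsIrrCharacter.isCharacter h1irr)]
      exact h
    have h4 := clifford hβ h1irr h3
    rw [h2, Finset.sum_singleton] at h4
    have h5 := congrFun h4 n
    have h6 := congrFun h4 1
    simp only [Pi.smul_apply, smul_eq_mul, Subgroup.coe_one] at h5 h6
    rw [h5, h6]
  have hone' : ∀ β : G → ℂ, IsIrrCharacter G β → classInner (indFun N (fun _ => 1)) β = 0 → ∑ n : N, β n = 0 := by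
    intro β hβ h
    have hβc := IsIrrCharacter.isCharacter hβ
    have hβf := IsCharacter.isClassFunction hβc
    rw [frobenius N _ hβf, IsCharacter.inner_comm (IsIrrCharacter.isCharacter h1irr) (IsCharacter.restrict hβc N)] at h
    simp only [classInner, map_one, mul_one] at h
    exact (mul_eq_zero.mp h).resolve_left (inv_ne_zero hN0)
  -- η is a class function
  have hηf : IsClassFunction G η := by
    intro x y
    rw [hη]
    show (Nat.card N : ℂ)⁻¹ * ∑ n : N, ψ ((n : G) * (y * x * y⁻¹)) * conj (χ ((n : G) * (y * x * y⁻¹))) = (Nat.card N : ℂ)⁻¹ * ∑ n : N, ψ ((n : G) * x) * conj (χ ((n : G) * x))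
    congr 1
    have e := Equiv.sum_comp (MulAut.conjNormal y : MulAut N).toEquiv (fun n : N => ψ ((n : G) * (y * x * y⁻¹)) * conj (χ ((n : G) * (y * x * y⁻¹))))
    rw [← e]
    apply Finset.sum_congr rfl
    intro n _
    have e2 : (((MulAut.conjNormal y : MulAut N).toEquiv n : N) : G) * (y * x * y⁻¹) = y * ((n : G) * x) * y⁻¹ := by
      show (((MulAut.conjNormal y : MulAut N) n : N) : G) * (y * x * y⁻¹) = y * ((n : G) * x) * y⁻¹
      rw [MulAut.conjNormal_apply]
      group
    rw [e2, hψf, hχf]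
  -- inner products of η
  have hinner : ∀ β : IrrCharacter G, classInner η β = if classInner (indFun N (fun _ => 1)) (β : G → ℂ) = 0 then 0 else classInner ψ ((β : G → ℂ) * χ) := by
    intro β
    have e1 : classInner η β = (Nat.card G : ℂ)⁻¹ * ∑ g : G, ((Nat.card N : ℂ)⁻¹ * ∑ n : N, ψ ((n : G) * g) * conj (χ ((n : G) * g))) * conj ((β : G → ℂ) g) := by
      rw [hη]; rfl
    have e2 : ∑ g : G, ((Nat.card N : ℂ)⁻¹ * ∑ n : N, ψ ((n : G) * g) * conj (χ ((n : G) * g))) * conj ((β : G → ℂ) g) =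
        ∑ g : G, ψ g * conj (χ g) * ((Nat.card N : ℂ)⁻¹ * conj (∑ n : N, (β : G → ℂ) ((n : G) * g))) := by
      have a1 : ∑ g : G, ((Nat.card N : ℂ)⁻¹ * ∑ n : N, ψ ((n : G) * g) * conj (χ ((n : G) * g))) * conj ((β : G → ℂ) g) =
          ∑ n : N, ∑ g : G, (Nat.card N : ℂ)⁻¹ * (ψ ((n : G) * g) * conj (χ ((n : G) * g))) * conj ((β : G → ℂ) g) := by
        rw [Finset.sum_comm]
        apply Finset.sum_congr rfl
        intro g _
        rw [Finset.mul_sum, Finset.sum_mul]
      have a2 : ∀ n ∈ (Finset.univ : Finset N), ∑ g : G, (Nat.card N : ℂ)⁻¹ * (ψ ((n : G) * g) * conj (χ ((n : G) * g))) * conj ((β : G → ℂ) g) =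
          ∑ g : G, (Nat.card N : ℂ)⁻¹ * (ψ g * conj (χ g)) * conj ((β : G → ℂ) (((n⁻¹ : N) : G) * g)) := by
        intro n _
        rw [← Equiv.sum_comp (Equiv.mulLeft (n : G)) (fun g => (Nat.card N : ℂ)⁻¹ * (ψ g * conj (χ g)) * conj ((β : G → ℂ) (((n⁻¹ : N) : G) * g)))]
        apply Finset.sum_congr rfl
        intro g _
        have : ((n⁻¹ : N) : G) * (Equiv.mulLeft (n : G) g) = g := by
          rw [Equiv.coe_mulLeft, Subgroup.coe_inv, inv_mul_cancel_left]
        rw [this]
        rfl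
      rw [a1, Finset.sum_congr rfl a2, Finset.sum_comm]
      apply Finset.sum_congr rfl
      intro g _
      rw [map_sum, Finset.mul_sum, Finset.mul_sum, ← Equiv.sum_comp (Equiv.inv N)]
      apply Finset.sum_congr rfl
      intro n _
      rw [Equiv.inv_apply, inv_inv]
      ring
    rw [e1, e2]
    split_ifs with h0
    · have h3 := hone' β β.2 h0
      have : ∑ g : G, ψ g * conj (χ g) * ((Nat.card N : ℂ)⁻¹ * conj (∑ n : N, (β : G → ℂ) ((n : G) * g))) = 0 := by
        apply Finset.sum_eq_zero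
        intro g _
        rw [sum_coset β.2, h3, zero_mul, zero_div, map_zero, mul_zero, mul_zero]
      rw [this, mul_zero]
    · have h3 := hone β β.2 h0
      have h4 : ∀ g ∈ (Finset.univ : Finset G), ψ g * conj (χ g) * ((Nat.card N : ℂ)⁻¹ * conj (∑ n : N, (β : G → ℂ) ((n : G) * g))) = ψ g * conj (((β : G → ℂ) * χ) g) := by
        intro g _
        have h5 : ∑ n : N, (β : G → ℂ) n = (Nat.card N : ℂ) * (β : G → ℂ) 1 := by
          rw [Finset.sum_congr rfl (fun n _ => h3 n), Finset.sum_const, Finset.card_univ, nsmul_eq_mul, ← Nat.card_eq_fintype_card]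
        rw [sum_coset β.2, h5, Pi.mul_apply, map_mul, map_div₀, map_mul, map_mul, map_natCast]
        have h6 : conj ((β : G → ℂ) 1) ≠ 0 := by
          intro h7
          apply IsIrrCharacter.one_ne_zero β.2
          exact (map_eq_zero (starRingEnd ℂ)).mp h7
        field_simp
      rw [Finset.sum_congr rfl h4]
      rfl
  have hmain : classInner (fun n : N => ψ n) (fun n : N => χ n) ≠ 0 → ∃ β : IrrCharacter G, η = β ∧ ψ = (β : G → ℂ) * χ := by
    intro hne
    have hψmem : ψ ∈ {ψ : G → ℂ | IsIrrCharacter G ψ ∧ classInner (indFun N (fun n : N => χ n)) ψ ≠ 0} := by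
      refine ⟨hψ, ?_⟩
      rw [frobenius N _ hψf, IsCharacter.inner_comm (IsCharacter.restrict hχc N) (IsCharacter.restrict hψc N)]
      exact hne
    obtain ⟨β₀, ⟨hβ₀, hβ₀'⟩, hβψ⟩ := hbij.surjOn hψmem
    have hβψ' : β₀ * χ = ψ := hβψ
    refine ⟨⟨β₀, hβ₀⟩, ?_, hβψ'.symm⟩
    rw [eq_sum_inner hηf, Finset.sum_eq_single (⟨β₀, hβ₀⟩ : IrrCharacter G)]
    · rw [hinner, if_neg hβ₀', ← hβψ', IsIrrCharacter.inner_self (by rw [hβψ']; exact hψ), one_smul]
    · intro γ _ hγ
      rw [hinner]
      split_ifs with h0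
      · rw [zero_smul]
      · rw [IsIrrCharacter.inner_eq_zero hψ (hbij.mapsTo ⟨γ.2, h0⟩).1, zero_smul]
        intro h1
        apply hγ
        apply Subtype.ext
        exact hbij.injOn ⟨γ.2, h0⟩ ⟨hβ₀, hβ₀'⟩ (by rw [hβψ']; exact h1.symm)
    · intro h; exact absurd (Finset.mem_univ _) h
  refine ⟨?_, ?_, ?_⟩
  · intro hne
    obtain ⟨β, hβ, -⟩ := hmain hne
    rw [hβ]; exact β.2
  · intro h0
    rw [eq_sum_inner hηf]
    apply Finset.sum_eq_zero
    intro β _
    rw [hinner]
    split_ifs with h1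
    · rw [zero_smul]
    · rw [IsIrrCharacter.inner_eq_zero hψ (hbij.mapsTo ⟨β.2, h1⟩).1, zero_smul]
      intro h2
      have h3 := (hbij.mapsTo ⟨β.2, h1⟩).2
      apply h3
      show classInner (indFun N (fun n : N => χ n)) ((β : G → ℂ) * χ) = 0
      rw [← h2, frobenius N _ hψf, IsCharacter.inner_comm (IsCharacter.restrict hχc N) (IsCharacter.restrict hψc N)]
      exact h0
  · intro hψχ
    have hne : classInner (fun n : N => ψ n) (fun n : N => χ n) ≠ 0 := by
      rw [hψχ, IsIrrCharacter.inner_self hχN]; exact one_ne_zero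
    obtain ⟨β, hβ, hβψ⟩ := hmain hne
    rw [hψχ] at hβψ
    -- β = 1 by injectivity
    have h1mem : (fun _ : G => (1 : ℂ)) ∈ {β : G → ℂ | IsIrrCharacter G β ∧ classInner (indFun N (fun _ => 1)) β ≠ 0} := by
      refine ⟨isIrr_one', ?_⟩
      rw [frobenius N _ (fun _ _ => rfl), IsIrrCharacter.inner_self h1irr]
      exact one_ne_zero
    have h2mem : (β : G → ℂ) ∈ {β : G → ℂ | IsIrrCharacter G β ∧ classInner (indFun N (fun _ => 1)) β ≠ 0} := by
      refine ⟨β.2, ?_⟩
      intro h0
      have h1 := hinner β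
      rw [if_pos h0, hβ, IsIrrCharacter.inner_self β.2] at h1
      exact one_ne_zero h1
    rw [hβ]
    apply hbij.injOn h2mem h1mem
    show (β : G → ℂ) * χ = (fun _ : G => (1 : ℂ)) * χ
    rw [← hβψ]
    funext g
    simp

end Cfsg.Agent.S0868
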