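import Cfsg.Statements.S0874
import Mathlib
import Cfsg.Agent.Lib.BrauerInd7

set_option autoImplicit false
open Cfsg

namespace Cfsg.Agent.S0874

open Cfsg CfsgLib.BrauerInd5 CfsgLib.BrauerInd7


/-- For a finite group G and a prime p there are an integer m not divisible by p and a list of triples (E, φ, c), with E a p-elementary subgroup, φ a character of E and c an integer, such that the constant function m on G equals the sum of the c • (function induced from φ). -/
theorem result {G : Type*} [Group G] [Fintype G] (p : ℕ) (hp : p.Prime) : ∃ (m : ℤ) (l : List ((E : Subgroup G) × ((E → ℂ) × ℤ))), ¬ (p : ℤ) ∣ m ∧ (∀ t ∈ l, Cfsg.IsElementary p t.1 ∧ Cfsg.IsCharacter t.1 t.2.1) ∧ (fun _ : G => (m : ℂ)) = (l.map fun t => (t.2.2 : ℂ) • Cfsg.indFun t.1 t.2.1).sum := by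
  obtain ⟨m, hm, h⟩ := exists_m_EL (G := G) hp
  obtain ⟨l, hl, h'⟩ := EL_list h
  exact ⟨m, l, hm, hl, h'⟩

end Cfsg.Agent.S0874
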