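import Cfsg.Statements.S0877
import Mathlib
import Cfsg.Agent.Lib.BrauerInd11

set_option autoImplicit false
open Cfsg

set_option linter.style.haveILetI false
namespace Cfsg.Agent.S0877

open Cfsg CfsgLib.BrauerInd9 CfsgLib.BrauerInd11


/-- Let H be a subgroup of the finite group G whose order is coprime to its index. Suppose that elements of H conjugate in G are conjugate in H, and that every subgroup E of G that is elementary for some prime (in the sense used for Brauer's characterisation of characters) and whose order divides the order of H is conjugate to a subgroup of H. Then there is a normal subgroup K with K ⊔ H = ⊤ and K ⊓ H trivial. -/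
theorem result {G : Type*} [Group G] [Finite G] (H : Subgroup G) (hHall : Nat.Coprime (Nat.card H) H.index) (hfus : ∀ x ∈ H, ∀ y ∈ H, IsConj x y → ∃ h ∈ H, h * x * h⁻¹ = y) (helem : ∀ (E : Subgroup G) (p : ℕ), p.Prime → Cfsg.IsElementary p E → Nat.card E ∣ Nat.card H → ∃ g : G, E.map (MulAut.conj g).toMonoidHom ≤ H) : ∃ K : Subgroup G, K.Normal ∧ K ⊔ H = ⊤ ∧ K ⊓ H = ⊥ := by
  classical
  haveI : Fintype G := Fintype.ofFinite G
  have hcard : Nat.card G = H.index * Nat.card H := by rw [mul_comm]; exact (Subgroup.card_mul_index H).symm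
  obtain ⟨k, hk0, hk1⟩ := exists_k hHall.symm
  have hex : ∀ x : G, ∃ y : H, IsConj (x ^ k) (y : G) := by
    intro x
    obtain ⟨-, u, -, -, -, hv⟩ := parts hcard hHall.symm hk0 hk1 x
    have h1 : Nat.card (Subgroup.zpowers (x ^ k)) ∣ Nat.card H := by
      rw [Nat.card_zpowers]
      apply hv.dvd_of_dvd_mul_left
      rw [← hcard]; exact orderOf_dvd_natCard _
    obtain ⟨g, hg⟩ := helem (Subgroup.zpowers (x ^ k)) 2 Nat.prime_two (isElementary_cyclic Nat.prime_two) h1
    exact ⟨⟨g * x ^ k * g⁻¹, hg (Subgroup.mem_map.mpr ⟨x ^ k, Subgroup.mem_zpowers _, rfl⟩)⟩, isConj_iff.mpr ⟨g, rfl⟩⟩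
  have hfus' : ∀ y y' : H, IsConj (y : G) (y' : G) → IsConj y y' := by
    intro y y' h
    obtain ⟨c, hc, hc'⟩ := hfus y y.2 y' y'.2 h
    exact isConj_iff.mpr ⟨⟨c, hc⟩, Subtype.ext hc'⟩
  exact complement hex hfus' hcard hHall.symm rfl hk0 hk1 helem

end Cfsg.Agent.S0877
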