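import Cfsg.Statements.S0880
import Mathlib
import Cfsg.Agent.Lib.H7Z2
import Cfsg.Agent.Lib.CharBasic2

set_option autoImplicit false
open Cfsg

open scoped Pointwise
set_option linter.style.haveILetI false
namespace Cfsg.Agent.S0880

open CfsgLib.H7Z MulAction


/-- Let G be a finite simple Zassenhaus group on Ω with n points whose two-point stabilizer E has odd order less than n - 2. Then there are two elements of G, each fixing no point of Ω, that are not conjugate. -/
theorem result {G Ω : Type*} [Group G] [Finite G] [MulAction G Ω] [Fintype Ω] (hZ : Cfsg.IsZassenhausGroup G Ω) {a b : Ω} (hab : a ≠ b) [IsSimpleGroup G] (hodd : Odd (Nat.card ↥(MulAction.stabilizer G a ⊓ MulAction.stabilizer G b : Subgroup G))) (hlt : Nat.card ↥(MulAction.stabilizer G a ⊓ MulAction.stabilizer G b : Subgroup G) < Fintype.card Ω - 2) : ∃ x y : G, (∀ c : Ω, x • c ≠ c) ∧ (∀ c : Ω, y • c ≠ c) ∧ ¬ IsConj x y := by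
  classical
  haveI : Fintype G := Fintype.ofFinite G
  haveI := hZ.1
  have hn := CfsgLib.PermZ4.three_le hZ
  have hc := card_fpf hZ
  have hG := card_G hZ hab
  obtain ⟨x₀, hx₀, hx₀1⟩ := exists_ne_one_EE hZ hab
  have he : 3 ≤ Nat.card ↥(MulAction.stabilizer G a ⊓ MulAction.stabilizer G b : Subgroup G) := by
    have h1 : 1 < Nat.card ↥(MulAction.stabilizer G a ⊓ MulAction.stabilizer G b : Subgroup G) := by
      rw [Finite.one_lt_card_iff_nontrivial]
      exact ⟨⟨⟨x₀, hx₀⟩, 1, fun h => hx₀1 (congrArg Subtype.val h)⟩⟩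
    obtain ⟨k, hk⟩ := hodd
    omega
  obtain ⟨e, hee⟩ : ∃ e, e = Nat.card ↥(MulAction.stabilizer G a ⊓ MulAction.stabilizer G b : Subgroup G) := ⟨_, rfl⟩
  rw [← hee] at he hG
  obtain ⟨m, hm⟩ : ∃ m, Fintype.card Ω = m + 3 := ⟨Fintype.card Ω - 3, by omega⟩
  rw [hm] at hc hG
  have e2 : m + 3 - 1 = m + 2 := rfl
  have e3 : m + 3 - 2 = m + 1 := rfl
  rw [e2] at hG
  rw [e2, e3] at hc
  obtain ⟨f, hf⟩ : ∃ f, f = Nat.card {g : G // ∀ c : Ω, g • c ≠ c} := ⟨_, rfl⟩
  rw [← hf, hG] at hc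
  -- f > 0
  have hfpos : 0 < f := by nlinarith
  by_contra hcon
  push Not at hcon
  rw [hf] at hfpos
  haveI : Nonempty {g : G // ∀ c : Ω, g • c ≠ c} := Finite.card_pos_iff.mp hfpos
  obtain ⟨x, hx⟩ := (inferInstance : Nonempty {g : G // ∀ c : Ω, g • c ≠ c})
  have hcl : Nat.card {g : G // ∀ c : Ω, g • c ≠ c} = Nat.card {g : G // IsConj x g} := by
    apply Nat.card_congr
    apply Equiv.subtypeEquivRight
    intro y
    constructor
    · intro hy
      exact hcon x y hx hy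
    · intro hy c hcc
      obtain ⟨g, rfl⟩ := isConj_iff.mp hy
      rw [conj_fix] at hcc
      exact hx _ hcc
  have h1 := CfsgLib.CharBasic.card_isConj_mul_card_centralizer x
  rw [← hcl, ← hf, hG] at h1
  have hxc : x ≠ 1 := by
    rintro rfl
    exact hx a (one_smul G a)
  obtain ⟨c, hcc⟩ : ∃ c, c = Nat.card (Subgroup.centralizer ({x} : Set G)) := ⟨_, rfl⟩
  have hc2 : 2 ≤ c := by
    rw [hcc]
    have : 1 < Nat.card (Subgroup.centralizer ({x} : Set G)) := by
      rw [Finite.one_lt_card_iff_nontrivial]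
      exact ⟨⟨⟨x, Subgroup.mem_centralizer_singleton_iff.mpr rfl⟩, 1, fun h => hxc (congrArg Subtype.val h)⟩⟩
    omega
  rw [← hcc] at h1
  rcases Nat.lt_or_ge c 3 with h3 | h3
  · have : c = 2 := by omega
    rw [this] at h1
    nlinarith
  · -- f * 3 ≤ f * c = |G|
    have h4 : f * 3 ≤ (m + 3) * (m + 2) * e := by rw [← h1]; exact Nat.mul_le_mul_left _ h3
    have h5 : (m + 3) * (m + 2) * 3 ≤ (m + 3) * (m + 2) * e := Nat.mul_le_mul_left _ he
    nlinarith

end Cfsg.Agent.S0880
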