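import Cfsg.Statements.S0893
import Mathlib
import Cfsg.Agent.Lib.CharBasic
import Cfsg.Agent.Lib.CharBasic2
import Cfsg.Agent.Lib.EspChar
import Cfsg.Agent.Lib.PGrp
import Cfsg.Agent.Lib.CharClifford
import Cfsg.Agent.Lib.CharInd

set_option autoImplicit false
open Cfsg

set_option linter.style.haveILetI false
namespace Cfsg.Agent.S0893

open CfsgLib.CharBasic CfsgLib.EspChar CfsgLib.CharClifford


/-- Let P be an extraspecial p-group of order p ^ (2 * n + 1), A an abelian subgroup of order p ^ (n + 1), and λ a character of A of degree 1 that is not identically 1 on the elements of A lying in the centre of P. Then the function induced from λ to P is an irreducible character of P and vanishes at every element outside the centre. -/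
theorem result {P : Type*} [Group P] [Fintype P] (p n : ℕ) [Fact p.Prime] (hP : Cfsg.IsExtraspecial p P) (hcard : Nat.card P = p ^ (2 * n + 1)) (A : Subgroup P) (hab : ∀ a ∈ A, ∀ b ∈ A, a * b = b * a) (hA : Nat.card A = p ^ (n + 1)) (lam : A → ℂ) (hlam : Cfsg.IsCharacter A lam ∧ lam 1 = 1) (hZ : ∃ a : A, (a : P) ∈ Subgroup.center P ∧ lam a ≠ 1) : Cfsg.IsIrrCharacter P (Cfsg.indFun A lam) ∧ ∀ x : P, x ∉ Subgroup.center P → Cfsg.indFun A lam x = 0 := by
  classical
  haveI : Fintype A := Fintype.ofFinite A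
  have hp := (Fact.out : p.Prime)
  have hn : n ≠ 0 := by
    rintro rfl
    obtain ⟨m, hm1, hm⟩ := CfsgLib.PGrp.esp_card hP
    rw [hcard] at hm
    have := Nat.pow_right_injective hp.two_le hm
    omega
  have hind := CfsgLib.CharInd.isCharacter_indFun A hlam.1
  have hidx : A.index = p ^ n := by
    have h4 := Subgroup.index_mul_card A
    rw [hA, hcard] at h4
    have h5 : p ^ (2 * n + 1) = p ^ n * p ^ (n + 1) := by rw [← pow_add]; congr 1; omega
    rw [h5] at h4
    exact Nat.eq_of_mul_eq_mul_right (pow_pos hp.pos _) h4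
  have hind1 : indFun A lam 1 = (p : ℂ) ^ n := by
    rw [CfsgLib.CharInd.indFun_one, hlam.2, hidx, mul_one]; push_cast; rfl
  obtain ⟨ψ, hψ⟩ := exists_constituent hind (by
    intro h0
    rw [h0, Pi.zero_apply] at hind1
    exact pow_ne_zero n (by exact_mod_cast hp.ne_zero : (p : ℂ) ≠ 0) hind1.symm)
  have hψ1 : (ψ : P → ℂ) 1 ≠ 1 := by
    intro h1
    obtain ⟨z, hz, hz'⟩ := hZ
    have h2 : ∀ a : A, (ψ : P → ℂ) a = lam a := by
      have h3 : IsIrrCharacter A (fun a : A => (ψ : P → ℂ) a) :=
        IsCharacter.isIrr_of_one (IsCharacter.restrict (irr_isCharacter ψ) A) (by simpa using h1)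
      have h4 : IsIrrCharacter A lam := IsCharacter.isIrr_of_one hlam.1 hlam.2
      rw [CfsgLib.CharInd.frobenius A lam (irr_isClassFunction ψ)] at hψ
      by_contra hne
      apply hψ
      refine IsIrrCharacter.inner_eq_zero h4 h3 (fun h => hne fun a => ?_)
      exact (congrFun h a).symm
    apply hz'
    rw [← h2 z]
    refine IsCharacter.eq_one_of_mem_commutator (irr_isCharacter ψ) h1 ?_
    rw [hP.1.2.2]; exact hz
  have hψd := degree hP hcard ψ.2 hψ1
  have heq : indFun A lam = (ψ : P → ℂ) := by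
    refine (constituent_degree_le hind ψ.2 hψ).2 ?_
    rw [hind1, hψd]
  rw [heq]
  exact ⟨ψ.2, fun x hx => vanish hP ψ.2 hψ1 hx⟩

end Cfsg.Agent.S0893
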