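import Cfsg.Statements.S0894
import Mathlib
import Cfsg.Agent.Lib.CharBasic
import Cfsg.Agent.Lib.CharBasic2
import Cfsg.Agent.Lib.EspChar
import Cfsg.Agent.Lib.PGrp

set_option autoImplicit false
open Cfsg

namespace Cfsg.Agent.S0894

open CfsgLib.CharBasic CfsgLib.EspChar


/-- Let P be an extraspecial p-group of order p ^ (2 * n + 1). Then every irreducible character of P has degree 1 or p ^ n, and exactly p - 1 of them have degree p ^ n. -/
theorem result {P : Type*} [Group P] [Finite P] (p n : ℕ) [Fact p.Prime] (hP : Cfsg.IsExtraspecial p P) (hcard : Nat.card P = p ^ (2 * n + 1)) : (∀ χ : Cfsg.IrrCharacter P, (χ : P → ℂ) 1 = 1 ∨ (χ : P → ℂ) 1 = (p : ℂ) ^ n) ∧ Nat.card {χ : Cfsg.IrrCharacter P // (χ : P → ℂ) 1 = (p : ℂ) ^ n} = p - 1 := by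
  classical
  have hp := (Fact.out : p.Prime)
  have hn : n ≠ 0 := by
    rintro rfl
    obtain ⟨m, hm1, hm⟩ := CfsgLib.PGrp.esp_card hP
    rw [hcard] at hm
    have := Nat.pow_right_injective hp.two_le hm
    omega
  have hpn : (p : ℂ) ^ n ≠ 1 := by
    intro h
    have : p ^ n = 1 := by exact_mod_cast h
    rcases Nat.pow_eq_one.mp this with h1 | h1
    · exact hp.one_lt.ne' h1
    · exact hn h1
  have hdeg : ∀ χ : Cfsg.IrrCharacter P, (χ : P → ℂ) 1 ≠ 1 → (χ : P → ℂ) 1 = (p : ℂ) ^ n := fun χ h => degree hP hcard χ.2 h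
  refine ⟨fun χ => ?_, ?_⟩
  · by_cases h : (χ : P → ℂ) 1 = 1
    · exact Or.inl h
    · exact Or.inr (hdeg χ h)
  · have h1 := sum_irr_one_sq P
    rw [← Finset.sum_filter_add_sum_filter_not Finset.univ (fun χ : IrrCharacter P => (χ : P → ℂ) 1 = 1)] at h1
    have h2 : ∑ χ ∈ Finset.univ.filter (fun χ : IrrCharacter P => (χ : P → ℂ) 1 = 1), (χ : P → ℂ) 1 ^ 2 = (p : ℂ) ^ (2 * n) := by
      rw [Finset.sum_congr rfl (fun χ hχ => by rw [(Finset.mem_filter.mp hχ).2]), one_pow, Finset.sum_const, nsmul_eq_mul, mul_one]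
      rw [← Fintype.card_subtype, ← Nat.card_eq_fintype_card, card_linear]
      have h3 : commutator P = Subgroup.center P := hP.1.2.2
      have h4 := Subgroup.index_mul_card (Subgroup.center P)
      rw [hP.2, hcard, pow_succ] at h4
      have h5 : (Subgroup.center P).index = p ^ (2 * n) := Nat.eq_of_mul_eq_mul_right hp.pos h4
      rw [h3, h5]; push_cast; rfl
    have h3 : ∑ χ ∈ Finset.univ.filter (fun χ : IrrCharacter P => ¬ (χ : P → ℂ) 1 = 1), (χ : P → ℂ) 1 ^ 2 = (Nat.card {χ : Cfsg.IrrCharacter P // (χ : P → ℂ) 1 = (p : ℂ) ^ n} : ℂ) * (p : ℂ) ^ (2 * n) := by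
      have h4 : Finset.univ.filter (fun χ : IrrCharacter P => ¬ (χ : P → ℂ) 1 = 1) = Finset.univ.filter (fun χ : IrrCharacter P => (χ : P → ℂ) 1 = (p : ℂ) ^ n) := by
        ext χ
        simp only [Finset.mem_filter, Finset.mem_univ, true_and]
        constructor
        · exact hdeg χ
        · intro h; rw [h]; exact hpn
      rw [h4, Finset.sum_congr rfl (fun χ hχ => by rw [(Finset.mem_filter.mp hχ).2]), Finset.sum_const, nsmul_eq_mul]
      rw [← Fintype.card_subtype, ← Nat.card_eq_fintype_card, ← pow_mul, mul_comm n 2]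
    rw [h2, h3, hcard] at h1
    have h4 : 1 + Nat.card {χ : Cfsg.IrrCharacter P // (χ : P → ℂ) 1 = (p : ℂ) ^ n} = p := by
      have hp0 : (p : ℂ) ^ (2 * n) ≠ 0 := pow_ne_zero _ (by exact_mod_cast hp.ne_zero)
      have h5 : ((1 + Nat.card {χ : Cfsg.IrrCharacter P // (χ : P → ℂ) 1 = (p : ℂ) ^ n} : ℕ) : ℂ) = (p : ℂ) := by
        apply mul_right_cancel₀ hp0
        push_cast at h1 ⊢
        rw [pow_succ] at h1
        linear_combination h1
      exact_mod_cast h5
    omega

end Cfsg.Agent.S0894
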