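import Cfsg.Statements.S0895
import Mathlib
import Cfsg.Agent.Lib.CharBasic
import Cfsg.Agent.Lib.CharFS
import Cfsg.Agent.Lib.Cover

set_option autoImplicit false
open Cfsg

open scoped Pointwise
set_option linter.style.haveILetI false
namespace Cfsg.Agent.S0895

open CfsgLib.CharBasic CfsgLib.CharFS
open Matrix
open scoped ComplexConjugate

universe u

section
variable {G : Type u} [Group G] [Fintype G] {d : ℕ} (ρ : Representation ℂ G (Fin d → ℂ))

noncomputable def A (g : G) : Matrix (Fin d) (Fin d) ℂ := LinearMap.toMatrix' (ρ g)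

omit [Fintype G] in
theorem A_one : A ρ 1 = 1 := by
  rw [A, map_one]; exact LinearMap.toMatrix'_one

omit [Fintype G] in
theorem A_mul (x y : G) : A ρ (x * y) = A ρ x * A ρ y := by
  rw [A, map_mul]; exact LinearMap.toMatrix'_mul _ _

omit [Fintype G] in
theorem A_trace (g : G) : ρ.character g = (A ρ g).trace := by
  simp only [Representation.character, A]
  rw [LinearMap.trace_eq_matrix_trace ℂ (Pi.basisFun ℂ (Fin d))]
  rfl

/-- invariant bilinear forms -/
def Inv (X : Matrix (Fin d) (Fin d) ℂ) : Prop := ∀ g : G, (A ρ g)ᵀ * X * A ρ g = X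

noncomputable def hat (X : Matrix (Fin d) (Fin d) ℂ) : Matrix (Fin d) (Fin d) ℂ := ∑ g : G, (A ρ g)ᵀ * X * A ρ g

theorem inv_hat (X : Matrix (Fin d) (Fin d) ℂ) : Inv ρ (hat ρ X) := by
  intro h
  rw [hat, Matrix.mul_sum, Matrix.sum_mul]
  refine Fintype.sum_equiv (Equiv.mulRight h) _ _ (fun g => ?_)
  rw [Equiv.coe_mulRight, A_mul, Matrix.transpose_mul]
  simp only [Matrix.mul_assoc]

omit [Fintype G] in
theorem Inv.comm {X : Matrix (Fin d) (Fin d) ℂ} (h : Inv ρ X) (g : G) : X * A ρ g = (A ρ g⁻¹)ᵀ * X := by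
  have h1 := h g⁻¹
  have h2 : A ρ g⁻¹ * A ρ g = 1 := by rw [← A_mul, inv_mul_cancel, A_one]
  calc X * A ρ g = (A ρ g⁻¹)ᵀ * X * A ρ g⁻¹ * A ρ g := by rw [h1]
    _ = (A ρ g⁻¹)ᵀ * X * (A ρ g⁻¹ * A ρ g) := by simp only [Matrix.mul_assoc]
    _ = _ := by rw [h2, Matrix.mul_one]

omit [Fintype G] in
theorem det_ne_zero (hρ : ρ.IsIrreducible) {X : Matrix (Fin d) (Fin d) ℂ} (h : Inv ρ X) (hX : X ≠ 0) : X.det ≠ 0 := by
  intro h0
  obtain ⟨v, hv, hXv⟩ := Matrix.exists_mulVec_eq_zero_iff.mpr h0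
  let W : Subrepresentation ρ :=
    { toSubmodule := LinearMap.ker (Matrix.toLin' X)
      apply_mem_toSubmodule := by
        intro g w hw
        rw [LinearMap.mem_ker, Matrix.toLin'_apply] at hw ⊢
        have h1 : ρ g w = (A ρ g) *ᵥ w := by
          rw [A, ← Matrix.toLin'_apply, Matrix.toLin'_toMatrix']
        rw [h1, Matrix.mulVec_mulVec, h.comm, ← Matrix.mulVec_mulVec, hw, Matrix.mulVec_zero] }
  haveI := hρ
  rcases eq_bot_or_eq_top W with hW | hW
  · have : v ∈ W.toSubmodule := by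
      show v ∈ LinearMap.ker (Matrix.toLin' X)
      rw [LinearMap.mem_ker, Matrix.toLin'_apply]; exact hXv
    rw [hW] at this
    exact hv ((Submodule.mem_bot ℂ).mp this)
  · apply hX
    have h1 : Matrix.toLin' X = 0 := by
      apply LinearMap.ext
      intro w
      have : w ∈ W.toSubmodule := by rw [hW]; trivial
      exact LinearMap.mem_ker.mp this
    exact (LinearEquiv.map_eq_zero_iff Matrix.toLin').mp h1

omit [Fintype G] in
theorem proportional (hρ : ρ.IsIrreducible) {J X : Matrix (Fin d) (Fin d) ℂ} (hJ : Inv ρ J) (hJ0 : J.det ≠ 0) (hX : Inv ρ X) : ∃ c : ℂ, X = c • J := by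
  have hu : IsUnit J.det := isUnit_iff_ne_zero.mpr hJ0
  obtain ⟨c, hc⟩ := CfsgLib.Cover.schur hρ (Matrix.toLin' (J⁻¹ * X)) (by
    intro g
    have h1 : ρ g = Matrix.toLin' (A ρ g) := by rw [A, Matrix.toLin'_toMatrix']
    rw [h1, ← Matrix.toLin'_mul, ← Matrix.toLin'_mul]
    congr 1
    have h2 : J⁻¹ * (A ρ g⁻¹)ᵀ = A ρ g * J⁻¹ := by
      have h3 := hJ.comm ρ g
      calc J⁻¹ * (A ρ g⁻¹)ᵀ = J⁻¹ * ((A ρ g⁻¹)ᵀ * J) * J⁻¹ := by
            rw [Matrix.mul_assoc, Matrix.mul_assoc (A ρ g⁻¹)ᵀ, Matrix.mul_nonsing_inv _ hu, Matrix.mul_one]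
        _ = J⁻¹ * (J * A ρ g) * J⁻¹ := by rw [h3]
        _ = _ := by rw [← Matrix.mul_assoc J⁻¹, Matrix.nonsing_inv_mul _ hu, Matrix.one_mul]
    rw [Matrix.mul_assoc, hX.comm, ← Matrix.mul_assoc, h2, Matrix.mul_assoc])
  refine ⟨c, ?_⟩
  have h1 : J⁻¹ * X = c • 1 := by
    apply Matrix.toLin'.injective
    rw [hc, map_smul, Matrix.toLin'_one]
  calc X = J * (J⁻¹ * X) := by rw [← Matrix.mul_assoc, Matrix.mul_nonsing_inv _ hu, Matrix.one_mul]
    _ = c • J := by rw [h1, Matrix.mul_smul, Matrix.mul_one]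

theorem hat_single (a b : Fin d) (i j : Fin d) : hat ρ (Matrix.single a b 1) i j = ∑ g : G, A ρ g a i * A ρ g b j := by
  rw [hat, Matrix.sum_apply]
  apply Finset.sum_congr rfl
  intro g _
  rw [Matrix.mul_apply, Finset.sum_eq_single b]
  · rw [Matrix.mul_apply, Finset.sum_eq_single a]
    · simp [Matrix.single]
    · intro c _ hc
      simp [Matrix.single, hc.symm]
    · intro h; exact absurd (Finset.mem_univ _) h
  · intro c _ hc
    have : ((A ρ g)ᵀ * Matrix.single a b (1 : ℂ) : Matrix (Fin d) (Fin d) ℂ) i c = 0 := by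
      rw [Matrix.mul_apply]
      apply Finset.sum_eq_zero
      intro e _
      simp [Matrix.single, hc.symm]
    rw [this, zero_mul]
  · intro h; exact absurd (Finset.mem_univ _) h

theorem sum_sq : ∑ g : G, ρ.character g ^ 2 = ∑ a, ∑ b, hat ρ (Matrix.single a b 1) a b := by
  simp only [hat_single]
  rw [Finset.sum_congr rfl (fun a _ => Finset.sum_comm), Finset.sum_comm]
  apply Finset.sum_congr rfl
  intro g _
  rw [A_trace, Matrix.trace, sq, Finset.sum_mul_sum]
  rfl

theorem sum_char_sq : ∑ g : G, ρ.character (g * g) = ∑ a, ∑ b, hat ρ (Matrix.single a b 1) b a := by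
  simp only [hat_single]
  rw [Finset.sum_congr rfl (fun a _ => Finset.sum_comm), Finset.sum_comm]
  apply Finset.sum_congr rfl
  intro g _
  rw [A_trace, A_mul, Matrix.trace]
  apply Finset.sum_congr rfl
  intro a _
  rw [Matrix.diag_apply, Matrix.mul_apply]

end


/-- Let χ be a real-valued irreducible character of a finite group G whose degree is an odd natural number. Then the average over s in G of χ (s * s) equals 1. -/
theorem result {G : Type*} [Group G] [Fintype G] (χ : G → ℂ) (hχ : Cfsg.IsIrrCharacter G χ) (hreal : ∀ g : G, (χ g).im = 0) (d : ℕ) (hd : χ 1 = d) (hodd : Odd d) : (Nat.card G : ℂ)⁻¹ * ∑ s : G, χ (s * s) = 1 := by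
  classical
  obtain ⟨n, ρ, hρ, rfl⟩ := hχ
  have hdn : n = d := by
    rw [Representation.char_one, Module.finrank_fin_fun] at hd
    exact_mod_cast hd
  subst hdn
  have hirr : IsIrrCharacter G ρ.character := ⟨n, ρ, hρ, rfl⟩
  have hsq : ∑ g : G, ρ.character g ^ 2 = (Nat.card G : ℂ) := by
    have h1 := IsIrrCharacter.inner_self hirr
    rw [classInner] at h1
    have h2 : ∑ g : G, ρ.character g * conj (ρ.character g) = ∑ g : G, ρ.character g ^ 2 := by
      apply Finset.sum_congr rfl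
      intro g _
      rw [Complex.conj_eq_iff_im.mpr (hreal g), sq]
    rw [h2] at h1
    have h3 : (Nat.card G : ℂ) ≠ 0 := card_ne_zero
    field_simp at h1
    exact h1
  have hne : (Nat.card G : ℂ) ≠ 0 := card_ne_zero
  -- an invariant form
  obtain ⟨a, b, hab⟩ : ∃ a b, hat ρ (Matrix.single a b 1) ≠ 0 := by
    by_contra hcon
    push Not at hcon
    rw [sum_sq] at hsq
    rw [Finset.sum_eq_zero (fun a _ => Finset.sum_eq_zero (fun b _ => by rw [hcon a b]; rfl))] at hsq
    exact hne hsq.symm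
  obtain ⟨J, hJdef⟩ : ∃ J, J = hat ρ (Matrix.single a b 1) := ⟨_, rfl⟩
  have hJ : Inv ρ J := by rw [hJdef]; exact inv_hat ρ _
  have hJ0 : J.det ≠ 0 := det_ne_zero ρ hρ hJ (by rw [hJdef]; exact hab)
  have hJT : Inv ρ Jᵀ := by
    intro g
    have := congrArg Matrix.transpose (hJ g)
    rw [Matrix.transpose_mul, Matrix.transpose_mul, Matrix.transpose_transpose] at this
    rw [Matrix.mul_assoc]
    exact this
  obtain ⟨ε, hε⟩ := proportional ρ hρ hJ hJ0 hJT
  have hJne : J ≠ 0 := by rw [hJdef]; exact hab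
  have hε2 : ε ^ 2 = 1 := by
    have h1 := congrArg Matrix.transpose hε
    rw [Matrix.transpose_transpose, Matrix.transpose_smul, hε, smul_smul] at h1
    have h2 : (1 - ε * ε) • J = 0 := by rw [sub_smul, one_smul, ← h1, sub_self]
    rcases smul_eq_zero.mp h2 with h3 | h3
    · linear_combination -h3
    · exact absurd h3 hJne
  have hεn : ε ^ n = 1 := by
    have h1 := congrArg Matrix.det hε
    rw [Matrix.det_transpose, Matrix.det_smul, Fintype.card_fin] at h1
    have h2 : (ε ^ n - 1) * J.det = 0 := by linear_combination -h1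
    rcases mul_eq_zero.mp h2 with h3 | h3
    · exact sub_eq_zero.mp h3
    · exact absurd h3 hJ0
  have hε1 : ε = 1 := by
    obtain ⟨k, hk⟩ := hodd
    rw [hk, pow_add, pow_mul, hε2, one_pow, one_mul, pow_one] at hεn
    exact hεn
  have hsym : ∀ X, (hat ρ X)ᵀ = hat ρ X := by
    intro X
    obtain ⟨c, hc⟩ := proportional ρ hρ hJ hJ0 (inv_hat ρ X)
    rw [hc, Matrix.transpose_smul, hε, hε1, one_smul]
  rw [sum_char_sq]
  have h1 : ∑ a, ∑ b, hat ρ (Matrix.single a b 1) b a = ∑ a, ∑ b, hat ρ (Matrix.single a b 1) a b := by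
    apply Finset.sum_congr rfl
    intro a _
    apply Finset.sum_congr rfl
    intro b _
    have := congrFun (congrFun (hsym (Matrix.single a b 1)) b) a
    rw [Matrix.transpose_apply] at this
    exact this.symm
  rw [h1, ← sum_sq, hsq, inv_mul_cancel₀ hne]

end Cfsg.Agent.S0895
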