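import Cfsg.Statements.S0900
import Mathlib
import Cfsg.Agent.Lib.CliffordCorr

set_option autoImplicit false
open Cfsg

open scoped Pointwise
namespace Cfsg.Agent.S0900

open Cfsg CfsgLib.CharBasic CfsgLib.CharInd CfsgLib.CharClifford CfsgLib.CliffordCorr
open scoped ComplexConjugate


/-- Let N be a normal subgroup of the finite group G, χ an irreducible character of G and ϑ an irreducible character of N having nonzero inner product with the restriction of χ. Consider: (a) the restriction of χ to N is e • ϑ for a natural number e with e ^ 2 equal to the index of N; (b) χ vanishes outside N and ϑ is invariant under conjugation by G; (c) ϑ is invariant and every irreducible character of G having nonzero inner product with the function induced from ϑ equals χ. Then (a) ↔ (b) and (a) ↔ (c). -/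
theorem result {G : Type*} [Group G] [Fintype G] (N : Subgroup G) [hN : N.Normal] [Fintype N] (χ : G → ℂ) (hχ : Cfsg.IsIrrCharacter G χ) (ϑ : N → ℂ) (hϑ : Cfsg.IsIrrCharacter N ϑ) (hcon : Cfsg.classInner (fun n : N => χ n) ϑ ≠ 0) : ((∃ e : ℕ, (fun n : N => χ n) = (e : ℂ) • ϑ ∧ e ^ 2 = N.index) ↔ ((∀ g : G, g ∉ N → χ g = 0) ∧ ∀ (g : G) (n : N), ϑ ⟨g * n * g⁻¹, hN.conj_mem (n : G) n.2 g⟩ = ϑ n)) ∧ ((∃ e : ℕ, (fun n : N => χ n) = (e : ℂ) • ϑ ∧ e ^ 2 = N.index) ↔ (∀ (g : G) (n : N), ϑ ⟨g * n * g⁻¹, hN.conj_mem (n : G) n.2 g⟩ = ϑ n ∧ ∀ ψ : G → ℂ, Cfsg.IsIrrCharacter G ψ → Cfsg.classInner (Cfsg.indFun N ϑ) ψ ≠ 0 → ψ = χ)) := by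
  classical
  have hχc := IsIrrCharacter.isCharacter hχ
  have hχf := IsCharacter.isClassFunction hχc
  have hϑc := IsIrrCharacter.isCharacter hϑ
  have hI : (N.index : ℂ) ≠ 0 := by
    have : N.index ≠ 0 := Subgroup.index_ne_zero_of_finite
    exact_mod_cast this
  obtain ⟨θ1, hθ10, hθ1⟩ := IsIrrCharacter.exists_pos hϑ
  obtain ⟨f, hf⟩ := IsCharacter.inner_nat (IsCharacter.restrict hχc N) hϑc
  have hf0 : f ≠ 0 := by
    rintro rfl
    apply hcon
    rw [hf]; simp
  have hfC : (f : ℂ) ≠ 0 := by exact_mod_cast hf0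
  have hθ1C : (θ1 : ℂ) ≠ 0 := by exact_mod_cast hθ10.ne'
  -- invariance gives restriction a multiple
  have hinv_res : (∀ (g : G) (n : N), ϑ ⟨g * n * g⁻¹, hN.conj_mem (n : G) n.2 g⟩ = ϑ n) → (fun n : N => χ n) = (f : ℂ) • ϑ := by
    intro hinv
    have hT : ∀ g : G, g ∈ (⊤ : Subgroup G) ↔ conjFn g ϑ = ϑ := by
      intro g
      constructor
      · intro _; funext n; exact hinv g n
      · intro _; trivial
    have h1 : inertia ϑ = ⊤ := (T_eq hT).symm
    have h2 : orb ϑ = {⟨ϑ, hϑ⟩} := by
      have hc := card_orb (G := G) hϑ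
      rw [h1, Subgroup.index_top] at hc
      obtain ⟨a, ha⟩ := Finset.card_eq_one.mp hc
      have hmem : (⟨ϑ, hϑ⟩ : IrrCharacter N) ∈ orb (G := G) ϑ := by
        rw [mem_orb]
        exact ⟨1, conjFn_one _⟩
      rw [ha, Finset.mem_singleton] at hmem
      rw [ha, hmem]
    have h3 := clifford hχ hϑ hcon
    rw [h2, Finset.sum_singleton, hf] at h3
    exact h3
  -- splitting of the norm
  have hnormG : ∑ g : G, χ g * conj (χ g) = (Nat.card G : ℂ) := by
    have h1 := IsIrrCharacter.inner_self hχ
    simp only [classInner] at h1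
    have h3 : (Nat.card G : ℂ) ≠ 0 := card_ne_zero
    field_simp at h1
    exact h1
  have hsplit : ∑ g : G, χ g * conj (χ g) = ∑ n : N, χ n * conj (χ n) + ∑ g ∈ Finset.univ.filter (fun g : G => g ∉ N), χ g * conj (χ g) := by
    rw [← Finset.sum_filter_add_sum_filter_not Finset.univ (fun g : G => g ∈ N)]
    congr 1
    apply Finset.sum_subtype (p := fun g : G => g ∈ N)
    intro x; simp
  have hnormN : (fun n : N => χ n) = (f : ℂ) • ϑ → ∑ n : N, χ n * conj (χ n) = (Nat.card N : ℂ) * (f : ℂ) ^ 2 := by
    intro hres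
    have h1 := IsIrrCharacter.inner_self hϑ
    simp only [classInner] at h1
    have h3 : (Nat.card N : ℂ) ≠ 0 := card_ne_zero
    have h4 : ∑ n : N, ϑ n * conj (ϑ n) = (Nat.card N : ℂ) := by
      field_simp at h1
      exact h1
    rw [← h4, Finset.sum_mul]
    apply Finset.sum_congr rfl
    intro n _
    have h5 := congrFun hres n
    simp only [Pi.smul_apply, smul_eq_mul] at h5
    rw [h5, map_mul, map_natCast]
    ring
  have hcardG : (Nat.card G : ℂ) = (Nat.card N : ℂ) * (N.index : ℂ) := by
    rw [← Subgroup.card_mul_index N]; push_cast; ring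
  -- (a) implies f = e
  have haf : ∀ e : ℕ, (fun n : N => χ n) = (e : ℂ) • ϑ → e = f := by
    intro e he
    have h1 := hf
    rw [he, classInner_smul_left, IsIrrCharacter.inner_self hϑ, mul_one] at h1
    exact_mod_cast h1
  have hainv : (fun n : N => χ n) = (f : ℂ) • ϑ → ∀ (g : G) (n : N), ϑ ⟨g * n * g⁻¹, hN.conj_mem (n : G) n.2 g⟩ = ϑ n := by
    intro hres g n
    have h1 := congrFun hres ⟨g * n * g⁻¹, hN.conj_mem (n : G) n.2 g⟩
    have h2 := congrFun hres n
    simp only [Pi.smul_apply, smul_eq_mul] at h1 h2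
    rw [hχf, h2] at h1
    exact (mul_left_cancel₀ hfC h1).symm
  have hindinner : classInner (indFun N ϑ) χ = f := by
    rw [frobenius N ϑ hχf, IsCharacter.inner_comm hϑc (IsCharacter.restrict hχc N), hf]
  constructor
  · constructor
    · rintro ⟨e, he, he2⟩
      have hef := haf e he
      rw [hef] at he he2
      refine ⟨?_, hainv he⟩
      have h1 := hnormN he
      rw [h1, hnormG, hcardG] at hsplit
      have h2 : ((f : ℂ)) ^ 2 = N.index := by exact_mod_cast he2
      rw [h2] at hsplit
      have h3 : ∑ g ∈ Finset.univ.filter (fun g : G => g ∉ N), χ g * conj (χ g) = 0 := by linear_combination -hsplit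
      have h4 : ∑ g ∈ Finset.univ.filter (fun g : G => g ∉ N), Complex.normSq (χ g) = 0 := by
        have : ((∑ g ∈ Finset.univ.filter (fun g : G => g ∉ N), Complex.normSq (χ g) : ℝ) : ℂ) = 0 := by
          rw [← h3]
          push_cast
          apply Finset.sum_congr rfl
          intro g _
          rw [Complex.mul_conj]
        exact_mod_cast this
      intro g hg
      have h5 := (Finset.sum_eq_zero_iff_of_nonneg (fun g _ => Complex.normSq_nonneg (χ g))).mp h4 g (by simp [hg])
      exact Complex.normSq_eq_zero.mp h5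
    · rintro ⟨hvan, hinv⟩
      have hres := hinv_res hinv
      refine ⟨f, hres, ?_⟩
      have h1 := hnormN hres
      have h2 : ∑ g ∈ Finset.univ.filter (fun g : G => g ∉ N), χ g * conj (χ g) = 0 := by
        apply Finset.sum_eq_zero
        intro g hg
        rw [hvan g (Finset.mem_filter.mp hg).2, zero_mul]
      rw [h1, h2, hnormG, hcardG, add_zero] at hsplit
      have h3 : (Nat.card N : ℂ) ≠ 0 := card_ne_zero
      have h4 := mul_left_cancel₀ h3 hsplit
      exact_mod_cast h4.symm
  · constructor
    · rintro ⟨e, he, he2⟩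
      have hef := haf e he
      rw [hef] at he he2
      have hinv := hainv he
      -- ind ϑ = f χ
      have hind := isCharacter_indFun N hϑc
      have hsub : IsCharacter G (indFun N ϑ - (f : ℂ) • χ) := by
        apply isCharacter_sub hind (IsCharacter.nsmul hχc f)
        intro φ
        rw [classInner_smul_left]
        by_cases hφ : (φ : G → ℂ) = χ
        · rw [hφ, hindinner, IsIrrCharacter.inner_self hχ, mul_one]
        · rw [IsIrrCharacter.inner_eq_zero hχ φ.2 (fun h => hφ h.symm), mul_zero]
          exact inner_re_nonneg hind (IsIrrCharacter.isCharacter φ.2)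
      have hχ1 : χ 1 = f * ϑ 1 := congrFun he 1
      have h0 : (indFun N ϑ - (f : ℂ) • χ) 1 = 0 := by
        rw [Pi.sub_apply, Pi.smul_apply, indFun_one, hχ1, smul_eq_mul]
        have : (N.index : ℂ) = (f : ℂ) ^ 2 := by exact_mod_cast he2.symm
        rw [this]; ring
      have h1 : indFun N ϑ = (f : ℂ) • χ := by
        by_contra hne
        obtain ⟨φ, hφ⟩ := exists_constituent hsub (sub_ne_zero.mpr hne)
        have h2 := (constituent_degree_le hsub φ.2 hφ).1
        rw [h0] at h2
        obtain ⟨n, hn, hn1⟩ := IsIrrCharacter.exists_pos φ.2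
        rw [hn1] at h2
        simp only [Complex.natCast_re, Complex.zero_re] at h2
        have : (0 : ℝ) < n := by exact_mod_cast hn
        linarith
      intro g n
      refine ⟨hinv g n, ?_⟩
      intro ψ hψ h2
      by_contra hne
      apply h2
      rw [h1, classInner_smul_left, IsIrrCharacter.inner_eq_zero hχ hψ (fun h => hne h.symm), mul_zero]
    · intro hall
      have hinv : ∀ (g : G) (n : N), ϑ ⟨g * n * g⁻¹, hN.conj_mem (n : G) n.2 g⟩ = ϑ n := fun g n => (hall g n).1
      have huniq := (hall 1 1).2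
      have hres := hinv_res hinv
      refine ⟨f, hres, ?_⟩
      have h1 := eq_sum_inner (IsCharacter.isClassFunction (isCharacter_indFun N hϑc))
      have h2 : indFun N ϑ = (f : ℂ) • χ := by
        rw [h1, Finset.sum_eq_single (⟨χ, hχ⟩ : IrrCharacter G)]
        · rw [hindinner]
        · intro φ _ hne
          by_cases h3 : classInner (indFun N ϑ) (φ : G → ℂ) = 0
          · rw [h3, zero_smul]
          · exact absurd (Subtype.ext (huniq φ φ.2 h3)) hne
        · intro h; exact absurd (Finset.mem_univ _) h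
      have h3 := congrFun h2 1
      have hχ1 : χ 1 = f * ϑ 1 := congrFun hres 1
      rw [indFun_one, Pi.smul_apply, smul_eq_mul, hχ1, hθ1] at h3
      have h4 : (f : ℂ) ^ 2 = N.index := by
        apply mul_right_cancel₀ hθ1C
        rw [h3]; ring
      exact_mod_cast h4

end Cfsg.Agent.S0900
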