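import Cfsg.Statements.S0902
import Cfsg.Agent.Lib.BlockThird

set_option autoImplicit false
open Cfsg

namespace Cfsg.Agent.S0902

open Cfsg CfsgLib.Block CfsgLib.CharBasic MonoidAlgebra in
open scoped Classical in
theorem inS_of_orth {G : Type*} [Group G] [Fintype G] (p : ℕ) (M' : Ideal Cfsg.AlgInt)
    (hM' : Cfsg.IsPModular p M') (A : Set (Cfsg.IrrCharacter G))
    (hA : ∀ x y : G, ¬ p ∣ orderOf x → p ∣ orderOf y →
      ∑ χ : Cfsg.IrrCharacter G, (if χ ∈ A then (χ : G → ℂ) x * (starRingEnd ℂ) ((χ : G → ℂ) y) else 0) = 0) :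
    InS M' (eB A) := by
  classical
  intro g
  rw [coeff_eB, blockCoeff_eq]
  have h1reg : ¬ p ∣ orderOf (1 : G) := by
    rw [orderOf_one]; intro h; exact hM'.1.one_lt.ne' (Nat.dvd_one.mp h)
  by_cases hg : p ∣ orderOf g
  · have := hA 1 g h1reg hg
    have h2 : (∑ χ : Cfsg.IrrCharacter G, if χ ∈ A then (χ : G → ℂ) 1 * (χ : G → ℂ) g⁻¹ else 0) = 0 := by
      refine Eq.trans (Finset.sum_congr rfl ?_) this
      intro χ _
      split_ifs
      · rw [IsCharacter.inv_apply (irr_isCharacter χ)]
      · rfl
    rw [h2, mul_zero]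
    exact (locRing hM').zero_mem
  · -- use the section indicator of `1`
    have hR := inR_secInd hM' h1reg
    have hgi : ¬ p ∣ orderOf g⁻¹ := by rwa [orderOf_inv]
    have h3 : (Nat.card G : ℂ)⁻¹ * (∑ χ : Cfsg.IrrCharacter G, if χ ∈ A then (χ : G → ℂ) 1 * (χ : G → ℂ) g⁻¹ else 0) =
        ∑ χ : Cfsg.IrrCharacter G, if χ ∈ A then classInner (secInd p (1 : G)) (χ : G → ℂ) * (χ : G → ℂ) g⁻¹ else 0 := by
      have h4 : ∀ χ : Cfsg.IrrCharacter G, (if χ ∈ A then classInner (secInd p (1 : G)) (χ : G → ℂ) * (χ : G → ℂ) g⁻¹ else 0) =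
          (Nat.card G : ℂ)⁻¹ * ∑ u : G, secInd p (1 : G) u * (if χ ∈ A then (χ : G → ℂ) g⁻¹ * (starRingEnd ℂ) ((χ : G → ℂ) u) else 0) := by
        intro χ
        split_ifs
        · rw [classInner, mul_assoc, Finset.sum_mul]
          congr 1
          apply Finset.sum_congr rfl
          intro u _
          ring
        · simp
      rw [Finset.sum_congr rfl (fun χ _ => h4 χ), ← Finset.mul_sum, Finset.sum_comm]
      congr 1
      rw [Finset.sum_eq_single (1 : G)]
      · rw [secInd_of_regular hM'.1 h1reg, classInd_of_isConj (IsConj.refl 1), ← Finset.mul_sum, one_mul]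
        apply Finset.sum_congr rfl
        intro χ _
        split_ifs
        · obtain ⟨n, -, hn⟩ := IsIrrCharacter.exists_pos χ.2
          rw [hn, Complex.conj_natCast]; ring
        · rfl
      · intro u _ hu
        rw [← Finset.mul_sum]
        by_cases hus : p ∣ orderOf u
        · rw [hA g⁻¹ u hgi hus, mul_zero]
        · rw [secInd_of_regular hM'.1 hus, classInd_of_not_isConj, zero_mul]
          intro hc
          apply hu
          obtain ⟨c, hc'⟩ := isConj_iff.mp hc
          rw [← hc']; group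
      · intro h; exact absurd (Finset.mem_univ _) h
    rw [h3]
    apply (locRing hM').sum_mem
    intro χ _
    split_ifs
    · exact (locRing hM').mul_mem (hR.2 χ) (char_mem_locRing hM' (irr_isCharacter χ) _)
    · exact (locRing hM').zero_mem


/-- If two irreducible characters of a finite group lie in the same block relative to one maximal ideal M of the algebraic integers containing the prime p, then at every element the difference of their central characters is an algebraic integer lying in every maximal ideal containing p; in particular they lie in the same block relative to any such ideal. -/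
theorem result {G : Type*} [Group G] [Finite G] (p : ℕ) [Fact p.Prime] (M : Ideal Cfsg.AlgInt) (hM : Cfsg.IsPModular p M) (χ ψ : Cfsg.IrrCharacter G) (h : Cfsg.SameBlock M (χ : G → ℂ) (ψ : G → ℂ)) (M' : Ideal Cfsg.AlgInt) (hM' : Cfsg.IsPModular p M') (g : G) : ∃ r : Cfsg.AlgInt, r ∈ M' ∧ (r : ℂ) = Cfsg.centralChar (χ : G → ℂ) g - Cfsg.centralChar (ψ : G → ℂ) g := by
  open Cfsg CfsgLib.Block CfsgLib.CharBasic MonoidAlgebra in
  classical
  have : Fintype G := Fintype.ofFinite G
  -- the `M'`-block of `χ` is the `M`-block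
  have hB' : InS M (eB (blockOf M' (χ : G → ℂ))) := by
    apply inS_of_orth p M hM
    intro x y hx hy
    have := weak_block_orthogonality hM' (inS_eB hM' (isPBlock_blockOf (M := M') χ)) hx hy
    rwa [finsum_mem_eq] at this
  have hs : Cfsg.SameBlock M' (χ : G → ℂ) (ψ : G → ℂ) :=
    subset_of_inS hM hB' (mem_blockOf_self hM' χ) h
  have hint : IsIntegral ℤ (Cfsg.centralChar (χ : G → ℂ) g - Cfsg.centralChar (ψ : G → ℂ) g) :=
    (isIntegral_centralChar χ.2 g).sub (isIntegral_centralChar ψ.2 g)
  refine ⟨⟨_, hint⟩, ?_, rfl⟩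
  exact (locIdeal_algInt hM' ⟨_, hint⟩).mp (hs g)

end Cfsg.Agent.S0902
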