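import Cfsg.Statements.S0903
import Cfsg.Agent.Lib.CharBasic3

set_option autoImplicit false
open Cfsg

namespace Cfsg.Agent.S0903

/-- Let P be a p-subgroup of the finite group G, let c centralize P and let g, h ∈ G. The number of pairs (x, y) with x conjugate to g, y conjugate to h and x * y = c is congruent modulo p to the number of such pairs in which x and y both centralize P. (This is why the Brauer map on class sums is multiplicative.) -/
theorem result {G : Type*} [Group G] [Finite G] (p : ℕ) [Fact p.Prime] (P : Subgroup G) (hP : IsPGroup p P) (c : G) (hc : c ∈ Subgroup.centralizer (P : Set G)) (g h : G) : Nat.card {xy : G × G // IsConj g xy.1 ∧ IsConj h xy.2 ∧ xy.1 * xy.2 = c} ≡ Nat.card {xy : G × G // IsConj g xy.1 ∧ IsConj h xy.2 ∧ xy.1 * xy.2 = c ∧ xy.1 ∈ Subgroup.centralizer (P : Set G) ∧ xy.2 ∈ Subgroup.centralizer (P : Set G)} [MOD p] := by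
  let X := {xy : G × G // IsConj g xy.1 ∧ IsConj h xy.2 ∧ xy.1 * xy.2 = c}
  have hconj : ∀ {a b x : G}, IsConj a b → IsConj a (x * b * x⁻¹) := fun h => h.trans (isConj_iff.mpr ⟨_, rfl⟩)
  have hPc : ∀ q ∈ P, q * c * q⁻¹ = c := by
    intro q hq
    rw [Subgroup.mem_centralizer_iff.mp hc q hq, mul_inv_cancel_right]
  let act : MulAction P X :=
    { smul := fun q x => ⟨(q * x.1.1 * (q : G)⁻¹, q * x.1.2 * (q : G)⁻¹),
        hconj x.2.1, hconj x.2.2.1, by
          show q * x.1.1 * (q : G)⁻¹ * (q * x.1.2 * (q : G)⁻¹) = c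
          have h1 : q * x.1.1 * (q : G)⁻¹ * (q * x.1.2 * (q : G)⁻¹) = q * (x.1.1 * x.1.2) * (q : G)⁻¹ := by group
          rw [h1, x.2.2.2, hPc q q.2]⟩
      one_smul := fun x => by
        apply Subtype.ext
        apply Prod.ext
        · show ((1 : P) : G) * x.1.1 * ((1 : P) : G)⁻¹ = x.1.1
          simp
        · show ((1 : P) : G) * x.1.2 * ((1 : P) : G)⁻¹ = x.1.2
          simp
      mul_smul := fun a b x => by
        apply Subtype.ext
        apply Prod.ext
        · show ((a * b : P) : G) * x.1.1 * ((a * b : P) : G)⁻¹ = a * (b * x.1.1 * (b : G)⁻¹) * (a : G)⁻¹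
          rw [Subgroup.coe_mul]; group
        · show ((a * b : P) : G) * x.1.2 * ((a * b : P) : G)⁻¹ = a * (b * x.1.2 * (b : G)⁻¹) * (a : G)⁻¹
          rw [Subgroup.coe_mul]; group }
  have h1 := hP.card_modEq_card_fixedPoints X
  have h2 : Nat.card (MulAction.fixedPoints P X) = Nat.card {xy : G × G // IsConj g xy.1 ∧ IsConj h xy.2 ∧ xy.1 * xy.2 = c ∧ xy.1 ∈ Subgroup.centralizer (P : Set G) ∧ xy.2 ∈ Subgroup.centralizer (P : Set G)} := by
    apply Nat.card_congr
    refine ⟨fun x => ⟨x.1.1, x.1.2.1, x.1.2.2.1, x.1.2.2.2, ?_, ?_⟩,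
      fun x => ⟨⟨x.1, x.2.1, x.2.2.1, x.2.2.2.1⟩, ?_⟩, fun _ => rfl, fun _ => rfl⟩
    · rw [Subgroup.mem_centralizer_iff]
      intro q hq
      have h3 : q * x.1.1.1 * q⁻¹ = x.1.1.1 := congrArg (fun z : X => z.1.1) (x.2 ⟨q, hq⟩)
      exact mul_inv_eq_iff_eq_mul.mp h3
    · rw [Subgroup.mem_centralizer_iff]
      intro q hq
      have h3 : q * x.1.1.2 * q⁻¹ = x.1.1.2 := congrArg (fun z : X => z.1.2) (x.2 ⟨q, hq⟩)
      exact mul_inv_eq_iff_eq_mul.mp h3
    · intro q
      apply Subtype.ext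
      apply Prod.ext
      · show (q : G) * x.1.1 * (q : G)⁻¹ = x.1.1
        rw [mul_inv_eq_iff_eq_mul]
        exact Subgroup.mem_centralizer_iff.mp x.2.2.2.2.1 q q.2
      · show (q : G) * x.1.2 * (q : G)⁻¹ = x.1.2
        rw [mul_inv_eq_iff_eq_mul]
        exact Subgroup.mem_centralizer_iff.mp x.2.2.2.2.2 q q.2
  rw [h2] at h1
  exact h1

end Cfsg.Agent.S0903
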