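import Cfsg.Statements.S0905
import Cfsg.Agent.Lib.BlockNormal
import Cfsg.Agent.Lib.Core

set_option autoImplicit false
open Cfsg

namespace Cfsg.Agent.S0905

open Cfsg CfsgLib.Block CfsgLib.CharBasic MonoidAlgebra in
theorem aux {G : Type*} [Group G] [Fintype G] (p : ℕ) (M : Ideal Cfsg.AlgInt)
    (hM : Cfsg.IsPModular p M) (F : Type*) [Field F] [CharP F p] (P : Subgroup G) [P.Normal]
    (hP : IsPGroup p P) (g : G) (hg : g ∉ Subgroup.centralizer (P : Set G)) :
    IsNilpotent (∑ᶠ x ∈ ConjClasses.carrier (ConjClasses.mk g), MonoidAlgebra.single x (1 : F) :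
      MonoidAlgebra F G) := by
  classical
  obtain ⟨k, hk⟩ := exists_pow_inP hM (isCen_csum g) (inS_csum hM g) (fun χ => by
    rw [omega_csum (irr_isClassFunction χ)]
    exact centralChar_mem_locIdeal_of_notMem hM P hP hg χ)
  -- the class sum over the natural numbers
  let w : MonoidAlgebra ℕ G := ∑ x : G, if IsConj g x then MonoidAlgebra.single x 1 else 0
  have hwC : MonoidAlgebra.mapRingHom G (Nat.castRingHom ℂ) w = csum g := by
    apply ext_coeff
    intro y
    simp only [w]
    rw [map_sum, csum, coeff_ofFun]
    have h1 : ∀ x : G, (MonoidAlgebra.mapRingHom G (Nat.castRingHom ℂ))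
        (if IsConj g x then MonoidAlgebra.single x 1 else 0) =
        if IsConj g x then MonoidAlgebra.single x 1 else 0 := by
      intro x
      split_ifs
      · simp
      · simp
    rw [Finset.sum_congr rfl (fun x _ => h1 x)]
    have h2 : (∑ x : G, (if IsConj g x then (MonoidAlgebra.single x 1 : MonoidAlgebra ℂ G) else 0)).coeff y =
      ∑ x : G, (if IsConj g x then (MonoidAlgebra.single x 1 : MonoidAlgebra ℂ G) else 0).coeff y := by
      rw [MonoidAlgebra.coeff_sum, Finsupp.finsetSum_apply]
    rw [h2, Finset.sum_eq_single y]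
    · by_cases h : IsConj g y
      · rw [if_pos h, classInd_of_isConj h]; simp
      · rw [if_neg h, classInd_of_not_isConj h]; simp
    · intro x _ hxy
      split_ifs
      · simp [hxy]
      · simp
    · simp
  have hwF : MonoidAlgebra.mapRingHom G (Nat.castRingHom F) w =
      ∑ᶠ x ∈ ConjClasses.carrier (ConjClasses.mk g), MonoidAlgebra.single x (1 : F) := by
    simp only [w]
    rw [map_sum, finsum_mem_eq_finite_toFinset_sum _ (Set.toFinite _), ← Finset.sum_filter_add_sum_filter_not
      Finset.univ (fun x => IsConj g x)]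
    rw [Finset.sum_eq_zero (s := Finset.univ.filter (fun x => ¬ IsConj g x)), add_zero]
    · apply Finset.sum_congr
      · ext x
        simp only [Finset.mem_filter, Finset.mem_univ, true_and, Set.Finite.mem_toFinset]
        rw [ConjClasses.mem_carrier_iff_mk_eq, ConjClasses.mk_eq_mk_iff_isConj]
        exact isConj_comm
      · intro x hx
        have hx' : IsConj g x := by
          rw [Set.Finite.mem_toFinset, ConjClasses.mem_carrier_iff_mk_eq,
            ConjClasses.mk_eq_mk_iff_isConj] at hx
          exact hx.symm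
        rw [if_pos hx']
        simp
    · intro x hx
      rw [if_neg (Finset.mem_filter.mp hx).2, map_zero]
  refine ⟨k, ?_⟩
  rw [← hwF, ← map_pow]
  have hdvd : ∀ y, p ∣ (w ^ k).coeff y := by
    intro y
    have h1 := hk y
    rw [← hwC, ← map_pow, MonoidAlgebra.coeff_mapRingHom] at h1
    exact (locIdeal_nat_iff hM _).mp h1
  ext y
  rw [MonoidAlgebra.coeff_mapRingHom]
  simp only [eq_natCast, MonoidAlgebra.coeff_zero, Finsupp.coe_zero, Pi.zero_apply]
  exact (CharP.cast_eq_zero_iff F p _).mpr (hdvd y)


/-- Let F be a field of characteristic p and let g be an element of the finite group G no conjugate of which centralizes O_p(G). Then the class sum of g is a nilpotent element of the group algebra F[G]. -/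
theorem result {G : Type*} [Group G] [Finite G] (p : ℕ) [Fact p.Prime] (F : Type*) [Field F] [CharP F p] (g : G) (hg : ∀ x : G, IsConj g x → x ∉ Subgroup.centralizer (Cfsg.pCore p G : Set G)) : IsNilpotent (∑ᶠ x ∈ ConjClasses.carrier (ConjClasses.mk g), MonoidAlgebra.single x (1 : F) : MonoidAlgebra F G) := by
  have : Fintype G := Fintype.ofFinite G
  obtain ⟨M, hM⟩ := CfsgLib.Block.exists_isPModular (Fact.out : p.Prime)
  have hn : (Cfsg.pCore p G).Normal := CfsgLib.Core.pCore_normal p G
  have hp : IsPGroup p (Cfsg.pCore p G) := CfsgLib.Core.pCore_isPGroup p G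
  exact aux p M hM F (Cfsg.pCore p G) hp g (hg g (IsConj.refl g))

end Cfsg.Agent.S0905
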