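import Cfsg.Statements.S0910
import Cfsg.Agent.Lib.BlockNormal
import Cfsg.Agent.Lib.Core

set_option autoImplicit false
open Cfsg

namespace Cfsg.Agent.S0910

/-- Let G be a non-abelian finite simple group and p a prime. If an irreducible character χ lies in the principal block (relative to a maximal ideal of the algebraic integers containing p) and χ 1 is a power of p, then χ is the principal character. -/
theorem result {G : Type*} [Group G] [Finite G] (p : ℕ) [Fact p.Prime] (M : Ideal Cfsg.AlgInt) (hM : Cfsg.IsPModular p M) [IsSimpleGroup G] (hna : ∃ a b : G, a * b ≠ b * a) (χ : Cfsg.IrrCharacter G) (hχ : χ ∈ Cfsg.principalBlock M G) (k : ℕ) (hdeg : (χ : G → ℂ) 1 = (p : ℂ) ^ k) : (χ : G → ℂ) = fun _ => 1 := by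
  open CfsgLib.Block CfsgLib.CharBasic in
  have : Fintype G := Fintype.ofFinite G
  obtain ⟨P⟩ : Nonempty (Sylow p G) := inferInstance
  have hcc : ∀ g : G, ¬ p ∣ (Subgroup.centralizer ({g} : Set G)).index → (χ : G → ℂ) g ≠ 0 := by
    intro g hg h0
    have h1 : MemLocalIdeal M (centralChar (fun _ : G => (1 : ℂ)) g - centralChar (χ : G → ℂ) g) := hχ g
    have h2 : centralChar (χ : G → ℂ) g = 0 := by rw [centralChar, h0]; simp
    rw [h2, sub_zero, centralChar] at h1
    have h3 : MemLocalIdeal M (((Subgroup.centralizer ({g} : Set G)).index : ℕ) : ℂ) := by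
      simpa using h1
    exact hg ((locIdeal_nat_iff hM _).mp h3)
  have hχc := IsIrrCharacter.isCharacter χ.2
  by_cases hpG : p ∣ Nat.card G
  · -- a central element of `P`
    have hPne : Nontrivial (P : Subgroup G) := by
      rw [← Finite.one_lt_card_iff_nontrivial]
      exact (Nat.one_lt_pow (n := (Nat.card G).factorization p) (by
        rw [← Nat.pos_iff_ne_zero]
        exact (Fact.out : p.Prime).factorization_pos_of_dvd Nat.card_pos.ne' hpG)
        (Fact.out : p.Prime).one_lt).trans_eq (Sylow.card_eq_multiplicity P).symm
    have hcn : Nontrivial (Subgroup.center (P : Subgroup G)) := P.isPGroup'.center_nontrivial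
    obtain ⟨⟨z, hz⟩, hz1⟩ := exists_ne (1 : Subgroup.center (P : Subgroup G))
    have hz1' : (z : G) ≠ 1 := by
      intro h
      apply hz1
      apply Subtype.ext
      exact Subtype.ext h
    have hPC : (P : Subgroup G) ≤ Subgroup.centralizer ({(z : G)} : Set G) := by
      intro x hx
      rw [Subgroup.mem_centralizer_singleton_iff]
      have := Subgroup.mem_center_iff.mp hz ⟨x, hx⟩
      exact congrArg Subtype.val this
    have hidx : ¬ p ∣ (Subgroup.centralizer ({(z : G)} : Set G)).index := by
      intro h
      have h1 : (Subgroup.centralizer ({(z : G)} : Set G)).index ∣ (P : Subgroup G).index :=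
        Subgroup.index_dvd_of_le hPC
      exact P.not_dvd_index (h.trans h1)
    have hne := hcc z hidx
    have hdeg' : (χ : G → ℂ) 1 = ((p ^ k : ℕ) : ℂ) := by rw [hdeg]; push_cast; rfl
    have hcop : Nat.Coprime (p ^ k) (Subgroup.centralizer ({(z : G)} : Set G)).index :=
      Nat.Coprime.pow_left k ((Nat.Prime.coprime_iff_not_dvd (Fact.out : p.Prime)).mpr hidx)
    rcases IsIrrCharacter.zero_or_norm_eq_of_coprime χ.2 hdeg' z hcop with h | h
    · exact absurd h hne
    · -- `z` is in the center of the character
      have hN := charCenter_normal hχc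
      have hzN : (z : G) ∈ charCenter hχc := h
      rcases hN.eq_bot_or_eq_top with hb | ht
      · rw [hb, Subgroup.mem_bot] at hzN
        exact absurd hzN hz1'
      · have hKn := charKer_normal hχc
        rcases hKn.eq_bot_or_eq_top with hKb | hKt
        · exfalso
          obtain ⟨a, b, hab⟩ := hna
          apply hab
          have ha : ‖(χ : G → ℂ) a‖ = ‖(χ : G → ℂ) 1‖ := by
            have : a ∈ charCenter hχc := by rw [ht]; trivial
            exact this
          have h1 := IsCharacter.commutator_mem_ker hχc ha b
          have h2 : a * b * a⁻¹ * b⁻¹ ∈ charKer hχc := h1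
          rw [hKb, Subgroup.mem_bot] at h2
          have h3 : a * b * a⁻¹ = b := by
            rw [mul_inv_eq_one] at h2; exact h2
          rw [mul_inv_eq_iff_eq_mul] at h3
          exact h3
        · -- trivial kernel
          have h1 : ∀ g : G, (χ : G → ℂ) g = (χ : G → ℂ) 1 := by
            intro g
            have : g ∈ charKer hχc := by rw [hKt]; trivial
            exact this
          have h2 := IsIrrCharacter.inner_self χ.2
          obtain ⟨n, hn, hn1⟩ := IsIrrCharacter.exists_pos χ.2
          rw [classInner] at h2
          simp only [h1, hn1] at h2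
          rw [Finset.sum_const, Finset.card_univ, ← Nat.card_eq_fintype_card, nsmul_eq_mul,
            inv_mul_cancel_left₀ card_ne_zero, Complex.conj_natCast] at h2
          have h3 : n * n = 1 := by exact_mod_cast h2
          have h4 : n = 1 := Nat.eq_one_of_mul_eq_one_right h3
          funext g
          rw [h1 g, hn1, h4, Nat.cast_one]
  · -- `p` does not divide the order of `G`
    have h1 := (blockOf_eq_singleton_iff hM (irrOne G)).mpr (by
      rw [Nat.factorization_eq_zero_of_not_dvd hpG]
      have : charDegree (irrOne G : G → ℂ) = 1 := charDegree_eq (by simp)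
      rw [this, Nat.factorization_one]; rfl)
    have h2 : χ ∈ blockOf M (irrOne G : G → ℂ) := hχ
    rw [h1] at h2
    rw [Set.mem_singleton_iff.mp h2]
    rfl

end Cfsg.Agent.S0910
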