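import Cfsg.Statements.S0911
import Cfsg.Agent.Lib.BlockMain

set_option autoImplicit false
open Cfsg

namespace Cfsg.Agent.S0911

open Cfsg CfsgLib.Block CfsgLib.CharBasic in
theorem aux {G : Type*} [Group G] [Finite G] (p : ℕ) [Fact p.Prime] (M : Ideal Cfsg.AlgInt)
    (hM : Cfsg.IsPModular p M) (B : Set (Cfsg.IrrCharacter G)) (hB : Cfsg.IsPBlock M B) (g : G)
    (hg : Cfsg.IsDefectClass M B g) {D : Subgroup G}
    (hD : IsSylowOf p (Subgroup.centralizer ({g} : Set G)) D) (h : G) :
    (¬ Cfsg.MemLocalIdeal M (Cfsg.blockCoeff B h) → ∃ (x : G) (Q : Subgroup G),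
      IsSylowOf p (Subgroup.centralizer ({h} : Set G)) Q ∧
      Q ≤ D.map (MulAut.conj x).toMonoidHom) ∧
    ((∃ χ ∈ B, ¬ Cfsg.MemLocalIdeal M (Cfsg.centralChar (χ : G → ℂ) h)) → ∃ (x : G) (Q : Subgroup G),
      IsSylowOf p (Subgroup.centralizer ({h} : Set G)) Q ∧
      D.map (MulAut.conj x).toMonoidHom ≤ Q) := by
  have : Fintype G := Fintype.ofFinite G
  have hDg : IsDefectGroup p M B D := ⟨g, hg, hD⟩
  constructor
  · intro hh
    obtain ⟨Q, hQ⟩ := exists_isSylowOf (p := p) (Subgroup.centralizer ({h} : Set G))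
    obtain ⟨E, hE, hQE⟩ := exists_defectGroup_ge hM hB hh hQ.isPGroup (le_centralizer_iff.mp hQ.le)
    obtain ⟨x, rfl⟩ := IsDefectGroup.isConj hM hB hDg hE
    exact ⟨x, Q, hQ, hQE⟩
  · rintro ⟨χ, hχ, hh⟩
    obtain ⟨x, hx, hDx⟩ := exists_conj_centralizing_defectGroup hM hB hDg hχ hh
    obtain ⟨E, hE, hDE⟩ := exists_isSylowOf_ge hD.isPGroup hDx
    obtain ⟨c, rfl⟩ := isConj_iff.mp hx.symm
    refine ⟨c, E.map (MulAut.conj c).toMonoidHom, ?_, Subgroup.map_mono hDE⟩
    have := hE.conj_centralizer c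
    exact this


/-- The min–max Theorem for defect classes. Let B be a block of the finite group G relative to a maximal ideal M of the algebraic integers containing the prime p, let g represent a defect class of B and let D be a Sylow p-subgroup of the centralizer of g (viewed in G). For any h: (a) if the idempotent coefficient of B at h is a local integer outside the local ideal, then some conjugate of D contains a Sylow p-subgroup of the centralizer of h; (b) if the central character of some member of B at h is outside the local ideal, then some conjugate of D is contained in a Sylow p-subgroup of the centralizer of h. -/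
theorem result {G : Type*} [Group G] [Finite G] (p : ℕ) [Fact p.Prime] (M : Ideal Cfsg.AlgInt) (hM : Cfsg.IsPModular p M) (B : Set (Cfsg.IrrCharacter G)) (hB : Cfsg.IsPBlock M B) (g : G) (hg : Cfsg.IsDefectClass M B g) (D : Sylow p (Subgroup.centralizer ({g} : Set G))) (h : G) : (Cfsg.MemLocalRing M (Cfsg.blockCoeff B h) → ¬ Cfsg.MemLocalIdeal M (Cfsg.blockCoeff B h) → ∃ (x : G) (Q : Sylow p (Subgroup.centralizer ({h} : Set G))), (Q : Subgroup (Subgroup.centralizer ({h} : Set G))).map (Subgroup.centralizer ({h} : Set G)).subtype ≤ ((D : Subgroup (Subgroup.centralizer ({g} : Set G))).map (Subgroup.centralizer ({g} : Set G)).subtype).map (MulAut.conj x).toMonoidHom) ∧ ((∃ χ ∈ B, ¬ Cfsg.MemLocalIdeal M (Cfsg.centralChar (χ : G → ℂ) h)) → ∃ (x : G) (Q : Sylow p (Subgroup.centralizer ({h} : Set G))), ((D : Subgroup (Subgroup.centralizer ({g} : Set G))).map (Subgroup.centralizer ({g} : Set G)).subtype).map (MulAut.conj x).toMonoidHom ≤ (Q : Subgroup (Subgroup.centralizer ({h} : Set G))).map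 (Subgroup.centralizer ({h} : Set G)).subtype) := by
  obtain ⟨h1, h2⟩ := aux p M hM B hB g hg (D := (D : Subgroup (Subgroup.centralizer ({g} : Set G))).map (Subgroup.centralizer ({g} : Set G)).subtype) ⟨D, rfl⟩ h
  constructor
  · intro _ hh
    obtain ⟨x, Q, ⟨R, rfl⟩, h3⟩ := h1 hh
    exact ⟨x, R, h3⟩
  · intro hh
    obtain ⟨x, Q, ⟨R, rfl⟩, h3⟩ := h2 hh
    exact ⟨x, R, h3⟩

end Cfsg.Agent.S0911
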