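import Cfsg.Statements.S0914
import Cfsg.Agent.Lib.BlockDefect

set_option autoImplicit false
open Cfsg

namespace Cfsg.Agent.S0914

/-- Let χ be an irreducible character of the finite group G, p a prime and M a maximal ideal of the algebraic integers containing p. Then p does not divide the integer (Nat.card G) / χ(1) if and only if the block of χ relative to M consists of χ alone. -/
theorem result {G : Type*} [Group G] [Finite G] (p : ℕ) [Fact p.Prime] (M : Ideal Cfsg.AlgInt) (hM : Cfsg.IsPModular p M) (χ : Cfsg.IrrCharacter G) : ¬ p ∣ Nat.card G / Cfsg.charDegree (χ : G → ℂ) ↔ Cfsg.blockOf M (χ : G → ℂ) = {χ} := by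
  have : Fintype G := Fintype.ofFinite G
  rw [CfsgLib.Block.blockOf_eq_singleton_iff hM χ]
  have hp := hM.1
  have hd := CfsgLib.Block.charDegree_dvd χ.2
  have hd0 := CfsgLib.Block.charDegree_ne_zero χ.2
  obtain ⟨k, hk⟩ := hd
  have hk0 : k ≠ 0 := by
    rintro rfl
    rw [mul_zero] at hk
    exact Nat.card_pos.ne' hk
  have h1 : Nat.card G / Cfsg.charDegree (χ : G → ℂ) = k := by
    rw [hk]; exact Nat.mul_div_cancel_left k (Nat.pos_of_ne_zero hd0)
  rw [h1, hk, Nat.factorization_mul hd0 hk0]
  simp only [Finsupp.coe_add, Pi.add_apply]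
  rw [Nat.Prime.dvd_iff_one_le_factorization hp hk0]
  omega

end Cfsg.Agent.S0914
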