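import Cfsg.Statements.S0921
import Cfsg.Agent.Lib.BlockCover
import Cfsg.Agent.Lib.Core

set_option autoImplicit false
open Cfsg

namespace Cfsg.Agent.S0921

/-- Let N = O_p'(G) be the largest normal subgroup of the finite group G of order prime to p, and fix a maximal ideal M of the algebraic integers containing p. If two irreducible characters χ, ψ of G lie in the same block relative to M, then an irreducible character of N occurs in the restriction of χ exactly when it occurs in the restriction of ψ. -/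
theorem result {G : Type*} [Group G] [Finite G] (p : ℕ) [Fact p.Prime] (M : Ideal Cfsg.AlgInt) (hM : Cfsg.IsPModular p M) [Fintype G] (χ ψ : Cfsg.IrrCharacter G) (h : Cfsg.SameBlock M (χ : G → ℂ) (ψ : G → ℂ)) (θ : Cfsg.IrrCharacter (Cfsg.pPrimeCore p G)) [Fintype (Cfsg.pPrimeCore p G)] : Cfsg.classInner (fun n : Cfsg.pPrimeCore p G => (χ : G → ℂ) n) (θ : Cfsg.pPrimeCore p G → ℂ) ≠ 0 ↔ Cfsg.classInner (fun n : Cfsg.pPrimeCore p G => (ψ : G → ℂ) n) (θ : Cfsg.pPrimeCore p G → ℂ) ≠ 0 := by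
  open CfsgLib.Block CfsgLib.CharBasic in
  have hn := CfsgLib.Core.pPrimeCore_normal p G
  have hcop := CfsgLib.Core.card_pPrimeCore_coprime p G
  have hNp : ¬ p ∣ Nat.card (Cfsg.pPrimeCore p G) :=
    (Nat.Prime.coprime_iff_not_dvd (Fact.out : p.Prime)).mp hcop.symm
  have key : ∀ χ ψ : Cfsg.IrrCharacter G, Cfsg.SameBlock M (χ : G → ℂ) (ψ : G → ℂ) →
      Cfsg.classInner (fun n : Cfsg.pPrimeCore p G => (χ : G → ℂ) n) (θ : Cfsg.pPrimeCore p G → ℂ) ≠ 0 →
      Cfsg.classInner (fun n : Cfsg.pPrimeCore p G => (ψ : G → ℂ) n) (θ : Cfsg.pPrimeCore p G → ℂ) ≠ 0 := by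
    intro χ ψ h hθ
    have h1 : Covers (blockOf M (χ : G → ℂ)) (blockOf M (θ : Cfsg.pPrimeCore p G → ℂ)) :=
      ⟨χ, mem_blockOf_self hM χ, θ, mem_blockOf_self hM θ, hθ⟩
    obtain ⟨θ', hθ', h2⟩ := Covers.exists_constituent hM (isPBlock_blockOf χ) (isPBlock_blockOf θ) h1
      (χ := ψ) h
    rw [blockOf_eq_singleton_of_coprime hM hNp θ, Set.mem_singleton_iff] at hθ'
    rw [hθ'] at h2
    exact h2
  exact ⟨key χ ψ h, key ψ χ (SameBlock.symm h)⟩

end Cfsg.Agent.S0921
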