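import Cfsg.Statements.S0922
import Cfsg.Agent.Lib.BlockSecond

set_option autoImplicit false
open Cfsg

namespace Cfsg.Agent.S0922

/-- Let H be a subgroup of the finite group G and let the block b of H induce the block B of G (relative to a maximal ideal M of the algebraic integers containing the prime p). Let h ∈ H be such that the centralizer in G of the p-part of h lies in H, and let χ be an irreducible character of G not in B. Then the sum over k ∈ H of (the idempotent coefficient of b at k) times χ (k * h) vanishes; that is, χ annihilates f_b h where f_b is the sum of the central idempotents of the members of b. -/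
theorem result {G : Type*} [Group G] [Finite G] (p : ℕ) [Fact p.Prime] (M : Ideal Cfsg.AlgInt) (hM : Cfsg.IsPModular p M) (H : Subgroup G) (b : Set (Cfsg.IrrCharacter H)) (B : Set (Cfsg.IrrCharacter G)) (hind : Cfsg.IsInducedBlock M H b B) (h : H) (hC : ∀ z : G, Cfsg.IsPPart p (h : G) z → Subgroup.centralizer ({z} : Set G) ≤ H) (χ : Cfsg.IrrCharacter G) (hχ : χ ∉ B) : ∑ᶠ k : H, Cfsg.blockCoeff b k * (χ : G → ℂ) ((k : G) * (h : G)) = 0 := by
  open CfsgLib.Block CfsgLib.CharBasic MonoidAlgebra in
  classical
  have : Fintype G := Fintype.ofFinite G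
  have : Fintype H := Fintype.ofFinite H
  obtain ⟨x, hx⟩ := exists_isPPart (Fact.out : p.Prime) (h : G)
  have h1 := secondMain hM hind hx (hC x hx) hχ
  rw [finsum_eq_sum_of_fintype, ← h1]
  have h2 : inclH H (MonoidAlgebra.single h 1) = MonoidAlgebra.single (h : G) (1 : ℂ) := by
    apply ext_coeff
    intro g
    by_cases hg : g ∈ H
    · rw [coeff_incl_of_mem _ _ hg, MonoidAlgebra.coeff_single, MonoidAlgebra.coeff_single,
        Finsupp.single_apply, Finsupp.single_apply]
      congr 1
      exact propext ⟨fun h => congrArg Subtype.val h, fun h => Subtype.ext h⟩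
    · rw [coeff_incl_of_notMem _ _ hg, MonoidAlgebra.coeff_single, Finsupp.single_apply, if_neg]
      intro h'
      apply hg
      rw [← h']
      exact h.2
  rw [← h2, ← incl_mul, ev_incl, ev_mul]
  apply Finset.sum_congr rfl
  intro k _
  rw [Finset.sum_eq_single h]
  · simp
  · intro j _ hne
    rw [MonoidAlgebra.coeff_single, Finsupp.single_apply, if_neg (fun h' => hne h'.symm)]
    ring
  · intro h; exact absurd (Finset.mem_univ _) h

end Cfsg.Agent.S0922
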