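import Cfsg.Statements.S0926
import Cfsg.Agent.Lib.BlockSecond

set_option autoImplicit false
open Cfsg

namespace Cfsg.Agent.S0926

/-- Let B be a block of the finite group G with defect group D (relative to a maximal ideal M of the algebraic integers containing p), let χ ∈ B have height zero, and let x be a p-element. Then some conjugate of x lies in D if and only if χ does not vanish on the whole p-section of x (the elements whose p-part is conjugate to x). -/
theorem result {G : Type*} [Group G] [Finite G] (p : ℕ) [Fact p.Prime] (M : Ideal Cfsg.AlgInt) (hM : Cfsg.IsPModular p M) (B : Set (Cfsg.IrrCharacter G)) (hB : Cfsg.IsPBlock M B) (D : Subgroup G) (hD : Cfsg.IsDefectGroup p M B D) (χ : Cfsg.IrrCharacter G) (hχ : χ ∈ B) (h0 : Cfsg.blockHeight p B (χ : G → ℂ) = 0) (x : G) (hx : ∃ k : ℕ, orderOf x = p ^ k) : (∃ g : G, g * x * g⁻¹ ∈ D) ↔ ∃ u : G, (∃ z : G, Cfsg.IsPPart p u z ∧ IsConj x z) ∧ (χ : G → ℂ) u ≠ 0 := by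
  open CfsgLib.Block CfsgLib.CharBasic in
  have : Fintype G := Fintype.ofFinite G
  constructor
  · rintro ⟨g, hg⟩
    obtain ⟨y, hy, hDy⟩ := isDefectGroup_iff.mp hD
    have h1 := char_mul_not_mem hM hB hy hDy hg hχ h0
    have hcom : Commute (g * x * g⁻¹) y := Subgroup.mem_centralizer_singleton_iff.mp (hDy.le hg)
    obtain ⟨k, hk⟩ := hx
    have hk' : orderOf (g * x * g⁻¹) = p ^ k := by
      rw [← hk]
      exact MulEquiv.orderOf_eq (MulAut.conj g) x
    refine ⟨g * x * g⁻¹ * y, ⟨g * x * g⁻¹, isPPart_of_commute hcom hk' (IsDefectClass.regular hM hB hy),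
      isConj_comm_right⟩, ne_zero_of_not_locIdeal hM h1⟩
  · rintro ⟨u, ⟨z, hz, hxz⟩, hne⟩
    obtain ⟨y, hxy, hcom, hk, hy⟩ := hz
    have hyC : y ∈ Subgroup.centralizer ({z} : Set G) := Subgroup.mem_centralizer_singleton_iff.mpr hcom.eq.symm
    obtain ⟨E, hE1, hE2⟩ := mem_defectGroup_of_ne_zero hM hk χ (y := ⟨y, hyC⟩)
      (by rwa [← Subgroup.orderOf_coe]) (by show (χ : G → ℂ) (z * y) ≠ 0; rwa [hxy])
    rw [← IsPBlock.eq_blockOf hM hB hχ] at hE1
    obtain ⟨c, hc⟩ := IsDefectGroup.isConj hM hB hE1 hD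
    obtain ⟨d, rfl⟩ := isConj_iff.mp hxz
    refine ⟨c * d, ?_⟩
    rw [hc]
    exact ⟨d * x * d⁻¹, hE2, by show c * (d * x * d⁻¹) * c⁻¹ = c * d * x * (c * d)⁻¹; group⟩

end Cfsg.Agent.S0926
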