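import Cfsg.Statements.S0927
import Cfsg.Agent.Lib.BlockNormal

set_option autoImplicit false
open Cfsg

namespace Cfsg.Agent.S0927

open Cfsg CfsgLib.Block CfsgLib.CharBasic in
theorem aux {G : Type*} [Group G] [Fintype G] (p : ℕ) (M : Ideal Cfsg.AlgInt)
    (hM : Cfsg.IsPModular p M) (B : Set (Cfsg.IrrCharacter G)) (hB : Cfsg.IsPBlock M B) (y : G)
    (hy : Cfsg.IsDefectClass M B y) {P : Subgroup G}
    (hP : IsSylowOf p (Subgroup.centralizer ({y} : Set G)) P) (x : G) (hx : x ∈ P) :
    (∀ χ ∈ B, Cfsg.blockHeight p B (χ : G → ℂ) = 0 → ¬ Cfsg.MemLocalIdeal M ((χ : G → ℂ) (x * y))) ∧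
    ((∀ w ∈ P, x * w = w * x) → ∀ χ ∈ B,
      ¬ Cfsg.MemLocalIdeal M (Cfsg.centralChar (χ : G → ℂ) (x * y))) := by
  have : Fact p.Prime := ⟨hM.1⟩
  have hPd : IsDefectGroup p M B P := ⟨y, hy, hP⟩
  have hxy : Commute x y := Subgroup.mem_centralizer_singleton_iff.mp (hP.le hx)
  obtain ⟨k, hk⟩ := (IsPGroup.iff_orderOf.mp hP.isPGroup) ⟨x, hx⟩
  have hxk : x ^ (p ^ k) = 1 := by
    rw [← hk, ← Subgroup.orderOf_coe]; exact pow_orderOf_eq_one x
  have hidx : ∀ z : G, (Nat.card G).factorization p =
      ((Subgroup.centralizer ({z} : Set G)).index).factorization p +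
      (Nat.card (Subgroup.centralizer ({z} : Set G))).factorization p := by
    intro z
    rw [← Subgroup.card_mul_index (Subgroup.centralizer ({z} : Set G)),
      Nat.factorization_mul Nat.card_pos.ne' (Subgroup.index_ne_zero_of_finite), add_comm]
    rfl
  have hPc : (Nat.card P).factorization p =
      (Nat.card (Subgroup.centralizer ({y} : Set G))).factorization p := by
    rw [(isSylowOf_iff.mp hP).2.2, Nat.Prime.factorization_pow hM.1, Finsupp.single_eq_same]
  have ha : ∀ χ ∈ B, Cfsg.blockHeight p B (χ : G → ℂ) = 0 →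
      ¬ Cfsg.MemLocalIdeal M ((χ : G → ℂ) (x * y)) := by
    intro χ hχ h0 hcon
    have h1 := (blockHeight_eq_zero_iff hM hB hPd hχ).mp h0
    have h2 : MemLocalIdeal M ((χ : G → ℂ) y) := by
      have := locIdeal_sub hM hcon (char_mul_sub_mem hM (IsIrrCharacter.isCharacter χ.2) hxy hxk)
      simpa using this
    apply hy.2.2 χ hχ
    have h3 : centralChar (χ : G → ℂ) y =
        (((Subgroup.centralizer ({y} : Set G)).index : ℕ) : ℂ) / (charDegree (χ : G → ℂ) : ℕ) *
          (χ : G → ℂ) y := by
      rw [centralChar, one_eq_charDegree (IsIrrCharacter.isCharacter χ.2)]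
      ring
    rw [h3]
    apply locIdeal_mul_left hM _ h2
    apply div_mem_locRing_of_le hM (charDegree_ne_zero χ.2)
    have := hidx y
    omega
  refine ⟨ha, ?_⟩
  intro hxc χ hχ
  -- reduce to height zero
  obtain ⟨ψ, hψ, hψ0⟩ := IsDefectGroup.exists_degree_le hM hB hPd
  have hψh := (blockHeight_eq_zero_iff hM hB hPd hψ).mpr hψ0
  have h1 := ha ψ hψ hψh
  have h2 : ¬ MemLocalIdeal M (centralChar (ψ : G → ℂ) (x * y)) := by
    have h3 : centralChar (ψ : G → ℂ) (x * y) =
        (((Subgroup.centralizer ({x * y} : Set G)).index : ℕ) : ℂ) / (charDegree (ψ : G → ℂ) : ℕ) *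
          (ψ : G → ℂ) (x * y) := by
      rw [centralChar, one_eq_charDegree (IsIrrCharacter.isCharacter ψ.2)]
      ring
    rw [h3]
    have hle : P ≤ Subgroup.centralizer ({x * y} : Set G) := by
      intro w hw
      rw [Subgroup.mem_centralizer_singleton_iff]
      have h4 : w * y = y * w := Subgroup.mem_centralizer_singleton_iff.mp (hP.le hw)
      rw [← mul_assoc, ← hxc w hw, mul_assoc, h4, mul_assoc]
    have h5 : (Nat.card P).factorization p ≤
        (Nat.card (Subgroup.centralizer ({x * y} : Set G))).factorization p :=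
      (Nat.factorization_le_iff_dvd Nat.card_pos.ne' Nat.card_pos.ne').mpr
        (Subgroup.card_dvd_of_le hle) p
    have h6 := hidx (x * y)
    have h7 : ¬ MemLocalIdeal M ((((Subgroup.centralizer ({x * y} : Set G)).index : ℕ) : ℂ) /
        (charDegree (ψ : G → ℂ) : ℕ)) := by
      intro h8
      have := factorization_lt_of_div_mem hM Subgroup.index_ne_zero_of_finite (charDegree_ne_zero ψ.2) h8
      omega
    intro hcon
    rw [mul_comm] at hcon
    rcases locIdeal_or_of_mul hM (char_mem_locRing hM (IsIrrCharacter.isCharacter ψ.2) _) hcon with h | h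
    · exact h1 h
    · exact h7 h
  intro hcon
  apply h2
  have := locIdeal_sub hM hcon (IsPBlock.sameBlock hM hB hχ hψ (x * y))
  simpa using this


/-- Let B be a block of the finite group G relative to a maximal ideal M of the algebraic integers containing p, let y represent a defect class of B and let P be a Sylow p-subgroup of the centralizer of y. (a) If x ∈ P and χ ∈ B has height zero, then χ (x * y) is not in the local ideal at M. (b) If x lies in the centre of P, then for every χ ∈ B the central character of χ at x * y is not in the local ideal at M. -/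
theorem result {G : Type*} [Group G] [Finite G] (p : ℕ) [Fact p.Prime] (M : Ideal Cfsg.AlgInt) (hM : Cfsg.IsPModular p M) (B : Set (Cfsg.IrrCharacter G)) (hB : Cfsg.IsPBlock M B) (y : G) (hy : Cfsg.IsDefectClass M B y) (P : Sylow p (Subgroup.centralizer ({y} : Set G))) (x : Subgroup.centralizer ({y} : Set G)) (hx : x ∈ (P : Subgroup (Subgroup.centralizer ({y} : Set G)))) : (∀ χ ∈ B, Cfsg.blockHeight p B (χ : G → ℂ) = 0 → ¬ Cfsg.MemLocalIdeal M ((χ : G → ℂ) ((x : G) * y))) ∧ ((∀ w ∈ (P : Subgroup (Subgroup.centralizer ({y} : Set G))), x * w = w * x) → ∀ χ ∈ B, ¬ Cfsg.MemLocalIdeal M (Cfsg.centralChar (χ : G → ℂ) ((x : G) * y))) := by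
  have : Fintype G := Fintype.ofFinite G
  obtain ⟨h1, h2⟩ := aux p M hM B hB y hy
    (P := (P : Subgroup (Subgroup.centralizer ({y} : Set G))).map
      (Subgroup.centralizer ({y} : Set G)).subtype) ⟨P, rfl⟩ x ⟨x, hx, rfl⟩
  refine ⟨h1, ?_⟩
  intro hxc
  apply h2
  rintro _ ⟨w, hw, rfl⟩
  exact congrArg Subtype.val (hxc w hw)

end Cfsg.Agent.S0927
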