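import Cfsg.Statements.S0928
import Cfsg.Agent.Lib.BlockThm

set_option autoImplicit false
open Cfsg

namespace Cfsg.Agent.S0928

open Cfsg CfsgLib.Block CfsgLib.CharBasic MonoidAlgebra in
theorem aux {G : Type*} [Group G] [Fintype G] (p : ℕ) (M : Ideal Cfsg.AlgInt)
    (hM : Cfsg.IsPModular p M) (χ : Cfsg.IrrCharacter G) (hvan : ∀ g : G, orderOf g = p → (χ : G → ℂ) g = 0)
    (P : Subgroup G) (hP : IsDefectGroup p M (blockOf M (χ : G → ℂ)) P) : P = ⊥ := by
  classical
  have : Fact p.Prime := ⟨hM.1⟩
  by_contra hne
  have hB : IsPBlock M (blockOf M (χ : G → ℂ)) := isPBlock_blockOf χ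
  have hχ : χ ∈ blockOf M (χ : G → ℂ) := mem_blockOf_self hM χ
  obtain ⟨b, hbP, hbB⟩ := firstMain_ii_exists hM hB hP
  set N := Subgroup.normalizer (P : Set G) with hN
  have : Fintype N := Fintype.ofFinite N
  have hPN : P ≤ N := Subgroup.le_normalizer
  have hPp := IsDefectGroup.isPGroup hM hP
  have hn : (P.subgroupOf N).Normal := normal_subgroupOf_normalizer P
  have hP'p : IsPGroup p (P.subgroupOf N) := IsDefectGroup.isPGroup hM hbP
  obtain ⟨ξ, hξ, hξP⟩ := exists_mem_block_ker hM hbB.1 (P.subgroupOf N) hP'p
  -- the sum of the elements of order `p`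
  let t : MonoidAlgebra ℂ G := ofFun (fun x => if orderOf x = p then 1 else 0)
  have htC : IsCen t := by
    intro g x
    show t.coeff (x * g * x⁻¹) = t.coeff g
    simp only [t, coeff_ofFun]
    have : orderOf (x * g * x⁻¹) = orderOf g := by
      have := MulEquiv.orderOf_eq (MulAut.conj x) g
      simpa using this
    rw [this]
  have htS : InS M t := by
    intro g
    simp only [t, coeff_ofFun]
    split_ifs
    · exact (locRing hM).one_mem
    · exact (locRing hM).zero_mem
  have h1 := IsInducedBlock.brauer hM hPp hPN le_rfl hbB hξ hχ htC htS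
  have h2 : omega (χ : G → ℂ) t = 0 := by
    rw [omega, ev, Finset.sum_eq_zero, zero_div]
    intro g _
    simp only [t, coeff_ofFun]
    split_ifs with h
    · rw [hvan g h, mul_zero]
    · rw [zero_mul]
  rw [h2, sub_zero] at h1
  -- central elements of `P` of order dividing `p`
  let K : Subgroup (Subgroup.center P) :=
    { carrier := {z | z ^ p = 1}
      one_mem' := one_pow p
      mul_mem' := by
        intro a b ha hb
        have hab : Commute a b := Subtype.ext (Subgroup.mem_center_iff.mp b.2 a)
        show (a * b) ^ p = 1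
        rw [hab.mul_pow, show a ^ p = 1 from ha, show b ^ p = 1 from hb, one_mul]
      inv_mem' := by
        intro a ha
        show (a⁻¹) ^ p = 1
        rw [inv_pow, show a ^ p = 1 from ha, inv_one] }
  have hnt : Nontrivial P := (Subgroup.nontrivial_iff_ne_bot P).mpr hne
  have hct : Nontrivial (Subgroup.center P) := hPp.center_nontrivial
  have hZp : IsPGroup p (Subgroup.center P) := hPp.to_subgroup _
  have hpZ : p ∣ Nat.card (Subgroup.center P) := by
    obtain ⟨n, hn⟩ := IsPGroup.iff_card.mp hZp
    rw [hn]
    apply dvd_pow_self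
    rintro rfl
    rw [pow_zero, Nat.card_eq_one_iff_unique] at hn
    exact not_subsingleton _ hn.1
  obtain ⟨z0, hz0⟩ := exists_prime_orderOf_dvd_card' p hpZ
  have hKcard : p ∣ Nat.card K := by
    have hKp : IsPGroup p K := hZp.to_subgroup _
    obtain ⟨n, hn⟩ := IsPGroup.iff_card.mp hKp
    rw [hn]
    apply dvd_pow_self
    rintro rfl
    rw [pow_zero, Nat.card_eq_one_iff_unique] at hn
    have hzK : z0 ∈ K := by
      show z0 ^ p = 1
      rw [← hz0]; exact pow_orderOf_eq_one z0
    have := hn.1
    have h3 := Subsingleton.elim (⟨z0, hzK⟩ : K) 1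
    have h4 : z0 = 1 := congrArg Subtype.val h3
    rw [h4, orderOf_one] at hz0
    exact hM.1.one_lt.ne hz0
  -- compute the central character
  have h3 : ∀ h : N, (brH P N t).coeff h * (ξ : N → ℂ) h =
      (if orderOf (h : G) = p ∧ (h : G) ∈ P ∧ (h : G) ∈ Subgroup.centralizer (P : Set G) then
        (ξ : N → ℂ) 1 else 0) := by
    intro h
    by_cases hh : (h : G) ∈ Subgroup.centralizer (P : Set G)
    · rw [coeff_brH_of_mem _ hh]
      simp only [t, coeff_ofFun]
      by_cases ho : orderOf (h : G) = p
      · rw [if_pos ho, one_mul]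
        by_cases hhP : (h : G) ∈ P
        · rw [if_pos ⟨ho, hhP, hh⟩]
          exact hξP h hhP
        · rw [if_neg (fun h => hhP h.2.1)]
          apply vanish_of_degree hM _ hP'p hξP (IsDefectGroup.le_degree hM hbP hξ)
          have hd : orderOf (QuotientGroup.mk' (P.subgroupOf N) h) ∣ p := by
            rw [← ho, Subgroup.orderOf_coe]; exact orderOf_map_dvd _ h
          rcases (Nat.dvd_prime hM.1).mp hd with h5 | h5
          · exfalso
            rw [orderOf_eq_one_iff] at h5
            exact hhP ((QuotientGroup.eq_one_iff h).mp h5)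
          · rw [h5]
      · rw [if_neg ho, zero_mul, if_neg (fun h => ho h.1)]
    · rw [coeff_brH_of_notMem _ hh, zero_mul, if_neg (fun h => hh h.2.2)]
  have hcount : (Finset.univ.filter (fun h : N => orderOf (h : G) = p ∧ (h : G) ∈ P ∧
      (h : G) ∈ Subgroup.centralizer (P : Set G))).card + 1 = Nat.card K := by
    have e1 : (Finset.univ.filter (fun h : N => orderOf (h : G) = p ∧ (h : G) ∈ P ∧
      (h : G) ∈ Subgroup.centralizer (P : Set G))).card = (Finset.univ.filter (fun h : K => h ≠ 1)).card := by
      symm
      have hval : ∀ k : K, (((k : Subgroup.center P) : P) : G) ∈ N := fun k => hPN (((k : Subgroup.center P) : P)).2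
      apply Finset.card_bij (fun (k : K) _ => (⟨(((k : Subgroup.center P) : P) : G), hval k⟩ : N))
      · intro k hk
        have hk1 : k ≠ 1 := (Finset.mem_filter.mp hk).2
        refine Finset.mem_filter.mpr ⟨Finset.mem_univ _, ?_, ((k : Subgroup.center P) : P).2, ?_⟩
        · have hkp : (((k : Subgroup.center P) : P) : G) ^ p = 1 := by
            have : (k : Subgroup.center P) ^ p = 1 := k.2
            exact congrArg (fun z : Subgroup.center P => ((z : P) : G)) this
          rcases (Nat.dvd_prime hM.1).mp (orderOf_dvd_of_pow_eq_one hkp) with h5 | h5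
          · exfalso
            apply hk1
            apply Subtype.ext; apply Subtype.ext; apply Subtype.ext
            exact orderOf_eq_one_iff.mp h5
          · exact h5
        · rw [Subgroup.mem_centralizer_iff]
          intro w hw
          have := Subgroup.mem_center_iff.mp (k : Subgroup.center P).2 ⟨w, hw⟩
          exact congrArg Subtype.val this
      · intro a _ b _ hab
        have h9 := congrArg (fun z : N => (z : G)) hab
        exact Subtype.ext (Subtype.ext (Subtype.ext h9))
      · intro h hh
        obtain ⟨h5, h6, h7⟩ := (Finset.mem_filter.mp hh).2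
        have hcen : (⟨(h : G), h6⟩ : P) ∈ Subgroup.center P := by
          rw [Subgroup.mem_center_iff]
          intro w
          exact Subtype.ext (Subgroup.mem_centralizer_iff.mp h7 w w.2)
        have hker : (⟨⟨(h : G), h6⟩, hcen⟩ : Subgroup.center P) ∈ K := by
          show (⟨⟨(h : G), h6⟩, hcen⟩ : Subgroup.center P) ^ p = 1
          apply Subtype.ext; apply Subtype.ext
          show (h : G) ^ p = 1
          rw [← h5]; exact pow_orderOf_eq_one _
        refine ⟨⟨_, hker⟩, Finset.mem_filter.mpr ⟨Finset.mem_univ _, ?_⟩, rfl⟩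
        intro h8
        have h9 : (h : G) = 1 := congrArg (fun z : K => (((z : Subgroup.center P) : P) : G)) h8
        rw [h9, orderOf_one] at h5
        exact hM.1.one_lt.ne h5
    rw [e1, Nat.card_eq_fintype_card, ← Finset.card_univ (α := K)]
    rw [Finset.filter_ne' Finset.univ (1 : K), Finset.card_erase_of_mem (Finset.mem_univ _)]
    have : 0 < (Finset.univ : Finset K).card := Finset.card_pos.mpr ⟨1, Finset.mem_univ _⟩
    omega
  have h4 : omega (ξ : N → ℂ) (brH P N t) = ((Nat.card K : ℕ) : ℂ) - 1 := by
    rw [omega, ev, Finset.sum_congr rfl (fun h _ => h3 h), ← Finset.sum_filter, Finset.sum_const,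
      nsmul_eq_mul, mul_div_assoc, div_self (IsIrrCharacter.one_ne_zero ξ.2), mul_one, ← hcount]
    push_cast
    ring
  rw [h4] at h1
  apply one_notMem_locIdeal hM
  have h5 := locIdeal_sub hM ((locIdeal_nat_iff hM _).mpr hKcard) h1
  simpa using h5


/-- Let χ be an irreducible character of the finite group G and p a prime. If χ g = 0 for every element g of order p, then the exponent of p in the degree χ(1) equals the exponent of p in the order of G (χ has p-defect zero). -/
theorem result {G : Type*} [Group G] [Finite G] (p : ℕ) [Fact p.Prime] (χ : Cfsg.IrrCharacter G) (hvan : ∀ g : G, orderOf g = p → (χ : G → ℂ) g = 0) : (Cfsg.charDegree (χ : G → ℂ)).factorization p = (Nat.card G).factorization p := by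
  open CfsgLib.Block in
  have : Fintype G := Fintype.ofFinite G
  obtain ⟨M, hM⟩ := exists_isPModular (Fact.out : p.Prime)
  obtain ⟨D, hD⟩ := exists_defectGroup hM (isPBlock_blockOf (M := M) χ)
  have h1 := aux p M hM χ hvan D hD
  have h2 := IsDefectGroup.le_degree hM hD (mem_blockOf_self hM χ)
  rw [h1, Subgroup.card_bot, Nat.factorization_one] at h2
  exact le_antisymm (factorization_charDegree_le χ.2) (by simpa using h2)

end Cfsg.Agent.S0928
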