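import Cfsg.Statements.S0931
import Cfsg.Agent.Lib.BlockThm

set_option autoImplicit false
open Cfsg

namespace Cfsg.Agent.S0931

/-- Let H be a subgroup of the finite group G and fix a maximal ideal M of the algebraic integers containing the prime p. If the block b of H induces the block B of G, then b has defect 0 if and only if B has defect 0. -/
theorem result {G : Type*} [Group G] [Finite G] (p : ℕ) [Fact p.Prime] (M : Ideal Cfsg.AlgInt) (hM : Cfsg.IsPModular p M) (H : Subgroup G) (b : Set (Cfsg.IrrCharacter H)) (B : Set (Cfsg.IrrCharacter G)) (hind : Cfsg.IsInducedBlock M H b B) : Cfsg.blockDefect p b = 0 ↔ Cfsg.blockDefect p B = 0 := by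
  open CfsgLib.Block in
  have : Fintype G := Fintype.ofFinite G
  have : Fintype H := Fintype.ofFinite H
  obtain ⟨D, hD⟩ := exists_defectGroup hM hind.1
  obtain ⟨P, hP⟩ := exists_defectGroup hM hind.2.1
  rw [blockDefect_eq_zero_iff hM hind.1 hD, blockDefect_eq_zero_iff hM hind.2.1 hP]
  constructor
  · rintro rfl
    by_contra hne
    have hnt : Nontrivial P := (Subgroup.nontrivial_iff_ne_bot P).mpr hne
    have hct : Nontrivial (Subgroup.center P) := (IsDefectGroup.isPGroup hM hP).center_nontrivial
    obtain ⟨⟨z, hz⟩, hz1⟩ := exists_ne (1 : Subgroup.center P)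
    obtain ⟨g, hg, -⟩ := center_defect_conj hM hind hD hP z.2 (fun w hw => by
      have := Subgroup.mem_center_iff.mp hz ⟨w, hw⟩
      exact (congrArg Subtype.val this).symm)
    rw [Subgroup.map_bot, Subgroup.mem_bot] at hg
    apply hz1
    apply Subtype.ext
    apply Subtype.ext
    show (z : G) = 1
    have : (z : G) = g⁻¹ * (g * z * g⁻¹) * g := by group
    rw [this, hg]
    group
  · rintro rfl
    obtain ⟨E, hE, hDE⟩ := defectGroup_le_of_induced hM hind hD
    obtain ⟨x, hx⟩ := IsDefectGroup.isConj hM hind.2.1 hP hE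
    rw [Subgroup.map_bot] at hx
    rw [hx, le_bot_iff, Subgroup.map_eq_bot_iff_of_injective _ H.subtype_injective] at hDE
    exact hDE

end Cfsg.Agent.S0931
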