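import Cfsg.Statements.S0934
import Cfsg.Agent.Lib.BlockCorr

set_option autoImplicit false
open Cfsg

namespace Cfsg.Agent.S0934

/-- Let H be a subgroup of the finite group G and fix a maximal ideal M of the algebraic integers containing the prime p. If the block b of H induces the block B of G and ξ ∈ b, then there is χ ∈ B whose restriction to H has nonzero inner product with ξ. -/
theorem result {G : Type*} [Group G] [Fintype G] (p : ℕ) [Fact p.Prime] (M : Ideal Cfsg.AlgInt) (hM : Cfsg.IsPModular p M) (H : Subgroup G) [Fintype H] (b : Set (Cfsg.IrrCharacter H)) (B : Set (Cfsg.IrrCharacter G)) (hind : Cfsg.IsInducedBlock M H b B) (ξ : Cfsg.IrrCharacter H) (hξ : ξ ∈ b) : ∃ χ ∈ B, Cfsg.classInner (fun h : H => (χ : G → ℂ) h) (ξ : H → ℂ) ≠ 0 := by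
  open CfsgLib.Block CfsgLib.CharBasic in
  classical
  by_contra hcon
  push Not at hcon
  obtain ⟨χ, hχ⟩ := IsPBlock.nonempty hM hind.2.1
  have h1 := IsInducedBlock.omega hM hind hξ hχ (isCen_eB B) (inS_eB hM hind.2.1)
  rw [omega_eB_of_mem hχ] at h1
  have h2 : omega (ξ : H → ℂ) (resH H (eB B)) = 0 := by
    rw [omega, ev]
    have h3 : ∀ h : H, (resH H (eB B)).coeff h * (ξ : H → ℂ) h =
        (Nat.card G : ℂ)⁻¹ * ∑ χ : Cfsg.IrrCharacter G,
          if χ ∈ B then (χ : G → ℂ) 1 * ((ξ : H → ℂ) h * (starRingEnd ℂ) ((χ : G → ℂ) h)) else 0 := by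
      intro h
      rw [coeff_resH, coeff_eB, blockCoeff_eq, mul_assoc, Finset.sum_mul]
      congr 1
      apply Finset.sum_congr rfl
      intro ψ _
      split_ifs
      · rw [IsCharacter.inv_apply (irr_isCharacter ψ)]; ring
      · simp
    rw [Finset.sum_congr rfl (fun h _ => h3 h), ← Finset.mul_sum, Finset.sum_comm]
    have h4 : ∀ ψ : Cfsg.IrrCharacter G, (∑ h : H, if ψ ∈ B then
        (ψ : G → ℂ) 1 * ((ξ : H → ℂ) h * (starRingEnd ℂ) ((ψ : G → ℂ) h)) else 0) = 0 := by
      intro ψ
      by_cases hψ : ψ ∈ B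
      · simp only [if_pos hψ]
        rw [← Finset.mul_sum]
        have h5 := hcon ψ hψ
        rw [← classInner_conj_symm] at h5
        have h6 := (map_eq_zero (starRingEnd ℂ)).mp h5
        rw [Cfsg.classInner] at h6
        have h7 := (mul_eq_zero.mp h6).resolve_left (inv_ne_zero card_ne_zero)
        rw [h7, mul_zero]
      · simp only [if_neg hψ, Finset.sum_const_zero]
    rw [Finset.sum_eq_zero (fun ψ _ => h4 ψ)]
    simp
  rw [h2, zero_sub] at h1
  apply one_notMem_locIdeal hM
  have := locIdeal_neg h1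
  simpa using this

end Cfsg.Agent.S0934
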