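import Cfsg.Statements.S0937
import Cfsg.Agent.Lib.BlockThird

set_option autoImplicit false
open Cfsg

open scoped Pointwise
namespace Cfsg.Agent.S0937

/-- Let H be a subgroup of the finite group G and fix a maximal ideal M of the algebraic integers containing the prime p. If the block b of H induces the block B of G and χ ∈ B has height zero, then there is ξ ∈ b of height zero whose multiplicity in the restriction of χ to H is a natural number not divisible by p. -/
theorem result {G : Type*} [Group G] [Fintype G] (p : ℕ) [Fact p.Prime] (M : Ideal Cfsg.AlgInt) (hM : Cfsg.IsPModular p M) (H : Subgroup G) [Fintype H] (b : Set (Cfsg.IrrCharacter H)) (B : Set (Cfsg.IrrCharacter G)) (hind : Cfsg.IsInducedBlock M H b B) (χ : Cfsg.IrrCharacter G) (hχ : χ ∈ B) (h0 : Cfsg.blockHeight p B (χ : G → ℂ) = 0) : ∃ ξ ∈ b, Cfsg.blockHeight p b (ξ : H → ℂ) = 0 ∧ ∃ n : ℕ, Cfsg.classInner (fun h : H => (χ : G → ℂ) h) (ξ : H → ℂ) = (n : ℂ) ∧ ¬ p ∣ n := by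
  open CfsgLib.Block CfsgLib.CharBasic MonoidAlgebra in
  classical
  obtain ⟨ξ', hξ'⟩ := IsPBlock.nonempty hM hind.1
  have h1 := IsInducedBlock.omega hM hind hξ' hχ (isCen_sReg (p := p) (irr_isClassFunction χ))
    (inS_sReg hM (irr_isCharacter χ))
  have h2 : ¬ Cfsg.MemLocalIdeal M (omega (ξ' : H → ℂ) (resH H (sReg p (χ : G → ℂ)))) := by
    intro h
    apply omega_sReg_not_mem hM hind.2.1 hχ hχ h0
    have := locIdeal_sub hM h h1
    simpa using this
  rw [resH_sReg] at h2
  have hrc := IsCharacter.restrict (irr_isCharacter χ) H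
  have h3 : sReg p (fun h : H => (χ : G → ℂ) h) =
      ∑ ξ : Cfsg.IrrCharacter H, Cfsg.classInner (fun h : H => (χ : G → ℂ) h) (ξ : H → ℂ) • sReg p (ξ : H → ℂ) := by
    apply ext_coeff
    intro x
    have h4 : (∑ ξ : Cfsg.IrrCharacter H, Cfsg.classInner (fun h : H => (χ : G → ℂ) h) (ξ : H → ℂ) • sReg p (ξ : H → ℂ)).coeff x =
        ∑ ξ : Cfsg.IrrCharacter H, Cfsg.classInner (fun h : H => (χ : G → ℂ) h) (ξ : H → ℂ) * (sReg p (ξ : H → ℂ)).coeff x := by
      rw [MonoidAlgebra.coeff_sum, Finsupp.finsetSum_apply]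
      rfl
    rw [h4]
    by_cases hx : p ∣ orderOf x
    · rw [coeff_sReg_of_singular hx, Finset.sum_eq_zero]
      intro ξ _
      rw [coeff_sReg_of_singular hx, mul_zero]
    · rw [coeff_sReg_of_regular hx]
      have h5 := congrFun (eq_sum_inner (IsCharacter.isClassFunction hrc)) x⁻¹
      rw [Finset.sum_apply] at h5
      rw [h5]
      apply Finset.sum_congr rfl
      intro ξ _
      rw [coeff_sReg_of_regular hx]
      rfl
  rw [h3, omega_sum] at h2
  have h4 : ∃ ξ : Cfsg.IrrCharacter H, ¬ Cfsg.MemLocalIdeal M (omega (ξ' : H → ℂ)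
      (Cfsg.classInner (fun h : H => (χ : G → ℂ) h) (ξ : H → ℂ) • sReg p (ξ : H → ℂ))) := by
    by_contra hcon
    push Not at hcon
    exact h2 (locIdeal_sum hM _ (fun ξ _ => hcon ξ))
  obtain ⟨ξ, hξ⟩ := h4
  rw [omega_smul] at hξ
  obtain ⟨n, hn⟩ := IsCharacter.inner_irr_nat hrc ξ
  have hω := omega_mem_locRing hM ξ'.2 (isCen_sReg (p := p) (irr_isClassFunction ξ)) (inS_sReg hM (irr_isCharacter ξ))
  have hne : omega (ξ' : H → ℂ) (sReg p (ξ : H → ℂ)) ≠ 0 := by
    intro h
    apply hξ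
    rw [h, mul_zero]; exact locIdeal_zero hM
  have hsb : Cfsg.SameBlock M (ξ : H → ℂ) (ξ' : H → ℂ) := by
    by_contra h
    exact hne (omega_sReg_eq_zero hM h)
  have hξb : ξ ∈ b := IsPBlock.mem_of_sameBlock hM hind.1 hξ' (SameBlock.symm hsb)
  refine ⟨ξ, hξb, ?_, n, hn, ?_⟩
  · by_contra hh
    apply hξ
    apply locIdeal_mul_left hM
    · rw [hn]; exact natCast_mem_locRing hM n
    · exact omega_sReg_mem_of_height hM hind.1 hξb hξ' hh
  · intro hpn
    apply hξ
    rw [hn]
    exact locIdeal_mul_right hM ((locIdeal_nat_iff hM n).mpr hpn) hω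

end Cfsg.Agent.S0937
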