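import Cfsg.Statements.S0938
import Cfsg.Agent.Lib.BlockCover

set_option autoImplicit false
open Cfsg

namespace Cfsg.Agent.S0938

/-- Let B be a block of the finite group G relative to a maximal ideal M of the algebraic integers containing the prime p, and let χ ∈ B. Then the kernel of B (the set of g with ψ g = ψ 1 for all ψ ∈ B) is a normal subgroup of order prime to p contained in the kernel of χ, and it contains every normal subgroup of order prime to p on which χ takes the value χ(1); that is, it is O_p' of the kernel of χ. -/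
theorem result {G : Type*} [Group G] [Finite G] (p : ℕ) [Fact p.Prime] (M : Ideal Cfsg.AlgInt) (hM : Cfsg.IsPModular p M) (B : Set (Cfsg.IrrCharacter G)) (hB : Cfsg.IsPBlock M B) (χ : Cfsg.IrrCharacter G) (hχ : χ ∈ B) : ∃ K : Subgroup G, K.Normal ∧ (K : Set G) = Cfsg.blockKer B ∧ ¬ p ∣ Nat.card K ∧ (∀ g ∈ K, (χ : G → ℂ) g = (χ : G → ℂ) 1) ∧ ∀ N : Subgroup G, N.Normal → ¬ p ∣ Nat.card N → (∀ g ∈ N, (χ : G → ℂ) g = (χ : G → ℂ) 1) → N ≤ K := by
  open CfsgLib.Block CfsgLib.CharBasic in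
  classical
  have : Fintype G := Fintype.ofFinite G
  let K : Subgroup G := ⨅ ψ : B, charKer (irr_isCharacter ψ.1)
  have hmem : ∀ g : G, g ∈ K ↔ ∀ ψ ∈ B, (ψ : G → ℂ) g = (ψ : G → ℂ) 1 := by
    intro g
    simp only [K, Subgroup.mem_iInf]
    constructor
    · intro h ψ hψ
      exact h ⟨ψ, hψ⟩
    · intro h ψ
      exact h ψ.1 ψ.2
  refine ⟨K, ?_, ?_, ?_, ?_, ?_⟩
  · constructor
    intro n hn g
    rw [hmem] at hn ⊢
    intro ψ hψ
    rw [irr_isClassFunction ψ]
    exact hn ψ hψ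
  · ext g
    exact hmem g
  · intro hp
    obtain ⟨⟨g, hg⟩, hgo⟩ := exists_prime_orderOf_dvd_card' p hp
    rw [← Subgroup.orderOf_coe] at hgo
    have h1 := weak_block_orthogonality hM (inS_eB hM hB) (x := 1) (y := g)
      (by rw [orderOf_one]; intro h; exact (Fact.out : p.Prime).one_lt.ne' (Nat.dvd_one.mp h))
      (by rw [hgo])
    rw [finsum_mem_eq] at h1
    have h2 : ∀ ψ : Cfsg.IrrCharacter G, ∃ n : ℕ, 0 < n ∧ (ψ : G → ℂ) 1 = n := fun ψ => IsIrrCharacter.exists_pos ψ.2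
    choose d hd hd' using h2
    have h3 : ∑ ψ : Cfsg.IrrCharacter G, (if ψ ∈ B then (ψ : G → ℂ) 1 * (starRingEnd ℂ) ((ψ : G → ℂ) g) else 0) =
        ((∑ ψ : Cfsg.IrrCharacter G, if ψ ∈ B then d ψ * d ψ else 0 : ℕ) : ℂ) := by
      push_cast
      apply Finset.sum_congr rfl
      intro ψ _
      split_ifs with hψ
      · rw [(hmem g).mp hg ψ hψ, hd', Complex.conj_natCast]
      · rfl
    rw [h3] at h1
    have h4 : (∑ ψ : Cfsg.IrrCharacter G, if ψ ∈ B then d ψ * d ψ else 0 : ℕ) = 0 := by exact_mod_cast h1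
    have h5 := (Finset.sum_eq_zero_iff.mp h4) χ (Finset.mem_univ _)
    rw [if_pos hχ] at h5
    have := Nat.mul_pos (hd χ) (hd χ)
    omega
  · intro g hg
    exact (hmem g).mp hg χ hχ
  · intro N hN hNp hNχ g hg
    rw [hmem]
    intro ψ hψ
    have : Fintype N := Fintype.ofFinite N
    exact ker_of_sameBlock hM hNp (IsPBlock.sameBlock hM hB hχ hψ) hNχ g hg

end Cfsg.Agent.S0938
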