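import Cfsg.Statements.S0939
import Cfsg.Agent.Lib.BlockCover
import Cfsg.Agent.Lib.Core

set_option autoImplicit false
open Cfsg

open scoped Pointwise
namespace Cfsg.Agent.S0939

/-- Let G be a finite group with a normal p-complement (the largest normal subgroup O_p'(G) of order prime to p has p-power index). Then, relative to any maximal ideal M of the algebraic integers containing p, the principal block of G is the set of irreducible characters χ with χ n = χ 1 for every n ∈ O_p'(G). -/
theorem result {G : Type*} [Group G] [Finite G] (p : ℕ) [Fact p.Prime] (M : Ideal Cfsg.AlgInt) (hM : Cfsg.IsPModular p M) (hnc : ∃ k : ℕ, (Cfsg.pPrimeCore p G).index = p ^ k) : Cfsg.principalBlock M G = {χ : Cfsg.IrrCharacter G | ∀ n ∈ Cfsg.pPrimeCore p G, (χ : G → ℂ) n = (χ : G → ℂ) 1} := by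
  open CfsgLib.Block CfsgLib.CharBasic in
  classical
  have : Fintype G := Fintype.ofFinite G
  have hn := CfsgLib.Core.pPrimeCore_normal p G
  have hcop := CfsgLib.Core.card_pPrimeCore_coprime p G
  have hNp : ¬ p ∣ Nat.card (Cfsg.pPrimeCore p G) :=
    (Nat.Prime.coprime_iff_not_dvd (Fact.out : p.Prime)).mp hcop.symm
  have : Fintype (Cfsg.pPrimeCore p G) := Fintype.ofFinite _
  obtain ⟨k, hk⟩ := hnc
  ext χ
  constructor
  · intro hχ
    exact ker_of_sameBlock (N := Cfsg.pPrimeCore p G) hM hNp (χ := irrOne G) hχ (fun x _ => rfl)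
  · intro hχ
    have h1 : Covers (blockOf M (χ : G → ℂ)) (Cfsg.principalBlock M (Cfsg.pPrimeCore p G)) := by
      refine ⟨χ, mem_blockOf_self hM χ, irrOne _, irrOne_mem_principalBlock hM, ?_⟩
      have h2 : (fun n : Cfsg.pPrimeCore p G => (χ : G → ℂ) n) = (χ : G → ℂ) 1 • ((irrOne (Cfsg.pPrimeCore p G) : Cfsg.IrrCharacter _) : Cfsg.pPrimeCore p G → ℂ) := by
        funext n
        rw [Pi.smul_apply, irrOne_apply, smul_eq_mul, mul_one]
        exact hχ n n.2
      rw [h2, classInner_smul_left, IsIrrCharacter.inner_self (irrOne _).2, mul_one]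
      exact IsIrrCharacter.one_ne_zero χ.2
    have h2 : Covers (Cfsg.principalBlock M G) (Cfsg.principalBlock M (Cfsg.pPrimeCore p G)) := by
      refine ⟨irrOne G, irrOne_mem_principalBlock hM, irrOne _, irrOne_mem_principalBlock hM, ?_⟩
      have h3 : (fun n : Cfsg.pPrimeCore p G => (irrOne G : G → ℂ) n) = ((irrOne (Cfsg.pPrimeCore p G) : Cfsg.IrrCharacter _) : Cfsg.pPrimeCore p G → ℂ) := rfl
      rw [h3, IsIrrCharacter.inner_self (irrOne _).2]
      exact one_ne_zero
    have h3 := covers_unique hM hk (isPBlock_blockOf χ) isPBlock_principalBlock isPBlock_principalBlock h1 h2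
    rw [← h3]
    exact mem_blockOf_self hM χ

end Cfsg.Agent.S0939
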