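import Cfsg.Statements.S0943
import Cfsg.Agent.Lib.CharBasic3

set_option autoImplicit false
open Cfsg

namespace Cfsg.Agent.S0943

/-- Let χ be an irreducible character of the finite group G and u, v ∈ G. If χ (x * y) = χ (u * v) whenever x is conjugate to u and y is conjugate to v, then χ u * χ v = χ 1 * χ (u * v). (Multiply the class sums of u and v and apply the central character of χ.) -/
theorem result {G : Type*} [Group G] [Finite G] (χ : Cfsg.IrrCharacter G) (u v : G) (hc : ∀ x y : G, IsConj u x → IsConj v y → (χ : G → ℂ) (x * y) = (χ : G → ℂ) (u * v)) : (χ : G → ℂ) u * (χ : G → ℂ) v = (χ : G → ℂ) 1 * (χ : G → ℂ) (u * v) := by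
  open CfsgLib.CharBasic in
  have : Fintype G := Fintype.ofFinite G
  have h1 := IsIrrCharacter.sum_sum_mul_mul χ.2 (isClassFunction_classInd u) (classInd v)
  rw [sum_classInd_mul (irr_isClassFunction χ), sum_classInd_mul (irr_isClassFunction χ)] at h1
  have h2 : ∀ y x : G, classInd u x * classInd v y * (χ : G → ℂ) (x * y) =
      classInd u x * classInd v y * (χ : G → ℂ) (u * v) := by
    intro y x
    by_cases hx : IsConj u x
    · by_cases hy : IsConj v y
      · rw [hc x y hx hy]
      · rw [classInd_of_not_isConj hy]; ring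
    · rw [classInd_of_not_isConj hx]; ring
  rw [Finset.sum_congr rfl (fun y _ => Finset.sum_congr rfl (fun x _ => h2 y x))] at h1
  have h3 : ∑ y : G, ∑ x : G, classInd u x * classInd v y * (χ : G → ℂ) (u * v) =
      (Nat.card {x : G // IsConj u x} : ℂ) * (Nat.card {x : G // IsConj v x} : ℂ) * (χ : G → ℂ) (u * v) := by
    rw [← sum_classInd u, ← sum_classInd v]
    simp only [← Finset.sum_mul]
    rw [← Finset.mul_sum]
  rw [h3] at h1
  have hu : (Nat.card {x : G // IsConj u x} : ℂ) ≠ 0 := Nat.cast_ne_zero.mpr (card_isConj_pos u).ne'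
  have hv : (Nat.card {x : G // IsConj v x} : ℂ) ≠ 0 := Nat.cast_ne_zero.mpr (card_isConj_pos v).ne'
  have h0 := IsIrrCharacter.one_ne_zero χ.2
  rw [eq_div_iff h0] at h1
  have h4 : ((Nat.card {x : G // IsConj u x} : ℂ) * (Nat.card {x : G // IsConj v x} : ℂ)) *
      ((χ : G → ℂ) u * (χ : G → ℂ) v) = ((Nat.card {x : G // IsConj u x} : ℂ) *
      (Nat.card {x : G // IsConj v x} : ℂ)) * ((χ : G → ℂ) 1 * (χ : G → ℂ) (u * v)) := by
    linear_combination -h1
  exact mul_left_cancel₀ (mul_ne_zero hu hv) h4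

end Cfsg.Agent.S0943
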