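import Cfsg.Statements.S0944
import Cfsg.Agent.Lib.CharBasic3
import Cfsg.Agent.Lib.BlockDefect

set_option autoImplicit false
open Cfsg

namespace Cfsg.Agent.S0944

/-- Let χ be an irreducible character of the finite group G and u an involution. Then χ u is a rational integer n with n ≡ χ 1 (mod 2). -/
theorem result {G : Type*} [Group G] [Finite G] (χ : Cfsg.IrrCharacter G) (u : G) (hu : orderOf u = 2) : ∃ n : ℤ, (χ : G → ℂ) u = (n : ℂ) ∧ (2 : ℤ) ∣ (Cfsg.charDegree (χ : G → ℂ) : ℤ) - n := by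
  open CfsgLib.CharBasic in
  classical
  have : Fintype G := Fintype.ofFinite G
  have hc := irr_isCharacter χ
  obtain ⟨n, ρ, hρ⟩ := hc
  obtain ⟨b, ζ, hζ, -, hk⟩ := exists_eigenbasis_rep ρ u
  rw [hu] at hζ
  have h1 : (χ : G → ℂ) u = ∑ i, ζ i := by
    rw [← hρ]
    have := hk 1
    simpa using this
  have h0 : (χ : G → ℂ) 1 = ∑ i : Fin (Module.finrank ℂ (Fin n → ℂ)), (1 : ℂ) := by
    rw [← hρ]
    have := hk 0
    simpa using this
  have hpm : ∀ i, ∃ ε : ℤ, ζ i = ε ∧ (2 : ℤ) ∣ 1 - ε := by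
    intro i
    have h2 := hζ i
    rw [sq] at h2
    rcases mul_self_eq_one_iff.mp h2 with h | h
    · exact ⟨1, by rw [h]; simp, by norm_num⟩
    · exact ⟨-1, by rw [h]; simp, by norm_num⟩
  choose ε hε hε' using hpm
  refine ⟨∑ i, ε i, ?_, ?_⟩
  · rw [h1]
    push_cast
    exact Finset.sum_congr rfl (fun i _ => hε i)
  · have h2 : (Cfsg.charDegree (χ : G → ℂ) : ℤ) = ∑ i : Fin (Module.finrank ℂ (Fin n → ℂ)), (1 : ℤ) := by
      have h3 := CfsgLib.Block.charDegree_eq (χ := (χ : G → ℂ)) (n := Module.finrank ℂ (Fin n → ℂ)) (by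
        rw [h0]; simp)
      rw [h3]; simp
    rw [h2, ← Finset.sum_sub_distrib]
    exact Finset.dvd_sum (fun i _ => hε' i)

end Cfsg.Agent.S0944
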