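import Cfsg.Statements.S0947
import Cfsg.Agent.Lib.BlockPrin

set_option autoImplicit false
open Cfsg

namespace Cfsg.Agent.S0947

/-- Let z ≠ 1 be a p-element of the finite group G with centralizer H, and fix a maximal ideal M of the algebraic integers containing p. (i) For every y ∈ H of order prime to p, the sum over ζ in the principal block of G of |ζ (z * y)|² equals the sum over χ in the principal block of H of |χ y|². (ii) If moreover H has a normal p-complement (its largest normal subgroup of order prime to p has p-power index), that common value is the largest power of p dividing the order of H. -/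
theorem result {G : Type*} [Group G] [Finite G] (p : ℕ) [Fact p.Prime] (M : Ideal Cfsg.AlgInt) (hM : Cfsg.IsPModular p M) (z : G) (hz : ∃ k : ℕ, orderOf z = p ^ k) (hz1 : z ≠ 1) (y : Subgroup.centralizer ({z} : Set G)) (hy : ¬ p ∣ orderOf y) : (∑ᶠ ζ ∈ Cfsg.principalBlock M G, ‖(ζ : G → ℂ) (z * (y : G))‖ ^ 2 = ∑ᶠ χ ∈ Cfsg.principalBlock M (Subgroup.centralizer ({z} : Set G)), ‖(χ : Subgroup.centralizer ({z} : Set G) → ℂ) y‖ ^ 2) ∧ ((∃ k : ℕ, (Cfsg.pPrimeCore p (Subgroup.centralizer ({z} : Set G))).index = p ^ k) → ∑ᶠ ζ ∈ Cfsg.principalBlock M G, ‖(ζ : G → ℂ) (z * (y : G))‖ ^ 2 = ((p ^ (Nat.card (Subgroup.centralizer ({z} : Set G))).factorization p : ℕ) : ℝ)) := by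
  open CfsgLib.Block in
  classical
  have : Fintype G := Fintype.ofFinite G
  have : Fintype (Subgroup.centralizer ({z} : Set G)) := Fintype.ofFinite _
  have h1 : ∑ᶠ ζ ∈ Cfsg.principalBlock M G, ‖(ζ : G → ℂ) (z * (y : G))‖ ^ 2 =
      ∑ᶠ χ ∈ Cfsg.principalBlock M (Subgroup.centralizer ({z} : Set G)), ‖(χ : Subgroup.centralizer ({z} : Set G) → ℂ) y‖ ^ 2 := by
    have h2 := colSum_principal hM hz hy hy
    rw [← finsum_norm_sq_eq, ← finsum_norm_sq_eq] at h2
    exact_mod_cast h2
  refine ⟨h1, ?_⟩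
  rintro ⟨k, hk⟩
  rw [h1]
  have hN : (Cfsg.pPrimeCore p ↥(Subgroup.centralizer ({z} : Set G))).Normal := CfsgLib.Core.pPrimeCore_normal p _
  have hcop := CfsgLib.Core.card_pPrimeCore_coprime p ↥(Subgroup.centralizer ({z} : Set G))
  have hNp : ¬ p ∣ Nat.card (Cfsg.pPrimeCore p ↥(Subgroup.centralizer ({z} : Set G))) := fun h => by
    have h1 := Nat.Coprime.eq_one_of_dvd hcop.symm h
    exact hM.1.one_lt.ne' h1
  have hyN : y ∈ Cfsg.pPrimeCore p ↥(Subgroup.centralizer ({z} : Set G)) := mem_of_regular_of_index hM.1 hk hy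
  have h3 := colSum_principal_pnilp hM _ hNp hk hyN hyN
  rw [← finsum_norm_sq_eq] at h3
  have h4 : (Cfsg.pPrimeCore p ↥(Subgroup.centralizer ({z} : Set G))).index =
      p ^ (Nat.card (Subgroup.centralizer ({z} : Set G))).factorization p := by
    have h5 := Subgroup.card_mul_index (Cfsg.pPrimeCore p ↥(Subgroup.centralizer ({z} : Set G)))
    rw [← h5, Nat.factorization_mul Nat.card_pos.ne' Subgroup.index_ne_zero_of_finite, Finsupp.add_apply,
      Nat.factorization_eq_zero_of_not_dvd hNp, zero_add, hk, Nat.factorization_pow, Finsupp.smul_apply,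
      hM.1.factorization_self, smul_eq_mul, mul_one]
  rw [h4] at h3
  exact_mod_cast h3

end Cfsg.Agent.S0947
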