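import Cfsg.Statements.S0952
import Cfsg.Agent.Lib.BlockWords

set_option autoImplicit false
open scoped ComplexConjugate
open Cfsg

namespace Cfsg.Agent.S0952

/-- Let χ and ψ be irreducible characters of the finite group G lying in different blocks relative to a maximal ideal M of the algebraic integers containing the prime p. Then the sum of χ x * conj (ψ x) over the elements x of order prime to p is zero. -/
theorem result {G : Type*} [Group G] [Finite G] (p : ℕ) [Fact p.Prime] (M : Ideal Cfsg.AlgInt) (hM : Cfsg.IsPModular p M) (χ ψ : Cfsg.IrrCharacter G) (h : ¬ Cfsg.SameBlock M (χ : G → ℂ) (ψ : G → ℂ)) : ∑ᶠ x ∈ {x : G | ¬ p ∣ orderOf x}, (χ : G → ℂ) x * conj ((ψ : G → ℂ) x) = 0 := by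
  classical
  have : Fintype G := Fintype.ofFinite G
  have hB := CfsgLib.Block.isPBlock_blockOf (M := M) ψ
  have hχ : χ ∉ Cfsg.blockOf M (ψ : G → ℂ) := fun h' => h (CfsgLib.Block.SameBlock.symm h')
  have h1 := CfsgLib.Block.classInner_section_eq_zero hM (CfsgLib.Block.inS_eB hM hB)
    (CfsgLib.Block.mem_blockOf_self hM ψ) hχ 1
  rw [Cfsg.classInner] at h1
  have h2 := (mul_eq_zero.mp h1).resolve_left (inv_ne_zero CfsgLib.CharBasic.card_ne_zero)
  rw [finsum_mem_def, finsum_eq_sum_of_fintype]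
  rw [← h2]
  apply Finset.sum_congr rfl
  intro u _
  have hiff : u ∈ {x : G | ¬ p ∣ orderOf x} ↔ u ∈ {u : G | ∃ z, Cfsg.IsPPart p u z ∧ IsConj 1 z} := by
    obtain ⟨z, hz⟩ := CfsgLib.Block.exists_isPPart hM.1 u
    constructor
    · intro hu
      have := CfsgLib.Block.IsPPart.one_of_regular hM.1 hz hu
      exact ⟨1, this ▸ hz, IsConj.refl 1⟩
    · rintro ⟨w, hw, hc⟩
      have hw1 : w = 1 := by
        obtain ⟨c, hc⟩ := isConj_iff.mp hc
        rw [← hc]; group
      exact (CfsgLib.Block.IsPPart.one_iff hM.1 hw).mp hw1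
  by_cases hu : u ∈ {x : G | ¬ p ∣ orderOf x}
  · rw [Set.indicator_of_mem hu, Set.indicator_of_mem (hiff.mp hu)]
  · rw [Set.indicator_of_notMem hu, Set.indicator_of_notMem (fun h' => hu (hiff.mpr h')), zero_mul]

end Cfsg.Agent.S0952
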