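import Cfsg.Statements.S0955
import Cfsg.Agent.Lib.BlockFirst
import Cfsg.Agent.Lib.Core

set_option autoImplicit false
open Cfsg

namespace Cfsg.Agent.S0955

/-- Let D be a defect group of a block of the finite group G relative to a maximal ideal M of the algebraic integers containing the prime p. Then D is the largest normal p-subgroup of its own normalizer: O_p(N_G(D)) = D. -/
theorem result {G : Type*} [Group G] [Finite G] (p : ℕ) [Fact p.Prime] (M : Ideal Cfsg.AlgInt) (hM : Cfsg.IsPModular p M) (B : Set (Cfsg.IrrCharacter G)) (hB : Cfsg.IsPBlock M B) (D : Subgroup G) (hD : Cfsg.IsDefectGroup p M B D) : (Cfsg.pCore p (Subgroup.normalizer (D : Set G))).map (Subgroup.normalizer (D : Set G)).subtype = D := by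
  open CfsgLib.Block in
  have : Fintype G := Fintype.ofFinite G
  obtain ⟨b, hbD, hbB⟩ := firstMain_ii_exists hM hB hD
  have : Fintype (Subgroup.normalizer (D : Set G)) := Fintype.ofFinite _
  have hn := CfsgLib.Core.pCore_normal p (Subgroup.normalizer (D : Set G))
  have h1 := IsDefectGroup.normal_le hM hbB.1 hbD _ (CfsgLib.Core.pCore_isPGroup p (Subgroup.normalizer (D : Set G)))
  have h2 : D.subgroupOf (Subgroup.normalizer (D : Set G)) ≤ Cfsg.pCore p (Subgroup.normalizer (D : Set G)) :=
    CfsgLib.Core.le_pCore (normal_subgroupOf_normalizer D) (IsDefectGroup.isPGroup hM hbD)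
  rw [le_antisymm h1 h2, Subgroup.map_subgroupOf_eq_of_le Subgroup.le_normalizer]

end Cfsg.Agent.S0955
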