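import Cfsg.Statements.S0957
import Cfsg.Agent.Lib.CharBasic3

set_option autoImplicit false
open Cfsg

namespace Cfsg.Agent.S0957

/-- Let P be a Sylow p-subgroup of the finite group G, let g, h ∈ G and let p ^ d be the order of a Sylow p-subgroup of the centralizer of g. Then the number of pairs (y, z) with y conjugate to g, z conjugate to h and z * y⁻¹ ∈ P is divisible by the order of P divided by p ^ d. -/
theorem result {G : Type*} [Group G] [Finite G] (p : ℕ) [Fact p.Prime] (P : Sylow p G) (g h : G) (S : Sylow p (Subgroup.centralizer ({g} : Set G))) : Nat.card P / Nat.card S ∣ Nat.card {yz : G × G // IsConj g yz.1 ∧ IsConj h yz.2 ∧ yz.2 * yz.1⁻¹ ∈ (P : Subgroup G)} := by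
  classical
  let X := {yz : G × G // IsConj g yz.1 ∧ IsConj h yz.2 ∧ yz.2 * yz.1⁻¹ ∈ (P : Subgroup G)}
  have hconj : ∀ {a b x : G}, IsConj a b → IsConj a (x * b * x⁻¹) := fun h => h.trans (isConj_iff.mpr ⟨_, rfl⟩)
  let act : MulAction (P : Subgroup G) X :=
    { smul := fun q x => ⟨(q * x.1.1 * (q : G)⁻¹, q * x.1.2 * (q : G)⁻¹),
        hconj x.2.1, hconj x.2.2.1, by
          show q * x.1.2 * (q : G)⁻¹ * (q * x.1.1 * (q : G)⁻¹)⁻¹ ∈ (P : Subgroup G)
          have h1 : q * x.1.2 * (q : G)⁻¹ * (q * x.1.1 * (q : G)⁻¹)⁻¹ = q * (x.1.2 * x.1.1⁻¹) * (q : G)⁻¹ := by group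
          rw [h1]
          exact (P : Subgroup G).mul_mem ((P : Subgroup G).mul_mem q.2 x.2.2.2) ((P : Subgroup G).inv_mem q.2)⟩
      one_smul := fun x => by
        apply Subtype.ext
        apply Prod.ext
        · show ((1 : (P : Subgroup G)) : G) * x.1.1 * ((1 : (P : Subgroup G)) : G)⁻¹ = x.1.1
          simp
        · show ((1 : (P : Subgroup G)) : G) * x.1.2 * ((1 : (P : Subgroup G)) : G)⁻¹ = x.1.2
          simp
      mul_smul := fun a b x => by
        apply Subtype.ext
        apply Prod.ext
        · show ((a * b : (P : Subgroup G)) : G) * x.1.1 * ((a * b : (P : Subgroup G)) : G)⁻¹ = a * (b * x.1.1 * (b : G)⁻¹) * (a : G)⁻¹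
          rw [Subgroup.coe_mul]; group
        · show ((a * b : (P : Subgroup G)) : G) * x.1.2 * ((a * b : (P : Subgroup G)) : G)⁻¹ = a * (b * x.1.2 * (b : G)⁻¹) * (a : G)⁻¹
          rw [Subgroup.coe_mul]; group }
  have : Fintype X := Fintype.ofFinite _
  have : Fintype (MulAction.orbitRel.Quotient (P : Subgroup G) X) := Fintype.ofFinite _
  have horb : ∀ x : X, Nat.card P / Nat.card S ∣ Nat.card (MulAction.orbit (P : Subgroup G) x) := by
    intro x
    have h1 : Nat.card (MulAction.orbit (P : Subgroup G) x) * Nat.card (MulAction.stabilizer (P : Subgroup G) x) = Nat.card P := by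
      have h9 := Subgroup.card_mul_index (MulAction.stabilizer (P : Subgroup G) x)
      rw [MulAction.index_stabilizer, ← Nat.card_coe_set_eq] at h9
      rw [mul_comm]
      exact h9
    obtain ⟨a, ha⟩ := IsPGroup.iff_card.mp P.isPGroup'
    have h2 : Nat.card (MulAction.stabilizer (P : Subgroup G) x) ∣ Nat.card S := by
      -- the stabilizer embeds in the centralizer of `x.1.1`
      have hst : IsPGroup p (MulAction.stabilizer (P : Subgroup G) x) := P.isPGroup'.to_subgroup _
      let T : Subgroup G := (MulAction.stabilizer (P : Subgroup G) x).map (P : Subgroup G).subtype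
      have hT : Nat.card T = Nat.card (MulAction.stabilizer (P : Subgroup G) x) :=
        Subgroup.card_map_of_injective (P : Subgroup G).subtype_injective
      have hTp : IsPGroup p T := hst.map _
      have hTC : T ≤ Subgroup.centralizer ({x.1.1} : Set G) := by
        rintro _ ⟨q, hq, rfl⟩
        rw [Subgroup.mem_centralizer_singleton_iff]
        have h3 : (q : G) * x.1.1 * (q : G)⁻¹ = x.1.1 := congrArg (fun z : X => z.1.1) hq
        exact mul_inv_eq_iff_eq_mul.mp h3
      obtain ⟨c, hc⟩ := isConj_iff.mp x.2.1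
      have hcard : Nat.card (Subgroup.centralizer ({x.1.1} : Set G)) = Nat.card (Subgroup.centralizer ({g} : Set G)) := by
        have h4 : (Subgroup.centralizer ({g} : Set G)).map (MulAut.conj c).toMonoidHom = Subgroup.centralizer ({x.1.1} : Set G) := by
          rw [← hc]
          ext y
          rw [Subgroup.mem_centralizer_singleton_iff, Subgroup.mem_map]
          constructor
          · rintro ⟨z, hz, rfl⟩
            rw [Subgroup.mem_centralizer_singleton_iff] at hz
            show c * z * c⁻¹ * (c * g * c⁻¹) = c * g * c⁻¹ * (c * z * c⁻¹)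
            calc c * z * c⁻¹ * (c * g * c⁻¹) = c * (z * g) * c⁻¹ := by group
              _ = c * (g * z) * c⁻¹ := by rw [hz]
              _ = _ := by group
          · intro hy
            refine ⟨c⁻¹ * y * c, ?_, ?_⟩
            · rw [Subgroup.mem_centralizer_singleton_iff]
              calc c⁻¹ * y * c * g = c⁻¹ * (y * (c * g * c⁻¹)) * c := by group
                _ = c⁻¹ * (c * g * c⁻¹ * y) * c := by rw [hy]
                _ = _ := by group
            · show c * (c⁻¹ * y * c) * c⁻¹ = y
              group
        rw [← h4, Subgroup.card_map_of_injective (MulAut.conj c).injective]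
      obtain ⟨n, hn⟩ := IsPGroup.iff_card.mp hTp
      have h5 : p ^ n ∣ Nat.card (Subgroup.centralizer ({g} : Set G)) := by
        rw [← hn, ← hcard]; exact Subgroup.card_dvd_of_le hTC
      have h6 := Sylow.card_eq_multiplicity S
      rw [← hT, hn]
      rw [h6]
      exact pow_dvd_pow p (((Fact.out : p.Prime).pow_dvd_iff_le_factorization Nat.card_pos.ne').mp h5)
    by_cases hS : Nat.card S ∣ Nat.card P
    · obtain ⟨k, hk⟩ := hS
      obtain ⟨l, hl⟩ := h2
      have hS0 : 0 < Nat.card S := Nat.card_pos
      have hst0 : 0 < Nat.card (MulAction.stabilizer (P : Subgroup G) x) := Nat.card_pos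
      rw [hk, Nat.mul_div_cancel_left _ hS0]
      refine ⟨l, ?_⟩
      have h7 : Nat.card (MulAction.orbit (P : Subgroup G) x) * Nat.card (MulAction.stabilizer (P : Subgroup G) x) =
        (k * l) * Nat.card (MulAction.stabilizer (P : Subgroup G) x) := by
        rw [h1, hk, hl]; ring
      exact Nat.eq_of_mul_eq_mul_right hst0 h7
    · -- impossible: `S` is a `p`-subgroup
      exfalso
      apply hS
      have h6 := Sylow.card_eq_multiplicity S
      have h7 := Sylow.card_eq_multiplicity P
      rw [h6, h7]
      apply pow_dvd_pow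
      exact (Nat.factorization_le_iff_dvd Nat.card_pos.ne' Nat.card_pos.ne').mpr (Subgroup.card_subgroup_dvd_card _) p
  have h8 : Nat.card X = ∑ ω : MulAction.orbitRel.Quotient (P : Subgroup G) X, Nat.card ω.orbit := by
    have e := MulAction.selfEquivSigmaOrbits (P : Subgroup G) X
    rw [Nat.card_congr e, Nat.card_sigma]
    apply Finset.sum_congr rfl
    intro ω _
    rw [MulAction.orbitRel.Quotient.orbit_eq_orbit_out ω Quotient.out_eq']
  show Nat.card P / Nat.card S ∣ Nat.card X
  rw [h8]
  apply Finset.dvd_sum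
  intro ω _
  rw [MulAction.orbitRel.Quotient.orbit_eq_orbit_out ω Quotient.out_eq']
  exact horb _

end Cfsg.Agent.S0957
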