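import Cfsg.Statements.S0958
import Cfsg.Agent.Lib.BlockCorr

set_option autoImplicit false
open Cfsg

namespace Cfsg.Agent.S0958

/-- Let P be a p-subgroup of the finite group G and H a subgroup with P ⊔ C_G(P) ≤ H ≤ N_G(P); fix a maximal ideal M of the algebraic integers containing p. Then a block B of G is induced by some block of H if and only if some conjugate of P is contained in a defect group of B. -/
theorem result {G : Type*} [Group G] [Finite G] (p : ℕ) [Fact p.Prime] (M : Ideal Cfsg.AlgInt) (hM : Cfsg.IsPModular p M) (P H : Subgroup G) (hP : IsPGroup p P) (hPH : P ⊔ Subgroup.centralizer (P : Set G) ≤ H) (hHN : H ≤ Subgroup.normalizer (P : Set G)) (B : Set (Cfsg.IrrCharacter G)) (hB : Cfsg.IsPBlock M B) : (∃ b : Set (Cfsg.IrrCharacter H), Cfsg.IsInducedBlock M H b B) ↔ ∃ D : Subgroup G, Cfsg.IsDefectGroup p M B D ∧ ∃ x : G, P.map (MulAut.conj x).toMonoidHom ≤ D := by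
  open CfsgLib.Block in
  have : Fintype G := Fintype.ofFinite G
  have hPH' : P ≤ H := le_sup_left.trans hPH
  have hCH : Subgroup.centralizer (P : Set G) ≤ H := le_sup_right.trans hPH
  constructor
  · rintro ⟨b, hb⟩
    have : Fintype H := Fintype.ofFinite H
    obtain ⟨D, hD⟩ := exists_defectGroup hM hb.1
    obtain ⟨E, hE, hDE⟩ := defectGroup_le_of_induced hM hb hD
    have hn : (P.subgroupOf H).Normal := by
      constructor
      intro x hx g
      rw [Subgroup.mem_subgroupOf] at hx ⊢
      exact (Subgroup.mem_normalizer_iff.mp (hHN g.2) x).mp hx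
    have hp : IsPGroup p (P.subgroupOf H) := hP.comap_of_injective H.subtype H.subtype_injective
    have hle := IsDefectGroup.normal_le hM hb.1 hD _ hp
    refine ⟨E, hE, 1, ?_⟩
    rw [CfsgLib.Block.map_conj_one]
    intro x hx
    exact hDE ⟨⟨x, hPH' hx⟩, hle (by rw [Subgroup.mem_subgroupOf]; exact hx), rfl⟩
  · rintro ⟨D, hD, x, hx⟩
    have hD' := IsDefectGroup.conj hM hD x⁻¹
    refine exists_block_inducing hM hP hPH' hCH hHN hB hD' ?_
    intro y hy
    refine ⟨x * y * x⁻¹, hx ⟨y, hy, rfl⟩, ?_⟩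
    show x⁻¹ * (x * y * x⁻¹) * (x⁻¹)⁻¹ = y
    group

end Cfsg.Agent.S0958
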