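import Cfsg.Statements.S0959
import Cfsg.Agent.Lib.BlockMain

set_option autoImplicit false
open Cfsg

namespace Cfsg.Agent.S0959

/-- Let B be a block of the finite group G with defect group D (relative to a maximal ideal M of the algebraic integers containing the prime p), and let P be a p-subgroup. Then there is an element g whose idempotent coefficient for B is a local integer outside the local ideal at M and which has a conjugate centralizing P, if and only if some conjugate of P is contained in D. -/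
theorem result {G : Type*} [Group G] [Finite G] (p : ℕ) [Fact p.Prime] (M : Ideal Cfsg.AlgInt) (hM : Cfsg.IsPModular p M) (B : Set (Cfsg.IrrCharacter G)) (hB : Cfsg.IsPBlock M B) (D : Subgroup G) (hD : Cfsg.IsDefectGroup p M B D) (P : Subgroup G) (hP : IsPGroup p P) : (∃ g : G, Cfsg.MemLocalRing M (Cfsg.blockCoeff B g) ∧ ¬ Cfsg.MemLocalIdeal M (Cfsg.blockCoeff B g) ∧ ∃ c : G, IsConj g c ∧ c ∈ Subgroup.centralizer (P : Set G)) ↔ ∃ x : G, P.map (MulAut.conj x).toMonoidHom ≤ D := by
  have : Fintype G := Fintype.ofFinite G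
  open CfsgLib.Block in
  constructor
  · rintro ⟨g, -, hg, c, hc, hcP⟩
    have hg' : ¬ Cfsg.MemLocalIdeal M (Cfsg.blockCoeff B c) := by
      rwa [← blockCoeff_conj B hc]
    obtain ⟨E, hE, hPE⟩ := exists_defectGroup_ge hM hB hg' hP (fun q hq => (Subgroup.mem_centralizer_iff.mp hcP q hq))
    obtain ⟨x, rfl⟩ := IsDefectGroup.isConj hM hB hE hD
    exact ⟨x, Subgroup.map_mono hPE⟩
  · rintro ⟨x, hx⟩
    obtain ⟨g, hg, hDg⟩ := isDefectGroup_iff.mp hD
    refine ⟨g, hg.1, hg.2.1, x⁻¹ * g * x, ?_, ?_⟩
    · have := isConj_comm_right (g := g) (x := x⁻¹)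
      rwa [inv_inv] at this
    · rw [Subgroup.mem_centralizer_iff]
      intro q hq
      have h1 : x * q * x⁻¹ ∈ Subgroup.centralizer ({g} : Set G) := hDg.le (hx ⟨q, hq, rfl⟩)
      rw [Subgroup.mem_centralizer_singleton_iff] at h1
      calc q * (x⁻¹ * g * x) = x⁻¹ * (x * q * x⁻¹ * g) * x := by group
        _ = x⁻¹ * (g * (x * q * x⁻¹)) * x := by rw [h1]
        _ = _ := by group

end Cfsg.Agent.S0959
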