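import Cfsg.Statements.S0963
import Cfsg.Agent.Lib.BlockInd

set_option autoImplicit false
open Cfsg

namespace Cfsg.Agent.S0963

/-- Let N be a normal subgroup of the finite group G, χ an irreducible character of G and θ an irreducible character of N. Then θ occurs in the restriction of χ to N if and only if, for every n ∈ N, the central character of χ at n (class size in G times χ n over χ 1) equals the sum of θ m / θ 1 over the elements m of N conjugate in G to n. -/
theorem result {G : Type*} [Group G] [Fintype G] (N : Subgroup G) [N.Normal] [Fintype N] (χ : Cfsg.IrrCharacter G) (θ : Cfsg.IrrCharacter N) : Cfsg.classInner (fun n : N => (χ : G → ℂ) n) (θ : N → ℂ) ≠ 0 ↔ ∀ n : N, Cfsg.centralChar (χ : G → ℂ) (n : G) = Cfsg.inducedCentralChar N (θ : N → ℂ) (n : G) := by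
  open CfsgLib.Block CfsgLib.CharBasic MonoidAlgebra in
  classical
  constructor
  · intro h n
    rw [inducedCentralChar_eq, ← omega_csum (irr_isClassFunction χ)]
    exact omega_eq_of_constituent χ θ h (isCen_csum _) (suppIn_csum n.2)
  · intro h hcon
    -- the element `∑ conj (χ n) n`
    let z : MonoidAlgebra ℂ G := inclH N (ofFun (fun n : N => (starRingEnd ℂ) ((χ : G → ℂ) n)))
    have hz : IsCen z := isCen_inclH (by
      intro g n
      rw [coeff_ofFun, coeff_ofFun]
      rw [irr_isClassFunction χ])
    have hzN : SuppIn N z := suppIn_inclH _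
    have : Fintype (ConjClasses G) := Fintype.ofFinite _
    have hagree : omega (χ : G → ℂ) z = omega (θ : N → ℂ) (resH N z) := by
      rw [omega_eq_sum_classes (irr_isClassFunction χ) hz, omega_resH_eq_sum N _ hz]
      apply Finset.sum_congr rfl
      intro C _
      by_cases hC : rep C ∈ N
      · have := h ⟨rep C, hC⟩
        rw [this, inducedCentralChar_eq]
      · rw [hzN _ hC, zero_mul, zero_mul]
    have h1 : omega (χ : G → ℂ) z * (χ : G → ℂ) 1 = Nat.card N * Cfsg.classInner (fun n : N => (χ : G → ℂ) n) (fun n : N => (χ : G → ℂ) n) := by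
      rw [omega, div_mul_cancel₀ _ (IsIrrCharacter.one_ne_zero χ.2), ev_eq_ev_resH hzN]
      simp only [z]
      rw [resH_inclH, ev, Cfsg.classInner, mul_inv_cancel_left₀ card_ne_zero]
      apply Finset.sum_congr rfl
      intro n _
      rw [coeff_ofFun, mul_comm]
    have h2 : omega (θ : N → ℂ) (resH N z) = 0 := by
      simp only [z]
      rw [resH_inclH, omega, ev]
      rw [← classInner_conj_symm] at hcon
      have h3 := (map_eq_zero (starRingEnd ℂ)).mp hcon
      rw [Cfsg.classInner] at h3
      have h4 := (mul_eq_zero.mp h3).resolve_left (inv_ne_zero card_ne_zero)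
      rw [← h4]
      have h5 : ∑ x : N, (ofFun (fun n : N => (starRingEnd ℂ) ((χ : G → ℂ) n))).coeff x * (θ : N → ℂ) x =
          ∑ x : N, (θ : N → ℂ) x * (starRingEnd ℂ) ((χ : G → ℂ) x) := by
        apply Finset.sum_congr rfl
        intro n _
        rw [coeff_ofFun, mul_comm]
      rw [h5, h4, zero_div]
    rw [hagree, h2, zero_mul] at h1
    have h3 : Cfsg.classInner (fun n : N => (χ : G → ℂ) n) (fun n : N => (χ : G → ℂ) n) = 0 :=
      (mul_eq_zero.mp h1.symm).resolve_left card_ne_zero
    have h4 := congrFun (classInner_self_eq_zero.mp h3) 1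
    exact IsIrrCharacter.one_ne_zero χ.2 (by simpa using h4)

end Cfsg.Agent.S0963
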