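import Cfsg.Statements.S0967
import Cfsg.Agent.Lib.BlockCover

set_option autoImplicit false
open Cfsg

namespace Cfsg.Agent.S0967

/-- Let N be a normal subgroup of the finite group G of order prime to p and fix a maximal ideal M of the algebraic integers containing p. If χ is an irreducible character of G ⧸ N and ψ lies in the block of its inflation χ ∘ (quotient map), then ψ is itself inflated from an irreducible character ψ' of G ⧸ N lying in the block of χ. (Over a normal p'-subgroup, blocks of the quotient are whole blocks of G.) -/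
theorem result {G : Type*} [Group G] [Finite G] (p : ℕ) [Fact p.Prime] (M : Ideal Cfsg.AlgInt) (hM : Cfsg.IsPModular p M) (N : Subgroup G) [N.Normal] (hN : ¬ p ∣ Nat.card N) (χ : Cfsg.IrrCharacter (G ⧸ N)) (ψ : Cfsg.IrrCharacter G) (hψ : ψ ∈ Cfsg.blockOf M ((χ : G ⧸ N → ℂ) ∘ QuotientGroup.mk)) : ∃ ψ' : Cfsg.IrrCharacter (G ⧸ N), (ψ : G → ℂ) = (ψ' : G ⧸ N → ℂ) ∘ QuotientGroup.mk ∧ Cfsg.SameBlock M (χ : G ⧸ N → ℂ) (ψ' : G ⧸ N → ℂ) := by
  open CfsgLib.Block CfsgLib.CharBasic in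
  have : Fintype G := Fintype.ofFinite G
  have : Fintype N := Fintype.ofFinite N
  let χ' : Cfsg.IrrCharacter G := ⟨_, IsIrrCharacter.comp χ.2 _ (QuotientGroup.mk'_surjective N)⟩
  have hs : Cfsg.SameBlock M (χ' : G → ℂ) (ψ : G → ℂ) := hψ
  have hker := ker_of_sameBlock (N := N) hM hN hs (by
    intro x hx
    show (χ : G ⧸ N → ℂ) (QuotientGroup.mk' N x) = (χ : G ⧸ N → ℂ) (QuotientGroup.mk' N 1)
    have h1 : QuotientGroup.mk' N x = 1 := (QuotientGroup.eq_one_iff x).mpr hx
    rw [map_one, h1])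
  obtain ⟨η, hη, he⟩ := IsIrrCharacter.exists_quotient ψ.2 N hker
  refine ⟨⟨η, hη⟩, he, ?_⟩
  apply sameBlock_of_inflate N hM hN
  show Cfsg.SameBlock M (χ' : G → ℂ) (η ∘ QuotientGroup.mk' N)
  rw [← he]
  exact hs

end Cfsg.Agent.S0967
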