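import Cfsg.Statements.S0973
import Cfsg.Agent.Lib.BlockCover

set_option autoImplicit false
open Cfsg

namespace Cfsg.Agent.S0973

open Cfsg CfsgLib.Block CfsgLib.CharBasic in
theorem aux {G : Type*} [Group G] [Fintype G] (p : ℕ) (M : Ideal Cfsg.AlgInt)
    (hM : Cfsg.IsPModular p M) (B : Set (Cfsg.IrrCharacter G)) (hB : Cfsg.IsPBlock M B)
    (P : Subgroup G) (hP : Cfsg.IsDefectGroup p M B P) (L : Subgroup G) (hPL : P ≤ L)
    (hCL : Subgroup.centralizer (P : Set G) ≤ L)
    (hLN : L ≤ Subgroup.normalizer (P : Set G))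
    (hLn : (L.subgroupOf (Subgroup.normalizer (P : Set G))).Normal)
    (b : Set (Cfsg.IrrCharacter L)) (hb : Cfsg.IsInducedBlock M L b B) :
    ∃ bN : Set (Cfsg.IrrCharacter (Subgroup.normalizer (P : Set G))),
      IsInducedBlock M (L.subgroupOf (Subgroup.normalizer (P : Set G)))
        (transB (Subgroup.subgroupOfEquivOfLe hLN) b) bN ∧
      IsInducedBlock M (Subgroup.normalizer (P : Set G)) bN B ∧
      IsDefectGroup p M bN (P.subgroupOf (Subgroup.normalizer (P : Set G))) := by
  have hPp := IsDefectGroup.isPGroup hM hP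
  set N := Subgroup.normalizer (P : Set G) with hN
  have : Fintype N := Fintype.ofFinite N
  have : Fintype L := Fintype.ofFinite L
  have : Fintype (L.subgroupOf N) := Fintype.ofFinite _
  have hPN : P ≤ N := Subgroup.le_normalizer
  have hn : (P.subgroupOf N).Normal := normal_subgroupOf_normalizer P
  have hP'p : IsPGroup p (P.subgroupOf N) := hPp.comap_of_injective N.subtype N.subtype_injective
  have hLe : P.subgroupOf N ≤ L.subgroupOf N := by
    intro x hx
    rw [Subgroup.mem_subgroupOf] at hx ⊢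
    exact hPL hx
  have hCe : Subgroup.centralizer ((P.subgroupOf N : Subgroup N) : Set N) ≤ L.subgroupOf N := by
    intro x hx
    rw [Subgroup.mem_subgroupOf]
    apply hCL
    rw [Subgroup.mem_centralizer_iff] at hx ⊢
    intro q hq
    have := hx ⟨q, hPN hq⟩ (by rw [SetLike.mem_coe, Subgroup.mem_subgroupOf]; exact hq)
    exact congrArg Subtype.val this
  have htop : Subgroup.normalizer ((P.subgroupOf N : Subgroup N) : Set N) = ⊤ :=
    Subgroup.normalizer_eq_top_iff.mpr inferInstance
  obtain ⟨bN, hbN⟩ := exists_inducedBlock hM hP'p hLe hCe (by rw [htop]; exact le_top)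
    (isPBlock_transB (Subgroup.subgroupOfEquivOfLe hLN) hb.1)
  have hbNB := isInducedBlock_trans hM hLN hbN hb
  refine ⟨bN, hbN, hbNB, ?_⟩
  obtain ⟨E, hE⟩ := exists_defectGroup hM hbNB.1
  have hPE : P.subgroupOf N ≤ E := IsDefectGroup.normal_le hM hbNB.1 hE _ hP'p
  obtain ⟨F, hF, hEF⟩ := defectGroup_le_of_induced hM hbNB hE
  obtain ⟨x, hx⟩ := IsDefectGroup.isConj hM hB hP hF
  have hcard : Nat.card E ≤ Nat.card (P.subgroupOf N) := by
    have h1 : Nat.card (E.map N.subtype) = Nat.card E :=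
      Subgroup.card_map_of_injective N.subtype_injective
    have h2 : Nat.card (P.subgroupOf N) = Nat.card P := by
      rw [← Subgroup.card_map_of_injective (K := P.subgroupOf N) N.subtype_injective,
        Subgroup.map_subgroupOf_eq_of_le hPN]
    have h3 := Subgroup.card_le_of_le hEF
    rw [h1, hx, Subgroup.card_map_of_injective (MulAut.conj x).injective] at h3
    rw [h2]
    exact h3
  rw [Subgroup.eq_of_le_of_card_ge hPE hcard]
  exact hE


open Cfsg CfsgLib.Block CfsgLib.CharBasic in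
theorem aux2 {G : Type*} [Group G] [Finite G] (p : ℕ) (M : Ideal Cfsg.AlgInt)
    (hM : Cfsg.IsPModular p M) (L : Subgroup G) [L.Normal] (B : Set (Cfsg.IrrCharacter G))
    (c c' : Set (Cfsg.IrrCharacter L)) (h : Cfsg.IsInducedBlock M L c B)
    (h' : Cfsg.IsInducedBlock M L c' B) : ∃ g : G, ∀ θ ∈ c, conjIrr g θ ∈ c' := by
  have : Fintype G := Fintype.ofFinite G
  have : Fintype L := Fintype.ofFinite L
  obtain ⟨χ, hχ⟩ := IsPBlock.nonempty hM h.2.1
  have hcov : ∀ c : Set (Cfsg.IrrCharacter L), IsInducedBlock M L c B → Covers B c := by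
    intro c hc
    obtain ⟨θ, hθ⟩ := IsPBlock.nonempty hM hc.1
    refine covers_of_omega hM hc.1 hχ hθ ?_
    intro z hz hzS hzN
    have := locIdeal_neg (IsInducedBlock.omega hM hc hθ hχ hz hzS)
    rwa [neg_sub] at this
  obtain ⟨ψ, hψ, hψc⟩ := Covers.exists_constituent hM h.2.1 h.1 (hcov c h) hχ
  have h4 := Covers.mem_conjUnion hM h.2.1 h'.1 (hcov c' h') hχ hψc
  obtain ⟨g, hg⟩ := mem_conjUnion.mp h4
  refine ⟨g, fun θ hθ => ?_⟩
  exact IsPBlock.mem_of_sameBlock hM h'.1 hg
    (sameBlock_conjIrr g (IsPBlock.sameBlock hM h.1 hψ hθ))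

/-- Let B be a block of the finite group G with defect group P (relative to a maximal ideal M of the algebraic integers containing p), and let L = P ⊔ C_G(P). Then (i) some block b of L with defect group P (viewed in L) induces B, and (ii) if b and b' are blocks of L both inducing B, there is n ∈ N_G(P) carrying b to b': for every θ ∈ b there is θ' ∈ b' with θ' x = θ (n x n⁻¹) for all x ∈ L. -/
theorem result {G : Type*} [Group G] [Finite G] (p : ℕ) [Fact p.Prime] (M : Ideal Cfsg.AlgInt) (hM : Cfsg.IsPModular p M) (B : Set (Cfsg.IrrCharacter G)) (hB : Cfsg.IsPBlock M B) (P : Subgroup G) (hP : Cfsg.IsDefectGroup p M B P) : (∃ b : Set (Cfsg.IrrCharacter ↥(P ⊔ Subgroup.centralizer (P : Set G))), Cfsg.IsDefectGroup p M b (P.subgroupOf (P ⊔ Subgroup.centralizer (P : Set G))) ∧ Cfsg.IsInducedBlock M (P ⊔ Subgroup.centralizer (P : Set G)) b B) ∧ ∀ b b' : Set (Cfsg.IrrCharacter ↥(P ⊔ Subgroup.centralizer (P : Set G))), Cfsg.IsInducedBlock M (P ⊔ Subgroup.centralizer (P : Set G)) b B →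 Cfsg.IsInducedBlock M (P ⊔ Subgroup.centralizer (P : Set G)) b' B → ∃ n ∈ Subgroup.normalizer (P : Set G), ∀ θ ∈ b, ∃ θ' ∈ b', ∀ x : ↥(P ⊔ Subgroup.centralizer (P : Set G)), ∀ hx : n * (x : G) * n⁻¹ ∈ P ⊔ Subgroup.centralizer (P : Set G), (θ' : ↥(P ⊔ Subgroup.centralizer (P : Set G)) → ℂ) x = (θ : ↥(P ⊔ Subgroup.centralizer (P : Set G)) → ℂ) ⟨n * (x : G) * n⁻¹, hx⟩ := by
  open Cfsg CfsgLib.Block CfsgLib.CharBasic in
  have : Fintype G := Fintype.ofFinite G
  have hPp := IsDefectGroup.isPGroup hM hP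
  set L := P ⊔ Subgroup.centralizer (P : Set G) with hL
  have hPL : P ≤ L := le_sup_left
  have hCL : Subgroup.centralizer (P : Set G) ≤ L := le_sup_right
  have hLN : L ≤ Subgroup.normalizer (P : Set G) :=
    sup_le Subgroup.le_normalizer (Subgroup.centralizer_le_normalizer _)
  have hLn : (L.subgroupOf (Subgroup.normalizer (P : Set G))).Normal := by
    constructor
    intro x hx g
    rw [Subgroup.mem_subgroupOf] at hx ⊢
    have hg := g.2
    have hmap : L.map (MulAut.conj (g : G)).toMonoidHom ≤ L := by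
      rw [hL, Subgroup.map_sup]
      apply sup_le_sup
      · rintro _ ⟨y, hy, rfl⟩
        exact (Subgroup.mem_normalizer_iff.mp hg y).mp hy
      · rintro _ ⟨y, hy, rfl⟩
        exact (centralizer_conj_mem hg).mpr hy
    exact hmap ⟨_, hx, rfl⟩
  constructor
  · obtain ⟨b, hb⟩ := exists_block_inducing hM hPp hPL hCL hLN hB hP le_rfl
    refine ⟨b, ?_, hb⟩
    have : Fintype L := Fintype.ofFinite L
    obtain ⟨E, hE⟩ := exists_defectGroup hM hb.1
    have hn : (P.subgroupOf L).Normal := by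
      constructor
      intro x hx g
      rw [Subgroup.mem_subgroupOf] at hx ⊢
      exact (Subgroup.mem_normalizer_iff.mp (hLN g.2) _).mp hx
    have hPE : P.subgroupOf L ≤ E := IsDefectGroup.normal_le hM hb.1 hE _
      (hPp.comap_of_injective L.subtype L.subtype_injective)
    obtain ⟨F, hF, hEF⟩ := defectGroup_le_of_induced hM hb hE
    obtain ⟨x, hx⟩ := IsDefectGroup.isConj hM hB hP hF
    have hcard : Nat.card E ≤ Nat.card (P.subgroupOf L) := by
      have h1 : Nat.card (E.map L.subtype) = Nat.card E :=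
        Subgroup.card_map_of_injective L.subtype_injective
      have h2 : Nat.card (P.subgroupOf L) = Nat.card P := by
        rw [← Subgroup.card_map_of_injective (K := P.subgroupOf L) L.subtype_injective,
          Subgroup.map_subgroupOf_eq_of_le hPL]
      have h3 := Subgroup.card_le_of_le hEF
      rw [h1, hx, Subgroup.card_map_of_injective (MulAut.conj x).injective] at h3
      rw [h2]
      exact h3
    rw [Subgroup.eq_of_le_of_card_ge hPE hcard]
    exact hE
  · intro b b' hb hb'
    obtain ⟨bN, h1, h2, h3⟩ := aux p M hM B hB P hP L hPL hCL hLN hLn b hb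
    obtain ⟨bN', h1', h2', h3'⟩ := aux p M hM B hB P hP L hPL hCL hLN hLn b' hb'
    have heq : bN = bN' := firstMain_ii_unique hM h3 h2 h3' h2'
    rw [← heq] at h1'
    obtain ⟨g, hg⟩ := aux2 p M hM _ _ _ _ h1 h1'
    refine ⟨(g : G), g.2, ?_⟩
    intro θ hθ
    obtain ⟨θ', hθ', hθe⟩ := hg _ ⟨θ, hθ, rfl⟩
    refine ⟨θ', hθ', ?_⟩
    intro x hx
    have h5 := congrFun (congrArg Subtype.val hθe) ((Subgroup.subgroupOfEquivOfLe hLN).symm x)
    rw [irrCongr_apply, MulEquiv.apply_symm_apply] at h5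
    rw [h5]
    rfl
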