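import Cfsg.Statements.S0986
import Cfsg.Agent.Lib.SmS3

set_option autoImplicit false
open Cfsg

set_option linter.style.haveILetI false
namespace Cfsg.Agent.S0986

/-- Let P and Q be distinct Sylow p-subgroups of a finite group G chosen so that the order of P ∩ Q is as large as possible among intersections of two distinct Sylow p-subgroups, and let N be the normalizer of P ∩ Q. Then N has more than one Sylow p-subgroup, any two distinct Sylow p-subgroups of N intersect exactly in P ∩ Q, and each Sylow p-subgroup of N lies in exactly one Sylow p-subgroup of G. -/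
theorem result {G : Type*} [Group G] [Finite G] (p : ℕ) [Fact p.Prime] (P Q : Sylow p G) (hPQ : P ≠ Q) (hmax : ∀ P' Q' : Sylow p G, P' ≠ Q' → Nat.card ↥((P' : Subgroup G) ⊓ (Q' : Subgroup G)) ≤ Nat.card ↥((P : Subgroup G) ⊓ (Q : Subgroup G))) : 1 < Nat.card (Sylow p ↥(Subgroup.normalizer (((P : Subgroup G) ⊓ (Q : Subgroup G) : Subgroup G) : Set G))) ∧ (∀ S T : Sylow p ↥(Subgroup.normalizer (((P : Subgroup G) ⊓ (Q : Subgroup G) : Subgroup G) : Set G)), S ≠ T → (S : Subgroup _) ⊓ (T : Subgroup _) = ((P : Subgroup G) ⊓ (Q : Subgroup G)).subgroupOf (Subgroup.normalizer (((P : Subgroup G) ⊓ (Q : Subgroup G) : Subgroup G) : Set G))) ∧ ∀ S : Sylow p ↥(Subgroup.normalizer (((P : Subgroup G) ⊓ (Q : Subgroup G) : Subgroup G) : Set G)), ∃! T : Sylow p G, (S : Subgroup _).map (Subgroup.normalizer (((P : Subgroup G) ⊓ (Q : Subgroup G) : Subgroup G) : Set G)).subtype ≤ (T : Subgroup G) := by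
  classical
  set D := (P : Subgroup G) ⊓ (Q : Subgroup G) with hD
  set N := Subgroup.normalizer (D : Set G) with hN
  have hDN : D ≤ N := Subgroup.le_normalizer
  -- D is proper
  have hlt : ∀ A B : Sylow p G, A ≠ B → (A : Subgroup G) ⊓ (B : Subgroup G) ≠ A := by
    intro A B hAB h
    apply hAB
    apply Sylow.ext
    exact (A.3 B.2 (inf_eq_left.mp h)).symm
  have hDP : D < (P : Subgroup G) := lt_of_le_of_ne inf_le_left (hlt P Q hPQ)
  have hDQ : D < (Q : Subgroup G) := lt_of_le_of_ne inf_le_right (by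
    rw [hD, inf_comm]; exact hlt Q P hPQ.symm)
  have grow : ∀ A : Sylow p G, D < (A : Subgroup G) → D < (A : Subgroup G) ⊓ N := by
    intro A hA
    have hAn : Group.IsNilpotent ↥(A : Subgroup G) := A.2.isNilpotent
    have h1 : D.subgroupOf (A : Subgroup G) < ⊤ := by
      rw [lt_top_iff_ne_top]
      intro h
      rw [Subgroup.subgroupOf_eq_top] at h
      exact not_le_of_gt hA h
    have h2 := Group.normalizerCondition_of_isNilpotent _ h1
    refine lt_of_le_of_ne (le_inf hA.le hDN) ?_
    intro h3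
    apply ne_of_gt h2
    apply le_antisymm _ Subgroup.le_normalizer
    intro x hx
    rw [Subgroup.mem_subgroupOf]
    rw [h3]
    refine ⟨x.2, ?_⟩
    change (x : G) ∈ Subgroup.normalizer (D : Set G)
    rw [Subgroup.mem_normalizer_iff]
    intro d
    constructor
    · intro hd
      have := (Subgroup.mem_normalizer_iff.mp hx ⟨d, hA.le hd⟩).mp (by rw [Subgroup.mem_subgroupOf]; exact hd)
      rw [Subgroup.mem_subgroupOf] at this
      exact this
    · intro hd
      have hdA : d ∈ (A : Subgroup G) := by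
        have h5 := hA.le hd
        have h6 : d = (x : G)⁻¹ * ((x : G) * d * (x : G)⁻¹) * x := by group
        rw [h6]
        exact mul_mem (mul_mem (inv_mem x.2) h5) x.2
      have := (Subgroup.mem_normalizer_iff.mp hx ⟨d, hdA⟩).mpr (by rw [Subgroup.mem_subgroupOf]; exact hd)
      rw [Subgroup.mem_subgroupOf] at this
      exact this
  have exs : ∀ A : Sylow p G, ∃ S : Sylow p ↥N, (A : Subgroup G).subgroupOf N ≤ (S : Subgroup ↥N) := fun A =>
    (A.2.comap_of_injective N.subtype N.subtype_injective).exists_le_sylow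
  have exr : ∀ S : Sylow p ↥N, ∃ R : Sylow p G, (S : Subgroup ↥N).map N.subtype ≤ (R : Subgroup G) := fun S =>
    (S.2.map N.subtype).exists_le_sylow
  -- comparison
  have cmp : ∀ A : Sylow p G, D < (A : Subgroup G) → ∀ S : Sylow p ↥N, (A : Subgroup G).subgroupOf N ≤ (S : Subgroup ↥N) →
      ∀ R : Sylow p G, (S : Subgroup ↥N).map N.subtype ≤ (R : Subgroup G) → A = R := by
    intro A hA S hS R hR
    by_contra hAR
    have h1 := hmax A R hAR
    have h2 : (A : Subgroup G) ⊓ N ≤ (A : Subgroup G) ⊓ (R : Subgroup G) := by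
      refine le_inf inf_le_left (le_trans ?_ hR)
      rw [← Subgroup.subgroupOf_map_subtype]
      exact Subgroup.map_mono hS
    have h3 : Nat.card D < Nat.card ↥((A : Subgroup G) ⊓ N) := by
      by_contra h
      exact (grow A hA).ne (Subgroup.eq_of_le_of_card_ge (grow A hA).le (not_lt.mp h))
    exact absurd (lt_of_lt_of_le h3 (le_trans (Nat.card_le_card_of_injective (Subgroup.inclusion h2) (Subgroup.inclusion_injective h2)) h1)) (lt_irrefl _)
  obtain ⟨S1, hS1⟩ := exs P
  obtain ⟨S2, hS2⟩ := exs Q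
  have hne : S1 ≠ S2 := by
    rintro rfl
    obtain ⟨R, hR⟩ := exr S1
    exact hPQ ((cmp P hDP S1 hS1 R hR).trans (cmp Q hDQ S1 hS2 R hR).symm)
  haveI : D.Normal ∨ True := Or.inr trivial
  have hDn : (D.subgroupOf N).Normal := Subgroup.normal_subgroupOf_of_le_normalizer le_rfl
  have hDS : ∀ S : Sylow p ↥N, D.subgroupOf N ≤ (S : Subgroup ↥N) := by
    intro S
    have hp1 : IsPGroup p ↥(D.subgroupOf N) := (P.2.to_le hDP.le).comap_of_injective N.subtype N.subtype_injective
    exact hp1.le_sylow_of_normal S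
  have hbig : ∀ S : Sylow p ↥N, Nat.card D < Nat.card S := by
    intro S
    have h1 : Nat.card S = Nat.card S1 := by rw [S.card_eq_multiplicity, S1.card_eq_multiplicity]
    rw [h1]
    have h3 : Nat.card D < Nat.card ↥((P : Subgroup G) ⊓ N) := by
      by_contra h
      exact (grow P hDP).ne (Subgroup.eq_of_le_of_card_ge (grow P hDP).le (not_lt.mp h))
    have h4 : Nat.card ↥((P : Subgroup G).subgroupOf N) ≤ Nat.card S1 :=
      Nat.card_le_card_of_injective (Subgroup.inclusion hS1) (Subgroup.inclusion_injective hS1)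
    rw [CfsgLib.SmS.card_subgroupOf_eq] at h4
    omega
  refine ⟨?_, ?_, ?_⟩
  · haveI : Nontrivial (Sylow p ↥N) := ⟨S1, S2, hne⟩
    exact Finite.one_lt_card
  · intro S T hST
    obtain ⟨RS, hRS⟩ := exr S
    obtain ⟨RT, hRT⟩ := exr T
    have hle : D.subgroupOf N ≤ (S : Subgroup ↥N) ⊓ (T : Subgroup ↥N) := le_inf (hDS S) (hDS T)
    by_cases hR : RS = RT
    · exfalso
      subst hR
      have hs : ∀ S : Sylow p ↥N, (S : Subgroup ↥N).map N.subtype ≤ (RS : Subgroup G) → (RS : Subgroup G).subgroupOf N = (S : Subgroup ↥N) := by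
        intro S hS
        exact S.3 (RS.2.comap_of_injective N.subtype N.subtype_injective) (by
          rw [Subgroup.map_le_iff_le_comap] at hS
          exact hS)
      exact hST (Sylow.ext ((hs S hRS).symm.trans (hs T hRT)))
    · refine (Subgroup.eq_of_le_of_card_ge hle ?_).symm
      have h1 := hmax RS RT hR
      have h2 : ((S : Subgroup ↥N) ⊓ (T : Subgroup ↥N)).map N.subtype ≤ (RS : Subgroup G) ⊓ (RT : Subgroup G) :=
        le_inf (le_trans (Subgroup.map_mono inf_le_left) hRS) (le_trans (Subgroup.map_mono inf_le_right) hRT)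
      have h3 := Nat.card_le_card_of_injective (Subgroup.inclusion h2) (Subgroup.inclusion_injective h2)
      rw [← Nat.card_congr (((S : Subgroup ↥N) ⊓ (T : Subgroup ↥N)).equivMapOfInjective N.subtype N.subtype_injective).toEquiv] at h3
      rw [CfsgLib.SmS.card_subgroupOf_eq, inf_eq_left.mpr hDN]
      omega
  · intro S
    obtain ⟨R, hR⟩ := exr S
    refine ⟨R, hR, ?_⟩
    intro T hT
    by_contra hTR
    have h1 := hmax T R hTR
    have h2 : (S : Subgroup ↥N).map N.subtype ≤ (T : Subgroup G) ⊓ (R : Subgroup G) := le_inf hT hR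
    have h3 := Nat.card_le_card_of_injective (Subgroup.inclusion h2) (Subgroup.inclusion_injective h2)
    rw [← Nat.card_congr ((S : Subgroup ↥N).equivMapOfInjective N.subtype N.subtype_injective).toEquiv] at h3
    have := hbig S
    omega

end Cfsg.Agent.S0986
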