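import Cfsg.Statements.S0987
import Cfsg.Agent.Lib.SmS3
import Cfsg.Agent.Lib.SylCount

set_option autoImplicit false
open Cfsg

set_option linter.style.haveILetI false
namespace Cfsg.Agent.S0987

/-- If a finite group has order pqr for primes p < q < r, then its Sylow r-subgroups are normal. -/
theorem result {G : Type*} [Group G] [Finite G] (p q r : ℕ) (hp : p.Prime) (hq : q.Prime) [Fact r.Prime] (hpq : p < q) (hqr : q < r) (hG : Nat.card G = p * q * r) (R : Sylow r G) : (R : Subgroup G).Normal := by
  haveI : Fact p.Prime := ⟨hp⟩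
  obtain ⟨P⟩ : Nonempty (Sylow p G) := inferInstance
  have hp0 := hp.pos
  have hq0 := hq.pos
  have hr0 := (Fact.out : r.Prime).pos
  have hpq' : ¬ p ∣ q := fun h => hpq.ne ((Nat.prime_dvd_prime_iff_eq hp hq).mp h)
  have hpr' : ¬ p ∣ r := fun h => (hpq.trans hqr).ne ((Nat.prime_dvd_prime_iff_eq hp Fact.out).mp h)
  have hP : Nat.card P = p := CfsgLib.SmS.card_sylow_prime (by rw [hG, mul_assoc]; exact dvd_mul_right _ _) (by
    rw [hG, pow_two, mul_assoc]
    intro h
    rcases (Nat.Prime.dvd_mul hp).mp (Nat.dvd_of_mul_dvd_mul_left hp0 h) with h | h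
    · exact hpq' h
    · exact hpr' h) P
  have hmf : (Nat.card G).minFac = p := by
    have h1 : (Nat.card G).minFac ∣ Nat.card G := Nat.minFac_dvd _
    have h2 : (Nat.card G).minFac.Prime := Nat.minFac_prime (by
      rw [hG]; intro h
      have := hp.one_lt
      have h3 : p ∣ 1 := by rw [← h, mul_assoc]; exact dvd_mul_right _ _
      exact hp.one_lt.ne' (Nat.dvd_one.mp h3))
    have h4 : (Nat.card G).minFac ≤ p := Nat.minFac_le_of_dvd hp.two_le (by rw [hG, mul_assoc]; exact dvd_mul_right _ _)
    have h1' : (Nat.card G).minFac ∣ p * q * r := dvd_trans h1 (dvd_of_eq hG)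
    rcases (Nat.Prime.dvd_mul h2).mp h1' with h | h
    · rcases (Nat.Prime.dvd_mul h2).mp h with h | h
      · exact (Nat.prime_dvd_prime_iff_eq h2 hp).mp h
      · have := (Nat.prime_dvd_prime_iff_eq h2 hq).mp h
        omega
    · have := (Nat.prime_dvd_prime_iff_eq h2 Fact.out).mp h
      omega
  haveI hcyc : IsCyclic P := isCyclic_of_prime_card hP
  obtain ⟨K, hK, hKc, k, hk⟩ := CfsgLib.Transfer.npc_of_normalizer_le P (hcyc.normalizer_le_centralizer hmf)
  have h1 := K.card_mul_index
  rw [hk, hG] at h1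
  have hKp : Nat.card K = q * r := by
    have hk1 : k = 1 := by
      rcases Nat.lt_trichotomy k 1 with h | h | h
      · have : k = 0 := by omega
        subst this
        rw [pow_zero, mul_one] at h1
        exfalso
        rw [h1] at hKc
        exact (Nat.Prime.coprime_iff_not_dvd hp).mp hKc.symm (by rw [mul_assoc]; exact dvd_mul_right _ _)
      · exact h
      · exfalso
        have h2 : p ^ 2 ∣ p * q * r := by rw [← h1]; exact dvd_mul_of_dvd_right (pow_dvd_pow p h) _
        rw [pow_two, mul_assoc] at h2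
        rcases (Nat.Prime.dvd_mul hp).mp (Nat.dvd_of_mul_dvd_mul_left hp0 h2) with h | h
        · exact hpq' h
        · exact hpr' h
    subst hk1
    rw [pow_one] at h1
    apply Nat.eq_of_mul_eq_mul_right hp0
    rw [h1]; ring
  have hri : ¬ r ∣ K.index := by
    rw [hk]
    intro h
    have := (Nat.prime_dvd_prime_iff_eq (Fact.out : r.Prime) hp).mp ((Fact.out : r.Prime).dvd_of_dvd_pow h)
    omega
  have h2 := CfsgLib.SylCount.card_sylow_of_normal (p := r) K hri
  obtain ⟨S⟩ : Nonempty (Sylow r K) := inferInstance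
  have h3 : Nat.card S = r := CfsgLib.SmS.card_sylow_prime (by rw [hKp]; exact dvd_mul_left _ _) (by
    rw [hKp, pow_two]
    intro h
    have := (Nat.prime_dvd_prime_iff_eq (Fact.out : r.Prime) hq).mp (Nat.dvd_of_mul_dvd_mul_right hr0 h)
    omega) S
  have h4 := S.card_dvd_index
  have h5 := (S : Subgroup K).card_mul_index
  rw [h3, hKp] at h5
  have h6 : (S : Subgroup K).index = q := Nat.eq_of_mul_eq_mul_left hr0 (by rw [h5]; ring)
  rw [h6] at h4
  have h7 : Nat.card (Sylow r K) % r = 1 % r := card_sylow_modEq_one r K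
  have h8 : Nat.card (Sylow r K) = 1 := by
    rcases (Nat.dvd_prime hq).mp h4 with h | h
    · exact h
    · exfalso
      rw [h, Nat.mod_eq_of_lt hqr, Nat.mod_eq_of_lt (Fact.out : r.Prime).one_lt] at h7
      exact hq.one_lt.ne' h7
  rw [h8] at h2
  haveI : Subsingleton (Sylow r G) := (Nat.card_eq_one_iff_unique.mp h2.symm).1
  exact Sylow.normal_of_subsingleton R

end Cfsg.Agent.S0987
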