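import Cfsg.Statements.S0988
import Cfsg.Agent.Lib.SmS4
import Cfsg.Agent.Lib.CharBasic3

set_option autoImplicit false
open Cfsg

set_option linter.style.haveILetI false
namespace Cfsg.Agent.S0988

theorem not_solv {G : Type*} [Group G] [Finite G] [IsSimpleGroup G] (hG : ¬ IsMulCommutative G) : ¬ Group.IsSolvable G := by
  intro h
  exact absurd (CfsgLib.SmS.comm_top hG) (ne_of_lt (IsSolvable.commutator_lt_top_of_nontrivial G))

theorem aux {G : Type*} [Group G] [Finite G] [IsSimpleGroup G] (p q r : ℕ) (hp : p.Prime) (hq : q.Prime) (hr : r.Prime)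
    (hpq : p ≠ q) (hpr : p ≠ r) (hqr : q < r) (hG : Nat.card G = p ^ 2 * q * r) (hn : ¬ IsMulCommutative G) : Nat.card G = 60 := by
  haveI : Fact p.Prime := ⟨hp⟩
  haveI : Fact q.Prime := ⟨hq⟩
  haveI : Fact r.Prime := ⟨hr⟩
  have hp0 := hp.pos
  have hq0 := hq.pos
  have hr0 := hr.pos
  have dpq : ¬ p ∣ q := fun h => hpq ((Nat.prime_dvd_prime_iff_eq hp hq).mp h)
  have dpr : ¬ p ∣ r := fun h => hpr ((Nat.prime_dvd_prime_iff_eq hp hr).mp h)
  have dqp : ¬ q ∣ p := fun h => hpq ((Nat.prime_dvd_prime_iff_eq hq hp).mp h).symm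
  have dqr : ¬ q ∣ r := fun h => hqr.ne ((Nat.prime_dvd_prime_iff_eq hq hr).mp h)
  have drp : ¬ r ∣ p := fun h => hpr ((Nat.prime_dvd_prime_iff_eq hr hp).mp h).symm
  have drq : ¬ r ∣ q := fun h => hqr.ne ((Nat.prime_dvd_prime_iff_eq hr hq).mp h).symm
  have pd : p ∣ Nat.card G := by rw [hG, pow_two, mul_assoc, mul_assoc]; exact dvd_mul_right _ _
  have qd : q ∣ Nat.card G := by rw [hG, mul_assoc, mul_left_comm]; exact dvd_mul_right _ _
  have rd : r ∣ Nat.card G := by rw [hG]; exact dvd_mul_left _ _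
  have qd2 : ¬ q ^ 2 ∣ Nat.card G := by
    rw [hG, show p ^ 2 * q * r = q * (p ^ 2 * r) by ring, pow_two]
    intro h
    rcases hq.dvd_mul.mp (Nat.dvd_of_mul_dvd_mul_left hq0 h) with h | h
    · exact dqp (hq.dvd_of_dvd_pow h)
    · exact dqr h
  have rd2 : ¬ r ^ 2 ∣ Nat.card G := by
    rw [hG, show p ^ 2 * q * r = r * (p ^ 2 * q) by ring, pow_two]
    intro h
    rcases hr.dvd_mul.mp (Nat.dvd_of_mul_dvd_mul_left hr0 h) with h | h
    · exact drp (hr.dvd_of_dvd_pow h)
    · exact drq h
  obtain ⟨P⟩ : Nonempty (Sylow p G) := inferInstance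
  have hP : Nat.card P = p ^ 2 := CfsgLib.SmS.card_sylow_pow 2 (by rw [hG, mul_assoc]; exact dvd_mul_right _ _) (by
    rw [hG, show p ^ (2 + 1) = p ^ 2 * p by ring, mul_assoc]
    intro h
    rcases hp.dvd_mul.mp (Nat.dvd_of_mul_dvd_mul_left (by positivity) h) with h | h
    · exact dpq h
    · exact dpr h) P
  -- the smallest prime
  have hmf : (Nat.card G).minFac.Prime := Nat.minFac_prime (by rw [hG]; intro h; exact dpq (by
    have : q ∣ 1 := by rw [← h, mul_assoc, mul_left_comm]; exact dvd_mul_right _ _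
    exact absurd (Nat.dvd_one.mp this) hq.one_lt.ne'))
  have hcyc : ∀ (s : ℕ) [Fact s.Prime] (S : Sylow s G), s ∣ Nat.card G → IsCyclic S → (Nat.card G).minFac ≠ s := by
    intro s _ S hs hc he
    exact CfsgLib.SmS.not_npc hn hs (CfsgLib.Transfer.npc_of_normalizer_le S (hc.normalizer_le_centralizer he))
  have hmp : (Nat.card G).minFac = p := by
    have h1 : (Nat.card G).minFac ∣ p ^ 2 * q * r := dvd_trans (Nat.minFac_dvd _) (dvd_of_eq hG)
    rcases hmf.dvd_mul.mp h1 with h | h
    · rcases hmf.dvd_mul.mp h with h | h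
      · exact (Nat.prime_dvd_prime_iff_eq hmf hp).mp (hmf.dvd_of_dvd_pow h)
      · exfalso
        obtain ⟨Q⟩ : Nonempty (Sylow q G) := inferInstance
        exact hcyc q Q qd (isCyclic_of_prime_card (CfsgLib.SmS.card_sylow_prime qd qd2 Q)) ((Nat.prime_dvd_prime_iff_eq hmf hq).mp h)
    · exfalso
      obtain ⟨R⟩ : Nonempty (Sylow r G) := inferInstance
      exact hcyc r R rd (isCyclic_of_prime_card (CfsgLib.SmS.card_sylow_prime rd rd2 R)) ((Nat.prime_dvd_prime_iff_eq hmf hr).mp h)
  have hpq' : p < q := by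
    have := Nat.minFac_le_of_dvd hq.two_le qd
    omega
  have hab : IsMulCommutative ↥(P : Subgroup G) := ⟨⟨IsPGroup.commutative_of_card_eq_prime_sq hP⟩⟩
  -- p = 2, q = 3
  have key : ∀ s : ℕ, s.Prime → p < s → s ∣ p ^ 2 - p ^ 0 ∨ s ∣ p ^ 2 - p ^ 1 → p = 2 ∧ s = 3 := by
    intro s hs hps hd
    have hsp : ¬ s ∣ p := fun h => by have := Nat.le_of_dvd hp0 h; omega
    have hsp1 : ¬ s ∣ p - 1 := fun h => by
      have := Nat.le_of_dvd (by have := hp.one_lt; omega) h; omega
    have h1 : s ∣ p + 1 := by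
      rcases hd with h | h
      · rw [show p ^ 2 - p ^ 0 = (p + 1) * (p - 1) by rw [pow_zero, ← Nat.sq_sub_sq, one_pow]] at h
        rcases hs.dvd_mul.mp h with h | h
        · exact h
        · exact absurd h hsp1
      · rw [show p ^ 2 - p ^ 1 = p * (p - 1) by rw [pow_one, pow_two, Nat.mul_sub, mul_one]] at h
        rcases hs.dvd_mul.mp h with h | h
        · exact absurd h hsp
        · exact absurd h hsp1
    have h2 : s = p + 1 := by have := Nat.le_of_dvd (by omega) h1; omega
    rcases hp.eq_two_or_odd with h3 | h3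
    · exact ⟨h3, by omega⟩
    · exfalso
      rcases hs.eq_two_or_odd with h4 | h4
      · have := hp.two_le; omega
      · omega
  have hex : ∃ s ∈ ({q, r} : Finset ℕ), s ∣ p ^ 2 - p ^ 0 ∨ s ∣ p ^ 2 - p ^ 1 := by
    by_contra hcon
    push Not at hcon
    apply CfsgLib.SmS.not_le_centralizer hn pd P
    apply CfsgLib.Transfer.normalizer_le_centralizer_of_abelian P hab
    rintro g hg ⟨s, j, hs, hsp, hsj⟩
    by_cases hj : j = 0
    · rw [hj, pow_zero, orderOf_eq_one_iff] at hsj
      rw [hsj]; exact one_mem _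
    · haveI : Fact s.Prime := ⟨hs⟩
      have hsG : s ∣ Nat.card G := by
        have h1 : s ∣ orderOf g := by rw [hsj]; exact dvd_pow_self s hj
        exact dvd_trans h1 (orderOf_dvd_natCard g)
      have hsqr : s = q ∨ s = r := by
        rw [hG] at hsG
        rcases hs.dvd_mul.mp hsG with h | h
        · rcases hs.dvd_mul.mp h with h | h
          · exact absurd ((Nat.prime_dvd_prime_iff_eq hs hp).mp (hs.dvd_of_dvd_pow h)) hsp
          · exact Or.inl ((Nat.prime_dvd_prime_iff_eq hs hq).mp h)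
        · exact Or.inr ((Nat.prime_dvd_prime_iff_eq hs hr).mp h)
      have hc := hcon s (by rcases hsqr with h | h <;> simp [h])
      have h1 : Subgroup.zpowers g ≤ Subgroup.normalizer ((P : Subgroup G) : Set G) := by rwa [Subgroup.zpowers_le]
      have h2 := CfsgLib.Transfer.centralizes_of_card_eq_pow (r := s) (q := p) (n := 2) hp (R := Subgroup.zpowers g) (T := (P : Subgroup G))
        (IsPGroup.of_card (n := j) (by rw [Nat.card_zpowers, hsj])) h1 hP (by
          intro i hi
          interval_cases i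
          · exact hc.1
          · exact hc.2)
      rw [Subgroup.mem_centralizer_iff]
      intro x hx
      exact (Subgroup.mem_centralizer_iff.mp (h2 hx) g (Subgroup.mem_zpowers g)).symm
  obtain ⟨s, hs, hs2⟩ := hex
  have hsq : p = 2 ∧ q = 3 := by
    rw [Finset.mem_insert, Finset.mem_singleton] at hs
    rcases hs with rfl | rfl
    · exact key _ hq hpq' hs2
    · have := key _ hr (by omega) hs2
      have h1 := hq.two_le
      omega
  obtain ⟨rfl, rfl⟩ := hsq
  obtain ⟨R⟩ : Nonempty (Sylow r G) := inferInstance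
  have hG' : Nat.card G = 12 * r := by rw [hG]; ring
  obtain ⟨_, n, e, c, _, _, _, a1, a2, a3, a4, a5, a6, _⟩ := CfsgLib.SmS.syl_prime hn rd rd2 R
  obtain ⟨d, hd⟩ := a5
  rw [hG', hd] at a6
  have a7 : n * (e * d) = 12 := by
    apply Nat.eq_of_mul_eq_mul_right hr0
    rw [← a6]; ring
  have hn12 : n ∣ 12 := Dvd.intro _ a7
  have hnle := Nat.le_of_dvd (by norm_num) hn12
  have hr5 : 5 ≤ r := by
    rcases Nat.lt_or_ge r 5 with h | h
    · exfalso
      interval_cases r
      · norm_num at hr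
    · exact h
  have h1n : 1 < n := by
    rcases Nat.eq_zero_or_pos n with h | h
    · rw [h] at a1; simp at a1
    · omega
  have hrn : r ∣ n - 1 := (Nat.modEq_iff_dvd' h1n.le).mp (by
    change 1 % r = n % r
    rw [a1, Nat.mod_eq_of_lt hr.one_lt])
  have hrle := Nat.le_of_dvd (by omega) hrn
  have hn' : n = 6 ∨ n = 12 := by
    interval_cases n <;> first | omega | (exfalso; revert hn12; decide)
  rcases hn' with rfl | rfl
  · have : r = 5 := by omega
    rw [hG', this]
  · exfalso
    have h1 : e * d = 1 := by omega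
    exact a4 (Nat.eq_one_of_mul_eq_one_right h1)


/-- If a finite simple group has order p^2 * q * r with p, q and r prime, then its order is 60. -/
theorem result {G : Type*} [Group G] [Finite G] [IsSimpleGroup G] (p q r : ℕ) (hp : p.Prime) (hq : q.Prime) (hr : r.Prime) (hG : Nat.card G = p ^ 2 * q * r) : Nat.card G = 60 := by
  have hn : ¬ IsMulCommutative G := CfsgLib.SmS.nonab (by
    rw [hG, pow_two, mul_assoc, mul_assoc]
    exact Nat.not_prime_mul hp.one_lt.ne' (by
      intro h
      have := Nat.eq_one_of_mul_eq_one_right h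
      exact hp.one_lt.ne' this))
  by_cases hpq : p = q
  · exfalso
    subst hpq
    exact not_solv hn (CfsgLib.CharBasic.burnside_pq _ G p r 3 1 hp hr (by rw [hG]; ring) rfl)
  by_cases hpr : p = r
  · exfalso
    subst hpr
    exact not_solv hn (CfsgLib.CharBasic.burnside_pq _ G p q 3 1 hp hq (by rw [hG]; ring) rfl)
  rcases Nat.lt_trichotomy q r with h | h | h
  · exact aux p q r hp hq hr hpq hpr h hG hn
  · exfalso
    subst h
    exact not_solv hn (CfsgLib.CharBasic.burnside_pq _ G p q 2 2 hp hq (by rw [hG]; ring) rfl)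
  · exact aux p r q hp hr hq hpr hpq h (by rw [hG]; ring) hn

end Cfsg.Agent.S0988
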