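import Cfsg.Statements.S0989
import Cfsg.Agent.Lib.SmS3

set_option autoImplicit false
open Cfsg

set_option linter.style.haveILetI false
namespace Cfsg.Agent.S0989

/-- In the symmetric group on p or p + 1 letters, p a prime, the normalizer of a Sylow p-subgroup has order p * (p - 1). -/
theorem result {α : Type*} [Fintype α] [DecidableEq α] (p : ℕ) [Fact p.Prime] (hα : Fintype.card α = p ∨ Fintype.card α = p + 1) (P : Sylow p (Equiv.Perm α)) : Nat.card ↥(Subgroup.normalizer ((P : Subgroup (Equiv.Perm α)) : Set (Equiv.Perm α))) = p * (p - 1) := by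
  classical
  have hp := (Fact.out : p.Prime)
  have hpd : p ∣ Nat.card (Equiv.Perm α) := by
    rw [Nat.card_eq_fintype_card, Fintype.card_perm]
    exact (hp.dvd_factorial).mpr (by rcases hα with h | h <;> omega)
  have hpf : ¬ p ∣ (p - 1).factorial := by
    rw [hp.dvd_factorial]
    have := hp.pos
    omega
  have hpp : p.factorial = p * (p - 1).factorial := by
    conv_lhs => rw [show p = (p - 1) + 1 by have := hp.pos; omega]
    rw [Nat.factorial_succ, show p - 1 + 1 = p by have := hp.pos; omega]
  have hpd2 : ¬ p ^ 2 ∣ Nat.card (Equiv.Perm α) := by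
    rw [Nat.card_eq_fintype_card, Fintype.card_perm]
    intro h
    rcases hα with h1 | h1
    · rw [h1, hpp, pow_two] at h
      exact hpf (Nat.dvd_of_mul_dvd_mul_left hp.pos h)
    · rw [h1, Nat.factorial_succ, hpp, pow_two, show (p + 1) * (p * (p - 1).factorial) = p * ((p + 1) * (p - 1).factorial) by ring] at h
      have h2 := Nat.dvd_of_mul_dvd_mul_left hp.pos h
      rcases hp.dvd_mul.mp h2 with h3 | h3
      · exact hp.one_lt.ne' (Nat.dvd_one.mp ((Nat.dvd_add_right (dvd_refl p)).mp h3))
      · exact hpf h3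
  have hP : Nat.card P = p := CfsgLib.SmS.card_sylow_prime hpd hpd2 P
  -- a generator
  obtain ⟨⟨g, hg⟩, ho⟩ := exists_prime_orderOf_dvd_card' (G := P) p (by rw [hP])
  have hgo : orderOf g = p := by rw [← ho]; exact (Subgroup.orderOf_mk g hg).symm
  have hg1 : g ≠ 1 := by rintro rfl; rw [orderOf_one] at hgo; exact hp.one_lt.ne hgo
  have hgP : Subgroup.zpowers g = (P : Subgroup (Equiv.Perm α)) := CfsgLib.SmS.zpowers_eq_of_mem hP hg hg1
  -- cycle type
  have hct : ∀ h : Equiv.Perm α, orderOf h = p → h.cycleType = {p} := by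
    intro h hh
    have h1 := Equiv.Perm.cycleType_of_pow_prime_eq_one (p := p) (σ := h) (by rw [← hh]; exact pow_orderOf_eq_one h)
    have h2 := Equiv.Perm.sum_cycleType h
    have h3 : h.support.card ≤ Fintype.card α := Finset.card_le_univ _
    have h5 : h ≠ 1 := by rintro rfl; rw [orderOf_one] at hh; exact hp.one_lt.ne hh
    have h6 : 0 < Multiset.card h.cycleType := by
      rw [Multiset.card_pos, Ne, Equiv.Perm.cycleType_eq_zero]; exact h5
    have h7 : Multiset.card h.cycleType * p = h.support.card := by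
      rw [← h2]; conv_rhs => rw [h1]
      rw [Multiset.sum_replicate, smul_eq_mul]
    have h8 : Multiset.card h.cycleType = 1 := by
      by_contra hne
      have h9 : 2 ≤ Multiset.card h.cycleType := by omega
      have h10 : 2 * p ≤ Multiset.card h.cycleType * p := Nat.mul_le_mul_right p h9
      have := hp.one_lt
      rcases hα with h | h <;> omega
    rw [h1, h8]; rfl
  have hcent : Nat.card (Subgroup.centralizer ({g} : Set (Equiv.Perm α))) = p := by
    rw [Equiv.Perm.nat_card_centralizer, hct g hgo]
    have : (Fintype.card α - p).factorial = 1 := by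
      rcases hα with h | h
      · rw [h, Nat.sub_self]; rfl
      · rw [h, Nat.add_sub_cancel_left]; rfl
    simp [this]
  set N := Subgroup.normalizer ((P : Subgroup (Equiv.Perm α)) : Set (Equiv.Perm α)) with hN
  have hgN : g ∈ N := Subgroup.le_normalizer hg
  have hcl := CfsgLib.SmS.class_mul (⟨g, hgN⟩ : N)
  -- centralizer in N
  have hc1 : Nat.card (Subgroup.centralizer ({(⟨g, hgN⟩ : N)} : Set N)) = p := by
    rw [← hcent]
    refine Nat.card_congr
      { toFun := fun x => ⟨x.1.1, ?_⟩
        invFun := fun x => ⟨⟨x.1, ?_⟩, ?_⟩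
        left_inv := fun x => rfl
        right_inv := fun x => rfl }
    · have := Subgroup.mem_centralizer_singleton_iff.mp x.2
      exact Subgroup.mem_centralizer_singleton_iff.mpr (congrArg Subtype.val this)
    · apply CfsgLib.SmS.centralizer_le_normalizer' (P : Subgroup (Equiv.Perm α))
      rw [Subgroup.mem_centralizer_iff]
      intro y hy
      have hy' : y ∈ Subgroup.zpowers g := by rw [hgP]; exact hy
      obtain ⟨k, rfl⟩ := Subgroup.mem_zpowers_iff.mp hy'
      have h1 : Commute (x : Equiv.Perm α) g := Subgroup.mem_centralizer_singleton_iff.mp x.2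
      exact (h1.zpow_right k).symm
    · exact Subgroup.mem_centralizer_singleton_iff.mpr (Subtype.ext (Subgroup.mem_centralizer_singleton_iff.mp x.2))
  have hc2 : Nat.card {y : N // IsConj (⟨g, hgN⟩ : N) y} = p - 1 := by
    have h1 : Nat.card {y : ↥(P : Subgroup (Equiv.Perm α)) // y ≠ 1} = p - 1 := by
      haveI := Fintype.ofFinite ↥(P : Subgroup (Equiv.Perm α))
      rw [Nat.card_eq_fintype_card, Fintype.card_subtype_compl, Fintype.card_subtype_eq, ← Nat.card_eq_fintype_card, hP]
    rw [← h1]
    refine Nat.card_congr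
      { toFun := fun y => ⟨⟨y.1.1, ?_⟩, ?_⟩
        invFun := fun y => ⟨⟨y.1.1, Subgroup.le_normalizer y.1.2⟩, ?_⟩
        left_inv := fun x => rfl
        right_inv := fun x => rfl }
    · obtain ⟨c, hc⟩ := isConj_iff.mp y.2
      rw [← hc]
      exact (Subgroup.mem_normalizer_iff.mp c.2 g).mp hg
    · intro h
      obtain ⟨c, hc⟩ := isConj_iff.mp y.2
      have h2 : y.1 = 1 := Subtype.ext (congrArg (fun z : ↥(P : Subgroup (Equiv.Perm α)) => (z : Equiv.Perm α)) h)
      rw [h2] at hc
      have h3 : (⟨g, hgN⟩ : N) = 1 := by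
        rw [mul_inv_eq_iff_eq_mul, one_mul] at hc
        exact mul_left_cancel (hc.trans (mul_one c).symm)
      exact hg1 (congrArg Subtype.val h3)
    · obtain ⟨⟨y, hy⟩, hy1⟩ := y
      have hy1' : y ≠ 1 := fun h => hy1 (Subtype.ext h)
      have hyo : orderOf y = p := by rw [← Nat.card_zpowers, CfsgLib.SmS.zpowers_eq_of_mem hP hy hy1', hP]
      have hcj : IsConj g y := Equiv.Perm.isConj_iff_cycleType_eq.mpr ((hct g hgo).trans (hct y hyo).symm)
      obtain ⟨c, hc⟩ := isConj_iff.mp hcj
      have hcN : c ∈ N := by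
        rw [hN, Subgroup.mem_normalizer_iff_conj_image_eq]
        apply Set.eq_of_subset_of_ncard_le
        · rintro _ ⟨z, hz, rfl⟩
          have hz' : z ∈ Subgroup.zpowers g := by rw [hgP]; exact hz
          obtain ⟨k, rfl⟩ := Subgroup.mem_zpowers_iff.mp hz'
          rw [map_zpow]
          have : MulAut.conj c g = y := hc
          rw [this]
          exact zpow_mem hy k
        · rw [Set.ncard_image_of_injective _ (MulAut.conj c).injective]
        · exact Set.toFinite _
      rw [isConj_iff]
      exact ⟨⟨c, hcN⟩, Subtype.ext hc⟩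
  rw [← hcl, hc1, hc2]

end Cfsg.Agent.S0989
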