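import Cfsg.Statements.S0990
import Cfsg.Agent.Lib.SmS3

set_option autoImplicit false
open Cfsg

set_option linter.style.haveILetI false
namespace Cfsg.Agent.S0990

/-- Let p be an odd prime and P a Sylow p-subgroup of the symmetric group on a finite set with at least two elements. Then P is contained in the alternating group, and twice the order of the normalizer of P inside the alternating group equals the order of the normalizer of P in the symmetric group. -/
theorem result {α : Type*} [Fintype α] [DecidableEq α] (hα : 2 ≤ Fintype.card α) (p : ℕ) [Fact p.Prime] (hp : p ≠ 2) (P : Sylow p (Equiv.Perm α)) : (P : Subgroup (Equiv.Perm α)) ≤ alternatingGroup α ∧ 2 * Nat.card ↥(Subgroup.normalizer ((((P : Subgroup (Equiv.Perm α)).subgroupOf (alternatingGroup α) : Subgroup ↥(alternatingGroup α)) : Set ↥(alternatingGroup α)))) = Nat.card ↥(Subgroup.normalizer ((P : Subgroup (Equiv.Perm α)) : Set (Equiv.Perm α))) := by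
  classical
  haveI : Nontrivial α := Fintype.one_lt_card_iff_nontrivial.mp (by omega)
  have hle : (P : Subgroup (Equiv.Perm α)) ≤ alternatingGroup α := by
    intro g hg
    rw [Equiv.Perm.mem_alternatingGroup]
    obtain ⟨k, hk⟩ := (IsPGroup.iff_orderOf.mp P.2) ⟨g, hg⟩
    have h1 : g ^ (p ^ k) = 1 := by
      have := pow_orderOf_eq_one (⟨g, hg⟩ : (P : Subgroup (Equiv.Perm α)))
      rw [hk] at this
      exact congrArg Subtype.val this
    have h2 : (Equiv.Perm.sign g) ^ (p ^ k) = 1 := by rw [← map_pow, h1, map_one]
    have hodd : Odd (p ^ k) := ((Fact.out : p.Prime).odd_of_ne_two hp).pow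
    rcases Int.units_eq_one_or (Equiv.Perm.sign g) with h | h
    · exact h
    · rw [h, hodd.neg_one_pow] at h2
      exact absurd h2 (by decide)
  refine ⟨hle, ?_⟩
  let Q : Sylow p ↥(alternatingGroup α) := P.subtype hle
  have hQ : (Q : Subgroup ↥(alternatingGroup α)) = (P : Subgroup (Equiv.Perm α)).subgroupOf (alternatingGroup α) := rfl
  have hfr := Sylow.normalizer_sup_eq_top Q
  have hmap : (Q : Subgroup ↥(alternatingGroup α)).map (alternatingGroup α).subtype = (P : Subgroup (Equiv.Perm α)) := by
    rw [hQ, Subgroup.subgroupOf_map_subtype, inf_eq_left.mpr hle]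
  rw [hmap] at hfr
  have hn : (Subgroup.normalizer ((((P : Subgroup (Equiv.Perm α)).subgroupOf (alternatingGroup α) : Subgroup ↥(alternatingGroup α)) : Set ↥(alternatingGroup α)))) =
      (Subgroup.normalizer ((P : Subgroup (Equiv.Perm α)) : Set (Equiv.Perm α))).subgroupOf (alternatingGroup α) := by
    rw [Subgroup.subgroupOf_normalizer_eq hle]
  rw [hn]
  set N := Subgroup.normalizer ((P : Subgroup (Equiv.Perm α)) : Set (Equiv.Perm α)) with hN
  rw [CfsgLib.SmS.card_subgroupOf_eq, inf_comm, ← CfsgLib.SmS.card_subgroupOf_eq]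
  have h1 : (alternatingGroup α).relIndex N = 2 := by
    have h2 : (alternatingGroup α).relIndex (N ⊔ alternatingGroup α) = (alternatingGroup α).relIndex N := Subgroup.relIndex_sup_right _ _
    have h3 : N ⊔ alternatingGroup α = ⊤ := by rw [hN]; exact hfr
    rw [← h2, h3, Subgroup.relIndex_top_right]
    exact alternatingGroup.index_eq_two
  have h2 := ((alternatingGroup α).subgroupOf N).card_mul_index
  rw [← h2]
  change 2 * _ = _ * (alternatingGroup α).relIndex N
  rw [h1, mul_comm]

end Cfsg.Agent.S0990
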