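import Cfsg.Statements.S0992
import Cfsg.Agent.Lib.SmS3

set_option autoImplicit false
open Cfsg

set_option linter.style.haveILetI false
namespace Cfsg.Agent.S0992

/-- Let G be a non-abelian finite simple group of even order not divisible by 8, and T a Sylow 2-subgroup. Then T is a Klein four-group and the centralizer of T has index 3 in the normalizer of T. -/
theorem result {G : Type*} [Group G] [Finite G] [IsSimpleGroup G] (hG : ¬ IsMulCommutative G) (h2 : Even (Nat.card G)) (h8 : ¬ 8 ∣ Nat.card G) (T : Sylow 2 G) : IsKleinFour ↥(T : Subgroup G) ∧ (Subgroup.centralizer ((T : Subgroup G) : Set G)).relIndex (Subgroup.normalizer ((T : Subgroup G) : Set G)) = 3 := by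
  classical
  haveI : Fact (Nat.Prime 2) := ⟨Nat.prime_two⟩
  have hd : 2 ∣ Nat.card G := h2.two_dvd
  have hcard := T.card_eq_multiplicity
  have h0 : Nat.card G ≠ 0 := Nat.card_pos.ne'
  have hle : (Nat.card G).factorization 2 ≤ 2 := by
    by_contra h
    exact h8 ((Nat.prime_two.pow_dvd_iff_le_factorization h0 (k := 3)).mpr (by omega))
  have hge : 1 ≤ (Nat.card G).factorization 2 := (Nat.prime_two.dvd_iff_one_le_factorization h0).mp hd
  have hnc : ¬ IsCyclic ↥(T : Subgroup G) := by
    intro hc
    apply CfsgLib.SmS.not_npc hG hd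
    apply CfsgLib.Transfer.npc_of_normalizer_le T
    apply hc.normalizer_le_centralizer
    exact (Nat.minFac_eq_two_iff _).mpr hd
  have h4 : Nat.card T = 4 := by
    have : (Nat.card G).factorization 2 = 2 := by
      by_contra h
      have h1 : (Nat.card G).factorization 2 = 1 := by omega
      rw [h1, pow_one] at hcard
      exact hnc (isCyclic_of_prime_card hcard)
    rw [hcard, this]; norm_num
  have hK : IsKleinFour ↥(T : Subgroup G) := ⟨h4, (not_isCyclic_iff_exponent_eq_prime Nat.prime_two (by rw [h4]; norm_num)).mp hnc⟩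
  refine ⟨hK, ?_⟩
  have hab : ∀ x ∈ (T : Subgroup G), ∀ y ∈ (T : Subgroup G), x * y = y * x := by
    intro x hx y hy
    exact congrArg Subtype.val (mul_comm_of_exponent_two hK.exponent_two (⟨x, hx⟩ : T) ⟨y, hy⟩)
  have e1 := CfsgLib.SmS.dvd_of_abelian T hab
  have e2 := CfsgLib.SmS.relIndex_ne_one hG hd T
  have e3 := dvd_trans (CfsgLib.SmS.relIndex_dvd (T : Subgroup G)) (CfsgLib.SmS.card_mulAut_dvd T)
  rw [h4] at e3
  have e4 : Nat.factorial (4 - 1) = 6 := rfl
  rw [e4] at e3
  have e5 := Nat.le_of_dvd (by norm_num) e3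
  generalize (Subgroup.centralizer ((T : Subgroup G) : Set G)).relIndex (Subgroup.normalizer ((T : Subgroup G) : Set G)) = r at *
  interval_cases r <;> omega

end Cfsg.Agent.S0992
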