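import Cfsg.Statements.S0995
import Cfsg.Agent.Lib.SmS3

set_option autoImplicit false
open Cfsg

open scoped Pointwise
set_option linter.style.haveILetI false
namespace Cfsg.Agent.S0995

/-- Let G be a finite perfect group containing an element z of prime order p whose centralizer is the cyclic group it generates. Let t be the number of conjugacy classes of elements of order p. Then t divides p - 1, the number of Sylow p-subgroups has the form 1 + n * p, and |G| * t = (p - 1) * p * (1 + n * p). -/
theorem result {G : Type*} [Group G] [Finite G] (hperf : commutator G = ⊤) (p : ℕ) [Fact p.Prime] (z : G) (hz : orderOf z = p) (hC : Subgroup.centralizer ({z} : Set G) = Subgroup.zpowers z) : ∃ n t : ℕ, t = Nat.card {c : ConjClasses G // ∃ g : G, ConjClasses.mk g = c ∧ orderOf g = p} ∧ t ∣ p - 1 ∧ Nat.card (Sylow p G) = 1 + n * p ∧ Nat.card G * t = (p - 1) * p * (1 + n * p) := by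
  classical
  have hp := (Fact.out : p.Prime)
  have hz1 : z ≠ 1 := by rintro rfl; rw [orderOf_one] at hz; exact hp.one_lt.ne hz
  have hzp : IsPGroup p (Subgroup.zpowers z) := IsPGroup.of_card (n := 1) (by rw [Nat.card_zpowers, hz, pow_one])
  obtain ⟨P, hPz⟩ := hzp.exists_le_sylow
  have hPeq : (P : Subgroup G) = Subgroup.zpowers z := by
    refine le_antisymm ?_ hPz
    have hzP : z ∈ (P : Subgroup G) := hPz (Subgroup.mem_zpowers z)
    haveI : Nontrivial ↥(P : Subgroup G) := ⟨⟨z, hzP⟩, 1, fun h => hz1 (congrArg (fun x : ↥(P : Subgroup G) => (x : G)) h)⟩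
    haveI : Nontrivial (Subgroup.center ↥(P : Subgroup G)) := P.2.center_nontrivial
    obtain ⟨⟨c, hc⟩, hc1⟩ := exists_ne (1 : Subgroup.center ↥(P : Subgroup G))
    have hc1' : (c : G) ≠ 1 := fun h => hc1 (Subtype.ext (Subtype.ext h))
    have hcz : (c : G) ∈ Subgroup.zpowers z := by
      rw [← hC, Subgroup.mem_centralizer_singleton_iff]
      have := Subgroup.mem_center_iff.mp hc ⟨z, hzP⟩
      exact (congrArg (fun x : ↥(P : Subgroup G) => (x : G)) this).symm
    have h1 : Subgroup.zpowers (c : G) = Subgroup.zpowers z := CfsgLib.SmS.zpowers_eq_of_mem (p := p) (by rw [Nat.card_zpowers, hz]) hcz hc1'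
    intro x hx
    rw [← hC, Subgroup.mem_centralizer_singleton_iff]
    have h2 : z ∈ Subgroup.zpowers (c : G) := by rw [h1]; exact Subgroup.mem_zpowers z
    obtain ⟨k, hk⟩ := Subgroup.mem_zpowers_iff.mp h2
    have h3 : Commute x (c : G) := congrArg (fun x : ↥(P : Subgroup G) => (x : G)) (Subgroup.mem_center_iff.mp hc ⟨x, hx⟩)
    rw [← hk]
    exact h3.zpow_right k
  have hP : Nat.card P = p := by
    have : Nat.card ↥(P : Subgroup G) = p := by rw [hPeq, Nat.card_zpowers, hz]
    exact this
  have hcentP : ∀ x ∈ (P : Subgroup G), x ≠ 1 → Subgroup.centralizer ({x} : Set G) = (P : Subgroup G) := by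
    intro x hx hx1
    have h1 := CfsgLib.SmS.zpowers_eq_of_mem hP hx hx1
    apply le_antisymm
    · intro y hy
      rw [hPeq, ← hC, Subgroup.mem_centralizer_singleton_iff]
      have h2 : z ∈ Subgroup.zpowers x := by rw [h1, hPeq]; exact Subgroup.mem_zpowers z
      obtain ⟨k, hk⟩ := Subgroup.mem_zpowers_iff.mp h2
      have h3 : Commute y x := Subgroup.mem_centralizer_singleton_iff.mp hy
      rw [← hk]; exact h3.zpow_right k
    · intro y hy
      rw [Subgroup.mem_centralizer_singleton_iff]
      rw [← h1] at hy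
      obtain ⟨k, hk⟩ := Subgroup.mem_zpowers_iff.mp hy
      rw [← hk]
      exact (Commute.refl x).zpow_left k
  set N := Subgroup.normalizer ((P : Subgroup G) : Set G) with hN
  have hNm := N.card_mul_index
  have hidx := CfsgLib.SmS.syl_index P
  rw [hidx] at hNm
  have hcN : Subgroup.centralizer ((P : Subgroup G) : Set G) = (P : Subgroup G) := by
    apply le_antisymm
    · intro y hy
      rw [hPeq, ← hC, Subgroup.mem_centralizer_singleton_iff]
      exact (Subgroup.mem_centralizer_iff.mp hy z (by rw [hPeq]; exact Subgroup.mem_zpowers z)).symm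
    · intro y hy
      rw [Subgroup.mem_centralizer_iff]
      intro x hx
      have hxz : x ∈ Subgroup.zpowers z := by rw [← hPeq]; exact hx
      have hyz : y ∈ Subgroup.zpowers z := by rw [← hPeq]; exact hy
      obtain ⟨j, rfl⟩ := Subgroup.mem_zpowers_iff.mp hxz
      obtain ⟨k, rfl⟩ := Subgroup.mem_zpowers_iff.mp hyz
      exact ((Commute.refl z).zpow_zpow j k)
  set e := (Subgroup.centralizer ((P : Subgroup G) : Set G)).relIndex N with he
  have hmul : e * p = Nat.card N := by
    have := CfsgLib.SmS.card_cent_mul (P : Subgroup G)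
    rw [hcN] at this
    rw [he, hcN, ← this]
    congr 1
    exact hP.symm
  -- each class of elements of order p has e members in P
  have hclass : ∀ x : G, orderOf x = p → Nat.card {g : G // IsConj x g ∧ g ∈ N} = e := by
    intro x hx
    have h1 := CfsgLib.SmS.fix_mul N x
    rw [CfsgLib.SmS.conj_count N x, CfsgLib.SmS.fix_one P hP hx, one_mul] at h1
    have h2 : Nat.card (Subgroup.centralizer ({x} : Set G)) = p := by
      have hxp : Nat.card (Subgroup.zpowers x) = p := by rw [Nat.card_zpowers, hx]
      let Q : Sylow p G := Sylow.ofCard (Subgroup.zpowers x) (by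
        have h3 := P.card_eq_multiplicity
        rw [hxp, ← h3]; exact hP.symm)
      obtain ⟨g, hg⟩ := MulAction.exists_smul_eq G P Q
      have h4 : x ∈ ((g • P : Sylow p G) : Subgroup G) := by rw [hg]; exact Subgroup.mem_zpowers x
      have h5 : g⁻¹ * x * g ∈ (P : Subgroup G) := by
        have h6 := (Subgroup.mem_pointwise_smul_iff_inv_smul_mem).mp (show x ∈ (MulAut.conj g) • (P : Subgroup G) from h4)
        have h7 : ((MulAut.conj g)⁻¹ • x : G) = g⁻¹ * x * g := by rw [← map_inv]; simp
        rwa [h7] at h6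
      have h8 : g⁻¹ * x * g ≠ 1 := by
        intro h
        have : x = g * (g⁻¹ * x * g) * g⁻¹ := by group
        rw [h] at this
        have h9 : x = 1 := by rw [this]; group
        rw [h9, orderOf_one] at hx
        exact hp.one_lt.ne hx
      have h9 := hcentP _ h5 h8
      have h10 : Nat.card (Subgroup.centralizer ({g⁻¹ * x * g} : Set G)) = p := by rw [h9]; exact hP
      rw [← h10]
      refine Nat.card_congr
        { toFun := fun y => ⟨g⁻¹ * y.1 * g, ?_⟩
          invFun := fun y => ⟨g * y.1 * g⁻¹, ?_⟩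
          left_inv := fun y => Subtype.ext (by simp [mul_assoc])
          right_inv := fun y => Subtype.ext (by simp [mul_assoc]) }
      · rw [Subgroup.mem_centralizer_singleton_iff]
        have := Subgroup.mem_centralizer_singleton_iff.mp y.2
        calc g⁻¹ * y.1 * g * (g⁻¹ * x * g) = g⁻¹ * (y.1 * x) * g := by group
          _ = g⁻¹ * (x * y.1) * g := by rw [this]
          _ = _ := by group
      · rw [Subgroup.mem_centralizer_singleton_iff]
        have := Subgroup.mem_centralizer_singleton_iff.mp y.2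
        calc g * y.1 * g⁻¹ * x = g * (y.1 * (g⁻¹ * x * g)) * g⁻¹ := by group
          _ = g * (g⁻¹ * x * g * y.1) * g⁻¹ := by rw [this]
          _ = _ := by group
    rw [h2, ← hmul, mul_comm] at h1
    exact (Nat.eq_of_mul_eq_mul_left hp.pos h1).symm
  -- counting
  set t := Nat.card {c : ConjClasses G // ∃ g : G, ConjClasses.mk g = c ∧ orderOf g = p} with ht
  have hte : t * e = p - 1 := by
    have h1 : Nat.card {y : ↥(P : Subgroup G) // y ≠ 1} = p - 1 := by
      haveI := Fintype.ofFinite ↥(P : Subgroup G)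
      rw [Nat.card_eq_fintype_card, Fintype.card_subtype_compl, Fintype.card_subtype_eq, ← Nat.card_eq_fintype_card]
      congr 1
    have hordP : ∀ y ∈ (P : Subgroup G), y ≠ 1 → orderOf y = p := by
      intro y hy hy1
      rw [← Nat.card_zpowers, CfsgLib.SmS.zpowers_eq_of_mem hP hy hy1]; exact hP
    have e1 : {y : ↥(P : Subgroup G) // y ≠ 1} ≃ Σ c : {c : ConjClasses G // ∃ g : G, ConjClasses.mk g = c ∧ orderOf g = p}, {g : G // ConjClasses.mk g = c.1 ∧ g ∈ N} :=
      { toFun := fun y => ⟨⟨ConjClasses.mk y.1.1, y.1.1, rfl, hordP y.1.1 y.1.2 fun h => y.2 (Subtype.ext h)⟩, ⟨y.1.1, rfl, Subgroup.le_normalizer y.1.2⟩⟩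
        invFun := fun q => ⟨⟨q.2.1, CfsgLib.SmS.mem_of_orderOf P (by
            obtain ⟨⟨c, g, hg, hgo⟩, ⟨y, hy, hyN⟩⟩ := q
            simp only at hy ⊢
            rw [← hg] at hy
            obtain ⟨d, hd⟩ := isConj_iff.mp (ConjClasses.mk_eq_mk_iff_isConj.mp hy.symm)
            rw [← hgo, ← hd]
            have : d * g * d⁻¹ = MulAut.conj d g := rfl
            rw [this, MulEquiv.orderOf_eq]) q.2.2.2⟩, by
            obtain ⟨⟨c, g, hg, hgo⟩, ⟨y, hy, hyN⟩⟩ := q
            intro h
            have hy1 : y = 1 := congrArg (fun x : ↥(P : Subgroup G) => (x : G)) h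
            simp only at hy
            rw [← hg] at hy
            obtain ⟨d, hd⟩ := isConj_iff.mp (ConjClasses.mk_eq_mk_iff_isConj.mp hy.symm)
            rw [hy1] at hd
            have hg1 : g = 1 := by
              have : g = d⁻¹ * (d * g * d⁻¹) * d := by group
              rw [this, hd]; group
            rw [hg1, orderOf_one] at hgo
            exact hp.one_lt.ne hgo⟩
        left_inv := fun y => rfl
        right_inv := by
          rintro ⟨⟨c, hc⟩, ⟨y, hy, hyN⟩⟩
          simp only at hy
          subst hy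
          rfl }
    rw [← h1, Nat.card_congr e1]
    haveI := Fintype.ofFinite {c : ConjClasses G // ∃ g : G, ConjClasses.mk g = c ∧ orderOf g = p}
    rw [Nat.card_sigma]
    have h2 : ∀ c ∈ (Finset.univ : Finset {c : ConjClasses G // ∃ g : G, ConjClasses.mk g = c ∧ orderOf g = p}),
        Nat.card {g : G // ConjClasses.mk g = c.1 ∧ g ∈ N} = e := by
      rintro ⟨c, g, hg, hgo⟩ _
      rw [← hclass g hgo]
      refine Nat.card_congr (Equiv.subtypeEquivRight fun y => ?_)
      rw [← ConjClasses.mk_eq_mk_iff_isConj]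
      exact ⟨fun h => ⟨hg.trans h.1.symm, h.2⟩, fun h => ⟨h.1.symm.trans hg, h.2⟩⟩
    rw [Finset.sum_congr rfl h2, Finset.sum_const, Finset.card_univ, smul_eq_mul, ht, Nat.card_eq_fintype_card]
  have hmod : Nat.card (Sylow p G) % p = 1 % p := card_sylow_modEq_one p G
  rw [Nat.mod_eq_of_lt hp.one_lt] at hmod
  refine ⟨Nat.card (Sylow p G) / p, t, rfl, ⟨e, hte.symm⟩, ?_, ?_⟩
  · have := Nat.div_add_mod (Nat.card (Sylow p G)) p
    rw [hmod, mul_comm] at this
    omega
  · have h1 : 1 + Nat.card (Sylow p G) / p * p = Nat.card (Sylow p G) := by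
      have := Nat.div_add_mod (Nat.card (Sylow p G)) p
      rw [hmod, mul_comm] at this
      omega
    rw [h1, ← hNm, ← hmul, ← hte]
    ring

end Cfsg.Agent.S0995
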