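import Cfsg.Statements.S1004
import Cfsg.Agent.Lib.Sm168b

set_option autoImplicit false
open Cfsg

namespace Cfsg.Agent.S1004

/-- Let G be a simple group of order 168 and T a Sylow 2-subgroup. Then T is dihedral of order 8, T is its own normalizer, and T is the centralizer of any non-identity element of T that commutes with every element of T. -/
theorem result {G : Type*} [Group G] [Finite G] [IsSimpleGroup G] (h : Nat.card G = 168) (T : Sylow 2 G) : Nonempty (↥(T : Subgroup G) ≃* DihedralGroup 4) ∧ Subgroup.normalizer ((T : Subgroup G) : Set G) = T ∧ ∀ z : G, z ∈ (T : Subgroup G) → z ≠ 1 → (∀ t ∈ (T : Subgroup G), t * z = z * t) → Subgroup.centralizer ({z} : Set G) = T := by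
  obtain ⟨a, b, ha, hb, hao, hb2, hba, hinv, hT, hC, _, _, _, _⟩ := CfsgLib.SmS.T_struct h T
  refine ⟨?_, (CfsgLib.SmS.s2 h T).2, ?_⟩
  · have hbb : (⟨b, hb⟩ : ↥(T : Subgroup G)) * ⟨b, hb⟩ = 1 := Subtype.ext (by
      change b * b = 1
      rw [← pow_two, hb2])
    have hbi : b⁻¹ = b := by rw [inv_eq_iff_mul_eq_one, ← pow_two]; exact hb2
    obtain ⟨e⟩ := CfsgLib.DihLift.closure_equiv 4 (⟨a, ha⟩ : ↥(T : Subgroup G)) ⟨b, hb⟩ (by rw [Subgroup.orderOf_mk, hao]) hbb
      (Subtype.ext (by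
        change b * a * b = a⁻¹
        rw [← hinv, hbi]))
      (by
        intro hz
        apply hba
        obtain ⟨k, hk⟩ := Subgroup.mem_zpowers_iff.mp hz
        rw [Subgroup.mem_zpowers_iff]
        exact ⟨k, congrArg (fun z : ↥(T : Subgroup G) => (z : G)) hk⟩)
    have hc : Nat.card (Subgroup.closure ({(⟨a, ha⟩ : ↥(T : Subgroup G)), ⟨b, hb⟩} : Set ↥(T : Subgroup G))) = 8 := by
      rw [Nat.card_congr e.toEquiv, DihedralGroup.nat_card]
    have ht : Subgroup.closure ({(⟨a, ha⟩ : ↥(T : Subgroup G)), ⟨b, hb⟩} : Set ↥(T : Subgroup G)) = ⊤ := by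
      apply Subgroup.eq_top_of_card_eq
      rw [hc]; exact (CfsgLib.SmS.p2 h T).symm
    exact ⟨(Subgroup.topEquiv.symm.trans (MulEquiv.subgroupCongr ht).symm).trans e⟩
  · intro z hz hz1 hcz
    have hle : (T : Subgroup G) ≤ Subgroup.centralizer ({z} : Set G) := by
      intro t ht
      rw [Subgroup.mem_centralizer_singleton_iff]; exact hcz t ht
    obtain ⟨k, hk⟩ := (IsPGroup.iff_orderOf.mp T.2) ⟨z, hz⟩
    rw [Subgroup.orderOf_mk] at hk
    obtain ⟨j, hj⟩ := CfsgLib.SmS.cent_pow_two h hz1 ⟨k, hk⟩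
    exact T.3 (IsPGroup.of_card hj) hle

end Cfsg.Agent.S1004
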