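import Cfsg.Statements.S1006
import Cfsg.Agent.Lib.Sm168b

set_option autoImplicit false
open Cfsg

open scoped Pointwise
namespace Cfsg.Agent.S1006

/-- In a simple group of order 168 there are 56 elements of order 3, all conjugate; 42 elements of order 4, all conjugate; and 48 elements of order 7 falling into two conjugacy classes of size 24, an element of order 7 not being conjugate to its inverse. -/
theorem result {G : Type*} [Group G] [Finite G] [IsSimpleGroup G] (h : Nat.card G = 168) : Nat.card {g : G // orderOf g = 3} = 56 ∧ (∀ s t : G, orderOf s = 3 → orderOf t = 3 → IsConj s t) ∧ Nat.card {g : G // orderOf g = 4} = 42 ∧ (∀ s t : G, orderOf s = 4 → orderOf t = 4 → IsConj s t) ∧ Nat.card {g : G // orderOf g = 7} = 48 ∧ ∀ x : G, orderOf x = 7 → Nat.card {g : G // IsConj x g} = 24 ∧ ¬ IsConj x x⁻¹ := by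
  obtain ⟨T⟩ : Nonempty (Sylow 2 G) := inferInstance
  obtain ⟨Q⟩ : Nonempty (Sylow 3 G) := inferInstance
  obtain ⟨P⟩ : Nonempty (Sylow 7 G) := inferInstance
  obtain ⟨a, b, ha, hb, hao, hb2, hba, hinv, hT, hC, hroots, hconj, h2, h4⟩ := CfsgLib.SmS.T_struct h T
  refine ⟨?_, ?_, h4, ?_, ?_, ?_⟩
  · rw [CfsgLib.SmS.card_order_prime (CfsgLib.SmS.p3 h), (CfsgLib.SmS.s3 h Q).1]
  · -- elements of order 3
    intro s t hs ht
    obtain ⟨S, hS⟩ := CfsgLib.SmS.exists_sylow_zpowers (CfsgLib.SmS.p3 h) hs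
    obtain ⟨R, hR⟩ := CfsgLib.SmS.exists_sylow_zpowers (CfsgLib.SmS.p3 h) ht
    -- s is conjugate to its inverse
    have hinv3 : ∃ n : G, n * s * n⁻¹ = s⁻¹ := by
      have h1 : ¬ Subgroup.normalizer ((S : Subgroup G) : Set G) ≤ Subgroup.centralizer ((S : Subgroup G) : Set G) := by
        intro hle
        have := Subgroup.relIndex_eq_one.mpr hle
        rw [(CfsgLib.SmS.s3 h S).2.2] at this
        omega
      obtain ⟨n, hn, hnc⟩ := SetLike.not_le_iff_exists.mp h1
      refine ⟨n, ?_⟩
      have h3 : n * s * n⁻¹ ∈ (S : Subgroup G) := (Subgroup.mem_normalizer_iff.mp hn s).mp (by rw [hS]; exact Subgroup.mem_zpowers s)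
      rw [hS, CfsgLib.SmS.mem_zpowers_lt, hs] at h3
      obtain ⟨i, hi, hi2⟩ := h3
      have hs3 : s ^ 3 = 1 := by rw [← hs]; exact pow_orderOf_eq_one s
      interval_cases i
      · exfalso
        rw [pow_zero] at hi2
        have : s = 1 := by
          have : s = n⁻¹ * (n * s * n⁻¹) * n := by group
          rw [this, ← hi2]; group
        rw [this, orderOf_one] at hs; omega
      · exfalso
        apply hnc
        rw [Subgroup.mem_centralizer_iff]
        intro x hx
        have hx' : x ∈ Subgroup.zpowers s := by rw [← hS]; exact hx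
        obtain ⟨k, rfl⟩ := Subgroup.mem_zpowers_iff.mp hx'
        have : Commute n s := by
          have : n * s = n * s * n⁻¹ * n := by group
          rw [pow_one] at hi2
          rw [← hi2] at this
          exact this
        exact (this.zpow_right k).symm
      · rw [← hi2, eq_inv_iff_mul_eq_one, ← pow_succ]; exact hs3
    obtain ⟨g, hg⟩ := MulAction.exists_smul_eq G S R
    have h5 : g * s * g⁻¹ ∈ (R : Subgroup G) := by
      rw [← hg]
      change g * s * g⁻¹ ∈ MulAut.conj g • (S : Subgroup G)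
      rw [Subgroup.mem_pointwise_smul_iff_inv_smul_mem]
      have h7 : ((MulAut.conj g)⁻¹ • (g * s * g⁻¹) : G) = s := by rw [← map_inv]; simp [mul_assoc]
      rw [h7, hS]; exact Subgroup.mem_zpowers s
    have ht3 : t ^ 3 = 1 := by rw [← ht]; exact pow_orderOf_eq_one t
    rw [hR, CfsgLib.SmS.mem_zpowers_lt, ht] at h5
    obtain ⟨i, hi, hi2⟩ := h5
    interval_cases i
    · exfalso
      rw [pow_zero] at hi2
      have : s = 1 := by
        have : s = g⁻¹ * (g * s * g⁻¹) * g := by group
        rw [this, ← hi2]; group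
      rw [this, orderOf_one] at hs; omega
    · rw [pow_one] at hi2
      exact isConj_iff.mpr ⟨g, hi2.symm⟩
    · obtain ⟨n, hn⟩ := hinv3
      have h6 : t ^ 2 = t⁻¹ := by rw [eq_inv_iff_mul_eq_one, ← pow_succ]; exact ht3
      refine isConj_iff.mpr ⟨g * n, ?_⟩
      calc g * n * s * (g * n)⁻¹ = g * (n * s * n⁻¹) * g⁻¹ := by group
        _ = (g * s * g⁻¹)⁻¹ := by rw [hn]; group
        _ = t := by rw [← hi2, h6, inv_inv]
  · -- elements of order 4
    have key : ∀ s : G, orderOf s = 4 → IsConj a s := by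
      intro s hs
      have hs2 : orderOf (s ^ 2) = 2 := by
        rw [orderOf_pow' s (by norm_num), hs]; norm_num
      obtain ⟨c, hc⟩ := isConj_iff.mp (hconj (s ^ 2) hs2)
      have h5 : (c⁻¹ * s * c) ^ 2 = a ^ 2 := by
        rw [CfsgLib.SmS.conj_sq1, ← hc]; group
      rcases hroots _ h5 with h6 | h6
      · refine isConj_iff.mpr ⟨c, ?_⟩
        rw [← h6]; group
      · refine isConj_iff.mpr ⟨c * b, ?_⟩
        calc c * b * a * (c * b)⁻¹ = c * (b * a * b⁻¹) * c⁻¹ := by group
          _ = s := by rw [hinv, ← h6]; group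
    intro s t hs ht
    exact (key s hs).symm.trans (key t ht)
  · rw [CfsgLib.SmS.card_order_prime (CfsgLib.SmS.p7 h), (CfsgLib.SmS.z168 h P).hn]
  · intro x hx
    have hc := CfsgLib.SmS.c7 h hx
    have h5 := CfsgLib.SmS.class_mul x
    rw [hc, h] at h5
    refine ⟨by omega, ?_⟩
    intro hcj
    obtain ⟨g, hg⟩ := isConj_iff.mp hcj
    obtain ⟨S, hS⟩ := CfsgLib.SmS.exists_sylow_zpowers (CfsgLib.SmS.p7 h) hx
    have hgN : g ∈ Subgroup.normalizer ((S : Subgroup G) : Set G) := by
      rw [Subgroup.mem_normalizer_iff]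
      intro y
      rw [hS]
      have hgk : ∀ k : ℤ, g * x ^ k * g⁻¹ = x ^ (-k) := by
        intro k
        have h6 : g * x ^ k * g⁻¹ = (g * x * g⁻¹) ^ k := map_zpow (MulAut.conj g) x k
        rw [h6, hg, inv_zpow, zpow_neg]
      constructor
      · intro hy
        obtain ⟨k, rfl⟩ := Subgroup.mem_zpowers_iff.mp hy
        rw [hgk]; exact Subgroup.zpow_mem_zpowers x _
      · intro hy
        obtain ⟨k, hk⟩ := Subgroup.mem_zpowers_iff.mp hy
        have h7 : y = x ^ (-k) := by
          have h8 := hgk (-k)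
          rw [neg_neg, hk] at h8
          exact (mul_left_cancel (mul_right_cancel h8)).symm
        rw [h7]; exact Subgroup.zpow_mem_zpowers x _
    have hg21 : g ^ 21 = 1 := by
      have h6 := pow_card_eq_one' (x := (⟨g, hgN⟩ : Subgroup.normalizer ((S : Subgroup G) : Set G)))
      rw [CfsgLib.SmS.n7 h S] at h6
      exact congrArg Subtype.val h6
    have hgc : g ^ 2 ∈ Subgroup.centralizer ({x} : Set G) := by
      rw [Subgroup.mem_centralizer_singleton_iff]
      have h6 : g ^ 2 * x * (g ^ 2)⁻¹ = x := by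
        calc g ^ 2 * x * (g ^ 2)⁻¹ = g * (g * x * g⁻¹) * g⁻¹ := by rw [pow_two]; group
          _ = g * x⁻¹ * g⁻¹ := by rw [hg]
          _ = (g * x * g⁻¹)⁻¹ := by group
          _ = x := by rw [hg, inv_inv]
      calc g ^ 2 * x = g ^ 2 * x * (g ^ 2)⁻¹ * g ^ 2 := by group
        _ = x * g ^ 2 := by rw [h6]
    have hg14 : g ^ 14 = 1 := by
      have h6 := pow_card_eq_one' (x := (⟨g ^ 2, hgc⟩ : Subgroup.centralizer ({x} : Set G)))
      rw [hc] at h6
      have h7 : (g ^ 2) ^ 7 = 1 := congrArg Subtype.val h6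
      rw [← pow_mul] at h7; exact h7
    have hg7 : g ^ 7 = 1 := by
      have : g ^ 21 = g ^ 14 * g ^ 7 := by rw [← pow_add]
      rw [hg21, hg14, one_mul] at this; exact this.symm
    have hgC : g ∈ Subgroup.centralizer ({x} : Set G) := by
      have : g = (g ^ 2) ^ 4 := by
        rw [← pow_mul]
        calc g = g ^ 7 * g := by rw [hg7, one_mul]
          _ = g ^ (2 * 4) := by rw [← pow_succ]
      rw [this]; exact pow_mem hgc 4
    have h6 : g * x * g⁻¹ = x := by rw [Subgroup.mem_centralizer_singleton_iff.mp hgC]; group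
    rw [hg] at h6
    have h7 : x ^ 2 = 1 := by rw [pow_two]; nth_rewrite 1 [← h6]; exact inv_mul_cancel x
    have h8 := orderOf_dvd_of_pow_eq_one h7
    rw [hx] at h8; norm_num at h8

end Cfsg.Agent.S1006
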