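import Cfsg.Statements.S1009
import Cfsg.Agent.Lib.SmS1

set_option autoImplicit false
open Cfsg

open scoped Pointwise
set_option linter.style.haveILetI false
namespace Cfsg.Agent.S1009

/-- Brodkey's Theorem: if a finite group has abelian Sylow p-subgroups, then there are two Sylow p-subgroups whose intersection equals the intersection of all Sylow p-subgroups. -/
theorem result {G : Type*} [Group G] [Finite G] (p : ℕ) [Fact p.Prime] (hab : ∀ P : Sylow p G, IsMulCommutative ↥(P : Subgroup G)) : ∃ P Q : Sylow p G, (P : Subgroup G) ⊓ (Q : Subgroup G) = ⨅ R : Sylow p G, (R : Subgroup G) := by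
  classical
  haveI : Nonempty (Sylow p G × Sylow p G) := inferInstance
  obtain ⟨⟨P, Q⟩, hPQ⟩ := Finite.exists_min (fun x : Sylow p G × Sylow p G => Nat.card ↥((x.1 : Subgroup G) ⊓ (x.2 : Subgroup G)))
  refine ⟨P, Q, le_antisymm (le_iInf fun R => ?_) (le_inf (iInf_le _ P) (iInf_le _ Q))⟩
  set D := (P : Subgroup G) ⊓ (Q : Subgroup G) with hD
  set C := Subgroup.centralizer (D : Set G) with hC
  have hPC : (P : Subgroup G) ≤ C := by
    intro x hx
    rw [hC, Subgroup.mem_centralizer_iff]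
    intro y hy
    have := (hab P).1.1 ⟨y, hy.1⟩ ⟨x, hx⟩
    exact congrArg Subtype.val this
  have hQC : (Q : Subgroup G) ≤ C := by
    intro x hx
    rw [hC, Subgroup.mem_centralizer_iff]
    intro y hy
    have := (hab Q).1.1 ⟨y, hy.2⟩ ⟨x, hx⟩
    exact congrArg Subtype.val this
  -- R ∩ C lies in a conjugate of P by an element of C
  have h1 : IsPGroup p ↥((R : Subgroup G).subgroupOf C) := R.2.comap_of_injective C.subtype C.subtype_injective
  obtain ⟨T, hT⟩ := h1.exists_le_sylow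
  obtain ⟨c, hc⟩ := MulAction.exists_smul_eq (↥C) (P.subtype hPC) T
  have h2 : ∀ x ∈ (R : Subgroup G), x ∈ C → (c : G)⁻¹ * x * c ∈ (P : Subgroup G) := by
    intro x hx hxC
    have h3 : (⟨x, hxC⟩ : C) ∈ (T : Subgroup C) := hT hx
    rw [← hc] at h3
    have h4 := (Subgroup.mem_pointwise_smul_iff_inv_smul_mem).mp (show (⟨x, hxC⟩ : C) ∈ (MulAut.conj c) • (P.subtype hPC : Subgroup C) from h3)
    rw [Sylow.coe_subtype, Subgroup.mem_subgroupOf] at h4
    have h5 : (((MulAut.conj c)⁻¹ • (⟨x, hxC⟩ : C) : C) : G) = (c : G)⁻¹ * x * c := by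
      rw [← map_inv]
      simp
    rwa [h5] at h4
  -- compare with R ∩ Q^c
  have h3 := hPQ (R, (c : G) • Q)
  simp only at h3
  have h4 : (R : Subgroup G) ⊓ ((c : G) • Q : Sylow p G) ≤ D := by
    intro x hx
    obtain ⟨hx1, hx2⟩ := hx
    have h5 : (c : G)⁻¹ * x * c ∈ (Q : Subgroup G) := by
      have h6 := (Subgroup.mem_pointwise_smul_iff_inv_smul_mem).mp (show x ∈ (MulAut.conj (c : G)) • (Q : Subgroup G) from hx2)
      have h7 : ((MulAut.conj (c : G))⁻¹ • x : G) = (c : G)⁻¹ * x * c := by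
        rw [← map_inv]; simp
      rwa [h7] at h6
    have hxC : x ∈ C := by
      have : x = (c : G) * ((c : G)⁻¹ * x * c) * (c : G)⁻¹ := by group
      rw [this]
      exact C.mul_mem (C.mul_mem c.2 (hQC h5)) (C.inv_mem c.2)
    have h8 : (c : G)⁻¹ * x * c ∈ D := ⟨h2 x hx1 hxC, h5⟩
    have h9 := Subgroup.mem_centralizer_iff.mp c.2 _ h8
    have : x = (c : G)⁻¹ * x * c := by
      calc x = (c : G) * ((c : G)⁻¹ * x * c) * (c : G)⁻¹ := by group
        _ = ((c : G)⁻¹ * x * c) * c * (c : G)⁻¹ := by rw [h9]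
        _ = _ := by group
    rw [this]; exact h8
  have h5 : (R : Subgroup G) ⊓ ((c : G) • Q : Sylow p G) = D := Subgroup.eq_of_le_of_card_ge h4 h3
  rw [← h5]
  exact inf_le_left

end Cfsg.Agent.S1009
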