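import Cfsg.Statements.S1012
import Cfsg.Agent.Lib.SmS3

set_option autoImplicit false
open Cfsg

open scoped Pointwise
set_option linter.style.haveILetI false
namespace Cfsg.Agent.S1012

/-- A group of order 24 containing no element of order 6 is isomorphic to the symmetric group of degree 4. -/
theorem result {G : Type*} [Group G] [Finite G] (h : Nat.card G = 24) (h6 : ∀ g : G, orderOf g ≠ 6) : Nonempty (G ≃* Equiv.Perm (Fin 4)) := by
  classical
  haveI : Fact (Nat.Prime 3) := ⟨Nat.prime_three⟩
  haveI : Fact (Nat.Prime 2) := ⟨Nat.prime_two⟩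
  have hno : ∀ x y : G, orderOf x = 2 → orderOf y = 3 → ¬ Commute x y := by
    intro x y hx hy hxy
    apply h6 (x * y)
    rw [hxy.orderOf_mul_eq_mul_orderOf_of_coprime (by rw [hx, hy]; norm_num), hx, hy]
  obtain ⟨P⟩ : Nonempty (Sylow 3 G) := inferInstance
  have hP : Nat.card P = 3 := CfsgLib.SmS.card_sylow_prime (by rw [h]; norm_num) (by rw [h]; norm_num) P
  obtain ⟨⟨u, hu⟩, hou⟩ := exists_prime_orderOf_dvd_card' (G := P) 3 (by rw [hP])
  have hu3 : orderOf u = 3 := by rw [← hou]; exact (Subgroup.orderOf_mk u hu).symm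
  have hu1 : u ≠ 1 := by rintro rfl; rw [orderOf_one] at hu3; omega
  have hcent : ∀ x : G, x ∈ Subgroup.centralizer ((P : Subgroup G) : Set G) → orderOf x ≠ 2 := by
    intro x hx hx2
    exact hno x u hx2 hu3 ((Subgroup.mem_centralizer_iff.mp hx u hu).symm)
  have hcc : ¬ 2 ∣ Nat.card (Subgroup.centralizer ((P : Subgroup G) : Set G)) := by
    intro h2
    obtain ⟨x, hx⟩ := exists_prime_orderOf_dvd_card' (G := Subgroup.centralizer ((P : Subgroup G) : Set G)) 2 h2
    exact hcent x x.2 (by rw [← hx]; exact orderOf_injective _ (Subgroup.subtype_injective _) x)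
  have hrel := CfsgLib.SmS.prime_relIndex (P : Subgroup G) hP
  have hmul := CfsgLib.SmS.card_cent_mul (P : Subgroup G)
  have hidx := CfsgLib.SmS.syl_index P
  have hcm := (Subgroup.normalizer ((P : Subgroup G) : Set G)).card_mul_index
  rw [hidx, h, ← hmul] at hcm
  have hmod : Nat.card (Sylow 3 G) % 3 = 1 := card_sylow_modEq_one 3 G
  have hn : Nat.card (Sylow 3 G) = 4 := by
    have h1 : Nat.card (Sylow 3 G) ∣ 8 := by
      have h2 := P.card_dvd_index
      have h3 := (P : Subgroup G).card_mul_index
      rw [hP, h] at h3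
      have : (P : Subgroup G).index = 8 := by omega
      rwa [this] at h2
    have h2 := Nat.le_of_dvd (by norm_num) h1
    have h3 := Nat.le_of_dvd (by norm_num) hrel
    generalize Nat.card (Sylow 3 G) = n at *
    generalize (Subgroup.centralizer ((P : Subgroup G) : Set G)).relIndex (Subgroup.normalizer ((P : Subgroup G) : Set G)) = e at *
    generalize Nat.card (Subgroup.centralizer ((P : Subgroup G) : Set G)) = c at *
    have h4 : ¬ n = 1 := by
      rintro rfl
      have : e = 0 ∨ e = 1 ∨ e = 2 := by omega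
      rcases this with rfl | rfl | rfl
      · omega
      · exact hcc ⟨12, by omega⟩
      · exact hcc ⟨6, by omega⟩
    interval_cases n <;> omega
  -- the action on Sylow 3-subgroups
  let f := MulAction.toPermHom G (Sylow 3 G)
  have hf : Function.Injective f := by
    rw [← MonoidHom.ker_eq_bot_iff]
    by_contra hk
    have hkN : ∀ Q : Sylow 3 G, f.ker ≤ Subgroup.normalizer ((Q : Subgroup G) : Set G) := by
      intro Q x hx
      have h1 : x • Q = Q := by
        have := congrArg (fun σ : Equiv.Perm (Sylow 3 G) => σ Q) (MonoidHom.mem_ker.mp hx)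
        exact this
      rw [← MulAction.mem_stabilizer_iff, Sylow.stabilizer_eq_normalizer] at h1
      exact h1
    have hk3 : ¬ 3 ∣ Nat.card f.ker := by
      intro h3
      obtain ⟨y, hy⟩ := exists_prime_orderOf_dvd_card' (G := f.ker) 3 h3
      have hy3 : orderOf (y : G) = 3 := (orderOf_injective _ (Subgroup.subtype_injective _) y).trans hy
      have hy1 : (y : G) ≠ 1 := by intro h; rw [h, orderOf_one] at hy3; omega
      have h4 : ∀ Q : Sylow 3 G, (Q : Subgroup G) = Subgroup.zpowers (y : G) := by
        intro Q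
        have hQ : Nat.card Q = 3 := CfsgLib.SmS.card_sylow_prime (by rw [h]; norm_num) (by rw [h]; norm_num) Q
        exact (CfsgLib.SmS.zpowers_eq_of_mem hQ (CfsgLib.SmS.mem_of_orderOf Q hy3 (hkN Q y.2)) hy1).symm
      have h5 : Subsingleton (Sylow 3 G) := ⟨fun A B => Sylow.ext ((h4 A).trans (h4 B).symm)⟩
      have h6 : Nat.card (Sylow 3 G) ≤ 1 := Finite.card_le_one_iff_subsingleton.mpr h5
      omega
    have hkd : Nat.card f.ker ∣ 6 := by
      have h1 := Subgroup.card_dvd_of_le (hkN P)
      have h2 : Nat.card (Subgroup.normalizer ((P : Subgroup G) : Set G)) = 6 := by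
        rw [← hmul]; rw [hn] at hcm; omega
      rwa [h2] at h1
    have hk2 : Nat.card f.ker = 2 := by
      have h1 : Nat.card f.ker ≠ 1 := fun h1 => hk (Subgroup.card_eq_one.mp h1)
      have h2 := Nat.le_of_dvd (by norm_num) hkd
      generalize Nat.card f.ker = k at *
      interval_cases k <;> omega
    -- central involution
    obtain ⟨y, hy⟩ := exists_prime_orderOf_dvd_card' (G := f.ker) 2 (by rw [hk2])
    have hy2 : orderOf (y : G) = 2 := (orderOf_injective _ (Subgroup.subtype_injective _) y).trans hy
    have hy1 : (y : G) ≠ 1 := by intro h; rw [h, orderOf_one] at hy2; omega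
    have hz : Subgroup.zpowers (y : G) = f.ker := CfsgLib.SmS.zpowers_eq_of_mem hk2 y.2 hy1
    have hyc : u * y * u⁻¹ = y := by
      have h1 : u * y * u⁻¹ ∈ f.ker := (inferInstance : f.ker.Normal).conj_mem y y.2 u
      have h2 : u * (y : G) * u⁻¹ ∈ Subgroup.zpowers (y : G) := hz.symm ▸ h1
      obtain ⟨k, hk⟩ := Subgroup.mem_zpowers_iff.mp h2
      have h3 : u * (y : G) * u⁻¹ ≠ 1 := by
        intro h4
        have : (y : G) = u⁻¹ * (u * y * u⁻¹) * u := by group
        rw [h4] at this
        apply hy1; rw [this]; group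
      rcases Int.even_or_odd k with ⟨m, hm⟩ | ⟨m, hm⟩
      · exfalso; apply h3
        rw [← hk, hm, ← two_mul, zpow_mul]
        have : (y : G) ^ (2 : ℤ) = 1 := by
          have := pow_orderOf_eq_one (y : G)
          rw [hy2] at this
          exact_mod_cast this
        rw [this, one_zpow]
      · rw [← hk, hm, zpow_add, zpow_mul, zpow_one]
        have : (y : G) ^ (2 : ℤ) = 1 := by
          have := pow_orderOf_eq_one (y : G)
          rw [hy2] at this
          exact_mod_cast this
        rw [this, one_zpow, one_mul]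
    apply hno y u hy2 hu3
    have : u * (y : G) = y * u := by
      calc u * (y : G) = u * y * u⁻¹ * u := by group
        _ = y * u := by rw [hyc]
    exact this.symm
  haveI := Fintype.ofFinite (Sylow 3 G)
  have hc4 : Fintype.card (Sylow 3 G) = 4 := by rw [← Nat.card_eq_fintype_card, hn]
  have hb : Function.Bijective f := by
    rw [Nat.bijective_iff_injective_and_card]
    refine ⟨hf, ?_⟩
    rw [h, Nat.card_eq_fintype_card, Fintype.card_perm, hc4]; rfl
  exact ⟨(MulEquiv.ofBijective f hb).trans (Fintype.equivFinOfCardEq hc4).permCongrHom⟩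

end Cfsg.Agent.S1012
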