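import Cfsg.Statements.S1013
import Cfsg.Agent.Lib.SmS4

set_option autoImplicit false
open Cfsg

open scoped Pointwise
set_option linter.style.haveILetI false
namespace Cfsg.Agent.S1013

/-- Let G be a transitive permutation group of prime degree p having more than one Sylow p-subgroup, and suppose a Sylow p-subgroup P has prime index in its normalizer. Then G is simple. -/
theorem result {α : Type*} [Fintype α] [DecidableEq α] {p : ℕ} [Fact p.Prime] (hα : Fintype.card α = p) (G : Subgroup (Equiv.Perm α)) [MulAction.IsPretransitive ↥G α] (P : Sylow p ↥G) (hn : 1 < Nat.card (Sylow p ↥G)) (ht : (((P : Subgroup ↥G).subgroupOf (Subgroup.normalizer ((P : Subgroup ↥G) : Set ↥G))).index).Prime) : IsSimpleGroup ↥G := by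
  classical
  have hp := (Fact.out : p.Prime)
  have hp0 := hp.pos
  haveI : Nontrivial α := Fintype.one_lt_card_iff_nontrivial.mp (by rw [hα]; exact hp.one_lt)
  obtain ⟨a⟩ : Nonempty α := inferInstance
  -- order of a Sylow subgroup
  have hpp : Nat.card (Equiv.Perm α) = p * (p - 1).factorial := by
    rw [Nat.card_eq_fintype_card, Fintype.card_perm, hα]
    conv_lhs => rw [show p = (p - 1) + 1 by omega]
    rw [Nat.factorial_succ, show p - 1 + 1 = p by omega]
  have hpf : ¬ p ∣ (p - 1).factorial := by rw [hp.dvd_factorial]; omega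
  have hd2 : ¬ p ^ 2 ∣ Nat.card ↥G := by
    intro h
    have := dvd_trans h (Subgroup.card_subgroup_dvd_card G)
    rw [hpp, pow_two] at this
    exact hpf (Nat.dvd_of_mul_dvd_mul_left hp0 this)
  have htr : ∀ K : Subgroup ↥G, MulAction.IsPretransitive ↥K α → p ∣ Nat.card ↥K := by
    intro K hK
    have h1 := MulAction.card_orbit_mul_card_stabilizer_eq_card_group ↥K a
    have h2 : Fintype.card (MulAction.orbit ↥K a) = p := by
      rw [← hα]
      exact Fintype.card_congr ((Equiv.setCongr (MulAction.orbit_eq_univ ↥K a)).trans (Equiv.Set.univ α))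
    rw [h2] at h1
    rw [Nat.card_eq_fintype_card, ← h1]; exact dvd_mul_right _ _
  have hpG : p ∣ Nat.card ↥G := by
    have h1 := MulAction.card_orbit_mul_card_stabilizer_eq_card_group ↥G a
    have h2 : Fintype.card (MulAction.orbit ↥G a) = p := by
      rw [← hα]
      exact Fintype.card_congr ((Equiv.setCongr (MulAction.orbit_eq_univ ↥G a)).trans (Equiv.Set.univ α))
    rw [h2] at h1
    rw [Nat.card_eq_fintype_card, ← h1]; exact dvd_mul_right _ _
  have hP : ∀ Q : Sylow p ↥G, Nat.card Q = p := fun Q => CfsgLib.SmS.card_sylow_prime hpG hd2 Q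
  haveI hprim : MulAction.IsPreprimitive ↥G α := MulAction.IsPreprimitive.of_prime_card (by rw [Nat.card_eq_fintype_card, hα]; exact hp)
  have hnorm : ∀ K : Subgroup ↥G, K.Normal → K ≠ ⊥ → p ∣ Nat.card ↥K := by
    intro K hK hK1
    haveI := hK
    apply htr
    apply MulAction.IsQuasiPreprimitive.isPretransitive_of_normal (G := ↥G)
    intro hfix
    apply hK1
    rw [eq_bot_iff]
    intro g hg
    rw [Subgroup.mem_bot]
    apply Subtype.ext
    ext x
    have hx : x ∈ MulAction.fixedPoints ↥K α := by rw [hfix]; trivial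
    exact hx ⟨g, hg⟩
  have hle : ∀ K : Subgroup ↥G, K.Normal → K ≠ ⊥ → ∀ Q : Sylow p ↥G, (Q : Subgroup ↥G) ≤ K := by
    intro K hK hK1 Q
    obtain ⟨x, hx⟩ := exists_prime_orderOf_dvd_card' (G := K) p (hnorm K hK hK1)
    have hx' : orderOf (x : ↥G) = p := (orderOf_injective _ (Subgroup.subtype_injective _) x).trans hx
    let R : Sylow p ↥G := Sylow.ofCard (Subgroup.zpowers (x : ↥G)) (by rw [Nat.card_zpowers, hx', ← Q.card_eq_multiplicity, hP])
    obtain ⟨g, hg⟩ := MulAction.exists_smul_eq ↥G R Q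
    have h1 : (Q : Subgroup ↥G) = (MulAut.conj g) • (R : Subgroup ↥G) := by rw [← hg]; rfl
    intro y hy
    rw [h1, Subgroup.mem_pointwise_smul_iff_inv_smul_mem] at hy
    have h2 : (R : Subgroup ↥G) ≤ K := by
      change Subgroup.zpowers (x : ↥G) ≤ K
      rw [Subgroup.zpowers_le]; exact x.2
    have h3 := h2 hy
    have h4 : (MulAut.conj g)⁻¹ • y = g⁻¹ * y * g := by rw [← map_inv]; simp
    rw [h4] at h3
    have h5 := hK.conj_mem _ h3 g
    have h6 : g * (g⁻¹ * y * g) * g⁻¹ = y := by group
    rwa [h6] at h5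
  haveI : Nontrivial ↥G := by
    rw [← Finite.one_lt_card_iff_nontrivial]
    exact lt_of_lt_of_le hp.one_lt (Nat.le_of_dvd Nat.card_pos hpG)
  refine ⟨fun K hK => ?_⟩
  by_cases hK1 : K = ⊥
  · exact Or.inl hK1
  right
  haveI := hK
  have hPK := hle K hK hK1 P
  set N := Subgroup.normalizer ((P : Subgroup ↥G) : Set ↥G) with hN
  have hfr : N ⊔ K = ⊤ := by
    have := Sylow.normalizer_sup_eq_top (P.subtype hPK)
    rwa [Sylow.coe_subtype, Subgroup.subgroupOf_map_subtype, inf_eq_left.mpr hPK] at this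
  -- the intermediate subgroup
  have hPN : (P : Subgroup ↥G) ≤ N := Subgroup.le_normalizer
  have hPM : (P : Subgroup ↥G) ≤ N ⊓ K := le_inf hPN hPK
  have hrel : (P : Subgroup ↥G).relIndex (N ⊓ K) * (N ⊓ K).relIndex N = (P : Subgroup ↥G).relIndex N :=
    Subgroup.relIndex_mul_relIndex _ _ _ hPM inf_le_left
  have hpr : ((P : Subgroup ↥G).relIndex N).Prime := ht
  rcases (Nat.dvd_prime hpr).mp (Dvd.intro_left _ hrel) with h1 | h1
  · have h2 : N ≤ N ⊓ K := Subgroup.relIndex_eq_one.mp h1
    rw [← hfr]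
    exact (sup_eq_right.mpr (le_trans h2 inf_le_right)).symm
  · exfalso
    have h2 : (P : Subgroup ↥G).relIndex (N ⊓ K) = 1 := by
      rw [h1] at hrel
      exact Nat.eq_of_mul_eq_mul_right hpr.pos (by rw [hrel, one_mul])
    have h3 : N ⊓ K ≤ (P : Subgroup ↥G) := Subgroup.relIndex_eq_one.mp h2
    -- normal complement in K
    haveI : IsCyclic ↥(P : Subgroup ↥G) := isCyclic_of_prime_card (hP P)
    letI : CommGroup ↥(P : Subgroup ↥G) := IsCyclic.commGroup
    have hnc : Subgroup.normalizer (((P.subtype hPK : Sylow p K) : Subgroup K) : Set K) ≤ Subgroup.centralizer (((P.subtype hPK : Sylow p K) : Subgroup K) : Set K) := by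
      intro x hx
      have hxN : (x : ↥G) ∈ N := by
        rw [hN, Subgroup.mem_normalizer_iff]
        intro y
        constructor
        · intro hy
          have := (Subgroup.mem_normalizer_iff.mp hx ⟨y, hPK hy⟩).mp (by rw [Sylow.coe_subtype, Subgroup.mem_subgroupOf]; exact hy)
          rw [Sylow.coe_subtype, Subgroup.mem_subgroupOf] at this
          exact this
        · intro hy
          have hyK : y ∈ K := by
            have h5 := hPK hy
            have h6 : y = (x : ↥G)⁻¹ * ((x : ↥G) * y * (x : ↥G)⁻¹) * x := by group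
            rw [h6]
            exact mul_mem (mul_mem (inv_mem x.2) h5) x.2
          have := (Subgroup.mem_normalizer_iff.mp hx ⟨y, hyK⟩).mpr (by rw [Sylow.coe_subtype, Subgroup.mem_subgroupOf]; exact hy)
          rw [Sylow.coe_subtype, Subgroup.mem_subgroupOf] at this
          exact this
      have hxP : (x : ↥G) ∈ (P : Subgroup ↥G) := h3 ⟨hxN, x.2⟩
      rw [Subgroup.mem_centralizer_iff]
      intro y hy
      have hyP : (y : ↥G) ∈ (P : Subgroup ↥G) := by
        have : y ∈ (P : Subgroup ↥G).subgroupOf K := hy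
        rwa [Subgroup.mem_subgroupOf] at this
      apply Subtype.ext
      exact congrArg (fun z : ↥(P : Subgroup ↥G) => (z : ↥G)) (mul_comm (⟨y, hyP⟩ : ↥(P : Subgroup ↥G)) ⟨x, hxP⟩)
    obtain ⟨L, hL, hLc, k, hk⟩ := CfsgLib.Transfer.npc_of_normalizer_le (P.subtype hPK) hnc
    haveI := hL
    have hLn : (L.map K.subtype).Normal := by
      refine ⟨?_⟩
      rintro _ ⟨y, hy, rfl⟩ g
      have hyc := (CfsgLib.NPC.mem_iff_coprime hLc hk).mp hy
      refine ⟨⟨g * y * g⁻¹, hK.conj_mem _ y.2 g⟩, ?_, rfl⟩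
      have h6 : (⟨g * (y : ↥G) * g⁻¹, hK.conj_mem _ y.2 g⟩ : K) ∈ L := by
        rw [CfsgLib.NPC.mem_iff_coprime hLc hk]
        have h7 : orderOf (⟨g * (y : ↥G) * g⁻¹, hK.conj_mem _ y.2 g⟩ : K) = orderOf y := by
          rw [Subgroup.orderOf_mk]
          have : g * (y : ↥G) * g⁻¹ = MulAut.conj g (y : ↥G) := rfl
          rw [this, MulEquiv.orderOf_eq]
          exact orderOf_injective _ (Subgroup.subtype_injective _) y
        rw [h7]; exact hyc
      exact h6
    have hL1 : L = ⊥ := by
      by_contra hL1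
      have h6 : L.map K.subtype ≠ ⊥ := by
        intro h7
        exact hL1 ((Subgroup.map_eq_bot_iff_of_injective _ K.subtype_injective).mp h7)
      have h7 := hnorm _ hLn h6
      have h8 : Nat.card ↥(L.map K.subtype) = Nat.card L := (Nat.card_congr (L.equivMapOfInjective K.subtype K.subtype_injective).toEquiv).symm
      rw [h8] at h7
      exact (Nat.Prime.coprime_iff_not_dvd hp).mp hLc.symm h7
    rw [hL1, Subgroup.index_bot] at hk
    have hKp : IsPGroup p ↥K := IsPGroup.of_card hk
    have hKP : K = (P : Subgroup ↥G) := P.3 hKp hPK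
    have hPn : (P : Subgroup ↥G).Normal := hKP ▸ hK
    haveI : Subsingleton (Sylow p ↥G) := ⟨fun Q R => by
      have key : ∀ Q : Sylow p ↥G, (Q : Subgroup ↥G) = K := by
        intro Q
        exact Subgroup.eq_of_le_of_card_ge (hle K hK hK1 Q) (by
          rw [hKP]; exact le_of_eq ((hP P).trans (hP Q).symm))
      exact Sylow.ext ((key Q).trans (key R).symm)⟩
    have := Finite.card_le_one_iff_subsingleton.mpr this
    omega

end Cfsg.Agent.S1013
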