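import Cfsg.Statements.S1014
import Cfsg.Agent.Lib.SmS3

set_option autoImplicit false
open Cfsg

set_option linter.style.haveILetI false
namespace Cfsg.Agent.S1014

/-- No finite simple group has order 1104 = 2^4 * 3 * 23. -/
theorem result {G : Type*} [Group G] [Finite G] [IsSimpleGroup G] : Nat.card G ≠ 1104 := by
  intro h
  have hG : ¬ IsMulCommutative G := CfsgLib.SmS.nonab (by rw [h]; norm_num)
  haveI : Fact (Nat.Prime 23) := ⟨by norm_num⟩
  obtain ⟨P⟩ : Nonempty (Sylow 23 G) := inferInstance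
  obtain ⟨h1, n, e, c, b1, b2, b3, a1, a2, a3, a4, a5, a6, _⟩ := CfsgLib.SmS.syl_prime hG (by rw [h]; norm_num) (by rw [h]; norm_num) P
  rw [h] at a6
  have key : ∀ n ∈ Nat.divisors 1104, ∀ e ∈ Nat.divisors 22, n % 23 = 1 → n ≠ 1 → e ≠ 1 → n * e ∣ 1104 → 23 ∣ 1104 / (n * e) → n = 24 ∧ e = 2 := by decide +kernel
  have hn : n * e ≠ 0 := by rintro h0; rw [← mul_assoc, h0, zero_mul] at a6; omega
  have hk := key n (by rw [Nat.mem_divisors]; exact ⟨⟨_, a6.symm⟩, by norm_num⟩) e (by rw [Nat.mem_divisors]; exact ⟨a3, by norm_num⟩) a1 a2 a4 ⟨c, by rw [← a6]; ring⟩ (by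
    have : 1104 / (n * e) = c := by rw [← a6, ← mul_assoc]; exact Nat.mul_div_cancel_left _ (Nat.pos_of_ne_zero hn)
    rw [this]; exact a5)
  obtain ⟨rfl, rfl⟩ := hk
  have hc : c = 23 := by omega
  have hN := CfsgLib.SmS.card_cent_mul (P : Subgroup G)
  rw [b2, b3, hc] at hN
  haveI : Fact (Nat.Prime 2) := ⟨by norm_num⟩
  obtain ⟨x, hx⟩ := exists_prime_orderOf_dvd_card' (G := ↥(Subgroup.normalizer ((P : Subgroup G) : Set G))) 2 (by rw [← hN]; norm_num)
  have hx2 : orderOf (x : G) = 2 := by rw [← hx]; exact orderOf_injective _ (Subgroup.subtype_injective _) x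
  have hxc : (x : G) ∉ Subgroup.centralizer ((P : Subgroup G) : Set G) := by
    intro hxc
    have := orderOf_dvd_natCard (⟨x, hxc⟩ : Subgroup.centralizer ((P : Subgroup G) : Set G))
    rw [b3, hc, Subgroup.orderOf_mk, hx2] at this
    norm_num at this
  have h5 := CfsgLib.SmS.fix_bound P h1 x.2 hxc
  rw [b1] at h5
  have h6 := CfsgLib.SmS.fix_pos (Subgroup.normalizer ((P : Subgroup G) : Set G)) x.2
  obtain ⟨k, hk⟩ := CfsgLib.SmS.invol_parity hG (Subgroup.normalizer ((P : Subgroup G) : Set G)) (x := (x : G)) (by rw [← hx2]; exact pow_orderOf_eq_one _)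
  rw [CfsgLib.SmS.syl_index, b1] at hk
  omega

end Cfsg.Agent.S1014
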