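import Cfsg.Statements.S1015
import Cfsg.Agent.Lib.SmS4

set_option autoImplicit false
open Cfsg

set_option linter.style.haveILetI false
namespace Cfsg.Agent.S1015

/-- No finite simple group has order 1200 = 2^4 * 3 * 5^2. -/
theorem result {G : Type*} [Group G] [Finite G] [IsSimpleGroup G] : Nat.card G ≠ 1200 := by
  intro h
  have hG : ¬ IsMulCommutative G := CfsgLib.SmS.nonab (by rw [h]; norm_num)
  haveI : Fact (Nat.Prime 5) := ⟨by norm_num⟩
  obtain ⟨P⟩ : Nonempty (Sylow 5 G) := inferInstance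
  obtain ⟨a1, a2, a3, a4, a5, a6⟩ := CfsgLib.SmS.syl hG (by rw [h]; norm_num) P
  have hPc : Nat.card P = 5 ^ 2 := CfsgLib.SmS.card_sylow_pow 2 (by rw [h]; norm_num) (by rw [h]; norm_num) P
  obtain ⟨h1, h2⟩ := CfsgLib.SmS.sylow_dvd P (b := 48) hPc (by rw [h]; norm_num)
  have hn : Nat.card (Sylow 5 G) = 16 := by
    have key : ∀ n ∈ Nat.divisors 48, n % 5 = 1 → n ≠ 1 → 2 * 1200 ∣ n.factorial → n = 16 := by decide +kernel
    rw [h] at a4
    exact key _ (by rw [Nat.mem_divisors]; exact ⟨h1, by norm_num⟩) a1 a3 a4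
  obtain ⟨D, m, n, _, b1, b2, b3, b4, b5, b6, _, _⟩ := CfsgLib.SmS.sq_data hG P hPc (by rw [hn]; norm_num)
  rw [h2] at b4
  rw [h] at b6
  have key : ∀ i ∈ Nat.divisors 48, i ≠ 1 → 2 * 1200 ∣ i.factorial → ∀ n ∈ Nat.divisors (48 / i), n % 5 = 1 → n ≠ 1 → False := by decide +kernel
  generalize (Subgroup.centralizer (D : Set G)).index = i at *
  have hi0 : 0 < i := Nat.pos_of_ne_zero (by rintro rfl; omega)
  have hm : 48 / i = m := by rw [← b4]; exact Nat.mul_div_cancel _ hi0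
  exact key i (by rw [Nat.mem_divisors]; exact ⟨Dvd.intro_left _ b4, by norm_num⟩) b5 b6 n (by
    rw [hm, Nat.mem_divisors]; exact ⟨b3, by rintro rfl; omega⟩) b1 b2

end Cfsg.Agent.S1015
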