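import Cfsg.Statements.S1026
import Cfsg.Agent.Lib.CGrp4
import Cfsg.Agent.Lib.ChevCD

set_option autoImplicit false
open Cfsg

namespace Cfsg.Agent.S1026

/-- Every element of `U` has a unique expression `∏_{r ∈ Φ⁺} x_r(t_r)`, the product over the positive roots in increasing index order (the coefficient family `t`, supported on the positive roots, exists and is unique); and conversely every such ordered product is the matrix of an element of `U`. -/
theorem result {F : Type*} [Field F] (D : Cfsg.Lie.ChevalleyDatum) (hD : D ∈ [Cfsg.Lie.chevG2, Cfsg.Lie.chevB2, Cfsg.Lie.chevD4, Cfsg.Lie.chevF4, Cfsg.Lie.chevE6, Cfsg.Lie.chevE7, Cfsg.Lie.chevE8]) :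
    (∀ g : GL D.Idx F, g ∈ D.posUnipotent F →
      ∃! t : ℕ → F, (∀ r, ¬ D.IsPosRoot r → t r = 0) ∧
        (g : Matrix D.Idx D.Idx F) = D.wordMat F (D.posRoots.map fun r => (r, t r))) ∧
    (∀ t : ℕ → F, ∃ g : GL D.Idx F, g ∈ D.posUnipotent F ∧
      (g : Matrix D.Idx D.Idx F) = D.wordMat F (D.posRoots.map fun r => (r, t r))) := by
  obtain ⟨M⟩ := CfsgLib.Chev.exists_cg hD F
  have he := M.N.even
  have hword : ∀ t : ℕ → F, (D.posRoots.map fun r => (r, t r)) =
      ((List.range' (D.nroots / 2) (D.nroots / 2)).map fun r => (r, t r)) := by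
    intro t; rw [M.posRoots_eq]
  constructor
  · intro g hg
    rw [M.U_eq] at hg
    obtain ⟨t, ht⟩ := M.exists_form (D.nroots / 2) (D.nroots / 2) le_rfl (by omega) g hg
    refine ⟨fun r => if D.nroots / 2 ≤ r ∧ r < D.nroots then t r else 0, ⟨?_, ?_⟩, ?_⟩
    · intro r hr
      exact if_neg fun h => hr ((M.N.pos_iff h.2).mpr h.1)
    · rw [hword, ← M.coe_wg, ht]
      congr 2
      apply List.map_congr_left
      intro r hr
      rw [List.mem_range'] at hr
      obtain ⟨i, hi, rfl⟩ := hr
      rw [if_pos ⟨by omega, by omega⟩]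
    · rintro t' ⟨h2, h3⟩
      rw [hword, ← M.coe_wg] at h3
      have h4 : CfsgLib.Chev.wg D ((List.range' (D.nroots / 2) (D.nroots / 2)).map fun r => (r, t' r)) =
          CfsgLib.Chev.wg D ((List.range' (D.nroots / 2) (D.nroots / 2)).map fun r => (r, t r)) := by
        rw [← ht]; exact (Units.ext h3).symm
      funext r
      by_cases h5 : D.nroots / 2 ≤ r ∧ r < D.nroots
      · refine Eq.trans ?_ (if_pos h5).symm
        exact M.form_unique _ _ le_rfl (by omega) t' t h4 r h5.1 (by omega)
      · refine Eq.trans ?_ (if_neg h5).symm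
        apply h2
        intro h6
        exact h5 ⟨(M.N.pos_iff h6.1).mp h6, h6.1⟩
  · intro t
    refine ⟨CfsgLib.Chev.wg D ((List.range' (D.nroots / 2) (D.nroots / 2)).map fun r => (r, t r)), ?_, ?_⟩
    · rw [M.U_eq]; exact M.form_mem _ _ t
    · rw [hword, M.coe_wg]

end Cfsg.Agent.S1026
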