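import Cfsg.Statements.S1044
import Cfsg.Agent.Lib.CGrp8
import Cfsg.Agent.Lib.ChevCD

set_option autoImplicit false
open Cfsg

namespace Cfsg.Agent.S1044

/-- For a fundamental root `p` the set `B ∪ B n_p B` is (the carrier of) a subgroup of the general linear group. -/
theorem result {F : Type*} [Field F] (D : Cfsg.Lie.ChevalleyDatum) (hD : D ∈ [Cfsg.Lie.chevG2, Cfsg.Lie.chevB2, Cfsg.Lie.chevD4, Cfsg.Lie.chevF4, Cfsg.Lie.chevE6, Cfsg.Lie.chevE7, Cfsg.Lie.chevE8]) (i : ℕ) (hi : i < D.rank) (n : GL D.Idx F)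
    (hn : (n : Matrix D.Idx D.Idx F) = D.nMat F (D.simple i) 1) :
    ∃ P : Subgroup (GL D.Idx F), (P : Set (GL D.Idx F)) =
      (D.borelSubgroup F : Set (GL D.Idx F)) ∪ DoubleCoset.doubleCoset n (D.borelSubgroup F : Set (GL D.Idx F)) (D.borelSubgroup F) := by
  obtain ⟨M⟩ := CfsgLib.Chev.exists_cg hD F
  have e := M.eq_ng.mp hn
  change n = CfsgLib.Chev.ni D F i at e
  subst e
  have hnm := M.ni_mem (F := F) hi
  have hsq : CfsgLib.Chev.ni D F i * CfsgLib.Chev.ni D F i ∈ D.borelSubgroup F := CfsgLib.Chev.GD.H_le_B (M.ni_sq_mem hi)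
  set n := CfsgLib.Chev.ni D F i with hndef
  have key : ∀ b ∈ D.borelSubgroup F, n * b * n ∈ (D.borelSubgroup F : Set (GL D.Idx F)) ∪
      DoubleCoset.doubleCoset n (D.borelSubgroup F : Set (GL D.Idx F)) (D.borelSubgroup F) := by
    intro b hb
    rcases M.bn_step hi hnm hb with ⟨b₁, h1, b₂, h2, he⟩ | ⟨b₁, h1, b₂, h2, he⟩
    · left
      change n * b * n ∈ D.borelSubgroup F
      rw [he]
      exact mul_mem (mul_mem h1 hsq) h2
    · right
      rw [DoubleCoset.mem_doubleCoset]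
      exact ⟨b₁, h1, b₂, h2, he⟩
  have hmul : ∀ b ∈ D.borelSubgroup F, ∀ x, x ∈ (D.borelSubgroup F : Set (GL D.Idx F)) ∪
      DoubleCoset.doubleCoset n (D.borelSubgroup F : Set (GL D.Idx F)) (D.borelSubgroup F) → b * x ∈ (D.borelSubgroup F : Set (GL D.Idx F)) ∪
      DoubleCoset.doubleCoset n (D.borelSubgroup F : Set (GL D.Idx F)) (D.borelSubgroup F) := by
    rintro b hb x (hx | hx)
    · left; exact mul_mem hb hx
    · right
      rw [DoubleCoset.mem_doubleCoset] at hx ⊢
      obtain ⟨y, hy, z, hz, rfl⟩ := hx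
      exact ⟨b * y, mul_mem hb hy, z, hz, by group⟩
  have hmul' : ∀ b ∈ D.borelSubgroup F, ∀ x, x ∈ (D.borelSubgroup F : Set (GL D.Idx F)) ∪
      DoubleCoset.doubleCoset n (D.borelSubgroup F : Set (GL D.Idx F)) (D.borelSubgroup F) → x * b ∈ (D.borelSubgroup F : Set (GL D.Idx F)) ∪
      DoubleCoset.doubleCoset n (D.borelSubgroup F : Set (GL D.Idx F)) (D.borelSubgroup F) := by
    rintro b hb x (hx | hx)
    · left; exact mul_mem hx hb
    · right
      rw [DoubleCoset.mem_doubleCoset] at hx ⊢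
      obtain ⟨y, hy, z, hz, rfl⟩ := hx
      exact ⟨y, hy, z * b, mul_mem hz hb, by group⟩
  refine ⟨{ carrier := (D.borelSubgroup F : Set (GL D.Idx F)) ∪
      DoubleCoset.doubleCoset n (D.borelSubgroup F : Set (GL D.Idx F)) (D.borelSubgroup F)
            one_mem' := Or.inl (one_mem _)
            mul_mem' := ?_
            inv_mem' := ?_ }, rfl⟩
  · rintro x y (hx | hx) hy
    · exact hmul x hx y hy
    · rw [DoubleCoset.mem_doubleCoset] at hx
      obtain ⟨a, ha, b, hb, rfl⟩ := hx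
      rcases hy with hy | hy
      · right
        rw [DoubleCoset.mem_doubleCoset]
        exact ⟨a, ha, b * y, mul_mem hb hy, by group⟩
      · rw [DoubleCoset.mem_doubleCoset] at hy
        obtain ⟨c, hc, d, hd, rfl⟩ := hy
        have h1 := hmul' d hd _ (hmul a ha _ (key (b * c) (mul_mem hb hc)))
        have e : a * (n * (b * c) * n) * d = a * n * b * (c * n * d) := by group
        rwa [e] at h1
  · rintro x (hx | hx)
    · left; exact inv_mem hx
    · right
      rw [DoubleCoset.mem_doubleCoset] at hx ⊢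
      obtain ⟨a, ha, b, hb, rfl⟩ := hx
      exact ⟨b⁻¹ * (n * n)⁻¹, mul_mem (inv_mem hb) (inv_mem hsq), a⁻¹, inv_mem ha, by group⟩

end Cfsg.Agent.S1044
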