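import Cfsg.Statements.S1045
import Cfsg.Agent.Lib.CGrp8
import Cfsg.Agent.Lib.ChevCD

set_option autoImplicit false
open Cfsg

namespace Cfsg.Agent.S1045

/-- For a fundamental root `p`, the subgroup `U_p` generated by the `X_s`, `s` positive and `s ≠ p`, is normalised by `X_p` and `X_{-p}`, and `U = U_p ⊔ X_p`. -/
theorem result {F : Type*} [Field F] (D : Cfsg.Lie.ChevalleyDatum) (hD : D ∈ [Cfsg.Lie.chevG2, Cfsg.Lie.chevB2, Cfsg.Lie.chevD4, Cfsg.Lie.chevF4, Cfsg.Lie.chevE6, Cfsg.Lie.chevE7, Cfsg.Lie.chevE8]) (i : ℕ) (hi : i < D.rank) :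
    D.rootSubgroup F (D.simple i) ⊔ D.rootSubgroup F (D.neg (D.simple i)) ≤
        Subgroup.normalizer (Subgroup.closure {g : GL D.Idx F | ∃ (s : ℕ) (t : F), D.IsPosRoot s ∧ s ≠ D.simple i ∧
          (g : Matrix D.Idx D.Idx F) = D.x F s t} : Set (GL D.Idx F)) ∧
      Subgroup.closure {g : GL D.Idx F | ∃ (s : ℕ) (t : F), D.IsPosRoot s ∧ s ≠ D.simple i ∧
          (g : Matrix D.Idx D.Idx F) = D.x F s t} ⊔ D.rootSubgroup F (D.simple i) = D.posUnipotent F := by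
  obtain ⟨M⟩ := CfsgLib.Chev.exists_cg hD F
  have hp := M.N.simple_lt i hi
  have hset : Subgroup.closure {g : GL D.Idx F | ∃ (s : ℕ) (t : F), D.IsPosRoot s ∧ s ≠ D.simple i ∧
          (g : Matrix D.Idx D.Idx F) = D.x F s t} = CfsgLib.Chev.XS D F (CfsgLib.Chev.PosI D i) := by
    unfold CfsgLib.Chev.XS
    congr 1
    ext g
    constructor
    · rintro ⟨s, t, h1, h2, h3⟩
      exact ⟨s, t, ⟨(M.N.pos_iff h1.1).mp h1, h2⟩, h1.1, M.eq_xg.mp h3⟩
    · rintro ⟨s, t, ⟨h1, h2⟩, h3, h4⟩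
      exact ⟨s, t, (M.N.pos_iff h3).mpr h1, h2, M.eq_xg.mpr h4⟩
  rw [hset]
  constructor
  · refine sup_le ?_ ?_
    · unfold Cfsg.Lie.ChevalleyDatum.rootSubgroup
      rw [Subgroup.closure_le]
      rintro g ⟨t, h⟩
      rw [M.eq_xg.mp h]
      exact M.xi_norm_Ui hi t
    · unfold Cfsg.Lie.ChevalleyDatum.rootSubgroup
      rw [Subgroup.closure_le]
      rintro g ⟨t, h⟩
      rw [M.eq_xg.mp h]
      exact M.xni_norm_Ui hi t
  · apply le_antisymm
    · refine sup_le (M.Ui_le_U i) ?_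
      unfold Cfsg.Lie.ChevalleyDatum.rootSubgroup
      rw [Subgroup.closure_le]
      rintro g ⟨t, h⟩
      rw [M.eq_xg.mp h, M.U_eq]
      exact CfsgLib.Chev.xg_mem_XS D (M.N.simple_pos hi) hp t
    · intro g hg
      obtain ⟨u, hu, t, rfl⟩ := M.mem_U hi hg
      exact mul_mem (Subgroup.mem_sup_left hu) (Subgroup.mem_sup_right (Subgroup.subset_closure ⟨t, M.coe_xg _ _⟩))

end Cfsg.Agent.S1045
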