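import Cfsg.Statements.S1047
import Cfsg.Agent.Lib.ChevSym

set_option autoImplicit false
open Cfsg

namespace Cfsg.Agent.S1047

/-- `P_J = ⟨H, X_r : r ∈ Φ⁺ ∪ Φ_J⟩`. -/
theorem result {F : Type*} [Field F] (D : Cfsg.Lie.ChevalleyDatum) (hD : D ∈ [Cfsg.Lie.chevG2, Cfsg.Lie.chevB2, Cfsg.Lie.chevD4, Cfsg.Lie.chevF4, Cfsg.Lie.chevE6, Cfsg.Lie.chevE7, Cfsg.Lie.chevE8]) (J : Set ℕ) :
    D.parabolicSubgroup F J = D.diagonalSubgroup F ⊔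
      Subgroup.closure {g : GL D.Idx F | ∃ (r : ℕ) (t : F), (D.IsPosRoot r ∨ D.InRootSub J r) ∧ (g : Matrix D.Idx D.Idx F) = D.x F r t} := by
  obtain ⟨M⟩ := CfsgLib.Chev.exists_cg hD F
  rw [M.PJ_eq]
  congr 1
  unfold CfsgLib.Chev.XS
  congr 1
  ext g
  constructor
  · rintro ⟨r, t, hr, hr', h⟩
    refine ⟨r, t, ?_, M.eq_xg.mpr h⟩
    rcases hr with hr | hr
    · exact Or.inl ((M.N.pos_iff hr').mpr hr)
    · exact Or.inr hr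
  · rintro ⟨r, t, hr | hr, h⟩
    · exact ⟨r, t, Or.inl ((M.N.pos_iff hr.1).mp hr), hr.1, M.eq_xg.mp h⟩
    · exact ⟨r, t, Or.inr hr, hr.1, M.eq_xg.mp h⟩

end Cfsg.Agent.S1047
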