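import Cfsg.Statements.S1051
import Cfsg.Agent.Lib.CGrp8
import Cfsg.Agent.Lib.ChevCD

set_option autoImplicit false
open Cfsg

namespace Cfsg.Agent.S1051

/-- `⋂_g g B g⁻¹ = 1`: the normal core of `B` in the Chevalley group is trivial. -/
theorem result {F : Type*} [Field F] (D : Cfsg.Lie.ChevalleyDatum) (hD : D ∈ [Cfsg.Lie.chevG2, Cfsg.Lie.chevB2, Cfsg.Lie.chevD4, Cfsg.Lie.chevF4, Cfsg.Lie.chevE6, Cfsg.Lie.chevE7, Cfsg.Lie.chevE8]) : ((D.borelSubgroup F).subgroupOf (D.group F)).normalCore = ⊥ := by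
  obtain ⟨M⟩ := CfsgLib.Chev.exists_cg hD F
  have h := M.core_B ((((D.borelSubgroup F).subgroupOf (D.group F)).normalCore).map (D.group F).subtype) (by
    rintro _ ⟨x, hx, rfl⟩
    have := Subgroup.normalCore_le ((D.borelSubgroup F).subgroupOf (D.group F)) hx
    exact this) (by
    rintro g hg _ ⟨x, hx, rfl⟩
    exact ⟨(⟨g, hg⟩ : D.group F) * x * (⟨g, hg⟩ : D.group F)⁻¹, (Subgroup.normalCore_normal _).conj_mem x hx ⟨g, hg⟩, rfl⟩)
  rwa [Subgroup.map_eq_bot_iff_of_injective _ (Subgroup.subtype_injective _)] at h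

end Cfsg.Agent.S1051
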