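import Cfsg.Statements.S1053
import Cfsg.Agent.Lib.CGrp8
import Cfsg.Agent.Lib.ChevCD

set_option autoImplicit false
open Cfsg

namespace Cfsg.Agent.S1053

/-- There is `n₀ ∈ N` with `n₀ U n₀⁻¹ = V` (a representative of the longest element of the Weyl group). -/
theorem result {F : Type*} [Field F] (D : Cfsg.Lie.ChevalleyDatum) (hD : D ∈ [Cfsg.Lie.chevG2, Cfsg.Lie.chevB2, Cfsg.Lie.chevD4, Cfsg.Lie.chevF4, Cfsg.Lie.chevE6, Cfsg.Lie.chevE7, Cfsg.Lie.chevE8]) :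
    ∃ n ∈ D.monomialSubgroup F, (D.posUnipotent F).map (MulAut.conj n).toMonoidHom = D.negUnipotent F := by
  obtain ⟨M⟩ := CfsgLib.Chev.exists_cg hD F
  obtain ⟨n, hn, h⟩ := M.exists_n0 (F := F)
  refine ⟨n, hn, ?_⟩
  ext g
  rw [Subgroup.mem_map]
  constructor
  · rintro ⟨x, hx, rfl⟩
    exact (h x).mp hx
  · intro hg
    refine ⟨n⁻¹ * g * n, (h _).mpr ?_, ?_⟩
    · have : n * (n⁻¹ * g * n) * n⁻¹ = g := by group
      rwa [this]
    · change n * (n⁻¹ * g * n) * n⁻¹ = g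
      group

end Cfsg.Agent.S1053
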