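import Cfsg.Statements.S1054
import Cfsg.Agent.Lib.ChevSimple

set_option autoImplicit false
open Cfsg

namespace Cfsg.Agent.S1054

/-- The Chevalley groups of types D₄, F₄, E₆, E₇, E₈ are simple over every field. -/
theorem result {F : Type*} [Field F] (D : Cfsg.Lie.ChevalleyDatum)
    (hD : D ∈ [Cfsg.Lie.chevD4, Cfsg.Lie.chevF4, Cfsg.Lie.chevE6, Cfsg.Lie.chevE7, Cfsg.Lie.chevE8]) :
    IsSimpleGroup ↥(D.group F) ∧ ¬ IsMulCommutative ↥(D.group F) := by
  have hD' : D ∈ [Cfsg.Lie.chevG2, Cfsg.Lie.chevB2, Cfsg.Lie.chevD4, Cfsg.Lie.chevF4, Cfsg.Lie.chevE6, Cfsg.Lie.chevE7, Cfsg.Lie.chevE8] := by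
    simp only [List.mem_cons, List.not_mem_nil, or_false] at hD ⊢
    tauto
  refine CfsgLib.Chev.simple_all hD' ?_
  obtain ⟨h1, h2, h3, h4, h5, h6, h7, h8, h9, h10⟩ := CfsgLib.Chev.chev_ne
  simp only [List.mem_cons, List.not_mem_nil, or_false] at hD
  intro h
  exfalso
  rcases hD with rfl | rfl | rfl | rfl | rfl
  · rcases h with h | h
    · exact h1 h
    · exact h2 h
  · rcases h with h | h
    · exact h3 h
    · exact h4 h
  · rcases h with h | h
    · exact h5 h
    · exact h6 h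
  · rcases h with h | h
    · exact h7 h
    · exact h8 h
  · rcases h with h | h
    · exact h9 h
    · exact h10 h

end Cfsg.Agent.S1054
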