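import Cfsg.Statements.S1058
import Cfsg.Agent.Lib.ChevRep4
import Cfsg.Agent.S0247

set_option autoImplicit false
open Cfsg

namespace Cfsg.Agent.S1058

/-- B₂(2) ≅ S₆. -/
theorem result {F : Type*} [Field F] [Fintype F] (hF : Fintype.card F = 2) :
    Nonempty (↥(Cfsg.Lie.chevB2.group F) ≃* Equiv.Perm (Fin 6)) := by
  obtain ⟨e⟩ := CfsgLib.Chev.Rep.PSp_iso F
  obtain ⟨s⟩ := Cfsg.Agent.S0247.result hF
  have hc : Subgroup.center (Matrix.symplecticGroup (Fin 2) F) = ⊥ := by
    rw [eq_bot_iff]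
    intro z hz
    have h1 : s z ∈ Subgroup.center (Equiv.Perm (Fin 6)) := by
      rw [Subgroup.mem_center_iff] at hz ⊢
      intro g
      have := congrArg s (hz (s.symm g))
      rwa [map_mul, map_mul, MulEquiv.apply_symm_apply] at this
    have h2 : Subgroup.center (Equiv.Perm (Fin 6)) = ⊥ := by
      rw [eq_bot_iff]
      intro g hg
      rw [Subgroup.mem_center_iff] at hg
      rw [Subgroup.mem_bot]
      ext i
      by_contra hne
      obtain ⟨j, hj1, hj2⟩ : ∃ j : Fin 6, j ≠ i ∧ j ≠ g i := by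
        have : ∀ a b : Fin 6, ∃ j : Fin 6, j ≠ a ∧ j ≠ b := by decide
        exact this _ _
      have h3 := congrArg (fun h : Equiv.Perm (Fin 6) => h i) (hg (Equiv.swap (g i) j))
      simp only [Equiv.Perm.mul_apply, Equiv.swap_apply_left] at h3
      rw [Equiv.swap_apply_of_ne_of_ne (fun h => hne (by rw [← h]; rfl)) (Ne.symm hj1)] at h3
      exact hj2 h3
    rw [h2, Subgroup.mem_bot] at h1
    exact s.injective (h1.trans (map_one s).symm)
  exact ⟨e.symm.trans (((QuotientGroup.quotientMulEquivOfEq hc).trans QuotientGroup.quotientBot).trans s)⟩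

end Cfsg.Agent.S1058
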