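import Cfsg.Statements.S1070
import Cfsg.Agent.Lib.TWE8

set_option autoImplicit false
open Cfsg

namespace Cfsg.Agent.S1070


/-- ²E₆(q) is simple for every `q`. -/
theorem result {K : Type*} [Field K] [Fintype K] {q : ℕ} (hq : IsPrimePow q) (hK : Fintype.card K = q ^ 2) :
    IsSimpleGroup ↥(Cfsg.Lie.twistedE6 K q) ∧ ¬ IsMulCommutative ↥(Cfsg.Lie.twistedE6 K q) := by
  obtain ⟨φ, hφ, h2⟩ := CfsgLib.Chev.TwE6.setup hq hK
  have h4 : 4 ≤ Fintype.card K := by
    rw [hK]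
    have := hq.two_le
    nlinarith
  have hp := CfsgLib.Chev.TwE6.perfect φ hφ h2 h4
  have hs := CfsgLib.Chev.TwE6.simple φ hφ h2 h4
  have he := CfsgLib.Chev.TwE6.eq_Gs φ hφ h2
  rw [← he] at hs
  refine ⟨hs, fun hc => ?_⟩
  have h1 : commutator ↥(Cfsg.Lie.twistedE6 K q) = ⊥ := by
    rw [commutator_eq_bot_iff_center_eq_top, eq_top_iff]
    intro x _
    rw [Subgroup.mem_center_iff]
    intro y
    exact hc.is_comm.comm y x
  rw [h1] at hp
  haveI := hs.toNontrivial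
  exact bot_ne_top hp

end Cfsg.Agent.S1070
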