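import Cfsg.Statements.S1071
import Cfsg.Agent.Lib.TWD3

set_option autoImplicit false
open Cfsg

namespace Cfsg.Agent.S1071


/-- ³D₄(q) is simple for every `q`. -/
theorem result {K : Type*} [Field K] [Fintype K] {q : ℕ} (hq : IsPrimePow q) (hK : Fintype.card K = q ^ 3) :
    IsSimpleGroup ↥(Cfsg.Lie.twistedD4 K q) ∧ ¬ IsMulCommutative ↥(Cfsg.Lie.twistedD4 K q) := by
  obtain ⟨φ, hφ⟩ := CfsgLib.Chev.exists_powHom hq three_ne_zero hK
  have h3 := CfsgLib.Chev.TwD4.setup φ hφ hK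
  have h4 : 4 ≤ Fintype.card K := by
    rw [hK]
    have := Nat.pow_le_pow_left hq.two_le 3
    omega
  have hp := CfsgLib.Chev.TwD4.perfect φ hφ h3 h4
  have hs := CfsgLib.Chev.TwD4.simple φ hφ h3 h4
  rw [← CfsgLib.Chev.TwD4.eq_Gs φ hφ h3] at hs
  refine ⟨hs, fun hc => ?_⟩
  have h1 : commutator ↥(Cfsg.Lie.twistedD4 K q) = ⊥ := by
    rw [commutator_eq_bot_iff_center_eq_top, eq_top_iff]
    intro x _
    rw [Subgroup.mem_center_iff]
    intro y
    exact hc.is_comm.comm y x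
  rw [h1] at hp
  haveI := hs.toNontrivial
  exact bot_ne_top hp

end Cfsg.Agent.S1071
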