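import Cfsg.Statements.S1073
import Cfsg.Agent.Lib.TWG4

set_option autoImplicit false
open Cfsg

namespace Cfsg.Agent.S1073


/-- ²G₂(3^(2m+1)) is simple for `m ≥ 1`. -/
theorem result {K : Type*} [Field K] [Fintype K] {m : ℕ} (hm : 1 ≤ m) (hK : Fintype.card K = 3 ^ (2 * m + 1)) :
    IsSimpleGroup ↥(Cfsg.Lie.twistedG2 K (3 ^ m)) ∧ ¬ IsMulCommutative ↥(Cfsg.Lie.twistedG2 K (3 ^ m)) := by
  haveI := CfsgLib.Chev.TwG2.charP3 hK
  obtain ⟨θ, τ, hτ, hi, hi', hθ⟩ := CfsgLib.Chev.TwG2.setup hK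
  have h2 : 4 ≤ Fintype.card K := by
    rw [hK]
    calc 4 ≤ 3 ^ 3 := by norm_num
      _ ≤ 3 ^ (2 * m + 1) := Nat.pow_le_pow_right (by norm_num) (by omega)
  have hp := CfsgLib.Chev.TwG2.perfect θ τ hτ hi hi' hθ hK h2
  have hs := CfsgLib.Chev.TwG2.simple θ τ hτ hi hi' hθ hK h2
  rw [← CfsgLib.Chev.TwG2.eq_Gs θ τ hτ hi hi' hθ hK] at hs
  refine ⟨hs, fun hc => ?_⟩
  have h1 : commutator ↥(Cfsg.Lie.twistedG2 K (3 ^ m)) = ⊥ := by
    rw [commutator_eq_bot_iff_center_eq_top, eq_top_iff]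
    intro x _
    rw [Subgroup.mem_center_iff]
    intro y
    exact hc.is_comm.comm y x
  rw [h1] at hp
  haveI := hs.toNontrivial
  exact bot_ne_top hp

end Cfsg.Agent.S1073
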