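import Cfsg.Statements.S1078
import Cfsg.Agent.Lib.CSt6

set_option autoImplicit false
open Cfsg

namespace Cfsg.Agent.S1078

/-- For G₂, F₄, E₈ the presented group has trivial centre (the universal and adjoint groups coincide). -/
theorem result {K : Type*} [Field K] (D : Cfsg.Lie.ChevalleyDatum) (hD : D ∈ [Cfsg.Lie.chevG2, Cfsg.Lie.chevF4, Cfsg.Lie.chevE8]) :
    Subgroup.center (D.SteinbergGroup K) = ⊥ := by
  simp only [List.mem_cons, List.not_mem_nil, or_false] at hD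
  rcases hD with rfl | rfl | rfl
  · obtain ⟨M⟩ := CfsgLib.Chev.exists_cg (D := Cfsg.Lie.chevG2) (by simp) K
    exact CfsgLib.Chev.center_bot_of_chk M (CfsgLib.Chev.stOK_all (by simp)) (B := [[2, 3], [1, 2]]) (by decide +kernel)
  · obtain ⟨M⟩ := CfsgLib.Chev.exists_cg (D := Cfsg.Lie.chevF4) (by simp) K
    exact CfsgLib.Chev.center_bot_of_chk M (CfsgLib.Chev.stOK_all (by simp)) (B := [[2, 3, 4, 2], [3, 6, 8, 4], [2, 4, 6, 3], [1, 2, 3, 2]]) (by decide +kernel)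
  · obtain ⟨M⟩ := CfsgLib.Chev.exists_cg (D := Cfsg.Lie.chevE8) (by simp) K
    exact CfsgLib.Chev.center_bot_of_chk M (CfsgLib.Chev.stOK_all (by simp)) (B := [[4, 5, 7, 10, 8, 6, 4, 2], [5, 8, 10, 15, 12, 9, 6, 3], [7, 10, 14, 20, 16, 12, 8, 4], [10, 15, 20, 30, 24, 18, 12, 6], [8, 12, 16, 24, 20, 15, 10, 5], [6, 9, 12, 18, 15, 12, 8, 4], [4, 6, 8, 12, 10, 8, 6, 3], [2, 3, 4, 6, 5, 4, 3, 2]]) (by decide +kernel)

end Cfsg.Agent.S1078
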