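import Cfsg.Statements.S1081
import Cfsg.Agent.Lib.GA6

set_option autoImplicit false
open Cfsg

namespace Cfsg.Agent.S1081

set_option maxRecDepth 100000
open Cfsg.Lie CfsgLib.Chev CfsgLib.Chev.GA Matrix in
theorem aux {D : ChevalleyDatum} {F : Type*} [Field F] (M : CG D F) {L L' : List (ℕ × ℕ × ℕ × ℤ)} (A : GE D F L) (B : GE D F L')
    (π : List ℕ)
    (h1 : ∀ i : Fin D.rank, (D.simple i, D.simple (π.getD i 0), 1, 1) ∈ L ∧ (D.simple (π.getD i 0), D.simple i, 1, 1) ∈ L')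
    (h2 : ∀ i : Fin D.rank, (D.neg (D.simple i), D.neg (D.simple (π.getD i 0)), 1, 1) ∈ L ∧
      (D.neg (D.simple (π.getD i 0)), D.neg (D.simple i), 1, 1) ∈ L')
    (h3 : ∀ i : Fin D.rank, ∃ j : Fin D.rank, π.getD j 0 = i) :
    ∃ α : ↥(D.group F) ≃* ↥(D.group F), ∀ (g : ↥(D.group F)) (i : ℕ) (t : F), i < D.rank →
      (((g : GL D.Idx F) : Matrix D.Idx D.Idx F) = D.x F (D.simple i) t →
        ((α g : GL D.Idx F) : Matrix D.Idx D.Idx F) = D.x F (D.simple (π.getD i 0)) t) ∧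
      (((g : GL D.Idx F) : Matrix D.Idx D.Idx F) = D.x F (D.neg (D.simple i)) t →
        ((α g : GL D.Idx F) : Matrix D.Idx D.Idx F) = D.x F (D.neg (D.simple (π.getD i 0))) t) := by
  have hinj := A.injective M B (RingHom.id F)
    (fun i => ⟨_, (h1 i).1, _, (h1 i).2, rfl, rfl, rfl, fun t => by simp⟩)
    (fun i => ⟨_, (h2 i).1, _, (h2 i).2, rfl, rfl, rfl, fun t => by simp⟩)
  have hsurj := A.surjective M
    (fun i => by
      obtain ⟨j, hj⟩ := h3 i
      refine ⟨_, (h1 j).1, by rw [hj], fun t => ⟨t, by simp⟩⟩)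
    (fun i => by
      obtain ⟨j, hj⟩ := h3 i
      refine ⟨_, (h2 j).1, by rw [hj], fun t => ⟨t, by simp⟩⟩)
  have hb : Function.Bijective A.hom :=
    ⟨fun g h he => Subtype.ext (hinj _ g.2 _ h.2 (congrArg Subtype.val he)), hsurj⟩
  refine ⟨MulEquiv.ofBijective A.hom hb, fun g i t hi => ⟨fun hg => ?_, fun hg => ?_⟩⟩
  · have hg' : (g : GL D.Idx F) = xg D (D.simple i) t := by
      apply Units.ext; rw [hg, M.coe_xg]
    change ((A.α g : GL D.Idx F) : Matrix D.Idx D.Idx F) = _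
    have := A.act _ (h1 ⟨i, hi⟩).1 t
    simp only [Int.cast_one, one_mul, pow_one] at this
    rw [hg', this, M.coe_xg]
  · have hg' : (g : GL D.Idx F) = xg D (D.neg (D.simple i)) t := by
      apply Units.ext; rw [hg, M.coe_xg]
    change ((A.α g : GL D.Idx F) : Matrix D.Idx D.Idx F) = _
    have := A.act _ (h2 ⟨i, hi⟩).1 t
    simp only [Int.cast_one, one_mul, pow_one] at this
    rw [hg', this, M.coe_xg]

/-- Graph automorphisms: for E₆ with ρ = (p₁ p₆)(p₃ p₅) and for D₄ with ρ the 3-cycle on the outer nodes there is a group automorphism sending `x_p(t) ↦ x_{ρ(p)}(t)` and `x_{-p}(t) ↦ x_{-ρ(p)}(t)` for every fundamental root `p`. -/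
theorem result {F : Type*} [Field F] (p : Cfsg.Lie.ChevalleyDatum × List ℕ)
    (hp : p ∈ [(Cfsg.Lie.chevE6, [5, 1, 4, 3, 2, 0]), (Cfsg.Lie.chevD4, [2, 1, 3, 0]), (Cfsg.Lie.chevD4, [3, 1, 0, 2])]) :
    ∃ α : ↥(p.1.group F) ≃* ↥(p.1.group F), ∀ (g : ↥(p.1.group F)) (i : ℕ) (t : F), i < p.1.rank →
      (((g : GL p.1.Idx F) : Matrix p.1.Idx p.1.Idx F) = p.1.x F (p.1.simple i) t →
        ((α g : GL p.1.Idx F) : Matrix p.1.Idx p.1.Idx F) = p.1.x F (p.1.simple (p.2.getD i 0)) t) ∧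
      (((g : GL p.1.Idx F) : Matrix p.1.Idx p.1.Idx F) = p.1.x F (p.1.neg (p.1.simple i)) t →
        ((α g : GL p.1.Idx F) : Matrix p.1.Idx p.1.Idx F) = p.1.x F (p.1.neg (p.1.simple (p.2.getD i 0))) t) := by
  simp only [List.mem_cons, List.not_mem_nil, or_false] at hp
  rcases hp with rfl | rfl | rfl
  · obtain ⟨A⟩ := CfsgLib.Chev.GA.geE6 F
    exact aux (CfsgLib.Chev.GA.cgE6 F) A A [5, 1, 4, 3, 2, 0] (by decide +kernel) (by decide +kernel) (by decide +kernel)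
  · obtain ⟨A⟩ := CfsgLib.Chev.GA.geD4 F
    obtain ⟨B⟩ := CfsgLib.Chev.GA.geD4b F
    exact aux (CfsgLib.Chev.GA.cgD4 F) A B [2, 1, 3, 0] (by decide +kernel) (by decide +kernel) (by decide +kernel)
  · obtain ⟨A⟩ := CfsgLib.Chev.GA.geD4 F
    obtain ⟨B⟩ := CfsgLib.Chev.GA.geD4b F
    exact aux (CfsgLib.Chev.GA.cgD4 F) B A [3, 1, 0, 2] (by decide +kernel) (by decide +kernel) (by decide +kernel)

end Cfsg.Agent.S1081
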