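import Cfsg.Statements.S1082
import Cfsg.Agent.Lib.ChevRep3

set_option autoImplicit false
open Cfsg

namespace Cfsg.Agent.S1082

open CfsgLib.Quad CfsgLib.Chev.Rep

theorem quot_center {A B : Type*} [Group A] [Group B] (e : A ≃* B) :
    Nonempty (A ⧸ Subgroup.center A ≃* B ⧸ Subgroup.center B) := by
  have h : (Subgroup.center A).map e.toMonoidHom = Subgroup.center B := by
    ext x
    constructor
    · rintro ⟨y, hy, rfl⟩
      rw [SetLike.mem_coe, Subgroup.mem_center_iff] at hy
      rw [Subgroup.mem_center_iff]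
      intro z
      obtain ⟨w, rfl⟩ := e.surjective z
      change e w * e y = e y * e w
      rw [← map_mul, ← map_mul, hy w]
    · intro hx
      rw [Subgroup.mem_center_iff] at hx
      refine ⟨e.symm x, ?_, e.apply_symm_apply x⟩
      rw [SetLike.mem_coe, Subgroup.mem_center_iff]
      intro z
      apply e.injective
      rw [map_mul, map_mul, e.apply_symm_apply]
      exact hx _
  exact ⟨QuotientGroup.congr _ _ e h⟩

/-- D₄(F) ≅ PΩ₈⁺(F), the commutator subgroup of the orthogonal group of `Σ xᵢ yᵢ` modulo its centre. -/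
theorem result {F : Type*} [Field F] : Nonempty (↥(Cfsg.Lie.chevD4.group F) ≃* Cfsg.POmega F (Cfsg.quadFormPlus 4 F)) := by
  have hQ : (⇑(QP 4 F) : (Fin 4 ⊕ Fin 4 → F) → F) = Cfsg.quadFormPlus 4 F := funext (QP_apply 4)
  rw [← hQ]
  obtain ⟨e1⟩ := CfsgLib.Chev.Rep.D4.iso (F := F)
  have e2 : ↥(Omega F ⇑(QP 4 F)) ≃* ↥(CfsgLib.Chev.Rep.D4.G1 F) :=
    Subgroup.equivMapOfInjective _ _ (Subgroup.subtype_injective _)
  obtain ⟨e3⟩ := quot_center e2
  exact ⟨(e3.trans e1).symm⟩

end Cfsg.Agent.S1082
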