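import Cfsg.Statements.S1083
import Cfsg.Agent.Lib.ChevRep7

set_option autoImplicit false
open Cfsg

namespace Cfsg.Agent.S1083

open CfsgLib.Quad CfsgLib.Chev.Rep

theorem quot_center {A B : Type*} [Group A] [Group B] (e : A ≃* B) :
    Nonempty (A ⧸ Subgroup.center A ≃* B ⧸ Subgroup.center B) := by
  have h : (Subgroup.center A).map e.toMonoidHom = Subgroup.center B := by
    ext x
    constructor
    · rintro ⟨y, hy, rfl⟩
      rw [SetLike.mem_coe, Subgroup.mem_center_iff] at hy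
      rw [Subgroup.mem_center_iff]
      intro z
      obtain ⟨w, rfl⟩ := e.surjective z
      change e w * e y = e y * e w
      rw [← map_mul, ← map_mul, hy w]
    · intro hx
      rw [Subgroup.mem_center_iff] at hx
      refine ⟨e.symm x, ?_, e.apply_symm_apply x⟩
      rw [SetLike.mem_coe, Subgroup.mem_center_iff]
      intro z
      apply e.injective
      rw [map_mul, map_mul, e.apply_symm_apply]
      exact hx _
  exact ⟨QuotientGroup.congr _ _ e h⟩

/-- B₂(F) ≅ PΩ₅(F) for the form `x₀² + x₁y₁ + x₂y₂`, over every field with more than two elements. -/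
theorem result {F : Type*} [Field F] (hF : ∃ a : F, a ≠ 0 ∧ a ≠ 1) :
    Nonempty (↥(Cfsg.Lie.chevB2.group F) ≃* Cfsg.POmega F (Cfsg.quadFormOdd 2 F)) := by
  have hQ : (⇑(CfsgLib.Chev.Rep.Od.QO 2 F) : (Unit ⊕ (Fin 2 ⊕ Fin 2) → F) → F) = Cfsg.quadFormOdd 2 F := funext CfsgLib.Chev.Rep.Od.QO_apply
  rw [← hQ]
  obtain ⟨e1⟩ := CfsgLib.Chev.Rep.B2.iso (F := F) hF
  have e2 : ↥(Omega F ⇑(CfsgLib.Chev.Rep.Od.QO 2 F)) ≃* ↥(CfsgLib.Chev.Rep.B2.G1 F) :=
    Subgroup.equivMapOfInjective _ _ (Subgroup.subtype_injective _)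
  obtain ⟨e3⟩ := quot_center e2
  exact ⟨(e3.trans e1).symm⟩

end Cfsg.Agent.S1083
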