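import Cfsg.Statements.S1095
import Cfsg.Agent.Lib.CGrp8
import Cfsg.Agent.Lib.ChevCD

set_option autoImplicit false
open Cfsg

namespace Cfsg.Agent.S1095

/-- `n_p` (p = p_{i+1} fundamental) is the signed monomial matrix `h_{p_j} ↦ h_{p_j} - A_{p_j,p} h_p`, `e_s ↦ η_s e_{w_p(s)}`, with `η_s = ±1`, `η_p = η_{-p} = -1`, `η_s η_{w_p(s)} = (-1)^{A_{p,s}}`, `η_s η_{-s} = 1`. -/
theorem result {F : Type*} [Field F] (D : Cfsg.Lie.ChevalleyDatum) (hD : D ∈ [Cfsg.Lie.chevG2, Cfsg.Lie.chevB2, Cfsg.Lie.chevD4, Cfsg.Lie.chevF4, Cfsg.Lie.chevE6, Cfsg.Lie.chevE7, Cfsg.Lie.chevE8]) (i : ℕ) (hi : i < D.rank) :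
    ∃ η : ℕ → ℤ, (∀ s < D.nroots, η s = 1 ∨ η s = -1) ∧ η (D.simple i) = -1 ∧ η (D.neg (D.simple i)) = -1 ∧
      (∀ s < D.nroots, η s * η (D.reflectRoot i s) = (-1) ^ (D.cartan i s).natAbs ∧ η s * η (D.neg s) = 1) ∧
      D.nMat F (D.simple i) 1 = Matrix.of (fun (row col : D.Idx) =>
        Sum.elim
          (fun j' : Fin D.rank => Sum.elim
            (fun j : Fin D.rank => (if j' = j then (1 : F) else 0) - (if (j' : ℕ) = i then ((D.cartan j (D.simple i) : ℤ) : F) else 0))
            (fun _ => (0 : F)) col)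
          (fun s' : Fin D.nroots => Sum.elim
            (fun _ => (0 : F))
            (fun s : Fin D.nroots => if (s' : ℕ) = D.reflectRoot i s then ((η s : ℤ) : F) else 0) col)
          row) := by
  obtain ⟨M⟩ := CfsgLib.Chev.exists_cg hD F
  have hp := M.N.simple_lt i hi
  refine ⟨fun s => CfsgLib.Chev.eta D M.T i s, fun s hs => M.N.eta_pm hi hs, M.N.eta_simple hi, ?_, ?_, ?_⟩
  · change CfsgLib.Chev.eta D M.T i _ = -1
    rw [M.N.eta_neg hi hp]; exact M.N.eta_simple hi
  · intro s hs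
    refine ⟨M.N.eta_refl hi hs, ?_⟩
    change CfsgLib.Chev.eta D M.T i s * CfsgLib.Chev.eta D M.T i (D.neg s) = 1
    rw [M.N.eta_neg hi hs]; exact M.N.eta_sq hi hs
  · rw [M.N.nMat_simple hi]
    ext row col
    rcases col with j | s
    · have h := congrFun (M.N.nR_single_h (R := F) hi j.2) row
      rw [Matrix.mulVec_single_one] at h
      change CfsgLib.Chev.nR D M.T F i row (Sum.inl j) = _ at h
      rw [h]
      rcases row with j' | s'
      · simp [Pi.single_apply, Fin.ext_iff]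
      · simp
    · have h := congrFun (M.N.nR_single (R := F) hi s.2) row
      rw [Matrix.mulVec_single_one] at h
      change CfsgLib.Chev.nR D M.T F i row (Sum.inr s) = _ at h
      rw [h]
      rcases row with j' | s'
      · simp
      · simp [Pi.single_apply, Fin.ext_iff]

end Cfsg.Agent.S1095
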