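import Cfsg.Statements.S1098
import Cfsg.Agent.Lib.GA7

set_option autoImplicit false
open Cfsg

namespace Cfsg.Agent.S1098


/-- Graph automorphisms in characteristic 2 (K perfect): for B₂ (a short, b long) `x_a(t) ↦ x_b(t²)`, `x_b(t) ↦ x_a(t)`, and for F₄ (p₁, p₂ short, p₃, p₄ long) `x_{p₁}(t) ↦ x_{p₄}(t²)`, `x_{p₂}(t) ↦ x_{p₃}(t²)`, `x_{p₃}(t) ↦ x_{p₂}(t)`, `x_{p₄}(t) ↦ x_{p₁}(t)`, likewise on the negatives, extend to an automorphism of the group. -/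
theorem result {K : Type*} [Field K] [CharP K 2] (hperf : ∀ x : K, ∃ y : K, y ^ 2 = x)
    (p : Cfsg.Lie.ChevalleyDatum × List (ℕ × ℕ))
    (hp : p ∈ [(Cfsg.Lie.chevB2, [(1, 2), (0, 1)]), (Cfsg.Lie.chevF4, [(3, 2), (2, 2), (1, 1), (0, 1)])]) :
    ∃ α : ↥(p.1.group K) ≃* ↥(p.1.group K), ∀ (g : ↥(p.1.group K)) (i : ℕ) (t : K), i < p.1.rank →
      (((g : GL p.1.Idx K) : Matrix p.1.Idx p.1.Idx K) = p.1.x K (p.1.simple i) t →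
        ((α g : GL p.1.Idx K) : Matrix p.1.Idx p.1.Idx K) = p.1.x K (p.1.simple (p.2.getD i (0, 1)).1) (t ^ (p.2.getD i (0, 1)).2)) ∧
      (((g : GL p.1.Idx K) : Matrix p.1.Idx p.1.Idx K) = p.1.x K (p.1.neg (p.1.simple i)) t →
        ((α g : GL p.1.Idx K) : Matrix p.1.Idx p.1.Idx K) = p.1.x K (p.1.neg (p.1.simple (p.2.getD i (0, 1)).1)) (t ^ (p.2.getD i (0, 1)).2)) := by
  have h2 : ((2 : ℕ) : K) = 0 := CharP.cast_eq_zero K 2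
  simp only [List.mem_cons, List.not_mem_nil, or_false] at hp
  rcases hp with rfl | rfl
  · obtain ⟨A⟩ := CfsgLib.Chev.GA.geB2 K h2
    refine CfsgLib.Chev.GA.exc_aut (CfsgLib.Chev.GA.cgB2 K) Nat.prime_two hperf A [(1, 2), (0, 1)] ?_ ?_ (by decide +kernel) (by decide +kernel)
    · have h : ∀ i : Fin Cfsg.Lie.chevB2.rank, (Cfsg.Lie.chevB2.simple i, Cfsg.Lie.chevB2.simple (([(1, 2), (0, 1)] : List (ℕ × ℕ)).getD i (0, 1)).1, (([(1, 2), (0, 1)] : List (ℕ × ℕ)).getD i (0, 1)).2, (1 : ℤ)) ∈ CfsgLib.Chev.GA.LB2 ∧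
        (([(1, 2), (0, 1)] : List (ℕ × ℕ)).getD i (0, 1)).2 * (([1, 2] : List ℕ).getD i 1) = 2 ∧ (Cfsg.Lie.chevB2.simple (([(1, 2), (0, 1)] : List (ℕ × ℕ)).getD i (0, 1)).1, Cfsg.Lie.chevB2.simple i, ([1, 2] : List ℕ).getD i 1, (1 : ℤ)) ∈ CfsgLib.Chev.GA.LB2 := by decide +kernel
      intro i
      exact ⟨(h i).1, _, (h i).2⟩
    · have h : ∀ i : Fin Cfsg.Lie.chevB2.rank, (Cfsg.Lie.chevB2.neg (Cfsg.Lie.chevB2.simple i), Cfsg.Lie.chevB2.neg (Cfsg.Lie.chevB2.simple (([(1, 2), (0, 1)] : List (ℕ × ℕ)).getD i (0, 1)).1), (([(1, 2), (0, 1)] : List (ℕ × ℕ)).getD i (0, 1)).2, (1 : ℤ)) ∈ CfsgLib.Chev.GA.LB2 ∧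
        (([(1, 2), (0, 1)] : List (ℕ × ℕ)).getD i (0, 1)).2 * (([1, 2] : List ℕ).getD i 1) = 2 ∧ (Cfsg.Lie.chevB2.neg (Cfsg.Lie.chevB2.simple (([(1, 2), (0, 1)] : List (ℕ × ℕ)).getD i (0, 1)).1), Cfsg.Lie.chevB2.neg (Cfsg.Lie.chevB2.simple i), ([1, 2] : List ℕ).getD i 1, (1 : ℤ)) ∈ CfsgLib.Chev.GA.LB2 := by decide +kernel
      intro i
      exact ⟨(h i).1, _, (h i).2⟩
  · obtain ⟨A⟩ := CfsgLib.Chev.GA.geF4 K h2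
    refine CfsgLib.Chev.GA.exc_aut (CfsgLib.Chev.GA.cgF4 K) Nat.prime_two hperf A [(3, 2), (2, 2), (1, 1), (0, 1)] ?_ ?_ (by decide +kernel) (by decide +kernel)
    · have h : ∀ i : Fin Cfsg.Lie.chevF4.rank, (Cfsg.Lie.chevF4.simple i, Cfsg.Lie.chevF4.simple (([(3, 2), (2, 2), (1, 1), (0, 1)] : List (ℕ × ℕ)).getD i (0, 1)).1, (([(3, 2), (2, 2), (1, 1), (0, 1)] : List (ℕ × ℕ)).getD i (0, 1)).2, (1 : ℤ)) ∈ CfsgLib.Chev.GA.LF4 ∧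
        (([(3, 2), (2, 2), (1, 1), (0, 1)] : List (ℕ × ℕ)).getD i (0, 1)).2 * (([1, 1, 2, 2] : List ℕ).getD i 1) = 2 ∧ (Cfsg.Lie.chevF4.simple (([(3, 2), (2, 2), (1, 1), (0, 1)] : List (ℕ × ℕ)).getD i (0, 1)).1, Cfsg.Lie.chevF4.simple i, ([1, 1, 2, 2] : List ℕ).getD i 1, (1 : ℤ)) ∈ CfsgLib.Chev.GA.LF4 := by decide +kernel
      intro i
      exact ⟨(h i).1, _, (h i).2⟩
    · have h : ∀ i : Fin Cfsg.Lie.chevF4.rank, (Cfsg.Lie.chevF4.neg (Cfsg.Lie.chevF4.simple i), Cfsg.Lie.chevF4.neg (Cfsg.Lie.chevF4.simple (([(3, 2), (2, 2), (1, 1), (0, 1)] : List (ℕ × ℕ)).getD i (0, 1)).1), (([(3, 2), (2, 2), (1, 1), (0, 1)] : List (ℕ × ℕ)).getD i (0, 1)).2, (1 : ℤ)) ∈ CfsgLib.Chev.GA.LF4 ∧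
        (([(3, 2), (2, 2), (1, 1), (0, 1)] : List (ℕ × ℕ)).getD i (0, 1)).2 * (([1, 1, 2, 2] : List ℕ).getD i 1) = 2 ∧ (Cfsg.Lie.chevF4.neg (Cfsg.Lie.chevF4.simple (([(3, 2), (2, 2), (1, 1), (0, 1)] : List (ℕ × ℕ)).getD i (0, 1)).1), Cfsg.Lie.chevF4.neg (Cfsg.Lie.chevF4.simple i), ([1, 1, 2, 2] : List ℕ).getD i 1, (1 : ℤ)) ∈ CfsgLib.Chev.GA.LF4 := by decide +kernel
      intro i
      exact ⟨(h i).1, _, (h i).2⟩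

end Cfsg.Agent.S1098
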