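import Cfsg.Statements.S1099
import Cfsg.Agent.Lib.GA7

set_option autoImplicit false
open Cfsg

namespace Cfsg.Agent.S1099


/-- Graph automorphism of G₂ in characteristic 3 (K perfect): `x_a(t) ↦ x_b(t³)`, `x_b(t) ↦ x_a(t)`, `x_{-a}(t) ↦ x_{-b}(t³)`, `x_{-b}(t) ↦ x_{-a}(t)` extend to an automorphism of the group. -/
theorem result {K : Type*} [Field K] [CharP K 3] (hperf : ∀ x : K, ∃ y : K, y ^ 3 = x) :
    ∃ α : ↥(Cfsg.Lie.chevG2.group K) ≃* ↥(Cfsg.Lie.chevG2.group K), ∀ (g : ↥(Cfsg.Lie.chevG2.group K)) (t : K),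
      (((g : GL Cfsg.Lie.chevG2.Idx K) : Matrix _ _ K) = Cfsg.Lie.chevG2.x K Cfsg.Lie.g2a t →
        ((α g : GL Cfsg.Lie.chevG2.Idx K) : Matrix _ _ K) = Cfsg.Lie.chevG2.x K Cfsg.Lie.g2b (t ^ 3)) ∧
      (((g : GL Cfsg.Lie.chevG2.Idx K) : Matrix _ _ K) = Cfsg.Lie.chevG2.x K Cfsg.Lie.g2b t →
        ((α g : GL Cfsg.Lie.chevG2.Idx K) : Matrix _ _ K) = Cfsg.Lie.chevG2.x K Cfsg.Lie.g2a t) ∧
      (((g : GL Cfsg.Lie.chevG2.Idx K) : Matrix _ _ K) = Cfsg.Lie.chevG2.x K Cfsg.Lie.g2ma t →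
        ((α g : GL Cfsg.Lie.chevG2.Idx K) : Matrix _ _ K) = Cfsg.Lie.chevG2.x K Cfsg.Lie.g2mb (t ^ 3)) ∧
      (((g : GL Cfsg.Lie.chevG2.Idx K) : Matrix _ _ K) = Cfsg.Lie.chevG2.x K Cfsg.Lie.g2mb t →
        ((α g : GL Cfsg.Lie.chevG2.Idx K) : Matrix _ _ K) = Cfsg.Lie.chevG2.x K Cfsg.Lie.g2ma t) := by
  have h3 : ((3 : ℕ) : K) = 0 := CharP.cast_eq_zero K 3
  obtain ⟨A⟩ := CfsgLib.Chev.GA.geG2 K h3
  obtain ⟨α, hα⟩ := CfsgLib.Chev.GA.exc_aut (CfsgLib.Chev.GA.cgG2 K) Nat.prime_three hperf A [(1, 3), (0, 1)] (by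
    have h : ∀ i : Fin Cfsg.Lie.chevG2.rank, (Cfsg.Lie.chevG2.simple i, Cfsg.Lie.chevG2.simple (([(1, 3), (0, 1)] : List (ℕ × ℕ)).getD i (0, 1)).1, (([(1, 3), (0, 1)] : List (ℕ × ℕ)).getD i (0, 1)).2, (1 : ℤ)) ∈ CfsgLib.Chev.GA.LG2 ∧
        (([(1, 3), (0, 1)] : List (ℕ × ℕ)).getD i (0, 1)).2 * (([1, 3] : List ℕ).getD i 1) = 3 ∧ (Cfsg.Lie.chevG2.simple (([(1, 3), (0, 1)] : List (ℕ × ℕ)).getD i (0, 1)).1, Cfsg.Lie.chevG2.simple i, ([1, 3] : List ℕ).getD i 1, (1 : ℤ)) ∈ CfsgLib.Chev.GA.LG2 := by decide +kernel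
    intro i
    exact ⟨(h i).1, _, (h i).2⟩) (by
    have h : ∀ i : Fin Cfsg.Lie.chevG2.rank, (Cfsg.Lie.chevG2.neg (Cfsg.Lie.chevG2.simple i), Cfsg.Lie.chevG2.neg (Cfsg.Lie.chevG2.simple (([(1, 3), (0, 1)] : List (ℕ × ℕ)).getD i (0, 1)).1), (([(1, 3), (0, 1)] : List (ℕ × ℕ)).getD i (0, 1)).2, (1 : ℤ)) ∈ CfsgLib.Chev.GA.LG2 ∧
        (([(1, 3), (0, 1)] : List (ℕ × ℕ)).getD i (0, 1)).2 * (([1, 3] : List ℕ).getD i 1) = 3 ∧ (Cfsg.Lie.chevG2.neg (Cfsg.Lie.chevG2.simple (([(1, 3), (0, 1)] : List (ℕ × ℕ)).getD i (0, 1)).1), Cfsg.Lie.chevG2.neg (Cfsg.Lie.chevG2.simple i), ([1, 3] : List ℕ).getD i 1, (1 : ℤ)) ∈ CfsgLib.Chev.GA.LG2 := by decide +kernel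
    intro i
    exact ⟨(h i).1, _, (h i).2⟩) (by decide +kernel) (by decide +kernel)
  have e1 : Cfsg.Lie.chevG2.simple 0 = Cfsg.Lie.g2a ∧ Cfsg.Lie.chevG2.simple 1 = Cfsg.Lie.g2b ∧
    Cfsg.Lie.chevG2.neg (Cfsg.Lie.chevG2.simple 0) = Cfsg.Lie.g2ma ∧ Cfsg.Lie.chevG2.neg (Cfsg.Lie.chevG2.simple 1) = Cfsg.Lie.g2mb := by decide +kernel
  obtain ⟨e1, e2, e3, e4⟩ := e1
  have r2 : 0 < Cfsg.Lie.chevG2.rank ∧ 1 < Cfsg.Lie.chevG2.rank := by decide +kernel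
  refine ⟨α, fun g t => ⟨?_, ?_, ?_, ?_⟩⟩
  · have := (hα g 0 t r2.1).1
    rw [e1] at this
    change _ → _ = Cfsg.Lie.chevG2.x K (Cfsg.Lie.chevG2.simple 1) (t ^ 3) at this
    rwa [e2] at this
  · have := (hα g 1 t r2.2).1
    rw [e2] at this
    change _ → _ = Cfsg.Lie.chevG2.x K (Cfsg.Lie.chevG2.simple 0) (t ^ 1) at this
    rwa [e1, pow_one] at this
  · have := (hα g 0 t r2.1).2
    rw [e3] at this
    change _ → _ = Cfsg.Lie.chevG2.x K (Cfsg.Lie.chevG2.neg (Cfsg.Lie.chevG2.simple 1)) (t ^ 3) at this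
    rwa [e4] at this
  · have := (hα g 1 t r2.2).2
    rw [e4] at this
    change _ → _ = Cfsg.Lie.chevG2.x K (Cfsg.Lie.chevG2.neg (Cfsg.Lie.chevG2.simple 0)) (t ^ 1) at this
    rwa [e3, pow_one] at this

end Cfsg.Agent.S1099
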