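import Cfsg.Statements.S1101
import Cfsg.Agent.Lib.TWG3

set_option autoImplicit false
open Cfsg

namespace Cfsg.Agent.S1101


/-- For ²G₂ over `K` with `|K| = 3^(2m+1)`, `θ = 3^m`: `U¹ = G¹ ∩ U` consists exactly of the elements `x_a(t^θ) x_b(t) x_{a+b}(t^{θ+1}+u^θ) x_{2a+b}(t^{2θ+1}+v^θ) x_{3a+b}(u) x_{3a+2b}(v)`, `t, u, v ∈ K`, and it has `|K|³` elements. -/
theorem result {K : Type*} [Field K] [Fintype K] {m : ℕ} (hK : Fintype.card K = 3 ^ (2 * m + 1)) :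
    (∀ g : GL Cfsg.Lie.chevG2.Idx K, g ∈ Cfsg.Lie.chevG2.posUnipotent K ⊓ Cfsg.Lie.twistedG2 K (3 ^ m) ↔
      ∃ t u v : K, (g : Matrix Cfsg.Lie.chevG2.Idx Cfsg.Lie.chevG2.Idx K) = Cfsg.Lie.chevG2.wordMat K (Cfsg.Lie.reeWordU (3 ^ m) t u v)) ∧
    Nat.card ↥(Cfsg.Lie.chevG2.posUnipotent K ⊓ Cfsg.Lie.twistedG2 K (3 ^ m)) = (3 ^ (2 * m + 1)) ^ 3 := by
  haveI := CfsgLib.Chev.TwG2.charP3 hK
  obtain ⟨θ, τ, hτ, hi, hi', hθ⟩ := CfsgLib.Chev.TwG2.setup hK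
  rw [CfsgLib.Chev.TwG2.eq_Gs θ τ hτ hi hi' hθ hK, ← hK]
  refine ⟨fun g => ?_, CfsgLib.Chev.TwG2.card_U θ τ hτ hi hi'⟩
  rw [CfsgLib.Chev.TwG2.mem_U θ τ hτ hi hi']
  have key : ∀ t u v : K, g = CfsgLib.Chev.TwG2.ree θ t u v ↔
      (g : Matrix Cfsg.Lie.chevG2.Idx Cfsg.Lie.chevG2.Idx K) = Cfsg.Lie.chevG2.wordMat K (Cfsg.Lie.reeWordU (3 ^ m) t u v) := by
    intro t u v
    rw [← CfsgLib.Chev.TwG2.wg_U θ hθ, ← (CfsgLib.Chev.GA.cgG2 K).coe_wg]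
    exact ⟨fun h => congrArg Units.val h, fun h => Units.ext h⟩
  constructor
  · rintro ⟨t, u, v, h⟩
    exact ⟨t, u, v, (key t u v).mp h⟩
  · rintro ⟨t, u, v, h⟩
    exact ⟨t, u, v, (key t u v).mpr h⟩

end Cfsg.Agent.S1101
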