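import Cfsg.Statements.S1104
import Cfsg.Agent.Lib.TWE8

set_option autoImplicit false
open Cfsg

namespace Cfsg.Agent.S1104


/-- ²E₆(q) equals its derived subgroup. -/
theorem result {K : Type*} [Field K] [Fintype K] {q : ℕ} (hq : IsPrimePow q) (hK : Fintype.card K = q ^ 2) : commutator ↥(Cfsg.Lie.twistedE6 K q) = ⊤ := by
  obtain ⟨φ, hφ, h2⟩ := CfsgLib.Chev.TwE6.setup hq hK
  have h4 : 4 ≤ Fintype.card K := by
    rw [hK]
    have := hq.two_le
    nlinarith
  exact CfsgLib.Chev.TwE6.perfect φ hφ h2 h4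

end Cfsg.Agent.S1104
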