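import Cfsg.Statements.S1106
import Cfsg.Agent.Lib.TWD3

set_option autoImplicit false
open Cfsg

namespace Cfsg.Agent.S1106


/-- `|H¹| = |G¹ ∩ H|`: `|H¹| = (q - 1) ^ 2 * (q ^ 2 + q + 1)` for ³D₄(q). -/
theorem result {K : Type*} [Field K] [Fintype K] {q : ℕ} (hq : IsPrimePow q) (hK : Fintype.card K = q ^ 3) :
    Nat.card ↥(Cfsg.Lie.chevD4.diagonalSubgroup K ⊓ Cfsg.Lie.twistedD4 K q) = (q - 1) ^ 2 * (q ^ 2 + q + 1) := by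
  obtain ⟨φ, hφ⟩ := CfsgLib.Chev.exists_powHom hq three_ne_zero hK
  have h3 := CfsgLib.Chev.TwD4.setup φ hφ hK
  rw [CfsgLib.Chev.TwD4.eq_Gs φ hφ h3]
  rw [CfsgLib.Chev.TwD4.card_H φ hφ h3 hq.two_le hK]
  obtain ⟨m, rfl⟩ : ∃ m, q = m + 1 := ⟨q - 1, by have := hq.two_le; omega⟩
  have a1 : (m + 1) ^ 3 - 1 = m * ((m + 1) ^ 2 + (m + 1) + 1) := by
    rw [Nat.sub_eq_iff_eq_add (Nat.one_le_pow _ _ (by omega))]; ring
  rw [a1]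
  simp only [Nat.add_sub_cancel]
  ring

end Cfsg.Agent.S1106
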