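import Cfsg.Statements.S1108
import Cfsg.Agent.Lib.TWD3

set_option autoImplicit false
open Cfsg

namespace Cfsg.Agent.S1108


/-- ³D₄(q) equals its derived subgroup. -/
theorem result {K : Type*} [Field K] [Fintype K] {q : ℕ} (hq : IsPrimePow q) (hK : Fintype.card K = q ^ 3) : commutator ↥(Cfsg.Lie.twistedD4 K q) = ⊤ := by
  obtain ⟨φ, hφ⟩ := CfsgLib.Chev.exists_powHom hq three_ne_zero hK
  have h3 := CfsgLib.Chev.TwD4.setup φ hφ hK
  have h4 : 4 ≤ Fintype.card K := by
    rw [hK]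
    have := Nat.pow_le_pow_left hq.two_le 3
    omega
  exact CfsgLib.Chev.TwD4.perfect φ hφ h3 h4

end Cfsg.Agent.S1108
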