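import Cfsg.Statements.S1116
import Cfsg.Agent.Lib.TWG4

set_option autoImplicit false
open Cfsg

namespace Cfsg.Agent.S1116


/-- ²G₂(3^(2m+1)) (m ≥ 1) equals its derived subgroup. -/
theorem result {K : Type*} [Field K] [Fintype K] {m : ℕ} (hK : Fintype.card K = 3 ^ (2 * m + 1)) (hm : 1 ≤ m) : commutator ↥(Cfsg.Lie.twistedG2 K (3 ^ m)) = ⊤ := by
  haveI := CfsgLib.Chev.TwG2.charP3 hK
  obtain ⟨θ, τ, hτ, hi, hi', hθ⟩ := CfsgLib.Chev.TwG2.setup hK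
  have h2 : 4 ≤ Fintype.card K := by
    rw [hK]
    calc 4 ≤ 3 ^ 3 := by norm_num
      _ ≤ 3 ^ (2 * m + 1) := Nat.pow_le_pow_right (by norm_num) (by omega)
  exact CfsgLib.Chev.TwG2.perfect θ τ hτ hi hi' hθ hK h2

end Cfsg.Agent.S1116
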