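import Cfsg.Statements.S1118

set_option autoImplicit false
open Cfsg

namespace Cfsg.Agent.S1118

theorem semireg {G Ω : Type*} [Group G] [Finite G] [MulAction G Ω] {a : Ω} {t : G} {Q : Subgroup G}
    (hS : Cfsg.IsRankOneSetup G Ω a t Q) (x : G) (hx : x ∈ Q) (hx1 : x ≠ 1) (b : Ω) (hb : x • b = b) : b = a := by
  by_contra hne
  have hta : a ≠ t • a := fun h => hS.not_mem (MulAction.mem_stabilizer_iff.mpr h.symm)
  haveI := hS.two_transitive
  obtain ⟨g, hg1, hg2⟩ := MulAction.is_two_pretransitive_iff.mp hS.two_transitive hta (Ne.symm hne)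
  have h1 : g⁻¹ * x * g⁻¹⁻¹ ∈ Q := hS.conj_mem g⁻¹ (inv_mem (MulAction.mem_stabilizer_iff.mpr hg1)) x hx
  rw [inv_inv] at h1
  have h2 : g⁻¹ * x * g ∈ MulAction.stabilizer G (t • a) := by
    rw [MulAction.mem_stabilizer_iff, mul_smul, mul_smul, hg2, hb, inv_smul_eq_iff, hg2]
  have h3 : g⁻¹ * x * g ∈ (⊥ : Subgroup G) := by
    rw [← hS.inf_eq_bot]
    exact ⟨h1, h2⟩
  rw [Subgroup.mem_bot] at h3
  apply hx1
  have h4 : x = g * (g⁻¹ * x * g) * g⁻¹ := by group
  rw [h4, h3]; group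

/-- In the rank-one set-up (`G` finite and doubly transitive on `Ω`, `t` an involution moving `a`, `Q` normal in `G_a` with `G_a = Q D`, `Q ⊓ D = 1` for the two-point stabiliser `D = G_a ⊓ G_{t • a}`, `|Q|` even, `|D|` odd), the normaliser of a subset of `Q` containing a non-identity element lies in `G_a`; consequently `N_G(Q) = N_G(G_a) = G_a`. -/
theorem result {G Ω : Type*} [Group G] [Finite G] [MulAction G Ω] {a : Ω} {t : G} {Q : Subgroup G}
    (hS : Cfsg.IsRankOneSetup G Ω a t Q) :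
    (∀ X : Set G, X ⊆ (Q : Set G) → (∃ x ∈ X, x ≠ 1) → Subgroup.normalizer X ≤ MulAction.stabilizer G a) ∧
      Subgroup.normalizer (Q : Set G) = MulAction.stabilizer G a ∧
      Subgroup.normalizer (MulAction.stabilizer G a : Set G) = MulAction.stabilizer G a := by
  have hA : ∀ X : Set G, X ⊆ (Q : Set G) → (∃ x ∈ X, x ≠ 1) → Subgroup.normalizer X ≤ MulAction.stabilizer G a := by
    rintro X hX ⟨x, hxX, hx1⟩ g hg
    rw [MulAction.mem_stabilizer_iff]
    have h1 : g * x * g⁻¹ ∈ X := (Subgroup.mem_set_normalizer_iff.mp hg x).mp hxX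
    have h2 : g * x * g⁻¹ ≠ 1 := by
      intro h
      apply hx1
      have h4 : x = g⁻¹ * (g * x * g⁻¹) * g := by group
      rw [h4, h]; group
    apply semireg hS _ (hX h1) h2
    have h3 : x • a = a := hS.le (hX hxX)
    rw [mul_smul, mul_smul, inv_smul_smul, h3]
  obtain ⟨z, hzQ, hz1⟩ : ∃ z ∈ Q, z ≠ 1 := by
    by_contra hc
    push Not at hc
    have hbot : Q = ⊥ := (Subgroup.eq_bot_iff_forall Q).mpr hc
    have := hS.even_card
    rw [hbot] at this
    simp at this
  have hle1 : MulAction.stabilizer G a ≤ Subgroup.normalizer (Q : Set G) := by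
    intro g hg
    rw [Subgroup.mem_normalizer_iff]
    intro x
    constructor
    · intro hx
      exact hS.conj_mem g hg x hx
    · intro hx
      have := hS.conj_mem g⁻¹ (inv_mem hg) _ hx
      have h4 : x = g⁻¹ * (g * x * g⁻¹) * g⁻¹⁻¹ := by group
      rw [h4]; exact this
  refine ⟨hA, le_antisymm (hA Q (Set.Subset.refl _) ⟨z, hzQ, hz1⟩) hle1, le_antisymm ?_ Subgroup.le_normalizer⟩
  intro g hg
  rw [MulAction.mem_stabilizer_iff]
  apply semireg hS z hzQ hz1
  have h1 : g⁻¹ * z * g⁻¹⁻¹ ∈ MulAction.stabilizer G a :=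
    (Subgroup.mem_normalizer_iff.mp (inv_mem hg) z).mp (hS.le hzQ)
  rw [inv_inv, MulAction.mem_stabilizer_iff, mul_smul, mul_smul, inv_smul_eq_iff] at h1
  exact h1

end Cfsg.Agent.S1118
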