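import Cfsg.Statements.S1119
import Cfsg.Agent.S1118

set_option autoImplicit false
open Cfsg

namespace Cfsg.Agent.S1119

open Cfsg.Agent.S1118

theorem prod_ex {G Ω : Type*} [Group G] [Finite G] [MulAction G Ω] {a : Ω} {t : G} {Q : Subgroup G}
    (hS : Cfsg.IsRankOneSetup G Ω a t Q) (g : G) (hg : g ∈ MulAction.stabilizer G a) :
    ∃ x ∈ Q, ∃ d ∈ (MulAction.stabilizer G a ⊓ MulAction.stabilizer G (t • a)), g = x * d := by
  let K : Subgroup G :=
    { carrier := {g | ∃ x ∈ Q, ∃ d ∈ (MulAction.stabilizer G a ⊓ MulAction.stabilizer G (t • a)), g = x * d}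
      one_mem' := ⟨1, one_mem _, 1, one_mem _, (mul_one 1).symm⟩
      mul_mem' := by
        rintro _ _ ⟨x, hx, d, hd, rfl⟩ ⟨y, hy, e, he, rfl⟩
        exact ⟨x * (d * y * d⁻¹), mul_mem hx (hS.conj_mem d hd.1 y hy), d * e, mul_mem hd he, by group⟩
      inv_mem' := by
        rintro _ ⟨x, hx, d, hd, rfl⟩
        exact ⟨d⁻¹ * x⁻¹ * d⁻¹⁻¹, hS.conj_mem d⁻¹ (inv_mem hd.1) _ (inv_mem hx), d⁻¹, inv_mem hd, by group⟩ }
  have h : Q ⊔ (MulAction.stabilizer G a ⊓ MulAction.stabilizer G (t • a)) ≤ K := by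
    apply sup_le
    · intro x hx; exact ⟨x, hx, 1, one_mem _, (mul_one x).symm⟩
    · intro d hd; exact ⟨1, one_mem _, d, hd, (one_mul d).symm⟩
  rw [hS.sup_eq] at h
  exact h hg

theorem reg {G Ω : Type*} [Group G] [Finite G] [MulAction G Ω] {a : Ω} {t : G} {Q : Subgroup G}
    (hS : Cfsg.IsRankOneSetup G Ω a t Q) (b c : Ω) (hb : b ≠ a) (hc : c ≠ a) : ∃! x : Q, (x : G) • b = c := by
  have hta : a ≠ t • a := fun h => hS.not_mem (MulAction.mem_stabilizer_iff.mpr h.symm)
  have h0 : ∀ c, c ≠ a → ∃ x ∈ Q, x • (t • a) = c := by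
    intro c hc
    obtain ⟨g, hg1, hg2⟩ := MulAction.is_two_pretransitive_iff.mp hS.two_transitive hta (Ne.symm hc)
    obtain ⟨x, hx, d, hd, rfl⟩ := prod_ex hS g (MulAction.mem_stabilizer_iff.mpr hg1)
    refine ⟨x, hx, ?_⟩
    rw [mul_smul, show d • (t • a) = t • a from hd.2] at hg2
    exact hg2
  obtain ⟨x, hx, hxb⟩ := h0 b hb
  obtain ⟨y, hy, hyc⟩ := h0 c hc
  refine ⟨⟨y * x⁻¹, mul_mem hy (inv_mem hx)⟩, ?_, ?_⟩
  · change (y * x⁻¹) • b = c
    rw [mul_smul, ← hxb, inv_smul_smul, hyc]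
  · rintro ⟨z, hz⟩ hzb
    change z • b = c at hzb
    apply Subtype.ext
    change z = y * x⁻¹
    by_contra hne
    apply hb
    apply semireg hS ((y * x⁻¹)⁻¹ * z) (mul_mem (inv_mem (mul_mem hy (inv_mem hx))) hz) (fun h => hne (by
      rw [inv_mul_eq_one] at h; exact h.symm))
    rw [mul_smul, hzb, inv_smul_eq_iff, mul_smul, ← hxb, inv_smul_smul, hyc]

/-- In the rank-one set-up (`G` finite and doubly transitive on `Ω`, `t` an involution moving `a`, `Q` normal in `G_a` with `G_a = Q D`, `Q ⊓ D = 1` for the two-point stabiliser `D = G_a ⊓ G_{t • a}`, `|Q|` even, `|D|` odd): `Q` acts regularly on `Ω` minus `a`; hence `|Ω| = |Q| + 1`, `|G| = |Q| |D| (|Q| + 1)`, some Sylow 2-subgroup of `G` lies in `Q`, and each `g ∉ G_a` is uniquely `x t y` with `x ∈ G_a`, `y ∈ Q` (canonical form). -/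
theorem result {G Ω : Type*} [Group G] [Finite G] [MulAction G Ω] {a : Ω} {t : G} {Q : Subgroup G}
    (hS : Cfsg.IsRankOneSetup G Ω a t Q) :
    (∀ b c : Ω, b ≠ a → c ≠ a → ∃! x : Q, (x : G) • b = c) ∧
      Nat.card Ω = Nat.card Q + 1 ∧
      Nat.card G = Nat.card Q * Nat.card ↥(MulAction.stabilizer G a ⊓ MulAction.stabilizer G (t • a)) * (Nat.card Q + 1) ∧
      (∃ P : Sylow 2 G, (P : Subgroup G) ≤ Q) ∧
      ∀ g : G, g ∉ MulAction.stabilizer G a → ∃! p : G × G, p.1 ∈ MulAction.stabilizer G a ∧ p.2 ∈ Q ∧ g = p.1 * t * p.2 := by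
  have hta : t • a ≠ a := fun h => hS.not_mem (MulAction.mem_stabilizer_iff.mpr h)
  have hreg := reg hS
  have hΩ : Nat.card Ω = Nat.card Q + 1 := by
    let f : Option Q → Ω := fun o => o.elim a (fun x => (x : G) • (t • a))
    have hne : ∀ x : Q, (x : G) • (t • a) ≠ a := by
      intro x h
      have h1 : (x : G) • a = a := hS.le x.2
      have h2 : (x : G) • (t • a) = (x : G) • a := h.trans h1.symm
      exact hta (smul_left_cancel _ h2)
    have hf : Function.Bijective f := by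
      constructor
      · rintro (_ | x) (_ | y) h
        · rfl
        · exact absurd h.symm (hne y)
        · exact absurd h (hne x)
        · obtain ⟨w, _, hw⟩ := hreg (t • a) ((x : G) • (t • a)) hta (hne x)
          rw [hw x rfl, hw y h.symm]
      · intro c
        by_cases hc : c = a
        · exact ⟨none, hc.symm⟩
        · obtain ⟨x, hx, _⟩ := hreg (t • a) c hta hc
          exact ⟨some x, hx⟩
    rw [← Nat.card_congr (Equiv.ofBijective f hf), Finite.card_option]
  have hGa : Nat.card (MulAction.stabilizer G a) = Nat.card Q * Nat.card ↥(MulAction.stabilizer G a ⊓ MulAction.stabilizer G (t • a)) := by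
    let f : Q × ↥(MulAction.stabilizer G a ⊓ MulAction.stabilizer G (t • a)) → MulAction.stabilizer G a :=
      fun p => ⟨(p.1 : G) * (p.2 : G), mul_mem (hS.le p.1.2) p.2.2.1⟩
    have hf : Function.Bijective f := by
      constructor
      · rintro ⟨⟨x, hx⟩, ⟨d, hd⟩⟩ ⟨⟨y, hy⟩, ⟨e, he⟩⟩ h
        have h1 : x * d = y * e := congrArg Subtype.val h
        have h2 : y⁻¹ * x = e * d⁻¹ := by
          rw [inv_mul_eq_iff_eq_mul, ← mul_assoc, ← h1, mul_inv_cancel_right]
        have h3 : y⁻¹ * x ∈ Q ⊓ MulAction.stabilizer G (t • a) :=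
          Subgroup.mem_inf.mpr ⟨Q.mul_mem (Q.inv_mem hy) hx, by
            rw [h2]
            exact (MulAction.stabilizer G (t • a)).mul_mem he.2 ((MulAction.stabilizer G (t • a)).inv_mem hd.2)⟩
        rw [hS.inf_eq_bot, Subgroup.mem_bot, inv_mul_eq_one] at h3
        subst h3
        have h4 := mul_left_cancel h1
        subst h4
        rfl
      · rintro ⟨g, hg⟩
        obtain ⟨x, hx, d, hd, rfl⟩ := prod_ex hS g hg
        exact ⟨(⟨x, hx⟩, ⟨d, hd⟩), rfl⟩
    rw [← Nat.card_congr (Equiv.ofBijective f hf), Nat.card_prod]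
  have hG : Nat.card G = Nat.card Q * Nat.card ↥(MulAction.stabilizer G a ⊓ MulAction.stabilizer G (t • a)) * (Nat.card Q + 1) := by
    haveI := hS.two_transitive
    haveI : MulAction.IsPretransitive G Ω := MulAction.isPretransitive_of_is_two_pretransitive
    rw [← hΩ, ← hGa, ← MulAction.index_stabilizer_of_transitive G a, Subgroup.card_mul_index]
  refine ⟨hreg, hΩ, hG, ?_, ?_⟩
  · obtain ⟨P0⟩ : Nonempty (Sylow 2 Q) := inferInstance
    have hodd : Odd (Nat.card ↥(MulAction.stabilizer G a ⊓ MulAction.stabilizer G (t • a)) * (Nat.card Q + 1)) :=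
      hS.odd_card.mul hS.even_card.add_one
    have hcard : Nat.card ↥((P0 : Subgroup Q).map Q.subtype) = 2 ^ (Nat.card G).factorization 2 := by
      rw [← Nat.card_congr (Subgroup.equivMapOfInjective (P0 : Subgroup Q) Q.subtype Q.subtype_injective).toEquiv, P0.card_eq_multiplicity, hG, mul_assoc,
        Nat.factorization_mul Nat.card_pos.ne' (by rintro h; rw [h] at hodd; exact absurd hodd (by decide))]
      rw [Finsupp.add_apply, Nat.factorization_eq_zero_of_not_dvd (n := _ * (_ + 1)) (by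
        rw [← even_iff_two_dvd, Nat.not_even_iff_odd]; exact hodd), add_zero]
    refine ⟨Sylow.ofCard _ hcard, ?_⟩
    rintro _ ⟨x, _, rfl⟩
    exact x.2
  · intro g hg
    have htt : t⁻¹ = t := inv_eq_of_mul_eq_one_left hS.mul_self
    have hga : g⁻¹ • a ≠ a := by
      intro h
      apply hg
      rw [MulAction.mem_stabilizer_iff]
      exact (inv_smul_eq_iff.mp h).symm
    obtain ⟨y, hy, hyu⟩ := hreg (t • a) (g⁻¹ • a) hta hga
    change (y : G) • (t • a) = g⁻¹ • a at hy
    refine ⟨(g * y * t, (y : G)⁻¹), ⟨?_, inv_mem y.2, ?_⟩, ?_⟩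
    · change g * y * t ∈ _
      rw [MulAction.mem_stabilizer_iff, mul_smul, mul_smul, hy, smul_inv_smul]
    · change g = g * y * t * t * (y : G)⁻¹
      rw [mul_assoc (g * y) t t, hS.mul_self]; group
    · rintro ⟨u, v⟩ ⟨hu, hv, rfl⟩
      change u ∈ _ at hu
      change v ∈ Q at hv
      have h5 : (⟨v⁻¹, inv_mem hv⟩ : Q) = y := hyu _ (by
        change v⁻¹ • (t • a) = (u * t * v)⁻¹ • a
        rw [mul_inv_rev, mul_inv_rev, htt, mul_smul, mul_smul, inv_smul_eq_iff.mpr (show a = u • a from (MulAction.mem_stabilizer_iff.mp hu).symm)])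
      have h6 : (y : G) = v⁻¹ := (congrArg Subtype.val h5).symm
      have h7 : (u * t * v) * v⁻¹ * t = u := by
        rw [mul_inv_cancel_right, mul_assoc, hS.mul_self, mul_one]
      apply Prod.ext
      · change u = (u * t * v) * y * t
        rw [h6, h7]
      · change v = (y : G)⁻¹
        rw [h6, inv_inv]

end Cfsg.Agent.S1119
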