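import Cfsg.Statements.S1124
import Mathlib
import Mathlib

set_option autoImplicit false
open scoped Pointwise
open Cfsg

open scoped Pointwise
namespace Cfsg.Agent.S1124

section
theorem sq_root {M : Type*} [Group M] [Finite M] (X : Subgroup M) (hodd : Odd (Nat.card X)) (u : M) (hu : u ∈ X) :
    ∃ k : ℕ, (u ^ k) * (u ^ k) = u := by
  have h1 : orderOf u ∣ Nat.card X := by
    have := orderOf_dvd_natCard (⟨u, hu⟩ : X)
    rwa [Subgroup.orderOf_mk] at this
  obtain ⟨m, hm⟩ := hodd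
  refine ⟨m + 1, ?_⟩
  have h2 : u ^ Nat.card X = 1 := orderOf_dvd_iff_pow_eq_one.1 h1
  rw [← pow_add, show m + 1 + (m + 1) = (2 * m + 1) + 1 by ring, pow_succ, ← hm, h2, one_mul]

theorem sq_inj {M : Type*} [Group M] [Finite M] (X : Subgroup M) (hodd : Odd (Nat.card X)) (u v : M) (hu : u ∈ X) (hv : v ∈ X)
    (h : u * u = v * v) : u = v := by
  obtain ⟨m, hm⟩ := hodd
  have key : ∀ w ∈ X, (w * w) ^ (m + 1) = w := by
    intro w hw
    have h1 : orderOf w ∣ Nat.card X := by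
      have := orderOf_dvd_natCard (⟨w, hw⟩ : X)
      rwa [Subgroup.orderOf_mk] at this
    have h2 : w ^ Nat.card X = 1 := orderOf_dvd_iff_pow_eq_one.1 h1
    rw [← pow_two, ← pow_mul, show 2 * (m + 1) = (2 * m + 1) + 1 by ring, pow_succ, ← hm, h2, one_mul]
  rw [← key u hu, ← key v hv, h]
end


/-- Let `t` be an element of order 2 of a finite group normalising a subgroup `X` of odd order, `Y = C_X(t)` and `Z` the set of elements of `X` inverted by `t`. Then `(y, z) ↦ y z` is a bijection `Y × Z → X`, so `|X| = |Y| |Z|`, and the subgroup generated by `Z` is normal in `X`. -/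
theorem result {M : Type*} [Group M] [Finite M]
    (t : M) (ht : orderOf t = 2) (X : Subgroup M) (hodd : Odd (Nat.card X))
    (hnorm : ∀ x ∈ X, t * x * t⁻¹ ∈ X) :
    (∀ x ∈ X, ∃! p : M × M, p.1 ∈ X ⊓ Subgroup.centralizer {t} ∧ p.2 ∈ Cfsg.invertedBy X t ∧ x = p.1 * p.2) ∧
      Nat.card X = Nat.card ↥(X ⊓ Subgroup.centralizer {t}) * Nat.card (Cfsg.invertedBy X t) ∧
      ∀ x ∈ X, MulAut.conj x • Subgroup.closure (Cfsg.invertedBy X t) = Subgroup.closure (Cfsg.invertedBy X t) := by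
  have ht2 : t * t = 1 := by have := pow_orderOf_eq_one t; rwa [ht, pow_two] at this
  have hti : t⁻¹ = t := inv_eq_of_mul_eq_one_left ht2
  have hex : ∀ x ∈ X, ∃ y z : M, y ∈ X ⊓ Subgroup.centralizer {t} ∧ z ∈ Cfsg.invertedBy X t ∧ x = y * z := by
    intro x hx
    have hx' := hnorm x hx
    set u := (t * x * t⁻¹)⁻¹ * x with hu
    have huX : u ∈ X := mul_mem (inv_mem hx') hx
    obtain ⟨k, hk⟩ := sq_root X hodd u huX
    have htu : t * u * t⁻¹ = u⁻¹ := by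
      rw [hu, hti]
      calc t * ((t * x * t)⁻¹ * x) * t = (t * t⁻¹) * x⁻¹ * t⁻¹ * x * t := by group
        _ = _ := by rw [hti, ht2]; group
    have htz : t * u ^ k * t⁻¹ = (u ^ k)⁻¹ := by
      rw [← conj_pow, htu, inv_pow]
    refine ⟨x * (u ^ k)⁻¹, u ^ k, ⟨X.mul_mem hx (X.inv_mem (X.pow_mem huX k)), ?_⟩, ⟨X.pow_mem huX k, htz⟩, by group⟩
    show _ ∈ Subgroup.centralizer {t}
    rw [Subgroup.mem_centralizer_singleton_iff]
    have h1 : t * (x * (u ^ k)⁻¹) * t⁻¹ = x * (u ^ k)⁻¹ := by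
      have h2 : t * (x * (u ^ k)⁻¹) * t⁻¹ = (t * x * t⁻¹) * (t * u ^ k * t⁻¹)⁻¹ := by group
      rw [h2, htz, inv_inv]
      have h3 : t * x * t⁻¹ = x * u⁻¹ := by rw [hu]; group
      have h4 : ∀ w : M, w * w = u → u⁻¹ * w = w⁻¹ := by
        intro w hw
        rw [← hw]; group
      rw [h3, mul_assoc, h4 _ hk]
    rw [mul_inv_eq_iff_eq_mul] at h1
    exact h1.symm
  have huniq : ∀ y z y' z' : M, y ∈ X ⊓ Subgroup.centralizer {t} → z ∈ Cfsg.invertedBy X t → y' ∈ X ⊓ Subgroup.centralizer {t} →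
      z' ∈ Cfsg.invertedBy X t → y * z = y' * z' → y = y' ∧ z = z' := by
    intro y z y' z' hy hz hy' hz' h
    have hc : ∀ y ∈ X ⊓ Subgroup.centralizer {t}, t * y * t⁻¹ = y := by
      intro y hy
      have h1 : y * t = t * y := Subgroup.mem_centralizer_singleton_iff.1 hy.2
      rw [← h1, mul_inv_cancel_right]
    have hu : ∀ y z : M, y ∈ X ⊓ Subgroup.centralizer {t} → z ∈ Cfsg.invertedBy X t → (t * (y * z) * t⁻¹)⁻¹ * (y * z) = z * z := by
      intro y z hy hz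
      have h1 : t * (y * z) * t⁻¹ = (t * y * t⁻¹) * (t * z * t⁻¹) := by group
      rw [h1, hc y hy, hz.2]; group
    have h2 : z * z = z' * z' := by rw [← hu y z hy hz, ← hu y' z' hy' hz', h]
    have h3 := sq_inj X hodd z z' hz.1 hz'.1 h2
    subst h3
    exact ⟨mul_right_cancel h, rfl⟩
  refine ⟨?_, ?_, ?_⟩
  · intro x hx
    obtain ⟨y, z, hy, hz, hxy⟩ := hex x hx
    refine ⟨(y, z), ⟨hy, hz, hxy⟩, ?_⟩
    rintro ⟨y', z'⟩ ⟨hy', hz', hxy'⟩
    obtain ⟨e1, e2⟩ := huniq y z y' z' hy hz hy' hz' (hxy.symm.trans hxy')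
    rw [e1, e2]
  · rw [← Nat.card_prod]
    symm
    apply Nat.card_eq_of_bijective (fun p : ↥(X ⊓ Subgroup.centralizer {t}) × ↥(Cfsg.invertedBy X t) => (⟨(p.1 : M) * (p.2 : M), mul_mem p.1.2.1 p.2.2.1⟩ : X))
    constructor
    · rintro ⟨⟨y, hy⟩, ⟨z, hz⟩⟩ ⟨⟨y', hy'⟩, ⟨z', hz'⟩⟩ h
      obtain ⟨e1, e2⟩ := huniq y z y' z' hy hz hy' hz' (congrArg Subtype.val h)
      subst e1; subst e2; rfl
    · rintro ⟨x, hx⟩
      obtain ⟨y, z, hy, hz, hxy⟩ := hex x hx
      exact ⟨(⟨y, hy⟩, ⟨z, hz⟩), Subtype.ext hxy.symm⟩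
  · intro x hx
    obtain ⟨y, z, hy, hz, rfl⟩ := hex x hx
    have hz1 : MulAut.conj z • Subgroup.closure (Cfsg.invertedBy X t) = Subgroup.closure (Cfsg.invertedBy X t) :=
      Subgroup.conj_smul_eq_self_of_mem (Subgroup.subset_closure hz)
    have hy1 : ∀ y ∈ X ⊓ Subgroup.centralizer {t}, MulAut.conj y • Subgroup.closure (Cfsg.invertedBy X t) ≤ Subgroup.closure (Cfsg.invertedBy X t) := by
      intro y hy
      rw [Subgroup.smul_closure, Subgroup.closure_le]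
      rintro _ ⟨w, hw, rfl⟩
      apply Subgroup.subset_closure
      have h1 : y * t = t * y := Subgroup.mem_centralizer_singleton_iff.1 hy.2
      refine ⟨mul_mem (mul_mem hy.1 hw.1) (inv_mem hy.1), ?_⟩
      show t * (y * w * y⁻¹) * t⁻¹ = (y * w * y⁻¹)⁻¹
      have h2 : t * (y * w * y⁻¹) * t⁻¹ = (t * y) * w * (t * y)⁻¹ := by group
      rw [h2, ← h1]
      have h3 : y * t * w * (y * t)⁻¹ = y * (t * w * t⁻¹) * y⁻¹ := by group
      rw [h3, hw.2]; group
    rw [map_mul, mul_smul, hz1]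
    apply le_antisymm (hy1 y hy)
    have h4 := hy1 y⁻¹ (inv_mem hy)
    rw [map_inv, Subgroup.pointwise_smul_subset_iff, inv_inv] at h4
    exact h4

end Cfsg.Agent.S1124
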