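import Cfsg.Statements.S1163
import Mathlib
import Cfsg.Agent.Lib.H7SH
import Cfsg.Agent.Lib.H7SG

set_option autoImplicit false
open Cfsg

open scoped Pointwise
set_option linter.style.haveILetI false
namespace Cfsg.Agent.S1163

open CfsgLib.H7S MulAction

theorem two_cosets {H Ω : Type*} [Group H] [MulAction H Ω] {N : Subgroup H} {a : Ω}
    (hN : N = stabilizer H a) (h2 : IsMultiplyPretransitive H Ω 2) : IsMultiplyPretransitive H (H ⧸ N) 2 := by
  subst hN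
  rw [is_two_pretransitive_iff] at h2 ⊢
  intro x y z w hxy hzw
  have hinj := injective_ofQuotientStabilizer H a
  obtain ⟨g, hg1, hg2⟩ := h2 (fun h => hxy (hinj h)) (fun h => hzw (hinj h))
  refine ⟨g, hinj ?_, hinj ?_⟩
  · rw [ofQuotientStabilizer_smul, hg1]
  · rw [ofQuotientStabilizer_smul, hg2]

theorem reg_cosets {H Ω : Type*} [Group H] [MulAction H Ω] {N S : Subgroup H} {a : Ω}
    (hN : N = stabilizer H a) (hreg : ∀ x y : Ω, x ≠ a → y ≠ a → ∃! s : S, (s : H) • x = y)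
    (x y : H ⧸ N) (hx : x ≠ QuotientGroup.mk 1) (hy : y ≠ QuotientGroup.mk 1) : ∃! s : S, (s : H) • x = y := by
  subst hN
  have hinj := injective_ofQuotientStabilizer H a
  have h1 : ofQuotientStabilizer H a (QuotientGroup.mk 1) = a := by rw [ofQuotientStabilizer_mk, one_smul]
  obtain ⟨s, hs, hu⟩ := hreg (ofQuotientStabilizer H a x) (ofQuotientStabilizer H a y)
    (fun h => hx (hinj (by rw [h, h1]))) (fun h => hy (hinj (by rw [h, h1])))
  refine ⟨s, hinj ?_, fun t ht => hu t ?_⟩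
  · simp only [ofQuotientStabilizer_smul]
    exact hs
  · simp only at ht ⊢
    rw [← ht, ofQuotientStabilizer_smul]


/-- For the Suzuki group Sz(q), q = 2^(2m+1) ≥ 8, realised as the elements g of Sp₄(F) with g* = g^θ (θ the 2^(m+1)-th power map, so that θ² is squaring): `|Sz(q)| = q² (q - 1) (q² + 1)`, and there is a Sylow 2-subgroup `S` whose normaliser `H` has order `q²(q-1)` and index `q² + 1`, the action of `Sz(q)` on the cosets of `H` is doubly transitive, and `S` acts regularly on the cosets other than `H` itself. -/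
theorem result {F : Type*} [Field F] [Fintype F] {m : ℕ} (hm : 1 ≤ m) (hF : Fintype.card F = 2 ^ (2 * m + 1)) :
    Nat.card ↥(Cfsg.Lie.Sz F (2 ^ (m + 1))) = (2 ^ (2 * m + 1)) ^ 2 * (2 ^ (2 * m + 1) - 1) * ((2 ^ (2 * m + 1)) ^ 2 + 1) ∧
    ∃ S : Sylow 2 ↥(Cfsg.Lie.Sz F (2 ^ (m + 1))),
      Nat.card (Subgroup.normalizer ((S : Subgroup ↥(Cfsg.Lie.Sz F (2 ^ (m + 1)))) : Set ↥(Cfsg.Lie.Sz F (2 ^ (m + 1))))) = (2 ^ (2 * m + 1)) ^ 2 * (2 ^ (2 * m + 1) - 1) ∧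
      (Subgroup.normalizer ((S : Subgroup ↥(Cfsg.Lie.Sz F (2 ^ (m + 1)))) : Set ↥(Cfsg.Lie.Sz F (2 ^ (m + 1))))).index = (2 ^ (2 * m + 1)) ^ 2 + 1 ∧
      MulAction.IsMultiplyPretransitive ↥(Cfsg.Lie.Sz F (2 ^ (m + 1))) (↥(Cfsg.Lie.Sz F (2 ^ (m + 1))) ⧸ Subgroup.normalizer ((S : Subgroup ↥(Cfsg.Lie.Sz F (2 ^ (m + 1)))) : Set ↥(Cfsg.Lie.Sz F (2 ^ (m + 1))))) 2 ∧
      ∀ x y : ↥(Cfsg.Lie.Sz F (2 ^ (m + 1))) ⧸ Subgroup.normalizer ((S : Subgroup ↥(Cfsg.Lie.Sz F (2 ^ (m + 1)))) : Set ↥(Cfsg.Lie.Sz F (2 ^ (m + 1)))),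
        x ≠ (QuotientGroup.mk 1) → y ≠ (QuotientGroup.mk 1) → ∃! s : ↥(S : Subgroup ↥(Cfsg.Lie.Sz F (2 ^ (m + 1)))), (s : ↥(Cfsg.Lie.Sz F (2 ^ (m + 1)))) • x = y := by
  obtain ⟨D⟩ := exists_SD hF
  haveI : Fact (Nat.Prime 2) := ⟨Nat.prime_two⟩
  obtain ⟨e, he⟩ : ∃ e : Cfsg.Sz F m ≃* Cfsg.Lie.Sz F (2 ^ (m + 1)), e = lieEquiv hm hF := ⟨_, rfl⟩
  letI : MulAction (Cfsg.Lie.Sz F (2 ^ (m + 1))) (suzukiOvoid F m) := MulAction.compHom _ e.symm.toMonoidHom
  have hact : ∀ (x : Cfsg.Lie.Sz F (2 ^ (m + 1))) (p : suzukiOvoid F m), x • p = e.symm x • p := fun _ _ => rfl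
  have hcard : Nat.card ↥(Cfsg.Lie.Sz F (2 ^ (m + 1))) = (2 ^ (2 * m + 1)) ^ 2 * (2 ^ (2 * m + 1) - 1) * ((2 ^ (2 * m + 1)) ^ 2 + 1) := by
    rw [← Nat.card_congr e.toEquiv, D.card_Sz hm hF, hF]
    ring
  have hsur : Function.Surjective e.toMonoidHom := e.surjective
  obtain ⟨S, hS⟩ : ∃ S : Sylow 2 (Cfsg.Lie.Sz F (2 ^ (m + 1))), (S : Subgroup (Cfsg.Lie.Sz F (2 ^ (m + 1)))) = D.P.map e.toMonoidHom :=
    ⟨(D.PS hm hF).mapSurjective hsur, by rw [Sylow.coe_mapSurjective, SD.PS_coe]⟩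
  refine ⟨hcard, S, ?_⟩
  have hN : Subgroup.normalizer ((S : Subgroup (Cfsg.Lie.Sz F (2 ^ (m + 1)))) : Set (Cfsg.Lie.Sz F (2 ^ (m + 1)))) = stabilizer (Cfsg.Lie.Sz F (2 ^ (m + 1))) (oinf F m) := by
    rw [hS, ← Subgroup.map_equiv_normalizer_eq D.P e]
    rw [normalizer_sylow hm hF D.P_le D.P_card_add D.P_fix]
    ext x
    rw [mem_stabilizer_iff, hact, Subgroup.mem_map]
    constructor
    · rintro ⟨y, hy, rfl⟩
      simpa using hy
    · intro hx
      exact ⟨e.symm x, hx, by simp⟩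
  have hcN : Nat.card (stabilizer (Cfsg.Lie.Sz F (2 ^ (m + 1))) (oinf F m)) = (2 ^ (2 * m + 1)) ^ 2 * (2 ^ (2 * m + 1) - 1) := by
    have h := D.card_stab hm hF
    rw [hF] at h
    rw [← h]
    refine Nat.card_congr ⟨fun x => ⟨e.symm x.1, x.2⟩, fun y => ⟨e y.1, ?_⟩, fun x => ?_, fun y => ?_⟩
    · rw [mem_stabilizer_iff, hact, e.symm_apply_apply]
      exact y.2
    · apply Subtype.ext; simp
    · apply Subtype.ext; simp
  have hpos : 0 < (2 ^ (2 * m + 1)) ^ 2 * (2 ^ (2 * m + 1) - 1) := by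
    have h8 := SD.card_ge hm hF
    rw [hF] at h8
    have : 0 < 2 ^ (2 * m + 1) - 1 := by omega
    positivity
  refine ⟨by rw [hN, hcN], ?_, ?_, ?_⟩
  · rw [hN]
    have h := Subgroup.card_mul_index (stabilizer (Cfsg.Lie.Sz F (2 ^ (m + 1))) (oinf F m))
    rw [hcN, hcard] at h
    exact Nat.eq_of_mul_eq_mul_left hpos h
  · apply two_cosets hN
    have h2 := D.two_trans
    rw [is_two_pretransitive_iff] at h2 ⊢
    intro a b c d hab hcd
    obtain ⟨g, h1, h2⟩ := h2 hab hcd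
    exact ⟨e g, by rw [hact, e.symm_apply_apply, h1], by rw [hact, e.symm_apply_apply, h2]⟩
  · intro x y hx hy
    apply reg_cosets hN ?_ x y hx hy
    intro p q hp hq
    rcases oex p with rfl | ⟨a, b, rfl⟩
    · exact absurd rfl hp
    rcases oex q with rfl | ⟨c, d, rfl⟩
    · exact absurd rfl hq
    have hne : ∀ z : F, z + z = 0 := D.add_self
    refine ⟨⟨e (D.T (a + c) (b + d + D.t (a + c) * a)), ?_⟩, ?_, ?_⟩
    · rw [hS]
      exact ⟨_, D.T_mem_P _ _, rfl⟩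
    · simp only
      rw [hact, e.symm_apply_apply, D.T_pt, opt_inj]
      constructor
      · linear_combination hne a
      · linear_combination hne b + hne (D.t (a + c) * a)
    · rintro ⟨x, hx⟩ hxq
      simp only at hxq
      rw [hS] at hx
      obtain ⟨y, hy, rfl⟩ := hx
      obtain ⟨u, v, rfl⟩ := D.mem_P.mp hy
      have hxq' : (e (D.T u v)) • opt m a b = opt m c d := hxq
      rw [hact, e.symm_apply_apply, D.T_pt, opt_inj] at hxq'
      obtain ⟨h1, h2⟩ := hxq'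
      apply Subtype.ext
      change e (D.T u v) = _
      congr 1
      rw [D.T_inj]
      have hu : u = a + c := by linear_combination h1 - hne a
      refine ⟨hu, ?_⟩
      rw [← hu]
      linear_combination h2 - hne b - hne (D.t u * a)

end Cfsg.Agent.S1163
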