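import Cfsg.Statements.S1165

set_option autoImplicit false
open Cfsg

namespace Cfsg.Agent.S1165

section
variable {G Ω : Type*} [Group G] [Finite G] [MulAction G Ω] {a : Ω} {t : G} {Q : Subgroup G}

theorem uniq (hS : Cfsg.IsRankOneSetup G Ω a t Q) {g h f g' h' f' : G} (hg : g ∈ Q)
    (hh : h ∈ (MulAction.stabilizer G a ⊓ MulAction.stabilizer G (t • a))) (hf : f ∈ Q) (hg' : g' ∈ Q)
    (hh' : h' ∈ (MulAction.stabilizer G a ⊓ MulAction.stabilizer G (t • a))) (hf' : f' ∈ Q)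
    (e : g * h * t * f = g' * h' * t * f') : f = f' ∧ h = h' := by
  have e1 : t * (f * f'⁻¹) * t⁻¹ = (g * h)⁻¹ * (g' * h') := by
    have : g * h * (t * (f * f'⁻¹) * t⁻¹) = g' * h' := by
      calc g * h * (t * (f * f'⁻¹) * t⁻¹) = (g * h * t * f) * f'⁻¹ * t⁻¹ := by group
        _ = g' * h' := by rw [e]; group
    rw [← this]; group
  have e2 : t * (f * f'⁻¹) * t⁻¹ ∈ MulAction.stabilizer G a := by
    rw [e1]
    exact Subgroup.mul_mem _ (Subgroup.inv_mem _ (Subgroup.mul_mem _ (hS.le hg) hh.1)) (Subgroup.mul_mem _ (hS.le hg') hh'.1)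
  have htt : t⁻¹ = t := inv_eq_of_mul_eq_one_left hS.mul_self
  have e3 : f * f'⁻¹ ∈ MulAction.stabilizer G (t • a) := by
    rw [MulAction.mem_stabilizer_iff, mul_smul, mul_smul, htt] at e2
    rw [MulAction.mem_stabilizer_iff]
    have := congrArg (fun z => t • z) e2
    simp only [smul_smul] at this
    rw [← mul_assoc, hS.mul_self, one_mul] at this
    rw [smul_smul]; exact this
  have e4 : f * f'⁻¹ ∈ Q ⊓ MulAction.stabilizer G (t • a) := Subgroup.mem_inf.mpr ⟨Q.mul_mem hf (Q.inv_mem hf'), e3⟩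
  rw [hS.inf_eq_bot, Subgroup.mem_bot, mul_inv_eq_one] at e4
  refine ⟨e4, ?_⟩
  subst e4
  have e5 : g * h = g' * h' := mul_right_cancel (mul_right_cancel e)
  have e6 : g'⁻¹ * g = h' * h⁻¹ := by
    rw [inv_mul_eq_iff_eq_mul, ← mul_assoc, ← e5, mul_inv_cancel_right]
  have e7 : g'⁻¹ * g ∈ Q ⊓ MulAction.stabilizer G (t • a) := Subgroup.mem_inf.mpr ⟨Q.mul_mem (Q.inv_mem hg') hg, by
    rw [e6]; exact Subgroup.mul_mem _ hh'.2 (Subgroup.inv_mem _ hh.2)⟩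
  rw [hS.inf_eq_bot, Subgroup.mem_bot, inv_mul_eq_one] at e7
  subst e7
  exact mul_left_cancel e5

theorem tinv (hS : Cfsg.IsRankOneSetup G Ω a t Q) {c : G} (hc : c ∈ (MulAction.stabilizer G a ⊓ MulAction.stabilizer G (t • a))) :
    t * c * t ∈ (MulAction.stabilizer G a ⊓ MulAction.stabilizer G (t • a)) := by
  have h1 : c • a = a := hc.1
  have h2 : c • (t • a) = t • a := hc.2
  have h3 : t • (t • a) = a := by rw [smul_smul, hS.mul_self, one_smul]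
  refine Subgroup.mem_inf.mpr ⟨?_, ?_⟩
  · rw [MulAction.mem_stabilizer_iff, mul_smul, mul_smul, h2, h3]
  · rw [MulAction.mem_stabilizer_iff, mul_smul, mul_smul, h3, h1]
end

/-- In the rank-one set-up (`G` finite and doubly transitive on `Ω`, `t` an involution moving `a`, `Q` normal in `G_a` with `G_a = Q D`, `Q ⊓ D = 1` for the two-point stabiliser `D = G_a ⊓ G_{t • a}`, `|Q|` even, `|D|` odd): every `x ∈ Q`, `x ≠ 1`, determines unique `g, f ∈ Q`, `h ∈ D` with `t x t = g h t f` (a consequence of the canonical form). For these: (H1) the `f`-part of `x⁻¹` is `g⁻¹`; (H2) the `f`-part of `f` is `x`; (H3) for `a ∈ D` the `f`-part of `a⁻¹ x a` is `(t a t)⁻¹ f (t a t)`; (H4) the `h`-part of `a⁻¹ x a` is `(t a t)⁻¹ h a`, that of `x⁻¹` is `t h⁻¹ t`, and that of `f` is `h⁻¹`. -/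
theorem result {G Ω : Type*} [Group G] [Finite G] [MulAction G Ω] {a : Ω} {t : G} {Q : Subgroup G}
    (hS : Cfsg.IsRankOneSetup G Ω a t Q)
    (x g h f : G) (hx : x ∈ Q) (hx1 : x ≠ 1) (hg : g ∈ Q) (hh : h ∈ (MulAction.stabilizer G a ⊓ MulAction.stabilizer G (t • a))) (hf : f ∈ Q)
    (heq : t * x * t = g * h * t * f) :
    (∀ g₁ h₁ f₁ : G, g₁ ∈ Q → h₁ ∈ (MulAction.stabilizer G a ⊓ MulAction.stabilizer G (t • a)) → f₁ ∈ Q → t * x⁻¹ * t = g₁ * h₁ * t * f₁ →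
        f₁ = g⁻¹ ∧ h₁ = t * h⁻¹ * t) ∧
      (∀ g₂ h₂ f₂ : G, g₂ ∈ Q → h₂ ∈ (MulAction.stabilizer G a ⊓ MulAction.stabilizer G (t • a)) → f₂ ∈ Q → t * f * t = g₂ * h₂ * t * f₂ →
        f₂ = x ∧ h₂ = h⁻¹) ∧
      ∀ c ∈ (MulAction.stabilizer G a ⊓ MulAction.stabilizer G (t • a)), ∀ g₃ h₃ f₃ : G, g₃ ∈ Q → h₃ ∈ (MulAction.stabilizer G a ⊓ MulAction.stabilizer G (t • a)) → f₃ ∈ Q →
        t * (c⁻¹ * x * c) * t = g₃ * h₃ * t * f₃ →
          f₃ = (t * c * t)⁻¹ * f * (t * c * t) ∧ h₃ = (t * c * t)⁻¹ * h * c := by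
  have htt : t⁻¹ = t := inv_eq_of_mul_eq_one_left hS.mul_self
  have hsq : ∀ z : G, t * (t * z) = z := fun z => by rw [← mul_assoc, hS.mul_self, one_mul]
  refine ⟨?_, ?_, ?_⟩
  · intro g₁ h₁ f₁ hg₁ hh₁ hf₁ e
    apply uniq hS hg₁ hh₁ hf₁ (Q.inv_mem hf) (by
      have := tinv hS (Subgroup.inv_mem _ hh); exact this) (Q.inv_mem hg)
    rw [← e]
    have e1 : t * x⁻¹ * t = (t * x * t)⁻¹ := by rw [mul_inv_rev, mul_inv_rev, htt, mul_assoc]
    rw [e1, heq, mul_inv_rev, mul_inv_rev, mul_inv_rev, htt]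
    simp only [mul_assoc]
    rw [hsq]
  · intro g₂ h₂ f₂ hg₂ hh₂ hf₂ e
    have hgc : h⁻¹ * g⁻¹ * h⁻¹⁻¹ ∈ Q := hS.conj_mem h⁻¹ (Subgroup.inv_mem _ hh.1) _ (Q.inv_mem hg)
    apply uniq hS hg₂ hh₂ hf₂ hgc (Subgroup.inv_mem _ hh) hx
    rw [← e]
    have e1 : t * f = h⁻¹ * g⁻¹ * (t * x * t) := by rw [heq]; group
    rw [e1]
    simp only [mul_assoc]
    rw [hS.mul_self]; group
  · intro c hc g₃ h₃ f₃ hg₃ hh₃ hf₃ e
    have hc' := tinv hS hc
    have hgc : (t * c * t)⁻¹ * g * (t * c * t)⁻¹⁻¹ ∈ Q := hS.conj_mem _ (Subgroup.inv_mem _ hc'.1) _ hg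
    have hfc : (t * c * t)⁻¹ * f * (t * c * t)⁻¹⁻¹ ∈ Q := hS.conj_mem _ (Subgroup.inv_mem _ hc'.1) _ hf
    rw [inv_inv] at hgc hfc
    apply uniq hS hg₃ hh₃ hf₃ hgc (Subgroup.mul_mem _ (Subgroup.mul_mem _ (Subgroup.inv_mem _ hc') hh) hc) hfc
    rw [← e]
    have e1 : t * (c⁻¹ * x * c) * t = (t * c * t)⁻¹ * (t * x * t) * (t * c * t) := by
      rw [mul_inv_rev, mul_inv_rev, htt]
      simp only [mul_assoc]
      rw [hsq, hsq]
    rw [e1, heq]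
    have e2 : t * (t * c * t)⁻¹ = c⁻¹ * t := by
      rw [mul_inv_rev, mul_inv_rev, htt, hsq]
    have e3 : (t * c * t)⁻¹ * g * (t * c * t) * ((t * c * t)⁻¹ * h * c) * t * ((t * c * t)⁻¹ * f * (t * c * t)) =
        (t * c * t)⁻¹ * g * h * c * (t * (t * c * t)⁻¹) * f * (t * c * t) := by group
    rw [e3, e2]
    group

end Cfsg.Agent.S1165
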