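import Cfsg.Statements.S1166
import Cfsg.Agent.S1165

set_option autoImplicit false
open Cfsg

namespace Cfsg.Agent.S1166

open Cfsg.Agent.S1165

/-- In the rank-one set-up (`G` finite and doubly transitive on `Ω`, `t` an involution moving `a`, `Q` normal in `G_a` with `G_a = Q D`, `Q ⊓ D = 1` for the two-point stabiliser `D = G_a ⊓ G_{t • a}`, `|Q|` even, `|D|` odd), with `t x t = g_x h_x t f_x` and `t y t = g_y h_y t f_y` (`g, f ∈ Q`, `h ∈ D`) for `x, y ∈ Q ∖ 1` with `x y ≠ 1`: then `z = f_x g_y ≠ 1`, and if `t z t = g_z h_z t f_z` and `t (x y) t = g' h' t f'` then `f' = (t h_y t)⁻¹ f_z (t h_y t) f_y` and `h' = h_x h_z h_y` (H6). -/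
theorem result {G Ω : Type*} [Group G] [Finite G] [MulAction G Ω] {a : Ω} {t : G} {Q : Subgroup G}
    (hS : Cfsg.IsRankOneSetup G Ω a t Q)
    (x y gx hx fx gy hy fy : G) (hxQ : x ∈ Q) (hx1 : x ≠ 1) (hyQ : y ∈ Q) (hy1 : y ≠ 1) (hxy : x * y ≠ 1)
    (hgx : gx ∈ Q) (hhx : hx ∈ (MulAction.stabilizer G a ⊓ MulAction.stabilizer G (t • a))) (hfx : fx ∈ Q) (ex : t * x * t = gx * hx * t * fx)
    (hgy : gy ∈ Q) (hhy : hy ∈ (MulAction.stabilizer G a ⊓ MulAction.stabilizer G (t • a))) (hfy : fy ∈ Q) (ey : t * y * t = gy * hy * t * fy) :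
    fx * gy ≠ 1 ∧
      ∀ gz hz fz g' h' f' : G, gz ∈ Q → hz ∈ (MulAction.stabilizer G a ⊓ MulAction.stabilizer G (t • a)) → fz ∈ Q → t * (fx * gy) * t = gz * hz * t * fz →
        g' ∈ Q → h' ∈ (MulAction.stabilizer G a ⊓ MulAction.stabilizer G (t • a)) → f' ∈ Q → t * (x * y) * t = g' * h' * t * f' →
          f' = (t * hy * t)⁻¹ * fz * (t * hy * t) * fy ∧ h' = hx * hz * hy := by
  have htt : t⁻¹ = t := inv_eq_of_mul_eq_one_left hS.mul_self
  have hsq : ∀ z : G, t * (t * z) = z := fun z => by rw [← mul_assoc, hS.mul_self, one_mul]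
  have e0 : t * (x * y) * t = (t * x * t) * (t * y * t) := by
    simp only [mul_assoc]; rw [hsq]
  refine ⟨?_, ?_⟩
  · intro hz
    apply hxy
    have h1 : t * (x * y) * t = gx * hx * (t * hy * t) * fy := by
      rw [e0, ex, ey]
      calc gx * hx * t * fx * (gy * hy * t * fy) = gx * hx * t * (fx * gy) * hy * t * fy := by group
        _ = gx * hx * (t * hy * t) * fy := by rw [hz]; group
    have h2 : t * (x * y) * t ∈ MulAction.stabilizer G a := by
      rw [h1]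
      exact Subgroup.mul_mem _ (Subgroup.mul_mem _ (Subgroup.mul_mem _ (hS.le hgx) hhx.1) (tinv hS hhy).1) (hS.le hfy)
    have h3 : x * y ∈ MulAction.stabilizer G (t • a) := by
      rw [MulAction.mem_stabilizer_iff, mul_smul (t * (x * y)) t a, mul_smul t (x * y) (t • a)] at h2
      rw [MulAction.mem_stabilizer_iff]
      have h4 := congrArg (fun z => t • z) h2
      rw [smul_smul t t, hS.mul_self, one_smul] at h4
      exact h4
    have h5 : x * y ∈ Q ⊓ MulAction.stabilizer G (t • a) := Subgroup.mem_inf.mpr ⟨Q.mul_mem hxQ hyQ, h3⟩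
    rwa [hS.inf_eq_bot, Subgroup.mem_bot] at h5
  · intro gz hz fz g' h' f' hgz hhz hfz ez hg' hh' hf' e
    have hc := tinv hS hhy
    have hgc : hx * gz * hx⁻¹ ∈ Q := hS.conj_mem _ hhx.1 _ hgz
    have hfc : (t * hy * t)⁻¹ * fz * (t * hy * t)⁻¹⁻¹ ∈ Q := hS.conj_mem _ (Subgroup.inv_mem _ hc.1) _ hfz
    rw [inv_inv] at hfc
    apply uniq hS hg' hh' hf' (Q.mul_mem hgx hgc) (Subgroup.mul_mem _ (Subgroup.mul_mem _ hhx hhz) hhy) (Q.mul_mem hfc hfy)
    rw [← e, e0, ex, ey]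
    have e2 : t * (t * hy * t)⁻¹ = hy⁻¹ * t := by
      rw [mul_inv_rev, mul_inv_rev, htt, hsq]
    calc gx * hx * t * fx * (gy * hy * t * fy) = gx * hx * (t * (fx * gy) * t) * (t⁻¹ * hy * t) * fy := by group
      _ = gx * hx * (gz * hz * t * fz) * (t * hy * t) * fy := by rw [ez, htt]
      _ = gx * hx * gz * hz * hy * (hy⁻¹ * t) * fz * (t * hy * t) * fy := by group
      _ = gx * hx * gz * hz * hy * (t * (t * hy * t)⁻¹) * fz * (t * hy * t) * fy := by rw [e2]
      _ = gx * (hx * gz * hx⁻¹) * (hx * hz * hy) * t * ((t * hy * t)⁻¹ * fz * (t * hy * t) * fy) := by group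

end Cfsg.Agent.S1166
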