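import Cfsg.Statements.S1176
import Cfsg.Agent.Lib.H9Isol
-- import your own Cfsg.Agent.* helpers here

set_option autoImplicit false
open Cfsg

namespace Cfsg.Agent.S1176

/-- Let x₀ be an involution of the finite group G and D its conjugacy class. Assume (a) for each x ∈ D the subgroup W(x) generated by the members of D commuting with x is a 2-group of nilpotency class at most 2, and (b) the product of two distinct commuting members of D again lies in D. Then for all x, y ∈ D, if xy has even order greater than 2, its order is 4. -/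
theorem result {G : Type*} [Group G] [Finite G] (x₀ : G) (hx₀ : orderOf x₀ = 2) (ha : ∀ x : G, IsConj x₀ x → IsPGroup 2 ↥(Subgroup.closure {y : G | IsConj x₀ y ∧ Commute y x}) ∧ ⁅⁅Subgroup.closure {y : G | IsConj x₀ y ∧ Commute y x}, Subgroup.closure {y : G | IsConj x₀ y ∧ Commute y x}⁆, Subgroup.closure {y : G | IsConj x₀ y ∧ Commute y x}⁆ = ⊥) (hb : ∀ x y : G, IsConj x₀ x → IsConj x₀ y → x ≠ y → Commute x y → IsConj x₀ (x * y)) (x y : G) (hx : IsConj x₀ x) (hy : IsConj x₀ y) (heven : Even (orderOf (x * y))) (hgt : 2 < orderOf (x * y)) : orderOf (x * y) = 4 := by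
  have hx2 : orderOf x = 2 := by
    obtain ⟨c, hc⟩ := isConj_iff.1 hx
    rw [← hc, CfsgLib.H9Isol.orderOf_conj, hx₀]
  have hy2 : orderOf y = 2 := by
    obtain ⟨c, hc⟩ := isConj_iff.1 hy
    rw [← hc, CfsgLib.H9Isol.orderOf_conj, hx₀]
  obtain ⟨m, hm⟩ := heven
  rw [← two_mul] at hm
  obtain ⟨hc, hconj⟩ := CfsgLib.H9Isol.pow_half hx2 hy2 hm
  have hu1 : (x * y) ^ m ≠ 1 := by
    intro h
    have h1 := Nat.le_of_dvd (by omega) (orderOf_dvd_of_pow_eq_one h)
    omega
  have hxu : IsConj x₀ (x * (x * y) ^ m) := by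
    rcases hconj with ⟨i, hi⟩ | ⟨i, hi⟩
    · refine hx.trans (isConj_iff.2 ⟨((x * y) ^ i)⁻¹, ?_⟩)
      rw [inv_inv]; exact hi.symm
    · refine hy.trans (isConj_iff.2 ⟨((x * y) ^ i)⁻¹, ?_⟩)
      rw [inv_inv]; exact hi.symm
  have hu : IsConj x₀ ((x * y) ^ m) := by
    have h1 := hb x (x * (x * y) ^ m) hx hxu (fun h => hu1 (mul_eq_left.1 h.symm)) hc
    rwa [← mul_assoc, CfsgLib.H9Isol.mul_self hx2, one_mul] at h1
  have hcx : Commute x ((x * y) ^ m) := by
    have h1 : (x * y) ^ m = x * (x * (x * y) ^ m) := by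
      rw [← mul_assoc, CfsgLib.H9Isol.mul_self hx2, one_mul]
    rw [h1]
    exact (Commute.refl x).mul_right hc
  have hcxy : Commute (x * y) ((x * y) ^ m) := Commute.self_pow _ _
  have hcy : Commute y ((x * y) ^ m) := by
    have h1 : x⁻¹ * (x * y) = y := by group
    have h2 := hcx.inv_left.mul_left hcxy
    rwa [h1] at h2
  obtain ⟨hW2, hWc⟩ := ha _ hu
  letI : Bracket G G := commutatorElement
  set W := Subgroup.closure {w : G | IsConj x₀ w ∧ Commute w ((x * y) ^ m)} with hW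
  have hxW : x ∈ W := Subgroup.subset_closure ⟨hx, hcx⟩
  have hyW : y ∈ W := Subgroup.subset_closure ⟨hy, hcy⟩
  have h1 : ⁅x, y⁆ = (x * y) ^ 2 := by
    rw [commutatorElement_def, CfsgLib.H9Isol.inv_eq hx2, CfsgLib.H9Isol.inv_eq hy2, pow_two]
    group
  have h2 : ⁅⁅x, y⁆, x⁆ ∈ ⁅⁅W, W⁆, W⁆ :=
    Subgroup.commutator_mem_commutator (Subgroup.commutator_mem_commutator hxW hyW) hxW
  rw [hWc, Subgroup.mem_bot, h1, commutatorElement_eq_one_iff_commute] at h2
  have h3 : x * (x * y) * x⁻¹ = (x * y)⁻¹ := by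
    rw [mul_inv_rev, CfsgLib.H9Isol.inv_eq hx2, CfsgLib.H9Isol.inv_eq hy2, ← mul_assoc, CfsgLib.H9Isol.mul_self hx2,
      one_mul]
  have h4 : x * (x * y) ^ 2 * x⁻¹ = ((x * y) ^ 2)⁻¹ := by rw [← conj_pow, h3, inv_pow]
  rw [← h2.eq, mul_inv_cancel_right] at h4
  have h5 : (x * y) ^ 4 = 1 := by
    rw [show 4 = 2 + 2 by norm_num, pow_add]
    nth_rewrite 1 [h4]
    rw [inv_mul_cancel]
  have h6 := orderOf_dvd_of_pow_eq_one h5
  have h7 := Nat.le_of_dvd (by norm_num) h6
  rw [hm] at h6 h7 hgt ⊢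
  have h8 : m = 2 := by omega
  omega

end Cfsg.Agent.S1176
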