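import Cfsg.Statements.S1177
-- import your own Cfsg.Agent.* helpers here

set_option autoImplicit false
open Cfsg

namespace Cfsg.Agent.S1177

/-- Let A be a nontrivial elementary abelian 2-subgroup of a finite group G which is a T.I. set (each conjugate of A meets A trivially or equals A) and which does not commute elementwise with any conjugate of A other than A itself. Then for every a ∈ A, a ≠ 1, every conjugate of A contained in C_G(a) is equal to A (A is weakly closed in C_G(a)). -/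
theorem result {G : Type*} [Group G] [Finite G] (A : Subgroup G) (hA : Cfsg.IsElementaryAbelian 2 A) (hA1 : A ≠ ⊥) (hTI : ∀ g : G, A.map (MulAut.conj g).toMonoidHom ⊓ A = ⊥ ∨ A.map (MulAut.conj g).toMonoidHom = A) (hb : ∀ g : G, (∀ a ∈ A, ∀ b ∈ A.map (MulAut.conj g).toMonoidHom, a * b = b * a) → A.map (MulAut.conj g).toMonoidHom = A) (a : G) (ha : a ∈ A) (ha1 : a ≠ 1) (g : G) (hg : A.map (MulAut.conj g).toMonoidHom ≤ Subgroup.centralizer ({a} : Set G)) : A.map (MulAut.conj g).toMonoidHom = A := by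
  obtain ⟨hAc, hA2⟩ := hA
  have hAcomm : ∀ x ∈ A, ∀ y ∈ A, x * y = y * x := fun x hx y hy =>
    congrArg Subtype.val (hAc.is_comm.comm (⟨x, hx⟩ : A) ⟨y, hy⟩)
  have hAinv : ∀ x ∈ A, x⁻¹ = x := by
    intro x hx
    have h1 := hA2 x hx
    rw [pow_two] at h1
    exact inv_eq_of_mul_eq_one_left h1
  by_contra hne
  set B := A.map (MulAut.conj g).toMonoidHom with hB
  have hBinv : ∀ x ∈ B, x⁻¹ = x := by
    rintro _ ⟨x, hx, rfl⟩
    rw [← map_inv, hAinv x hx]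
  have hAB : B ⊓ A = ⊥ := (hTI g).resolve_right hne
  have hBa : ∀ b ∈ B, b * a * b⁻¹ = a := by
    intro b hb
    have := hg hb
    rw [Subgroup.mem_centralizer_singleton_iff] at this
    rw [this, mul_inv_cancel_right]
  have hmapeq : ∀ (h : G), (∃ x ∈ A, x ≠ 1 ∧ h * x * h⁻¹ ∈ A) → ∀ y ∈ A, h * y * h⁻¹ ∈ A := by
    rintro h ⟨x, hx, hx1, hxA⟩ y hy
    have h1 : A.map (MulAut.conj h).toMonoidHom = A := by
      apply (hTI h).resolve_left
      intro h2
      have h3 : h * x * h⁻¹ ∈ A.map (MulAut.conj h).toMonoidHom ⊓ A := ⟨⟨x, hx, rfl⟩, hxA⟩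
      rw [h2, Subgroup.mem_bot, mul_inv_eq_one, mul_eq_left] at h3
      exact hx1 h3
    rw [← h1]
    exact ⟨y, hy, rfl⟩
  have hBn : ∀ b ∈ B, ∀ y ∈ A, b * y * b⁻¹ ∈ A := fun b hb =>
    hmapeq b ⟨a, ha, ha1, by rw [hBa b hb]; exact ha⟩
  -- elements of `A` commuting with a nontrivial element of `B` centralize `B`
  have key : ∀ x ∈ A, ∀ b ∈ B, b ≠ 1 → x * b = b * x → ∀ b' ∈ B, x * b' = b' * x := by
    intro x hx b hb hb1 hxb b' hb'
    have h1 : ∀ y ∈ B, x * y * x⁻¹ ∈ B := by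
      obtain ⟨c, hc, rfl⟩ := hb
      rintro _ ⟨d, hd, rfl⟩
      have h2 := hmapeq (g⁻¹ * x * g) ⟨c, hc, fun h => hb1 (by rw [h]; simp), by
        have h3 : x * (g * c * g⁻¹) = g * c * g⁻¹ * x := hxb
        have h4 : g⁻¹ * x * g * c * (g⁻¹ * x * g)⁻¹ = g⁻¹ * (x * (g * c * g⁻¹)) * x⁻¹ * g := by group
        rw [h4, h3]
        have h5 : g⁻¹ * (g * c * g⁻¹ * x) * x⁻¹ * g = c := by group
        rw [h5]; exact hc⟩ d hd
      refine ⟨_, h2, ?_⟩
      show g * (g⁻¹ * x * g * d * (g⁻¹ * x * g)⁻¹) * g⁻¹ = x * (g * d * g⁻¹) * x⁻¹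
      group
    have h2 : x * b' * x⁻¹ * b'⁻¹ ∈ B ⊓ A := by
      refine ⟨B.mul_mem (h1 b' hb') (B.inv_mem hb'), ?_⟩
      have : x * b' * x⁻¹ * b'⁻¹ = x * (b' * x⁻¹ * b'⁻¹) := by group
      rw [this]
      exact A.mul_mem hx (hBn b' hb' _ (A.inv_mem hx))
    rw [hAB, Subgroup.mem_bot, mul_inv_eq_one, mul_inv_eq_iff_eq_mul] at h2
    exact h2
  apply hne
  apply hb g
  by_contra hcon
  push Not at hcon
  obtain ⟨x, hx, b₀, hb₀, hxb₀⟩ := hcon
  let C : Subgroup G := A ⊓ Subgroup.centralizer (B : Set G)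
  have hmem : ∀ b : B, x * (b : G) * x⁻¹ * (b : G)⁻¹ ∈ C := by
    rintro ⟨b, hb⟩
    have h1 : x * b * x⁻¹ * b⁻¹ ∈ A := by
      have : x * b * x⁻¹ * b⁻¹ = x * (b * x⁻¹ * b⁻¹) := by group
      rw [this]
      exact A.mul_mem hx (hBn b hb _ (A.inv_mem hx))
    refine ⟨h1, ?_⟩
    show x * b * x⁻¹ * b⁻¹ ∈ Subgroup.centralizer (B : Set G)
    rw [Subgroup.mem_centralizer_iff]
    by_cases hb1 : b = 1
    · subst hb1
      intro y _
      simp
    · intro y hy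
      refine (key _ h1 b hb hb1 ?_ y hy).symm
      have h2 := hBn b hb x hx
      have h3 := hAcomm _ h2 x hx
      have hbb : b * b = 1 := by
        have := hBinv b hb
        nth_rewrite 1 [← this]
        exact inv_mul_cancel b
      calc x * b * x⁻¹ * b⁻¹ * b = x * b * x := by rw [inv_mul_cancel_right, hAinv x hx]
        _ = (x * (b * x * b⁻¹)) * b := by group
        _ = ((b * x * b⁻¹) * x) * b := by rw [← h3]
        _ = b * (x * b * x * b⁻¹) * (b * b) := by rw [hBinv b hb, hbb]; simp only [mul_assoc, hbb, mul_one]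
        _ = b * (x * b * x⁻¹ * b⁻¹) := by rw [hbb, mul_one, hAinv x hx]
  have hinj : Function.Injective (fun b : B => (⟨_, hmem b⟩ : C)) := by
    rintro ⟨b, hb⟩ ⟨b', hb'⟩ h
    have h1 : x * b * x⁻¹ * b⁻¹ = x * b' * x⁻¹ * b'⁻¹ := congrArg Subtype.val h
    apply Subtype.ext
    show b = b'
    by_contra hbb
    have h2 : b'⁻¹ * b ≠ 1 := fun h3 => hbb (inv_mul_eq_one.1 h3).symm
    apply hxb₀
    refine key x hx (b'⁻¹ * b) (B.mul_mem (B.inv_mem hb') hb) h2 ?_ b₀ hb₀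
    have h3 : b * x⁻¹ * b⁻¹ = b' * x⁻¹ * b'⁻¹ := by
      have := congrArg (fun y => x⁻¹ * y) h1
      simpa [mul_assoc] using this
    have h4 : x⁻¹ * (b'⁻¹ * b)⁻¹ = (b'⁻¹ * b)⁻¹ * x⁻¹ := by
      have : b⁻¹ * (b * x⁻¹ * b⁻¹) * b' = b⁻¹ * (b' * x⁻¹ * b'⁻¹) * b' := congrArg (fun y => b⁻¹ * y * b') h3
      calc x⁻¹ * (b'⁻¹ * b)⁻¹ = b⁻¹ * (b * x⁻¹ * b⁻¹) * b' := by group
        _ = b⁻¹ * (b' * x⁻¹ * b'⁻¹) * b' := this
        _ = _ := by group
    have h5 := congrArg (fun y => y⁻¹) h4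
    simp only [mul_inv_rev, inv_inv] at h5
    rw [mul_assoc] at h5 ⊢
    exact h5.symm
  have hcard : Nat.card A ≤ Nat.card C := by
    rw [Nat.card_congr (A.equivMapOfInjective (MulAut.conj g).toMonoidHom (MulAut.conj g).injective).toEquiv]
    exact Nat.card_le_card_of_injective _ hinj
  have hCA : C = A := Subgroup.eq_of_le_of_card_ge inf_le_left hcard
  rw [← hCA] at hx
  exact hxb₀ ((Subgroup.mem_centralizer_iff.1 hx.2) b₀ hb₀).symm

end Cfsg.Agent.S1177
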