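import Cfsg.Statements.S1178
-- import your own Cfsg.Agent.* helpers here

set_option autoImplicit false
open Cfsg

namespace Cfsg.Agent.S1178

/-- Let A be a subgroup of a Sylow 2-subgroup S of the finite group G which is weakly closed in S. If a conjugate g A g⁻¹ commutes elementwise with A, then g A g⁻¹ = A. -/
theorem result {G : Type*} [Group G] [Finite G] (S : Sylow 2 G) (A : Subgroup G) (hW : Cfsg.IsWeaklyClosed A (S : Subgroup G)) (g : G) (hc : ∀ a ∈ A, ∀ b ∈ A.map (MulAut.conj g).toMonoidHom, a * b = b * a) : A.map (MulAut.conj g).toMonoidHom = A := by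
  obtain ⟨hAS, hW⟩ := hW
  -- a 2-group containing both
  have hA2 : IsPGroup 2 A := S.isPGroup'.to_le hAS
  have hB2 : IsPGroup 2 (A.map (MulAut.conj g).toMonoidHom) := hA2.map _
  have hAB : A ≤ Subgroup.normalizer ((A.map (MulAut.conj g).toMonoidHom : Subgroup G) : Set G) := by
    refine le_trans ?_ (Subgroup.centralizer_le_normalizer _)
    intro a ha
    rw [Subgroup.mem_centralizer_iff]
    intro b hb
    exact (hc a ha b hb).symm
  have hsup : IsPGroup 2 ↥(A ⊔ A.map (MulAut.conj g).toMonoidHom) := hA2.to_sup_of_normal_right' hB2 hAB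
  obtain ⟨R, hR⟩ := hsup.exists_le_sylow
  obtain ⟨x, hx⟩ := MulAction.exists_smul_eq G R S
  have hxS : ∀ y ∈ R, x * y * x⁻¹ ∈ (S : Subgroup G) := by
    intro y hy
    rw [← hx]; exact ⟨y, hy, rfl⟩
  have h1 : A.map (MulAut.conj x).toMonoidHom = A := by
    apply hW
    rintro _ ⟨a, ha, rfl⟩
    exact hxS a (hR (Subgroup.mem_sup_left ha))
  have h2 : A.map (MulAut.conj (x * g)).toMonoidHom = A := by
    apply hW
    rintro _ ⟨a, ha, rfl⟩
    have := hxS (g * a * g⁻¹) (hR (Subgroup.mem_sup_right ⟨a, ha, rfl⟩))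
    have e : (MulAut.conj (x * g)).toMonoidHom a = x * (g * a * g⁻¹) * x⁻¹ := by
      show x * g * a * (x * g)⁻¹ = _
      group
    rw [e]; exact this
  have h3 : (A.map (MulAut.conj g).toMonoidHom).map (MulAut.conj x).toMonoidHom = A := by
    rw [Subgroup.map_map]
    have e : ((MulAut.conj x).toMonoidHom.comp (MulAut.conj g).toMonoidHom) = (MulAut.conj (x * g)).toMonoidHom := by
      ext z; simp [mul_assoc]
    rw [e]; exact h2
  exact Subgroup.map_injective (MulAut.conj x).injective (h3.trans h1.symm)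

end Cfsg.Agent.S1178
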