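import Cfsg.Statements.S1181
import Cfsg.Agent.Lib.H9Isol
-- import your own Cfsg.Agent.* helpers here

set_option autoImplicit false
open Cfsg

namespace Cfsg.Agent.S1181

/-- Let z be an isolated involution of the finite group G and N a normal subgroup with z ∉ N. Then the centralizer of zN in G/N is the image of C_G(z), and zN is an isolated involution of G/N. -/
theorem result {G : Type*} [Group G] [Finite G] (z : G) (hz : Cfsg.IsIsolatedInvolution z) (N : Subgroup G) [N.Normal] (hzN : z ∉ N) : Subgroup.centralizer ({(QuotientGroup.mk z : G ⧸ N)} : Set (G ⧸ N)) = (Subgroup.centralizer ({z} : Set G)).map (QuotientGroup.mk' N) ∧ Cfsg.IsIsolatedInvolution (QuotientGroup.mk z : G ⧸ N) := by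
  have hNconj : ∀ n ∈ N, ∀ g : G, g * n * g⁻¹ ∈ N := fun n hn g => (inferInstance : N.Normal).conj_mem n hn g
  have hmk : ∀ x : G, (QuotientGroup.mk x : G ⧸ N) = 1 ↔ x ∈ N := fun x => QuotientGroup.eq_one_iff x
  constructor
  · apply le_antisymm
    · intro a
      induction a using QuotientGroup.induction_on with
      | H g =>
        intro ha
        rw [Subgroup.mem_centralizer_singleton_iff] at ha
        have h1 : z * (g * z * g⁻¹) ∈ N := by
          rw [← hmk, QuotientGroup.mk_mul, QuotientGroup.mk_mul, QuotientGroup.mk_mul, ha, QuotientGroup.mk_inv,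
            mul_inv_cancel_right, ← QuotientGroup.mk_mul, CfsgLib.H9Isol.mul_self hz.1, QuotientGroup.mk_one]
        obtain ⟨i, hi⟩ := CfsgLib.H9Isol.conj_in hz g
        set k := z * (g * z * g⁻¹) with hk
        refine ⟨k ^ i * g, ?_, ?_⟩
        · rw [SetLike.mem_coe, Subgroup.mem_centralizer_singleton_iff]
          have h2 : (k ^ i) * (g * z * g⁻¹) * (k ^ i)⁻¹ = z := by rw [← hi]; group
          calc k ^ i * g * z = ((k ^ i) * (g * z * g⁻¹) * (k ^ i)⁻¹) * (k ^ i * g) := by group
            _ = _ := by rw [h2]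
        · show (QuotientGroup.mk (k ^ i * g) : G ⧸ N) = QuotientGroup.mk g
          rw [QuotientGroup.mk_mul, (hmk _).2 (N.pow_mem h1 i), one_mul]
    · rintro _ ⟨c, hc, rfl⟩
      rw [SetLike.mem_coe, Subgroup.mem_centralizer_singleton_iff] at hc
      rw [Subgroup.mem_centralizer_singleton_iff]
      show (QuotientGroup.mk c : G ⧸ N) * QuotientGroup.mk z = _
      rw [← QuotientGroup.mk_mul, hc]; rfl
  · refine ⟨?_, ?_⟩
    · have h1 : (QuotientGroup.mk z : G ⧸ N) ^ 2 = 1 := by
        rw [← QuotientGroup.mk_pow, pow_two, CfsgLib.H9Isol.mul_self hz.1, QuotientGroup.mk_one]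
      exact orderOf_eq_prime h1 fun h => hzN ((hmk z).1 h)
    · intro a
      induction a using QuotientGroup.induction_on with
      | H g =>
        intro ha
        have h0 : (QuotientGroup.mk g : G ⧸ N) * QuotientGroup.mk z * (QuotientGroup.mk g)⁻¹ =
          QuotientGroup.mk (g * z * g⁻¹) := rfl
        rw [h0] at ha ⊢
        have hs2 : orderOf (g * z * g⁻¹) = 2 := by rw [CfsgLib.H9Isol.orderOf_conj, hz.1]
        have h1 : (z * (g * z * g⁻¹)) ^ 2 ∈ N := by
          rw [← hmk, QuotientGroup.mk_pow, QuotientGroup.mk_mul, ha.mul_pow, ← QuotientGroup.mk_pow,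
            ← QuotientGroup.mk_pow, pow_two, CfsgLib.H9Isol.mul_self hz.1, pow_two, CfsgLib.H9Isol.mul_self hs2,
            QuotientGroup.mk_one, mul_one]
        have h2 := CfsgLib.H9Isol.mem_of_sq_mem (CfsgLib.H9Isol.odd_order hz g) h1
        rw [eq_comm, QuotientGroup.eq, CfsgLib.H9Isol.inv_eq hz.1]
        exact h2

end Cfsg.Agent.S1181
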