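import Cfsg.Statements.S1182
import Cfsg.Agent.Lib.H9Isol
-- import your own Cfsg.Agent.* helpers here

set_option autoImplicit false
open Cfsg

namespace Cfsg.Agent.S1182

/-- Let z be an isolated involution of the finite group G and H a subgroup normalized by z. If x, y ∈ H both commute with z and y = h x h⁻¹ for some h ∈ H, then y = c x c⁻¹ for some c ∈ H commuting with z. -/
theorem result {G : Type*} [Group G] [Finite G] (z : G) (hz : Cfsg.IsIsolatedInvolution z) (H : Subgroup G) (hzH : z ∈ Subgroup.normalizer (H : Set G)) (x y : G) (hx : x ∈ H) (hy : y ∈ H) (hxz : Commute x z) (hyz : Commute y z) (h : G) (hh : h ∈ H) (hconj : h * x * h⁻¹ = y) : ∃ c ∈ H, Commute c z ∧ c * x * c⁻¹ = y := by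
  obtain ⟨i, hi⟩ := CfsgLib.H9Isol.conj_in hz h⁻¹
  set k := z * (h⁻¹ * z * h⁻¹⁻¹) with hk
  have hkH : k ∈ H := by
    have h1 : z * h⁻¹ * z⁻¹ ∈ H := (Subgroup.mem_normalizer_iff.1 hzH _).1 (H.inv_mem hh)
    have h2 : k = (z * h⁻¹ * z⁻¹) * h := by
      rw [hk, CfsgLib.H9Isol.inv_eq hz.1, inv_inv]; group
    rw [h2]; exact H.mul_mem h1 hh
  have hkx : Commute k x := by
    rw [hk]
    apply Commute.mul_left hxz.symm
    show h⁻¹ * z * h⁻¹⁻¹ * x = x * (h⁻¹ * z * h⁻¹⁻¹)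
    have h3 : x = h⁻¹ * y * h := by rw [← hconj]; group
    rw [h3, inv_inv]
    calc h⁻¹ * z * h * (h⁻¹ * y * h) = h⁻¹ * (z * y) * h := by group
      _ = h⁻¹ * (y * z) * h := by rw [hyz.symm.eq]
      _ = _ := by group
  refine ⟨h * (k ^ i)⁻¹, H.mul_mem hh (H.inv_mem (H.pow_mem hkH i)), ?_, ?_⟩
  · have h4 : h * (k ^ i)⁻¹ * z * (h * (k ^ i)⁻¹)⁻¹ = z := by
      calc h * (k ^ i)⁻¹ * z * (h * (k ^ i)⁻¹)⁻¹ = h * ((k ^ i)⁻¹ * z * k ^ i) * h⁻¹ := by group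
        _ = h * (h⁻¹ * z * h⁻¹⁻¹) * h⁻¹ := by rw [hi]
        _ = z := by group
    rw [mul_inv_eq_iff_eq_mul] at h4
    exact h4
  · have h5 : Commute (k ^ i) x := hkx.pow_left i
    calc h * (k ^ i)⁻¹ * x * (h * (k ^ i)⁻¹)⁻¹ = h * ((k ^ i)⁻¹ * (x * k ^ i)) * h⁻¹ := by group
      _ = h * ((k ^ i)⁻¹ * (k ^ i * x)) * h⁻¹ := by rw [h5.eq]
      _ = h * x * h⁻¹ := by group
      _ = y := hconj

end Cfsg.Agent.S1182
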