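import Cfsg.Statements.S1184
import Cfsg.Agent.Lib.H9Isol
-- import your own Cfsg.Agent.* helpers here

set_option autoImplicit false
open Cfsg

namespace Cfsg.Agent.S1184

/-- Let z be an isolated involution of the finite group G. If s and t are distinct conjugates of z, then st does not commute with z. -/
theorem result {G : Type*} [Group G] [Finite G] (z : G) (hz : Cfsg.IsIsolatedInvolution z) (g h : G) (hne : g * z * g⁻¹ ≠ h * z * h⁻¹) : ¬ Commute (g * z * g⁻¹ * (h * z * h⁻¹)) z := by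
  intro hc
  set s := g * z * g⁻¹ with hs
  set t := h * z * h⁻¹ with ht
  clear_value s t
  have hs2 : orderOf s = 2 := by rw [hs, CfsgLib.H9Isol.orderOf_conj, hz.1]
  have ht2 : orderOf t = 2 := by rw [ht, CfsgLib.H9Isol.orderOf_conj, hz.1]
  have hst : Odd (orderOf (s * t)) := by
    have h1 := CfsgLib.H9Isol.odd_order hz (g⁻¹ * h)
    have h2 : g * (z * ((g⁻¹ * h) * z * (g⁻¹ * h)⁻¹)) * g⁻¹ = s * t := by rw [hs, ht]; group
    rw [← h2, CfsgLib.H9Isol.orderOf_conj]; exact h1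
  have hk := CfsgLib.H9Isol.odd_order hz g
  rw [← hs] at hk
  have hsinv : s * (s * t) * s⁻¹ = (s * t)⁻¹ := by
    rw [mul_inv_rev, CfsgLib.H9Isol.inv_eq hs2, CfsgLib.H9Isol.inv_eq ht2, ← mul_assoc,
      CfsgLib.H9Isol.mul_self hs2, one_mul]
  have hkinv : (z * s) * (s * t) * (z * s)⁻¹ = (s * t)⁻¹ := by
    calc (z * s) * (s * t) * (z * s)⁻¹ = z * (s * (s * t) * s⁻¹) * z⁻¹ := by group
      _ = z * (s * t)⁻¹ * z⁻¹ := by rw [hsinv]
      _ = (s * t)⁻¹ := by
        have h3 : Commute z (s * t)⁻¹ := hc.symm.inv_right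
        rw [h3.eq]; group
  have hk2 : (z * s) ^ 2 ∈ Subgroup.centralizer ({s * t} : Set G) := by
    rw [Subgroup.mem_centralizer_singleton_iff, ← mul_inv_eq_iff_eq_mul]
    calc (z * s) ^ 2 * (s * t) * ((z * s) ^ 2)⁻¹ = (z * s) * ((z * s) * (s * t) * (z * s)⁻¹) * (z * s)⁻¹ := by
          rw [pow_two]; group
      _ = (z * s) * (s * t)⁻¹ * (z * s)⁻¹ := by rw [hkinv]
      _ = ((z * s) * (s * t) * (z * s)⁻¹)⁻¹ := by group
      _ = s * t := by rw [hkinv, inv_inv]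
  have hk1 := CfsgLib.H9Isol.mem_of_sq_mem hk hk2
  rw [Subgroup.mem_centralizer_singleton_iff, ← mul_inv_eq_iff_eq_mul, hkinv] at hk1
  have h4 : (s * t) ^ 2 ∈ (⊥ : Subgroup G) := by
    rw [Subgroup.mem_bot, pow_two]
    nth_rewrite 1 [← hk1]
    rw [inv_mul_cancel]
  have h5 := CfsgLib.H9Isol.mem_of_sq_mem hst h4
  rw [Subgroup.mem_bot, mul_eq_one_iff_eq_inv, CfsgLib.H9Isol.inv_eq ht2] at h5
  exact hne h5

end Cfsg.Agent.S1184
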