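import Cfsg.Statements.S1185
import Cfsg.Agent.Lib.H9Isol
-- import your own Cfsg.Agent.* helpers here

set_option autoImplicit false
open Cfsg

namespace Cfsg.Agent.S1185

/-- Let z be an isolated involution of the finite group G with centralizer C. Then for every g ∈ G there is exactly one element k in the coset gC that has odd order and is inverted by z. -/
theorem result {G : Type*} [Group G] [Finite G] (z : G) (hz : Cfsg.IsIsolatedInvolution z) (g : G) : ∃! k : G, (Odd (orderOf k) ∧ z * k * z⁻¹ = k⁻¹) ∧ g⁻¹ * k ∈ Subgroup.centralizer ({z} : Set G) := by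
  set s := g * z * g⁻¹ with hs
  have hs2 : orderOf s = 2 := by rw [hs, CfsgLib.H9Isol.orderOf_conj, hz.1]
  have ho : Odd (orderOf (s * z)) := by
    have h1 := CfsgLib.H9Isol.odd_order hz g
    have h2 : s * z = (z * s)⁻¹ := by
      rw [mul_inv_rev, CfsgLib.H9Isol.inv_eq hs2, CfsgLib.H9Isol.inv_eq hz.1]
    rw [h2, orderOf_inv]; exact h1
  obtain ⟨j, hj⟩ := id ho
  have hzu : z * (s * z) * z⁻¹ = (s * z)⁻¹ := by
    rw [mul_inv_rev, CfsgLib.H9Isol.inv_eq hs2, CfsgLib.H9Isol.inv_eq hz.1, mul_assoc, mul_assoc,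
      CfsgLib.H9Isol.mul_self hz.1, mul_one]
  have key : ∀ k : G, z * k * z⁻¹ = k⁻¹ → g⁻¹ * k ∈ Subgroup.centralizer ({z} : Set G) → k ^ 2 = s * z := by
    intro k h1 h2
    rw [Subgroup.mem_centralizer_singleton_iff] at h2
    have h3 : k * z * k⁻¹ = s := by
      rw [hs]
      calc k * z * k⁻¹ = g * (g⁻¹ * k * z) * k⁻¹ := by group
        _ = g * (z * (g⁻¹ * k)) * k⁻¹ := by rw [h2]
        _ = g * z * g⁻¹ := by group
    rw [← h3]
    have h4 : z * k⁻¹ * z⁻¹ = k := by
      have := congrArg (fun x => x⁻¹) h1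
      simpa [mul_assoc] using this
    rw [CfsgLib.H9Isol.inv_eq hz.1] at h4
    rw [pow_two, mul_assoc, mul_assoc, ← mul_assoc z, h4]
  refine ⟨(s * z) ^ (j + 1), ⟨⟨?_, ?_⟩, ?_⟩, ?_⟩
  · exact Odd.of_dvd_nat ho (orderOf_pow_dvd _)
  · rw [← conj_pow, hzu, inv_pow]
  · rw [Subgroup.mem_centralizer_singleton_iff]
    set k := (s * z) ^ (j + 1) with hk
    have h1 : z * k * z⁻¹ = k⁻¹ := by rw [hk, ← conj_pow, hzu, inv_pow]
    have h2 : k ^ 2 = s * z := by
      rw [hk, ← pow_mul, show (j + 1) * 2 = orderOf (s * z) + 1 by omega, pow_succ, pow_orderOf_eq_one, one_mul]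
    have h3 : k * z * k⁻¹ = s := by
      have h4 : z * k⁻¹ * z⁻¹ = k := by
        have := congrArg (fun x => x⁻¹) h1
        simpa [mul_assoc] using this
      calc k * z * k⁻¹ = k * (z * k⁻¹ * z⁻¹) * z := by group
        _ = k ^ 2 * z := by rw [h4, pow_two]
        _ = s * (z * z) := by rw [h2, mul_assoc]
        _ = s := by rw [CfsgLib.H9Isol.mul_self hz.1, mul_one]
    calc g⁻¹ * k * z = g⁻¹ * (k * z * k⁻¹) * k := by group
      _ = g⁻¹ * s * k := by rw [h3]
      _ = z * (g⁻¹ * k) := by rw [hs]; group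
  · rintro k ⟨⟨h1, h2⟩, h3⟩
    have h4 := key k h2 h3
    obtain ⟨i, hi⟩ := h1
    have h5 : k = (k ^ 2) ^ (i + 1) := by
      rw [← pow_mul, show 2 * (i + 1) = orderOf k + 1 by omega, pow_succ, pow_orderOf_eq_one, one_mul]
    have h6 : orderOf (k ^ 2) = orderOf k := by
      apply Nat.Coprime.orderOf_pow
      rw [hi]
      exact Nat.coprime_two_right.2 ⟨i, rfl⟩
    rw [h4] at h6
    have h7 : i = j := by omega
    rw [h5, h4, h7]

end Cfsg.Agent.S1185
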