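import Cfsg.Statements.S1226
-- import your own Cfsg.Agent.* helpers here

set_option autoImplicit false
open Cfsg

namespace Cfsg.Agent.S1226

/-- Let G be a finite group with a Sylow 2-subgroup T that is neither cyclic nor normal, such that the centralizer of every involution is an elementary abelian 2-group. Then N_G(T) is a strongly embedded subgroup of G. -/
theorem result {G : Type*} [Group G] [Finite G] (T : Sylow 2 G) (hnc : ¬ IsCyclic (T : Subgroup G)) (hnn : ¬ (T : Subgroup G).Normal) (hC : ∀ t : G, orderOf t = 2 → IsMulCommutative (Subgroup.centralizer ({t} : Set G)) ∧ ∀ c ∈ Subgroup.centralizer ({t} : Set G), c ^ 2 = 1) : Cfsg.IsStronglyEmbedded (Subgroup.normalizer ((T : Subgroup G) : Set G)) := by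
  have hp2 : Fact (Nat.Prime 2) := ⟨Nat.prime_two⟩
  have hT2 := T.isPGroup'
  have hTne : (T : Subgroup G) ≠ ⊥ := by
    intro h
    apply hnc
    rw [h]
    infer_instance
  have hnt : Nontrivial (T : Subgroup G) := (Subgroup.nontrivial_iff_ne_bot _).2 hTne
  -- the centralizer of an involution of `T` is `T`
  obtain ⟨z, hz⟩ : ∃ z : Subgroup.center (T : Subgroup G), orderOf z = 2 := by
    have := hT2.center_nontrivial
    have h1 : 2 ∣ Nat.card (Subgroup.center (T : Subgroup G)) := by
      obtain ⟨k, hk⟩ := IsPGroup.iff_card.1 (hT2.to_subgroup (Subgroup.center (T : Subgroup G)))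
      have h2 : 1 < Nat.card (Subgroup.center (T : Subgroup G)) := Finite.one_lt_card
      rw [hk] at h2 ⊢
      rcases k with _ | k
      · simp at h2
      · exact dvd_pow_self 2 (by omega)
    exact exists_prime_orderOf_dvd_card' 2 h1
  have hz2 : orderOf ((z : (T : Subgroup G)) : G) = 2 := by
    rw [Subgroup.orderOf_coe, Subgroup.orderOf_coe, hz]
  have key : ∀ (R : Sylow 2 G) (t : G), orderOf t = 2 → t ∈ R → (R : Subgroup G) ≤ Subgroup.centralizer ({t} : Set G) →
      Subgroup.centralizer ({t} : Set G) = R := by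
    intro R t ht htR hR
    apply R.is_maximal' _ hR
    rintro ⟨c, hc⟩
    exact ⟨1, Subtype.ext (by
      show c ^ 2 ^ 1 = 1
      rw [pow_one]; exact (hC t ht).2 c hc)⟩
  have hTz : (T : Subgroup G) ≤ Subgroup.centralizer ({((z : (T : Subgroup G)) : G)} : Set G) := by
    intro t ht
    rw [Subgroup.mem_centralizer_singleton_iff]
    exact congrArg Subtype.val (Subgroup.mem_center_iff.1 z.2 ⟨t, ht⟩)
  have hCz := key T _ hz2 z.1.2 hTz
  have hTab : ∀ x ∈ (T : Subgroup G), ∀ y ∈ (T : Subgroup G), x * y = y * x := by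
    intro x hx y hy
    rw [← hCz] at hx hy
    have := (hC _ hz2).1
    exact congrArg Subtype.val (this.is_comm.comm ⟨x, hx⟩ ⟨y, hy⟩)
  have hall : ∀ (R : Sylow 2 G) (t : G), orderOf t = 2 → t ∈ R → Subgroup.centralizer ({t} : Set G) = R := by
    intro R t ht htR
    apply key R t ht htR
    obtain ⟨x, hx⟩ := MulAction.exists_smul_eq G R T
    have hxT : ∀ y ∈ R, x * y * x⁻¹ ∈ (T : Subgroup G) := by
      intro y hy
      rw [← hx]; exact ⟨y, hy, rfl⟩
    intro r hr
    rw [Subgroup.mem_centralizer_singleton_iff]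
    have h1 := hTab _ (hxT r hr) _ (hxT t htR)
    have h2 := congrArg (fun y => x⁻¹ * y * x) h1
    simpa [mul_assoc] using h2
  refine ⟨fun h => hnn (Subgroup.normalizer_eq_top_iff.1 h), ?_, ?_⟩
  · have h1 : 2 ∣ Nat.card (Subgroup.normalizer ((T : Subgroup G) : Set G)) := by
      have h2 : ((z : (T : Subgroup G)) : G) ∈ Subgroup.normalizer ((T : Subgroup G) : Set G) :=
        Subgroup.le_normalizer z.1.2
      have h3 := orderOf_dvd_natCard (⟨_, h2⟩ : Subgroup.normalizer ((T : Subgroup G) : Set G))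
      rwa [Subgroup.orderOf_mk, hz2] at h3
    exact even_iff_two_dvd.2 h1
  · intro g hg
    by_contra hodd
    rw [Nat.not_odd_iff_even, even_iff_two_dvd] at hodd
    obtain ⟨t, ht⟩ := exists_prime_orderOf_dvd_card' 2 hodd
    have ht2 : orderOf (t : G) = 2 := by rw [Subgroup.orderOf_coe, ht]
    have hmem : ∀ (R : Sylow 2 G) (s : G), orderOf s = 2 → s ∈ Subgroup.normalizer ((R : Subgroup G) : Set G) → s ∈ R := by
      intro R s hs hsR
      have h1 : IsPGroup 2 (Subgroup.zpowers s) := by
        apply IsPGroup.of_card (n := 1)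
        rw [Nat.card_zpowers, hs, pow_one]
      have h2 : IsPGroup 2 ↥(Subgroup.zpowers s ⊔ (R : Subgroup G)) :=
        h1.to_sup_of_normal_right' R.isPGroup' (by rw [Subgroup.zpowers_le]; exact hsR)
      have h3 := R.is_maximal' h2 le_sup_right
      have h4 : s ∈ Subgroup.zpowers s ⊔ (R : Subgroup G) := Subgroup.mem_sup_left (Subgroup.mem_zpowers s)
      rw [h3] at h4; exact h4
    have h1 : (t : G) ∈ T := hmem T _ ht2 t.2.1
    have h2 : (t : G) ∈ g • T := by
      apply hmem _ _ ht2
      obtain ⟨y, hy, hyt⟩ := t.2.2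
      rw [← hyt]
      have h3 : ((g • T : Sylow 2 G) : Subgroup G) = (T : Subgroup G).map (MulAut.conj g).toMonoidHom := rfl
      rw [h3, ← Subgroup.map_equiv_normalizer_eq]
      exact ⟨y, hy, rfl⟩
    have h3 := hall T _ ht2 h1
    have h4 := hall (g • T) _ ht2 h2
    rw [h3] at h4
    apply hg
    have h5 : g • T = T := Sylow.ext h4.symm
    exact Sylow.smul_eq_iff_mem_normalizer.1 h5

end Cfsg.Agent.S1226
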