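import Cfsg.Statements.S1236
import Cfsg.Agent.Lib.H9QD2
import Cfsg.Agent.Lib.H9Dih
-- import your own Cfsg.Agent.* helpers here

set_option autoImplicit false
open Cfsg

namespace Cfsg.Agent.S1236

/-- Let R be a finite group, t a central involution of R such that R ⧸ ⟨t⟩ is dihedral (of order ≥ 4) or quasi-dihedral, and A ≤ R an elementary abelian subgroup of order 8 containing t. Then C_R(A) = A. -/
theorem result {R : Type*} [Group R] [Finite R] (t : R) (ht : orderOf t = 2) (htz : t ∈ Subgroup.center R) [(Subgroup.zpowers t).Normal] (hq : (∃ m : ℕ, 2 ≤ m ∧ Nonempty (R ⧸ Subgroup.zpowers t ≃* DihedralGroup m)) ∨ Cfsg.IsQuasiDihedral (R ⧸ Subgroup.zpowers t)) (A : Subgroup R) (hA : Cfsg.IsElementaryAbelian 2 A) (hA8 : Nat.card A = 8) (htA : t ∈ A) : Subgroup.centralizer (A : Set R) = A := by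
  classical
  obtain ⟨hAc, hA2⟩ := hA
  set Z := Subgroup.zpowers t with hZ
  set π := QuotientGroup.mk' Z with hπ
  have hZA : Z ≤ A := by rw [hZ, Subgroup.zpowers_le]; exact htA
  have hAf : Finite A := Nat.finite_of_card_ne_zero (by omega)
  have hAcomm : ∀ a ∈ A, ∀ b ∈ A, a * b = b * a := fun a ha b hb =>
    congrArg Subtype.val (hAc.is_comm.comm (⟨a, ha⟩ : A) ⟨b, hb⟩)
  -- the image is a four-group
  have hT2 : ∀ k ∈ A.map π, k ^ 2 = 1 := by
    rintro _ ⟨a, ha, rfl⟩
    rw [← map_pow, hA2 a ha, map_one]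
  have hTcard : Nat.card ↥(A.map π) = 4 := by
    have h1 := (π.comp A.subtype).ker.card_mul_index
    rw [Subgroup.index_ker, hA8, MonoidHom.range_comp, Subgroup.range_subtype] at h1
    have h2 : Nat.card (π.comp A.subtype).ker = 2 := by
      have h3 : (π.comp A.subtype).ker = Z.subgroupOf A := by
        rw [← MonoidHom.comap_ker, hπ, QuotientGroup.ker_mk']; rfl
      rw [h3, Nat.card_congr (Subgroup.subgroupOfEquivOfLe hZA).toEquiv, hZ, Nat.card_zpowers, ht]
    rw [h2] at h1
    omega
  have hT : IsKleinFour ↥(A.map π) := CfsgLib.H9Dih.isKleinFour _ hTcard hT2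
  have hcent : Subgroup.centralizer ((A.map π : Subgroup (R ⧸ Z)) : Set (R ⧸ Z)) ≤ A.map π := by
    rcases hq with ⟨m, hm, ⟨e⟩⟩ | hq
    · have hT' : IsKleinFour ↥((A.map π).map e.toMonoidHom) := by
        apply CfsgLib.H9Dih.isKleinFour
        · rw [← hTcard]
          exact (Nat.card_congr ((A.map π).equivMapOfInjective e.toMonoidHom e.injective).toEquiv).symm
        · rintro _ ⟨k, hk, rfl⟩
          rw [← map_pow, hT2 k hk, map_one]
      have h1 := CfsgLib.H9Dih.klein_cent (by omega) hT'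
      intro c hc
      have h2 : e c ∈ (A.map π).map e.toMonoidHom := by
        rw [← h1, Subgroup.mem_centralizer_iff]
        rintro _ ⟨k, hk, rfl⟩
        show e k * e c = e c * e k
        rw [← map_mul, ← map_mul, Subgroup.mem_centralizer_iff.1 hc k hk]
      obtain ⟨k, hk, hkc⟩ := h2
      have h3 : k = c := e.injective hkc
      rwa [← h3]
    · obtain ⟨k, x, y, h⟩ := CfsgLib.H9QD.exists_SD hq
      exact (h.klein_cent hT).le
  apply le_antisymm
  · intro c hc
    have h1 : π c ∈ A.map π := by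
      apply hcent
      rw [Subgroup.mem_centralizer_iff]
      rintro _ ⟨a, ha, rfl⟩
      rw [← map_mul, ← map_mul, Subgroup.mem_centralizer_iff.1 hc a ha]
    obtain ⟨a, ha, hac⟩ := h1
    have h2 : a⁻¹ * c ∈ Z := QuotientGroup.eq.1 hac
    have := A.mul_mem ha (hZA h2)
    rwa [mul_inv_cancel_left] at this
  · intro a ha
    rw [Subgroup.mem_centralizer_iff]
    intro b hb
    exact hAcomm b hb a ha

end Cfsg.Agent.S1236
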