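import Cfsg.Statements.S1243
import Cfsg.Agent.Lib.Core
-- import your own Cfsg.Agent.* helpers here

set_option autoImplicit false
open Cfsg

namespace Cfsg.Agent.S1243

/-- Let T be a Sylow p-subgroup of the finite group G and W ≤ T a subgroup weakly closed in T. If d and g d g⁻¹ both centralize W, then g d g⁻¹ = h d h⁻¹ for some h ∈ N_G(W). -/
theorem result {G : Type*} [Group G] [Finite G] {p : ℕ} [Fact p.Prime] (T : Sylow p G) (W : Subgroup G) (hW : Cfsg.IsWeaklyClosed W (T : Subgroup G)) (d g : G) (hd : d ∈ Subgroup.centralizer (W : Set G)) (hgd : g * d * g⁻¹ ∈ Subgroup.centralizer (W : Set G)) : ∃ h ∈ Subgroup.normalizer (W : Set G), h * d * h⁻¹ = g * d * g⁻¹ := by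
  obtain ⟨hWT, hW⟩ := hW
  set C := Subgroup.centralizer ({d} : Set G) with hC
  have hWC : W ≤ C := by
    intro w hw
    rw [hC, Subgroup.mem_centralizer_singleton_iff]
    exact (Subgroup.mem_centralizer_iff.1 hd) w hw
  have hWgC : W.map (MulAut.conj g⁻¹).toMonoidHom ≤ C := by
    rintro _ ⟨w, hw, rfl⟩
    rw [hC, Subgroup.mem_centralizer_singleton_iff]
    show g⁻¹ * w * g⁻¹⁻¹ * d = d * (g⁻¹ * w * g⁻¹⁻¹)
    have := (Subgroup.mem_centralizer_iff.1 hgd) w hw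
    calc g⁻¹ * w * g⁻¹⁻¹ * d = g⁻¹ * (w * (g * d * g⁻¹)) * g := by group
      _ = g⁻¹ * (g * d * g⁻¹ * w) * g := by rw [this]
      _ = _ := by group
  have hWp : IsPGroup p W := T.isPGroup'.to_le hWT
  have hWgp : IsPGroup p (W.map (MulAut.conj g⁻¹).toMonoidHom) := hWp.map _
  obtain ⟨R1, hR1⟩ := (hWp.comap_subtype (K := C)).exists_le_sylow
  obtain ⟨R2, hR2⟩ := (hWgp.comap_subtype (K := C)).exists_le_sylow
  obtain ⟨c, hc⟩ := MulAction.exists_smul_eq C R2 R1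
  have hR : IsPGroup p ((R1 : Subgroup C).map C.subtype) := R1.isPGroup'.map _
  obtain ⟨T', hT'⟩ := hR.exists_le_sylow
  obtain ⟨x, hx⟩ := MulAction.exists_smul_eq G T' T
  have hxT : ∀ y ∈ T', x * y * x⁻¹ ∈ (T : Subgroup G) := by
    intro y hy
    rw [← hx]; exact ⟨y, hy, rfl⟩
  have h1 : W.map (MulAut.conj x).toMonoidHom = W := by
    apply hW
    rintro _ ⟨w, hw, rfl⟩
    exact hxT w (hT' ⟨⟨w, hWC hw⟩, hR1 hw, rfl⟩)
  have h2 : W.map (MulAut.conj (x * ((c : G) * g⁻¹))).toMonoidHom = W := by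
    apply hW
    rintro _ ⟨w, hw, rfl⟩
    have h3 : g⁻¹ * w * g⁻¹⁻¹ ∈ W.map (MulAut.conj g⁻¹).toMonoidHom := ⟨w, hw, rfl⟩
    have h4 : (⟨_, hWgC h3⟩ : C) ∈ (R2 : Subgroup C) := hR2 h3
    have h5 : c * ⟨_, hWgC h3⟩ * c⁻¹ ∈ (R1 : Subgroup C) := by
      rw [← hc]; exact ⟨_, h4, rfl⟩
    have h6 := hxT _ (hT' ⟨_, h5, rfl⟩)
    have e : (MulAut.conj (x * ((c : G) * g⁻¹))).toMonoidHom w = x * ((c : G) * (g⁻¹ * w * g⁻¹⁻¹) * (c : G)⁻¹) * x⁻¹ := by
      show x * ((c : G) * g⁻¹) * w * (x * ((c : G) * g⁻¹))⁻¹ = _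
      group
    rw [e]; exact h6
  have h3 : (W.map (MulAut.conj ((c : G) * g⁻¹)).toMonoidHom).map (MulAut.conj x).toMonoidHom =
      W.map (MulAut.conj x).toMonoidHom := by
    rw [Subgroup.map_map, h1]
    have e : ((MulAut.conj x).toMonoidHom.comp (MulAut.conj ((c : G) * g⁻¹)).toMonoidHom) =
        (MulAut.conj (x * ((c : G) * g⁻¹))).toMonoidHom := by
      ext z; simp [mul_assoc]
    rw [e]; exact h2
  have h4 := Subgroup.map_injective (MulAut.conj x).injective h3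
  have hcd : (c : G) * d = d * c := Subgroup.mem_centralizer_singleton_iff.1 c.2
  refine ⟨((c : G) * g⁻¹)⁻¹, Subgroup.inv_mem _ ?_, ?_⟩
  · rw [← CfsgLib.Core.map_conj_eq_iff]
    exact h4
  · calc ((c : G) * g⁻¹)⁻¹ * d * ((c : G) * g⁻¹)⁻¹⁻¹ = g * ((c : G)⁻¹ * (d * c)) * g⁻¹ := by group
      _ = g * ((c : G)⁻¹ * (c * d)) * g⁻¹ := by rw [hcd]
      _ = _ := by group

end Cfsg.Agent.S1243
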