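import Cfsg.Statements.S1254
import Mathlib
import Cfsg.Agent.Lib.H6Tr3
import Cfsg.Agent.Lib.NPC
import Cfsg.Agent.Lib.H7Npc

set_option autoImplicit false
open Cfsg

set_option linter.style.haveILetI false
namespace Cfsg.Agent.S1254

theorem act_pow {X : Type*} [Group X] {Q : Subgroup X} {g s : X} (hs : s ∈ Subgroup.normalizer (Q : Set X))
    (h : ∀ x ∈ Q, g * x * g⁻¹ = s * x * s⁻¹) (k : ℕ) : ∀ x ∈ Q, g ^ k * x * (g ^ k)⁻¹ = s ^ k * x * (s ^ k)⁻¹ := by
  induction k with
  | zero => intro x _; simp
  | succ k ih =>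
    intro x hx
    have hx' : s * x * s⁻¹ ∈ Q := (Subgroup.mem_normalizer_iff.1 hs x).1 hx
    calc g ^ (k + 1) * x * (g ^ (k + 1))⁻¹ = g ^ k * (g * x * g⁻¹) * (g ^ k)⁻¹ := by rw [pow_succ]; group
      _ = g ^ k * (s * x * s⁻¹) * (g ^ k)⁻¹ := by rw [h x hx]
      _ = s ^ k * (s * x * s⁻¹) * (s ^ k)⁻¹ := ih _ hx'
      _ = _ := by rw [pow_succ]; group


/-- Let X be a finite group whose Sylow 2-subgroup S is dihedral (of order at least 4). Then X has a normal 2-complement if and only if, for every Klein four-subgroup U ≤ S, the normalizer N_X(U) is generated by C_X(U) and N_S(U). -/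
theorem result {X : Type*} [Group X] [Finite X] (S : Sylow 2 X) (m : ℕ) (hm : 2 ≤ m) (eS : (S : Subgroup X) ≃* DihedralGroup m) : Cfsg.HasNormalPComplement 2 X ↔ ∀ U : Subgroup X, U ≤ S → IsKleinFour U → Subgroup.normalizer (U : Set X) = Subgroup.centralizer (U : Set X) ⊔ ((S : Subgroup X) ⊓ Subgroup.normalizer (U : Set X)) := by
  haveI : Fact (Nat.Prime 2) := ⟨Nat.prime_two⟩
  haveI : NeZero m := ⟨by omega⟩
  have hSp : IsPGroup 2 (S : Subgroup X) := S.isPGroup'
  set ρ : (S : Subgroup X) := eS.symm (DihedralGroup.r 1) with hρ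
  have hrcase : ∀ s : (S : Subgroup X), (∃ k : ℕ, s = ρ ^ k) ∨ (∃ i : ZMod m, s = eS.symm (DihedralGroup.sr i)) := by
    intro s
    rcases h : eS s with i | i
    · left
      refine ⟨i.val, ?_⟩
      apply eS.injective
      rw [h, map_pow, hρ, MulEquiv.apply_symm_apply, DihedralGroup.r_one_pow, ZMod.natCast_zmod_val]
    · right
      exact ⟨i, by rw [← h, MulEquiv.symm_apply_apply]⟩
  set R : Subgroup X := Subgroup.zpowers (ρ : X) with hR
  have hF1 : ∀ s ∈ (S : Subgroup X), s ∉ R → s ^ 2 = 1 := by
    intro s hs hsR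
    rcases hrcase ⟨s, hs⟩ with ⟨k, hk⟩ | ⟨i, hi⟩
    · exfalso; apply hsR
      have : s = (ρ : X) ^ k := congrArg Subtype.val hk
      rw [this]; exact Subgroup.pow_mem _ (Subgroup.mem_zpowers _) k
    · have h1 : (⟨s, hs⟩ : (S : Subgroup X)) ^ 2 = 1 := by
        rw [hi, ← map_pow, pow_two, DihedralGroup.sr_mul_self, map_one]
      exact congrArg Subtype.val h1
  have hF3 : ∀ s ∈ (S : Subgroup X), s ∉ R → ∀ t ∈ (S : Subgroup X), t ∉ R → s⁻¹ * t ∈ R := by
    intro s hs hsR t ht htR
    rcases hrcase ⟨s, hs⟩ with ⟨k, hk⟩ | ⟨i, hi⟩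
    · exfalso; apply hsR
      have : s = (ρ : X) ^ k := congrArg Subtype.val hk
      rw [this]; exact Subgroup.pow_mem _ (Subgroup.mem_zpowers _) k
    rcases hrcase ⟨t, ht⟩ with ⟨k, hk⟩ | ⟨j, hj⟩
    · exfalso; apply htR
      have : t = (ρ : X) ^ k := congrArg Subtype.val hk
      rw [this]; exact Subgroup.pow_mem _ (Subgroup.mem_zpowers _) k
    have h1 : (⟨s, hs⟩ : (S : Subgroup X))⁻¹ * ⟨t, ht⟩ = ρ ^ (j - i).val := by
      rw [hi, hj, hρ, ← map_inv, ← map_mul, ← map_pow, DihedralGroup.r_one_pow, ZMod.natCast_zmod_val]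
      congr 1
    have h2 : s⁻¹ * t = (ρ : X) ^ (j - i).val := congrArg Subtype.val h1
    rw [h2]; exact Subgroup.pow_mem _ (Subgroup.mem_zpowers _) _
  have hRcyc : IsCyclic R := by rw [hR]; infer_instance
  constructor
  · intro hnpc U hUS hU
    obtain ⟨K, hK, hKc⟩ := (CfsgLib.NPC.npc_iff_exists S).1 (CfsgLib.NPC.npc_iff.1 hnpc)
    apply le_antisymm
    · intro g hg
      obtain ⟨k, s, hks⟩ : ∃ (k : K) (s : (S : Subgroup X)), (k : X) * (s : X) = g := by
        obtain ⟨⟨k, s⟩, h1⟩ := hKc.2 g
        exact ⟨k, s, h1⟩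
      have hdisj : ∀ x : X, x ∈ K → x ∈ (S : Subgroup X) → x = 1 := by
        intro x h1 h2
        have h3 := hKc.disjoint.le_bot (show x ∈ K ⊓ (S : Subgroup X) from ⟨h1, h2⟩)
        exact Subgroup.mem_bot.1 h3
      have hk : ∀ u ∈ U, (k : X) * ((s : X) * u * (s : X)⁻¹) * (k : X)⁻¹ = (s : X) * u * (s : X)⁻¹ := by
        intro u hu
        have h1 : g * u * g⁻¹ ∈ (S : Subgroup X) := hUS ((Subgroup.mem_normalizer_iff.1 hg u).1 hu)
        have h2 : (s : X) * u * (s : X)⁻¹ ∈ (S : Subgroup X) := Subgroup.mul_mem _ (Subgroup.mul_mem _ s.2 (hUS hu)) (Subgroup.inv_mem _ s.2)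
        set v := (s : X) * u * (s : X)⁻¹ with hv
        have h3 : g * u * g⁻¹ = (k : X) * v * (k : X)⁻¹ := by rw [← hks, hv]; group
        rw [h3] at h1
        have h4 : (k : X) * v * (k : X)⁻¹ * v⁻¹ = 1 := by
          apply hdisj
          · have h5 : v * (k : X)⁻¹ * v⁻¹ ∈ K := hK.conj_mem _ (K.inv_mem k.2) v
            have h6 := K.mul_mem k.2 h5
            have h7 : (k : X) * (v * (k : X)⁻¹ * v⁻¹) = (k : X) * v * (k : X)⁻¹ * v⁻¹ := by group
            rwa [h7] at h6
          · exact Subgroup.mul_mem _ h1 (Subgroup.inv_mem _ h2)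
        exact mul_inv_eq_one.1 h4
      have hgu : ∀ u ∈ U, g * u * g⁻¹ = (s : X) * u * (s : X)⁻¹ := by
        intro u hu
        rw [← hk u hu, ← hks]; group
      have hsN : (s : X) ∈ Subgroup.normalizer (U : Set X) := by
        have hle : ∀ u ∈ U, (s : X) * u * (s : X)⁻¹ ∈ U := by
          intro u hu
          rw [← hgu u hu]; exact (Subgroup.mem_normalizer_iff.1 hg u).1 hu
        rw [Subgroup.mem_normalizer_iff]
        intro u
        refine ⟨hle u, ?_⟩
        intro h1
        have hfin : (U.map (MulAut.conj (s : X)).toMonoidHom) = U := by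
          apply Subgroup.eq_of_le_of_card_ge
          · rintro _ ⟨w, hw, rfl⟩; exact hle w hw
          · exact (Nat.card_congr (U.equivMapOfInjective _ (MulAut.conj (s : X)).injective).toEquiv).le
        rw [← hfin] at h1
        obtain ⟨w, hw, hw2⟩ := h1
        have : w = u := by
          have h5 : (s : X) * w * (s : X)⁻¹ = (s : X) * u * (s : X)⁻¹ := hw2
          exact mul_left_cancel (mul_right_cancel h5)
        rw [← this]; exact hw
      have hgs : g * (s : X)⁻¹ ∈ Subgroup.centralizer (U : Set X) := by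
        rw [Subgroup.mem_centralizer_iff]
        intro u hu
        have h1 : (s : X)⁻¹ * u * (s : X) ∈ U := by
          have := (Subgroup.mem_normalizer_iff.1 (Subgroup.inv_mem _ hsN) u).1 hu
          rwa [inv_inv] at this
        have h2 := hgu _ h1
        have h3 : (s : X) * ((s : X)⁻¹ * u * (s : X)) * (s : X)⁻¹ = u := by group
        rw [h3] at h2
        calc u * (g * (s : X)⁻¹) = (g * ((s : X)⁻¹ * u * (s : X)) * g⁻¹) * (g * (s : X)⁻¹) := by rw [h2]
          _ = g * (s : X)⁻¹ * u := by group
      have hg2 : g = (g * (s : X)⁻¹) * s := by group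
      rw [hg2]
      exact Subgroup.mul_mem _ ((le_sup_left : Subgroup.centralizer (U : Set X) ≤ _) hgs)
        ((le_sup_right : ((S : Subgroup X) ⊓ Subgroup.normalizer (U : Set X)) ≤ _) ⟨s.2, hsN⟩)
    · exact sup_le (Subgroup.centralizer_le_normalizer _) inf_le_right
  · intro hU
    apply CfsgLib.H6Tr.npc_of_omega S
    intro Q hQS g hg hgo x hx _
    have hQp : IsPGroup 2 Q := hSp.to_le hQS
    suffices hgc : g ∈ Subgroup.centralizer (Q : Set X) by
      exact ((Subgroup.mem_centralizer_iff.1 hgc) x hx).symm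
    -- cyclic part
    haveI hcyc : IsCyclic (R.subgroupOf Q) := by
      let f : R.subgroupOf Q →* R :=
        { toFun := fun x => ⟨((x : Q) : X), x.2⟩
          map_one' := rfl
          map_mul' := fun _ _ => rfl }
      refine isCyclic_of_injective f ?_
      intro a b hab
      apply Subtype.ext; apply Subtype.ext
      exact congrArg (fun x : R => (x : X)) hab
    obtain ⟨a0, ha0⟩ := hcyc.exists_generator
    set a : Q := (a0 : Q) with ha
    have haz : Subgroup.zpowers a = R.subgroupOf Q := by
      apply le_antisymm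
      · rw [Subgroup.zpowers_le]; exact a0.2
      · intro y hy
        obtain ⟨i, hi⟩ := ha0 ⟨y, hy⟩
        exact ⟨i, congrArg Subtype.val hi⟩
    have hout : ∀ y : Q, y ∉ Subgroup.zpowers a → (y : X) ∉ R := by
      intro y hy h1
      apply hy; rw [haz]; exact h1
    obtain ⟨k, hk⟩ := (IsPGroup.iff_orderOf.1 hQp) a
    by_cases h4 : 2 ≤ k
    · apply CfsgLib.H7Npc.centralize_of hg
      intro φ n hφ hn _
      refine CfsgLib.H7Npc.fix_of_orders (m := 2) hφ (by rw [hn]; exact hgo) hk ?_ ?_ ?_
      · intro h5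
        have h6 := Nat.le_of_dvd (by norm_num) h5
        have h7 : 2 ^ 2 ≤ 2 ^ k := Nat.pow_le_pow_right (by norm_num) h4
        omega
      · intro y hy
        exact Subtype.ext (hF1 _ (hQS y.2) (hout y hy))
      · intro y w hy hw
        rw [haz]
        exact hF3 _ (hQS y.2) (hout y hy) _ (hQS w.2) (hout w hw)
    · -- exponent two
      have ha2 : a ^ 2 = 1 := by
        apply orderOf_dvd_iff_pow_eq_one.1
        rw [hk]
        exact pow_dvd_pow 2 (by omega : k ≤ 1)
      have hexp : ∀ y : Q, y ^ 2 = 1 := by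
        intro y
        by_cases hy : y ∈ Subgroup.zpowers a
        · obtain ⟨i, rfl⟩ := hy
          show (a ^ i) ^ 2 = 1
          rw [← zpow_natCast, ← zpow_mul, mul_comm, zpow_mul, zpow_natCast, ha2, one_zpow]
        · exact Subtype.ext (hF1 _ (hQS y.2) (hout y hy))
      have hidx : (Subgroup.zpowers a).index ≤ 2 := by
        by_contra hcon
        push Not at hcon
        rw [Subgroup.index_eq_card] at hcon
        haveI : Fintype (Q ⧸ Subgroup.zpowers a) := Fintype.ofFinite _
        rw [Nat.card_eq_fintype_card, Fintype.two_lt_card_iff] at hcon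
        obtain ⟨u, v, w, huv, huw, hvw⟩ := hcon
        obtain ⟨u, rfl⟩ := QuotientGroup.mk_surjective u
        obtain ⟨v, rfl⟩ := QuotientGroup.mk_surjective v
        obtain ⟨w, rfl⟩ := QuotientGroup.mk_surjective w
        have hne : ∀ p q : Q, ((p : Q ⧸ Subgroup.zpowers a) ≠ (q : Q ⧸ Subgroup.zpowers a)) → ¬ (p ∉ Subgroup.zpowers a ∧ q ∉ Subgroup.zpowers a) := by
          rintro p q hpq ⟨hp, hq⟩
          apply hpq
          rw [QuotientGroup.eq, haz]
          exact hF3 _ (hQS p.2) (hout p hp) _ (hQS q.2) (hout q hq)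
        have hne2 : ∀ p q : Q, ((p : Q ⧸ Subgroup.zpowers a) ≠ (q : Q ⧸ Subgroup.zpowers a)) → ¬ (p ∈ Subgroup.zpowers a ∧ q ∈ Subgroup.zpowers a) := by
          rintro p q hpq ⟨hp, hq⟩
          apply hpq
          rw [QuotientGroup.eq]
          exact Subgroup.mul_mem _ (Subgroup.inv_mem _ hp) hq
        have h5 := hne u v huv
        have h6 := hne u w huw
        have h7 := hne v w hvw
        have h8 := hne2 u v huv
        have h9 := hne2 u w huw
        have h10 := hne2 v w hvw
        tauto
      have hcardQ : Nat.card Q ≤ 4 := by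
        rw [← (Subgroup.zpowers a).card_mul_index, Nat.card_zpowers]
        have h5 : orderOf a ≤ 2 := orderOf_le_of_pow_eq_one (by norm_num) ha2
        exact Nat.mul_le_mul h5 hidx
      obtain ⟨j, hj⟩ := hQp.exists_card_eq
      have hj2 : j ≤ 2 := by
        rw [hj] at hcardQ
        exact (Nat.pow_le_pow_iff_right (by norm_num : 1 < 2)).1 hcardQ
      rcases Nat.lt_or_eq_of_le hj2 with hj1 | rfl
      · -- order at most two
        rw [Subgroup.mem_centralizer_iff]
        intro y hy
        have hy' : g * y * g⁻¹ ∈ Q := (Subgroup.mem_normalizer_iff.1 hg y).1 hy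
        by_cases hy1 : y = 1
        · rw [hy1]; group
        have hc2 : Nat.card Q ≤ 2 := by
          rw [hj]
          exact (Nat.pow_le_pow_right (by norm_num) (by omega : j ≤ 1)).trans (by norm_num)
        have h5 : g * y * g⁻¹ = y := by
          by_contra hne
          have h6 : 2 < Nat.card Q := by
            haveI : Fintype Q := Fintype.ofFinite Q
            rw [Nat.card_eq_fintype_card, Fintype.two_lt_card_iff]
            refine ⟨1, ⟨y, hy⟩, ⟨_, hy'⟩, ?_, ?_, ?_⟩
            · intro h; exact hy1 (congrArg Subtype.val h).symm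
            · intro h
              have h7 : (1 : X) = g * y * g⁻¹ := congrArg Subtype.val h
              apply hy1
              have h8 : g * y = g := by
                rw [eq_comm, mul_inv_eq_iff_eq_mul, one_mul] at h7
                exact h7
              exact mul_eq_left.1 h8
            · intro h; exact hne (congrArg Subtype.val h).symm
          omega
        rw [mul_inv_eq_iff_eq_mul] at h5
        exact h5.symm
      · -- Klein
        have hKl : IsKleinFour Q := by
          refine ⟨by rw [hj]; norm_num, ?_⟩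
          have hd : Monoid.exponent Q ∣ 2 := Monoid.exponent_dvd_of_forall_pow_eq_one hexp
          rcases (Nat.dvd_prime Nat.prime_two).1 hd with h5 | h5
          · exfalso
            rw [Monoid.exp_eq_one_iff] at h5
            have h6 : Nat.card Q = 1 := Nat.card_of_subsingleton 1
            omega
          · exact h5
        have hNQ := hU Q hQS hKl
        have hg' := hg
        rw [hNQ] at hg'
        -- decompose
        obtain ⟨c, hc, s, hs, hcs⟩ : ∃ c ∈ Subgroup.centralizer (Q : Set X), ∃ s ∈ ((S : Subgroup X) ⊓ Subgroup.normalizer (Q : Set X)), c * s = g := by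
          have hnorm : ∀ s ∈ Subgroup.normalizer (Q : Set X), ∀ c ∈ Subgroup.centralizer (Q : Set X), s * c * s⁻¹ ∈ Subgroup.centralizer (Q : Set X) := by
            intro s hs c hc
            rw [Subgroup.mem_centralizer_iff]
            intro y hy
            have h5 : s⁻¹ * y * s ∈ Q := by
              have := (Subgroup.mem_normalizer_iff.1 (Subgroup.inv_mem _ hs) y).1 hy
              rwa [inv_inv] at this
            have h6 := (Subgroup.mem_centralizer_iff.1 hc) _ h5
            calc y * (s * c * s⁻¹) = s * ((s⁻¹ * y * s) * c) * s⁻¹ := by group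
              _ = s * (c * (s⁻¹ * y * s)) * s⁻¹ := by rw [h6]
              _ = s * c * s⁻¹ * y := by group
          let D : Subgroup X :=
            { carrier := {x | ∃ c ∈ Subgroup.centralizer (Q : Set X), ∃ s ∈ ((S : Subgroup X) ⊓ Subgroup.normalizer (Q : Set X)), c * s = x}
              one_mem' := ⟨1, Subgroup.one_mem _, 1, Subgroup.one_mem _, one_mul 1⟩
              mul_mem' := by
                rintro _ _ ⟨c, hc, s, hs, rfl⟩ ⟨c', hc', s', hs', rfl⟩
                exact ⟨c * (s * c' * s⁻¹), Subgroup.mul_mem _ hc (hnorm s hs.2 c' hc'), s * s', Subgroup.mul_mem _ hs hs', by group⟩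
              inv_mem' := by
                rintro _ ⟨c, hc, s, hs, rfl⟩
                refine ⟨s⁻¹ * c⁻¹ * s, ?_, s⁻¹, Subgroup.inv_mem _ hs, by group⟩
                have := hnorm s⁻¹ (Subgroup.inv_mem _ hs.2) c⁻¹ (Subgroup.inv_mem _ hc)
                rwa [inv_inv] at this }
          have hD : Subgroup.centralizer (Q : Set X) ⊔ ((S : Subgroup X) ⊓ Subgroup.normalizer (Q : Set X)) ≤ D :=
            sup_le (fun c hc => ⟨c, hc, 1, Subgroup.one_mem _, mul_one c⟩) (fun s hs => ⟨1, Subgroup.one_mem _, s, hs, one_mul s⟩)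
          exact hD hg'
        have hact : ∀ y ∈ Q, g * y * g⁻¹ = s * y * s⁻¹ := by
          intro y hy
          have h5 : s * y * s⁻¹ ∈ Q := (Subgroup.mem_normalizer_iff.1 hs.2 y).1 hy
          have h6 := (Subgroup.mem_centralizer_iff.1 hc) _ h5
          rw [← hcs]
          calc c * s * y * (c * s)⁻¹ = (c * (s * y * s⁻¹)) * c⁻¹ := by group
            _ = ((s * y * s⁻¹) * c) * c⁻¹ := by rw [h6]
            _ = s * y * s⁻¹ := by group
        obtain ⟨i, hi⟩ := (IsPGroup.iff_orderOf.1 hSp) ⟨s, hs.1⟩
        have hsi : s ^ (2 ^ i) = 1 := by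
          rw [← hi, Subgroup.orderOf_mk]; exact pow_orderOf_eq_one s
        have hcop : Nat.Coprime (orderOf g) (2 ^ i) := hgo.pow_right i
        -- φ
        apply CfsgLib.H7Npc.centralize_of hg
        intro φ n hφ hn hφg
        have hφ2 : φ ^ (2 ^ i) = 1 := by
          have hpow : ∀ (k : ℕ) (y : Q), ((φ ^ k) y : X) = g ^ k * y * (g ^ k)⁻¹ := by
            intro k
            induction k with
            | zero => intro y; simp
            | succ k ih =>
              intro y
              rw [pow_succ, MulAut.mul_apply, ih, hφg, pow_succ]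
              group
          ext y
          rw [hpow, act_pow hs.2 hact _ _ y.2, hsi]
          simp
        have h11 : orderOf φ = 1 := by
          apply Nat.eq_one_of_dvd_coprimes hcop
          · rw [← hn]; exact orderOf_dvd_of_pow_eq_one hφ
          · exact orderOf_dvd_of_pow_eq_one hφ2
        exact orderOf_eq_one_iff.1 h11

end Cfsg.Agent.S1254
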