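import Cfsg.Statements.S1258
import Cfsg.Agent.Lib.Comp2
-- import your own Cfsg.Agent.* helpers here

set_option autoImplicit false
open Cfsg

namespace Cfsg.Agent.S1258

/-- If the central quotient of a finite group X is non-abelian simple, then X = X' Z(X) and the commutator subgroup X' is quasisimple. -/
theorem result {X : Type*} [Group X] [Finite X] (hs : IsSimpleGroup (X ⧸ Subgroup.center X)) (hna : ¬ IsMulCommutative (X ⧸ Subgroup.center X)) : commutator X ⊔ Subgroup.center X = ⊤ ∧ Cfsg.IsQuasisimple ↥(commutator X) := by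
  haveI := hs
  letI : Bracket X X := commutatorElement
  set Z := Subgroup.center X with hZ
  have hC : (commutator X).map (QuotientGroup.mk' Z) = ⊤ := by
    have hn : ((commutator X).map (QuotientGroup.mk' Z)).Normal :=
      Subgroup.Normal.map inferInstance _ (QuotientGroup.mk'_surjective Z)
    rcases hn.eq_bot_or_eq_top with h1 | h1
    · exfalso
      apply hna
      refine ⟨⟨fun a b => ?_⟩⟩
      obtain ⟨x, rfl⟩ := QuotientGroup.mk'_surjective Z a
      obtain ⟨y, rfl⟩ := QuotientGroup.mk'_surjective Z b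
      rw [Subgroup.map_eq_bot_iff, QuotientGroup.ker_mk'] at h1
      have h2 : ⁅x, y⁆ ∈ Z := h1 (Subgroup.commutator_mem_commutator (Subgroup.mem_top x) (Subgroup.mem_top y))
      have h3 : QuotientGroup.mk' Z ⁅x, y⁆ = 1 := (QuotientGroup.eq_one_iff _).2 h2
      rw [map_commutatorElement, commutatorElement_eq_one_iff_commute] at h3
      exact h3
    · exact h1
  have htop : commutator X ⊔ Z = ⊤ := by
    have h1 := congrArg (Subgroup.comap (QuotientGroup.mk' Z)) hC
    rwa [Subgroup.comap_map_eq, QuotientGroup.ker_mk', Subgroup.comap_top] at h1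
  refine ⟨htop, ?_⟩
  have hcen : ∀ c : X, (∀ d ∈ commutator X, d * c = c * d) → c ∈ Z := by
    intro c hc
    rw [hZ, Subgroup.mem_center_iff]
    intro g
    have hg : g ∈ commutator X ⊔ Z := by rw [htop]; trivial
    obtain ⟨d, hd, z, hz, rfl⟩ := Subgroup.mem_sup_of_normal_right.1 hg
    have hz' : c * z = z * c := Subgroup.mem_center_iff.1 hz c
    calc d * z * c = d * (c * z) := by rw [mul_assoc, hz']
      _ = c * d * z := by rw [← mul_assoc, hc d hd]
      _ = c * (d * z) := by rw [mul_assoc]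
  -- commutators modulo the centre
  have hcomm : ∀ D : Subgroup X, D ⊔ Z = ⊤ → commutator X ≤ ⁅D, D⁆ := by
    intro D hD
    show ⁅(⊤ : Subgroup X), ⊤⁆ ≤ _
    rw [Subgroup.commutator_le]
    intro g _ k _
    have hg : g ∈ D ⊔ Z := by rw [hD]; trivial
    have hk : k ∈ D ⊔ Z := by rw [hD]; trivial
    obtain ⟨d, hd, z, hz, rfl⟩ := Subgroup.mem_sup_of_normal_right.1 hg
    obtain ⟨e, he, w, hw, rfl⟩ := Subgroup.mem_sup_of_normal_right.1 hk
    have hz' := Subgroup.mem_center_iff.1 hz
    have hw' := Subgroup.mem_center_iff.1 hw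
    have h1 : ⁅d * z, e * w⁆ = ⁅d, e⁆ := by
      rw [commutatorElement_def, commutatorElement_def]
      calc d * z * (e * w) * (d * z)⁻¹ * (e * w)⁻¹ = d * (z * (e * w)) * (z⁻¹ * d⁻¹) * (w⁻¹ * e⁻¹) := by
            simp only [mul_inv_rev, mul_assoc]
        _ = d * (e * w * z) * (z⁻¹ * d⁻¹) * (w⁻¹ * e⁻¹) := by rw [hz' (e * w)]
        _ = d * e * (w * d⁻¹) * w⁻¹ * e⁻¹ := by group
        _ = d * e * (d⁻¹ * w) * w⁻¹ * e⁻¹ := by rw [hw' d⁻¹]
        _ = d * e * d⁻¹ * e⁻¹ := by group
    rw [h1]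
    exact Subgroup.commutator_mem_commutator hd he
  have hperf : ⁅commutator X, commutator X⁆ = commutator X :=
    le_antisymm (Subgroup.commutator_le_left _ _) (hcomm _ htop)
  have hP : Group.IsPerfect ↥(commutator X) := Subgroup.isPerfect_iff.2 hperf
  apply CfsgLib.Comp.qs_of hP
  · rw [Subgroup.nontrivial_iff_ne_bot]
    intro h1
    apply hna
    refine ⟨⟨fun a b => ?_⟩⟩
    obtain ⟨x, rfl⟩ := QuotientGroup.mk'_surjective Z a
    obtain ⟨y, rfl⟩ := QuotientGroup.mk'_surjective Z b
    have h2 : ⁅x, y⁆ ∈ commutator X := Subgroup.commutator_mem_commutator (Subgroup.mem_top x) (Subgroup.mem_top y)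
    rw [h1, Subgroup.mem_bot, commutatorElement_eq_one_iff_commute] at h2
    rw [← map_mul, ← map_mul, h2.eq]
  · intro N hN
    set N' := N.map (commutator X).subtype with hN'
    have hN'n : N'.Normal := by
      refine ⟨?_⟩
      rintro _ ⟨n, hn, rfl⟩ g
      have hg : g ∈ commutator X ⊔ Z := by rw [htop]; trivial
      obtain ⟨d, hd, z, hz, rfl⟩ := Subgroup.mem_sup_of_normal_right.1 hg
      have hz' := Subgroup.mem_center_iff.1 hz (n : X)
      refine ⟨⟨d, hd⟩ * n * ⟨d, hd⟩⁻¹, hN.conj_mem n hn _, ?_⟩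
      show d * (n : X) * d⁻¹ = d * z * n * (d * z)⁻¹
      calc d * (n : X) * d⁻¹ = d * (n * z) * (z⁻¹ * d⁻¹) := by group
        _ = d * (z * n) * (z⁻¹ * d⁻¹) := by rw [hz']
        _ = _ := by group
    have h1 : (N'.map (QuotientGroup.mk' Z)).Normal := hN'n.map _ (QuotientGroup.mk'_surjective _)
    rcases h1.eq_bot_or_eq_top with h2 | h2
    · right
      rw [Subgroup.map_eq_bot_iff, QuotientGroup.ker_mk'] at h2
      intro n hn
      rw [Subgroup.mem_center_iff]
      intro g
      have h3 : (n : X) ∈ Z := h2 ⟨n, hn, rfl⟩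
      exact Subtype.ext (Subgroup.mem_center_iff.1 h3 g)
    · left
      have h3 := congrArg (Subgroup.comap (QuotientGroup.mk' Z)) h2
      rw [Subgroup.comap_map_eq, QuotientGroup.ker_mk', Subgroup.comap_top] at h3
      have h4 := (hcomm N' h3).trans (Subgroup.commutator_le_left N' N')
      rw [eq_top_iff]
      intro g _
      obtain ⟨n, hn, hng⟩ := h4 g.2
      have : n = g := Subtype.ext hng
      rwa [← this]

end Cfsg.Agent.S1258
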