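import Cfsg.Statements.S1286
import Cfsg.Agent.Lib.H9Sig2
-- import your own Cfsg.Agent.* helpers here

set_option autoImplicit false
open Cfsg

namespace Cfsg.Agent.S1286

/-- There exist a finite group X, an elementary abelian subgroup A of order 4 and a solvable A-signalizer functor θ on X for the prime 2 which is not complete. -/
theorem result : ∃ (X : Type) (_ : Group X) (_ : Finite X) (A : Subgroup X) (θ : X → Subgroup X), Cfsg.IsElementaryAbelian 2 A ∧ Nat.card ↥A = 4 ∧ Cfsg.IsSolvableSignalizerFunctor 2 A θ ∧ ¬ Cfsg.IsCompleteSignalizerFunctor 2 A θ := by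
  open Subgroup in
  let r : Equiv.Perm (Fin 5) := Equiv.swap 0 1
  let s : Equiv.Perm (Fin 5) := Equiv.swap 2 3
  let c : Equiv.Perm (Fin 5) := Equiv.swap 2 3 * Equiv.swap 3 4
  let d : Equiv.Perm (Fin 5) := Equiv.swap 0 1 * Equiv.swap 1 4
  have hr2 : r * r = 1 := by decide
  have hs2 : s * s = 1 := by decide
  have hrs : r * s = s * r := by decide
  have hr1 : r ≠ 1 := by decide
  have hs1 : s ≠ 1 := by decide
  have hne : r ≠ s := by decide
  have hrs1 : r * s ≠ 1 := by decide
  have hrsr : r * s ≠ r := by decide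
  have hrss : r * s ≠ s := by decide
  have hc3 : c ^ 3 = 1 := by decide
  have hd3 : d ^ 3 = 1 := by decide
  have hc1 : c ≠ 1 := by decide
  have hd1 : d ≠ 1 := by decide
  let A : Subgroup (Equiv.Perm (Fin 5)) :=
    { carrier := {1, r, s, r * s}
      one_mem' := by simp
      mul_mem' := by
        rintro a b (rfl | rfl | rfl | rfl) (rfl | rfl | rfl | rfl) <;> simp only [Set.mem_insert_iff, Set.mem_singleton_iff] <;> decide
      inv_mem' := by
        rintro a (rfl | rfl | rfl | rfl) <;> simp only [Set.mem_insert_iff, Set.mem_singleton_iff] <;> decide }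
  have hA : ∀ a, a ∈ A ↔ a = 1 ∨ a = r ∨ a = s ∨ a = r * s := fun a => Iff.rfl
  let θ : Equiv.Perm (Fin 5) → Subgroup (Equiv.Perm (Fin 5)) := fun a => if a = r then zpowers c else if a = s then zpowers d else ⊥
  have hθr : θ r = zpowers c := if_pos rfl
  have hθs : θ s = zpowers d := by show (if s = r then _ else _) = _; rw [if_neg hne.symm, if_pos rfl]
  have hθrs : θ (r * s) = ⊥ := by show (if r * s = r then _ else _) = _; rw [if_neg hrsr, if_neg hrss]
  have hzc : ∀ x, x ∈ zpowers c ↔ x = 1 ∨ x = c ∨ x = c ^ 2 := by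
    intro x
    constructor
    · rintro ⟨k, rfl⟩
      show c ^ k = 1 ∨ c ^ k = c ∨ c ^ k = c ^ 2
      have h1 : c ^ k = c ^ (k % 3) := by
        conv_lhs => rw [← Int.emod_add_mul_ediv k 3, zpow_add, zpow_mul, show c ^ (3 : ℤ) = 1 from hc3, one_zpow, mul_one]
      have h2 := Int.emod_nonneg k (show (3 : ℤ) ≠ 0 by norm_num)
      have h3 := Int.emod_lt_of_pos k (show (0 : ℤ) < 3 by norm_num)
      rw [h1]
      interval_cases k % 3
      · left; rfl
      · right; left; exact zpow_one c
      · right; right; rfl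
    · rintro (rfl | rfl | rfl)
      · exact one_mem _
      · exact mem_zpowers _
      · exact pow_mem (mem_zpowers _) 2
  have hzd : ∀ x, x ∈ zpowers d ↔ x = 1 ∨ x = d ∨ x = d ^ 2 := by
    intro x
    constructor
    · rintro ⟨k, rfl⟩
      show d ^ k = 1 ∨ d ^ k = d ∨ d ^ k = d ^ 2
      have h1 : d ^ k = d ^ (k % 3) := by
        conv_lhs => rw [← Int.emod_add_mul_ediv k 3, zpow_add, zpow_mul, show d ^ (3 : ℤ) = 1 from hd3, one_zpow, mul_one]
      have h2 := Int.emod_nonneg k (show (3 : ℤ) ≠ 0 by norm_num)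
      have h3 := Int.emod_lt_of_pos k (show (0 : ℤ) < 3 by norm_num)
      rw [h1]
      interval_cases k % 3
      · left; rfl
      · right; left; exact zpow_one d
      · right; right; rfl
    · rintro (rfl | rfl | rfl)
      · exact one_mem _
      · exact mem_zpowers _
      · exact pow_mem (mem_zpowers _) 2
  have hcardc : Nat.card (zpowers c) = 3 := by rw [Nat.card_zpowers]; exact orderOf_eq_prime hc3 hc1
  have hcardd : Nat.card (zpowers d) = 3 := by rw [Nat.card_zpowers]; exact orderOf_eq_prime hd3 hd1
  have hcase : ∀ a ∈ A, a ≠ 1 → a = r ∨ a = s ∨ a = r * s := by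
    intro a ha ha1
    rcases (hA a).1 ha with h | h
    · exact absurd h ha1
    · exact h
  refine ⟨Equiv.Perm (Fin 5), inferInstance, inferInstance, A, θ, ?_, ?_, ⟨⟨?_, ?_, ?_, ?_⟩, ?_⟩, ?_⟩
  · refine ⟨⟨⟨?_⟩⟩, ?_⟩
    · rintro ⟨a, rfl | rfl | rfl | rfl⟩ ⟨b, rfl | rfl | rfl | rfl⟩ <;> apply Subtype.ext <;> show _ * _ = _ * _ <;> decide
    · rintro a (rfl | rfl | rfl | rfl) <;> decide
  · have h1 : Nat.card A = (({1, r, s, r * s} : Finset (Equiv.Perm (Fin 5)))).card := by
      rw [← Nat.card_eq_finsetCard]
      apply Nat.card_congr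
      apply Equiv.subtypeEquivRight
      intro a
      rw [hA]
      simp
    rw [h1]
    decide
  · intro a ha ha1
    rcases hcase a ha ha1 with rfl | rfl | rfl
    · rw [hθr, zpowers_le, mem_centralizer_singleton_iff]; decide
    · rw [hθs, zpowers_le, mem_centralizer_singleton_iff]; decide
    · rw [hθrs]; exact bot_le
  · intro a ha ha1
    rcases hcase a ha ha1 with rfl | rfl | rfl
    · rw [hθr, hcardc]; norm_num
    · rw [hθs, hcardd]; norm_num
    · rw [hθrs, card_bot]; norm_num
  · intro a ha ha1 b hb x hx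
    rcases hcase a ha ha1 with rfl | rfl | rfl
    · rw [hθr, hzc] at hx ⊢
      rcases (hA b).1 hb with rfl | rfl | rfl | rfl <;> rcases hx with rfl | rfl | rfl <;> decide
    · rw [hθs, hzd] at hx ⊢
      rcases (hA b).1 hb with rfl | rfl | rfl | rfl <;> rcases hx with rfl | rfl | rfl <;> decide
    · rw [hθrs, mem_bot] at hx ⊢
      rw [hx]; group
  · intro a ha ha1 b hb hb1 x hx
    obtain ⟨hx1, hx2⟩ := hx
    replace hx1 : x ∈ θ a := hx1
    replace hx2 : x ∈ centralizer ({b} : Set (Equiv.Perm (Fin 5))) := hx2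
    rw [mem_centralizer_singleton_iff] at hx2
    rcases hcase a ha ha1 with rfl | rfl | rfl
    · rcases hcase b hb hb1 with rfl | rfl | rfl
      · exact hx1
      · have : x = 1 := by
          rw [hθr, hzc] at hx1
          rcases hx1 with rfl | rfl | rfl
          · rfl
          · exact absurd hx2 (by decide)
          · exact absurd hx2 (by decide)
        rw [this]; exact one_mem _
      · have : x = 1 := by
          rw [hθr, hzc] at hx1
          rcases hx1 with rfl | rfl | rfl
          · rfl
          · exact absurd hx2 (by decide)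
          · exact absurd hx2 (by decide)
        rw [this]; exact one_mem _
    · rcases hcase b hb hb1 with rfl | rfl | rfl
      · have : x = 1 := by
          rw [hθs, hzd] at hx1
          rcases hx1 with rfl | rfl | rfl
          · rfl
          · exact absurd hx2 (by decide)
          · exact absurd hx2 (by decide)
        rw [this]; exact one_mem _
      · exact hx1
      · have : x = 1 := by
          rw [hθs, hzd] at hx1
          rcases hx1 with rfl | rfl | rfl
          · rfl
          · exact absurd hx2 (by decide)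
          · exact absurd hx2 (by decide)
        rw [this]; exact one_mem _
    · rw [hθrs] at hx1
      have : x = 1 := hx1
      rw [this]; exact one_mem _
  · intro a ha ha1
    have hsolv : ∀ x : Equiv.Perm (Fin 5), Group.IsSolvable (zpowers x) := CfsgLib.H9Sig.solv_zpowers
    rcases hcase a ha ha1 with rfl | rfl | rfl
    · rw [hθr]; exact hsolv _
    · rw [hθs]; exact hsolv _
    · rw [hθrs]; infer_instance
  · rintro ⟨-, X, hX1, hX2, hX3⟩
    have hcX : c ∈ X := by
      have : c ∈ θ r := by rw [hθr]; exact mem_zpowers _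
      rw [← hX3 r (Or.inr (Or.inl rfl)) hr1] at this
      exact this.1
    have hdX : d ∈ X := by
      have : d ∈ θ s := by rw [hθs]; exact mem_zpowers _
      rw [← hX3 s (Or.inr (Or.inr (Or.inl rfl))) hs1] at this
      exact this.1
    apply hX2
    have h1 : c * d * c⁻¹ * d ∈ X := X.mul_mem (X.mul_mem (X.mul_mem hcX hdX) (X.inv_mem hcX)) hdX
    have h2 : orderOf (c * d * c⁻¹ * d) = 2 := orderOf_eq_prime (by decide) (by decide)
    rw [← h2, ← Nat.card_zpowers]
    exact card_dvd_of_le ((zpowers_le).2 h1)

end Cfsg.Agent.S1286
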