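import Cfsg.Statements.S1300
import Cfsg.Agent.Lib.H9Sig
-- import your own Cfsg.Agent.* helpers here

set_option autoImplicit false
open Cfsg

namespace Cfsg.Agent.S1300

/-- For a finite group G, balance in the sense of commuting involutions is the same as 1-balance for the prime 2. -/
theorem result {G : Type*} [Group G] [Finite G] : Cfsg.IsBalanced G ↔ Cfsg.IsKBalanced 2 1 G := by
  open Subgroup CfsgLib.H9Sig in
  haveI hp2 : Fact (Nat.Prime 2) := ⟨Nat.prime_two⟩
  have hdelta : ∀ (A : Subgroup G) (a : G), a ∈ A → a ≠ 1 → Nat.card A = 2 → Cfsg.signalizerDelta 2 A = Cfsg.centralizerPPrimeCore 2 a := by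
    intro A a ha ha1 hc
    have h1 : ∀ b ∈ A, b ≠ 1 → b = a := by
      obtain ⟨x, y, hxy, hu⟩ := Nat.card_eq_two_iff.1 hc
      have h2 : ∀ z : A, z = x ∨ z = y := fun z => by
        have : z ∈ ({x, y} : Set A) := by rw [hu]; trivial
        simpa using this
      intro b hb hb1
      have h3 := h2 ⟨b, hb⟩
      have h4 := h2 ⟨a, ha⟩
      have h5 := h2 1
      have h6 : (⟨b, hb⟩ : A) ≠ 1 := fun h => hb1 (congrArg Subtype.val h)
      have h7 : (⟨a, ha⟩ : A) ≠ 1 := fun h => ha1 (congrArg Subtype.val h)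
      have h8 : (⟨b, hb⟩ : A) = ⟨a, ha⟩ := by
        rcases h5 with h5 | h5 <;> rcases h3 with h3 | h3 <;> rcases h4 with h4 | h4 <;>
          first
          | exact h3.trans h4.symm
          | exact absurd (h3.trans h5.symm) h6
          | exact absurd (h4.trans h5.symm) h7
      exact congrArg Subtype.val h8
    apply le_antisymm
    · exact iInf_le (fun a : {a : G // a ∈ A ∧ a ≠ 1} => Cfsg.centralizerPPrimeCore 2 (a : G)) ⟨a, ha, ha1⟩
    · apply le_iInf
      rintro ⟨b, hb, hb1⟩
      show _ ≤ Cfsg.centralizerPPrimeCore 2 b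
      rw [h1 b hb hb1]
  constructor
  · intro h A hA hc b hb hcomm
    obtain ⟨a, ha, ha1⟩ : ∃ a ∈ A, a ≠ 1 := by
      by_contra h1
      push_neg at h1
      have : A = ⊥ := (eq_bot_iff_forall A).2 h1
      rw [this, card_bot] at hc
      norm_num at hc
    rw [hdelta A a ha ha1 (by rw [hc]; norm_num)]
    have ha2 : orderOf a = 2 := orderOf_eq_prime (hA.2 a ha) ha1
    rw [h a b ha2 hb (hcomm a ha)]
    exact inf_le_left
  · intro h
    have key : ∀ x y : G, orderOf x = 2 → orderOf y = 2 → x * y = y * x →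
        Cfsg.centralizerPPrimeCore 2 x ⊓ Subgroup.centralizer {y} ≤ Cfsg.centralizerPPrimeCore 2 y ⊓ Subgroup.centralizer {x} := by
      intro x y hx hy hxy
      have hx1 : x ≠ 1 := by rintro rfl; simp at hx
      have hx2 : x ^ 2 = 1 := by rw [← hx]; exact pow_orderOf_eq_one x
      refine le_inf ?_ (inf_le_left.trans cpc_le)
      have h1 := h (zpowers x) ⟨⟨⟨by
        rintro ⟨_, i, rfl⟩ ⟨_, j, rfl⟩
        exact Subtype.ext (by show x ^ i * x ^ j = x ^ j * x ^ i; rw [← zpow_add, ← zpow_add, add_comm])⟩⟩, by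
        rintro _ ⟨i, rfl⟩
        show (x ^ i) ^ 2 = 1
        rw [← zpow_natCast, ← zpow_mul, mul_comm, zpow_mul, zpow_natCast, hx2, one_zpow]⟩ (by rw [Nat.card_zpowers, hx]; norm_num) y hy (by
        rintro _ ⟨i, rfl⟩
        exact ((show Commute x y from hxy).zpow_left i).eq)
      rwa [hdelta (zpowers x) x (mem_zpowers x) hx1 (by rw [Nat.card_zpowers, hx])] at h1
    intro x y hx hy hxy
    exact le_antisymm (key x y hx hy hxy) (key y x hy hx hxy.symm)

end Cfsg.Agent.S1300
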