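import Cfsg.Statements.S1303
import Cfsg.Agent.Lib.H9SL23
-- import your own Cfsg.Agent.* helpers here

set_option autoImplicit false
open Cfsg

namespace Cfsg.Agent.S1303

/-- The group X = SL(2, 3): it is 2-constrained, O_{2'}(X) = 1, its centre A = Z(X) contains every involution of X = C_X(A), and X has a subgroup of order 3 (normalized by A) not contained in O_{2'}(X). -/
theorem result : Cfsg.IsPConstrained 2 (Matrix.SpecialLinearGroup (Fin 2) (ZMod 3)) ∧ Cfsg.pPrimeCore 2 (Matrix.SpecialLinearGroup (Fin 2) (ZMod 3)) = ⊥ ∧ (∀ t : Matrix.SpecialLinearGroup (Fin 2) (ZMod 3), orderOf t = 2 → t ∈ Subgroup.center (Matrix.SpecialLinearGroup (Fin 2) (ZMod 3))) ∧ ∃ Q : Subgroup (Matrix.SpecialLinearGroup (Fin 2) (ZMod 3)), Nat.card ↥Q = 3 ∧ ¬ (Q ≤ Cfsg.pPrimeCore 2 (Matrix.SpecialLinearGroup (Fin 2) (ZMod 3))) := by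
  open Subgroup Matrix CfsgLib.H9SL23 in
  refine ⟨constrained, core_bot, fun t ht => invol ht, ?_⟩
  let u : SpecialLinearGroup (Fin 2) (ZMod 3) := ⟨!![1, 1; 0, 1], by simp [det_fin_two]⟩
  have hu1 : u ≠ 1 := fun h => by
    have := congrArg (fun g : SpecialLinearGroup (Fin 2) (ZMod 3) => g 0 1) h
    simp [u] at this
  have hu3 : u ^ 3 = 1 := by
    apply Subtype.ext
    show !![(1 : ZMod 3), 1; 0, 1] ^ 3 = 1
    ext i j
    fin_cases i <;> fin_cases j <;> rfl
  have ho : orderOf u = 3 := orderOf_eq_prime hu3 hu1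
  refine ⟨zpowers u, by rw [Nat.card_zpowers, ho], ?_⟩
  rw [core_bot, le_bot_iff, zpowers_eq_bot]
  exact hu1

end Cfsg.Agent.S1303
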