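import Cfsg.Statements.S1304
import Mathlib
-- import your own Cfsg.Agent.* helpers here

set_option autoImplicit false
open Cfsg

namespace Cfsg.Agent.S1304

/-- Let X be a perfect group and α an automorphism of X with α(x) x⁻¹ central for every x. Then α is the identity. -/
theorem result {X : Type*} [Group X] (hperf : commutator X = ⊤) (α : X ≃* X) (h : ∀ x : X, α x * x⁻¹ ∈ Subgroup.center X) : ∀ x : X, α x = x := by
  -- the map `x ↦ α x * x⁻¹` is a homomorphism into an abelian group
  let φ : X →* Subgroup.center X := MonoidHom.mk' (fun x => ⟨α x * x⁻¹, h x⟩) (by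
    intro x y
    apply Subtype.ext
    show α (x * y) * (x * y)⁻¹ = α x * x⁻¹ * (α y * y⁻¹)
    have h1 : x⁻¹ * (α y * y⁻¹) = (α y * y⁻¹) * x⁻¹ := (Subgroup.mem_center_iff.1 (h y) x⁻¹)
    rw [map_mul, mul_inv_rev, mul_assoc (α x) x⁻¹, h1]
    group)
  have h1 : commutator X ≤ φ.ker := by
    rw [commutator_eq_closure, Subgroup.closure_le]
    rintro _ ⟨a, b, rfl⟩
    show φ _ = 1
    rw [map_commutatorElement]
    have h2 : φ a * φ b = φ b * φ a := Subtype.ext (Subgroup.mem_center_iff.1 (φ b).2 (φ a))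
    rw [commutatorElement_def, h2]; group
  rw [hperf] at h1
  intro x
  have h2 : φ x = 1 := h1 (Subgroup.mem_top x)
  have h3 : α x * x⁻¹ = 1 := congrArg Subtype.val h2
  exact mul_inv_eq_one.1 h3

end Cfsg.Agent.S1304
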