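import Cfsg.Statements.S1314
import Cfsg.Agent.Lib.H9Sig
-- import your own Cfsg.Agent.* helpers here

set_option autoImplicit false
open Cfsg

namespace Cfsg.Agent.S1314

/-- Let x be an involution of a group G and L a perfect subgroup with ⁅L, x L x⁻¹⁆ = 1. Then l ↦ l (x l x⁻¹) is a group homomorphism π from L to G whose kernel is central in L and whose image lies in C_G(x); and the commutator subgroup of C_{L ⊔ xLx⁻¹}(x) equals the image of π. -/
theorem result {G : Type*} [Group G] [Finite G] (x : G) (hx : orderOf x = 2) (L : Subgroup G) (hperf : ⁅L, L⁆ = L) (hcomm : ⁅L, L.map (MulAut.conj x).toMonoidHom⁆ = ⊥) : ∃ π : ↥L →* G, (∀ l : ↥L, π l = (l : G) * (x * (l : G) * x⁻¹)) ∧ π.ker ≤ Subgroup.center ↥L ∧ π.range ≤ Subgroup.centralizer ({x} : Set G) ∧ ⁅(L ⊔ L.map (MulAut.conj x).toMonoidHom) ⊓ Subgroup.centralizer ({x} : Set G), (L ⊔ L.map (MulAut.conj x).toMonoidHom) ⊓ Subgroup.centralizer ({x} : Set G)⁆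 = π.range := by
  open Subgroup in
  letI : Bracket G G := commutatorElement
  letI : Bracket L L := commutatorElement
  have hx2 : x * x = 1 := by rw [← pow_two, ← hx]; exact pow_orderOf_eq_one x
  have hxi : x⁻¹ = x := inv_eq_of_mul_eq_one_left hx2
  have hc : ∀ l ∈ L, ∀ m ∈ L, l * (x * m * x⁻¹) = (x * m * x⁻¹) * l := fun l hl m hm =>
    CfsgLib.Comp.comm_iff.1 hcomm l hl _ ⟨m, hm, rfl⟩
  have hxx : ∀ m : G, x * (x * m * x⁻¹) * x⁻¹ = m := fun m => by
    calc x * (x * m * x⁻¹) * x⁻¹ = (x * x) * m * (x * x)⁻¹ := by group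
      _ = m := by rw [hx2]; group
  let π : L →* G := MonoidHom.mk' (fun l => (l : G) * (x * (l : G) * x⁻¹)) (by
    rintro ⟨l, hl⟩ ⟨m, hm⟩
    show l * m * (x * (l * m) * x⁻¹) = l * (x * l * x⁻¹) * (m * (x * m * x⁻¹))
    calc l * m * (x * (l * m) * x⁻¹) = l * (m * (x * l * x⁻¹)) * (x * m * x⁻¹) := by group
      _ = l * ((x * l * x⁻¹) * m) * (x * m * x⁻¹) := by rw [hc m hm l hl]
      _ = _ := by group)
  have hπ : ∀ l : L, π l = (l : G) * (x * (l : G) * x⁻¹) := fun l => rfl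
  have hcent : ∀ z ∈ L, (∃ m ∈ L, z = x * m * x⁻¹) → ∀ l ∈ L, z * l = l * z := by
    rintro z hz ⟨m, hm, rfl⟩ l hl
    exact (hc l hl m hm).symm
  have hrange : π.range ≤ centralizer ({x} : Set G) := by
    rintro _ ⟨⟨l, hl⟩, rfl⟩
    rw [mem_centralizer_singleton_iff]
    show l * (x * l * x⁻¹) * x = x * (l * (x * l * x⁻¹))
    rw [hc l hl l hl]
    calc x * l * x⁻¹ * l * x = x * (l * (x⁻¹ * l * x)) := by group
      _ = x * (l * (x * l * x⁻¹)) := by rw [hxi]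
      _ = x * (x * l * x⁻¹ * l) := by rw [hc l hl l hl]
  refine ⟨π, hπ, ?_, hrange, ?_⟩
  · rintro ⟨l, hl⟩ hk
    rw [MonoidHom.mem_ker] at hk
    have hk' : l * (x * l * x⁻¹) = 1 := hk
    rw [mem_center_iff]
    rintro ⟨m, hm⟩
    apply Subtype.ext
    show m * l = l * m
    have h1 : l = x * l⁻¹ * x⁻¹ :=
      calc l = (x * l * x⁻¹)⁻¹ := eq_inv_of_mul_eq_one_left hk'
        _ = x * l⁻¹ * x⁻¹ := by group
    have h2 := hc m hm l⁻¹ (L.inv_mem hl)
    rw [← h1] at h2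
    exact h2
  · set M := L.map (MulAut.conj x).toMonoidHom with hM
    have hMn : M ≤ normalizer (L : Set G) := by
      rintro _ ⟨m, hm, rfl⟩
      rw [mem_normalizer_iff]
      intro l
      show l ∈ L ↔ (x * m * x⁻¹) * l * (x * m * x⁻¹)⁻¹ ∈ L
      constructor
      · intro hl
        rw [← hc l hl m hm, mul_inv_cancel_right]; exact hl
      · intro hl
        have h1 := hc _ hl m hm
        have h2 : (x * m * x⁻¹) * l * (x * m * x⁻¹)⁻¹ = l := by
          have h3 : x * m * x⁻¹ * l * (x * m * x⁻¹)⁻¹ * (x * m * x⁻¹) = x * m * x⁻¹ * (x * m * x⁻¹ * l * (x * m * x⁻¹)⁻¹) := h1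
          have h4 : x * m * x⁻¹ * l = x * m * x⁻¹ * (x * m * x⁻¹ * l * (x * m * x⁻¹)⁻¹) := by
            rw [← h3]; group
          exact (mul_left_cancel h4).symm
        rwa [h2] at hl
    have hmemC : ∀ c ∈ (L ⊔ M) ⊓ centralizer ({x} : Set G), ∃ m ∈ L, ∃ z : G, (∀ y ∈ L ⊔ M, z * y = y * z) ∧ z ∈ L ⊔ M ∧ c = z * (m * (x * m * x⁻¹)) := by
      rintro c ⟨hc1, hc2⟩
      replace hc1 : c ∈ M ⊔ L := by rw [sup_comm]; exact hc1
      rw [← SetLike.mem_coe, coe_mul_of_left_le_normalizer_right M L hMn, Set.mem_mul] at hc1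
      obtain ⟨_, ⟨m, hm, rfl⟩, l, hl, rfl⟩ := hc1
      have h1 : (x * m * x⁻¹) * l * x = x * ((x * m * x⁻¹) * l) := mem_centralizer_singleton_iff.1 hc2
      have hm' : m ∈ L := hm
      have hl' : l ∈ L := hl
      -- m (x l x⁻¹) = (x m x⁻¹) l
      have h2 : m * (x * l * x⁻¹) = (x * m * x⁻¹) * l := by
        calc m * (x * l * x⁻¹) = (x * (x * m * x⁻¹) * x⁻¹) * (x * l * x⁻¹) := by rw [hxx]
          _ = x * ((x * m * x⁻¹) * l) * x⁻¹ := by group
          _ = (x * m * x⁻¹) * l * x * x⁻¹ := by rw [h1]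
          _ = _ := by group
      have h3 : l * (x * m * x⁻¹) = m * (x * l * x⁻¹) := by rw [h2, hc l hl' m hm']
      -- z = m⁻¹ l
      have h4 : m⁻¹ * l = x * (l * m⁻¹) * x⁻¹ := by
        calc m⁻¹ * l = m⁻¹ * (l * (x * m * x⁻¹)) * (x * m * x⁻¹)⁻¹ := by group
          _ = m⁻¹ * (m * (x * l * x⁻¹)) * (x * m * x⁻¹)⁻¹ := by rw [h3]
          _ = _ := by group
      have hzL : m⁻¹ * l ∈ L := L.mul_mem (L.inv_mem hm') hl'
      have hzc : ∀ y ∈ L, m⁻¹ * l * y = y * (m⁻¹ * l) := hcent _ hzL ⟨l * m⁻¹, L.mul_mem hl' (L.inv_mem hm'), h4⟩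
      refine ⟨m, hm', m⁻¹ * l, ?_, mem_sup_left hzL, ?_⟩
      · intro y hy
        rw [sup_comm, ← SetLike.mem_coe, coe_mul_of_left_le_normalizer_right M L hMn, Set.mem_mul] at hy
        obtain ⟨_, ⟨m', hm', rfl⟩, l', hl', rfl⟩ := hy
        show m⁻¹ * l * ((x * m' * x⁻¹) * l') = (x * m' * x⁻¹) * l' * (m⁻¹ * l)
        calc m⁻¹ * l * ((x * m' * x⁻¹) * l') = (m⁻¹ * l * (x * m' * x⁻¹)) * l' := by group
          _ = (x * m' * x⁻¹) * (m⁻¹ * l * l') := by rw [hc _ hzL m' hm']; group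
          _ = (x * m' * x⁻¹) * (l' * (m⁻¹ * l)) := by rw [hzc l' hl']
          _ = _ := by group
      · show (x * m * x⁻¹) * l = m⁻¹ * l * (m * (x * m * x⁻¹))
        calc (x * m * x⁻¹) * l = l * (x * m * x⁻¹) := (hc l hl' m hm').symm
          _ = m * (m⁻¹ * l) * (x * m * x⁻¹) := by group
          _ = (m⁻¹ * l) * m * (x * m * x⁻¹) := by rw [hzc m hm']
          _ = _ := by group
    apply le_antisymm
    · rw [commutator_le]
      intro c hcc d hdd
      obtain ⟨m, hm, z, hz, hzM, hcz⟩ := hmemC c hcc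
      obtain ⟨m', hm', z', hz', hzM', hdz⟩ := hmemC d hdd
      have h1 : ⁅c, d⁆ = π ⁅(⟨m, hm⟩ : L), ⟨m', hm'⟩⁆ := by
        rw [map_commutatorElement, hπ, hπ]
        show ⁅c, d⁆ = ⁅m * (x * m * x⁻¹), m' * (x * m' * x⁻¹)⁆
        have hu : m * (x * m * x⁻¹) ∈ L ⊔ M := (L ⊔ M).mul_mem (mem_sup_left hm) (mem_sup_right ⟨m, hm, rfl⟩)
        have hv : m' * (x * m' * x⁻¹) ∈ L ⊔ M := (L ⊔ M).mul_mem (mem_sup_left hm') (mem_sup_right ⟨m', hm', rfl⟩)
        set u := m * (x * m * x⁻¹)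
        set v := m' * (x * m' * x⁻¹)
        rw [hcz, hdz, commutatorElement_def, commutatorElement_def]
        have hz1 := hz z' hzM'
        have hz2 := hz v hv
        have hz3 := hz' u hu
        calc z * u * (z' * v) * (z * u)⁻¹ * (z' * v)⁻¹ = z * (u * z') * v * (u⁻¹ * z⁻¹) * (v⁻¹ * z'⁻¹) := by group
          _ = z * (z' * u) * v * u⁻¹ * (z⁻¹ * v⁻¹) * z'⁻¹ := by rw [hz3]; group
          _ = z * z' * (u * v * u⁻¹) * (v * z)⁻¹ * z'⁻¹ := by group
          _ = z * z' * (u * v * u⁻¹) * (z * v)⁻¹ * z'⁻¹ := by rw [hz2]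
          _ = z * z' * (u * v * u⁻¹ * v⁻¹) * (z' * z)⁻¹ := by group
          _ = z * z' * (u * v * u⁻¹ * v⁻¹) * (z * z')⁻¹ := by rw [hz1]
          _ = (z * z') * (u * v * u⁻¹ * v⁻¹) * (z * z')⁻¹ := by group
          _ = u * v * u⁻¹ * v⁻¹ := by
              have hw : u * v * u⁻¹ * v⁻¹ ∈ L ⊔ M := (L ⊔ M).mul_mem ((L ⊔ M).mul_mem ((L ⊔ M).mul_mem hu hv) ((L ⊔ M).inv_mem hu)) ((L ⊔ M).inv_mem hv)
              have h5 : z * z' * (u * v * u⁻¹ * v⁻¹) = (u * v * u⁻¹ * v⁻¹) * (z * z') := by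
                calc z * z' * (u * v * u⁻¹ * v⁻¹) = z * (z' * (u * v * u⁻¹ * v⁻¹)) := by group
                  _ = z * ((u * v * u⁻¹ * v⁻¹) * z') := by rw [hz' _ hw]
                  _ = (z * (u * v * u⁻¹ * v⁻¹)) * z' := by group
                  _ = _ := by rw [hz _ hw]; group
              rw [h5]; group
      rw [h1]
      exact ⟨_, rfl⟩
    · have h1 : (π.range : Subgroup G) = (⁅(⊤ : Subgroup L), (⊤ : Subgroup L)⁆).map π := by
        have h2 : (⁅(⊤ : Subgroup L), (⊤ : Subgroup L)⁆ : Subgroup L) = ⊤ := by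
          have h3 : Group.IsPerfect L := isPerfect_iff.2 hperf
          exact h3.commutator_eq_top
        rw [h2, MonoidHom.range_eq_map]
      rw [h1, map_commutator]
      apply commutator_mono
      all_goals
        rintro _ ⟨⟨l, hl⟩, -, rfl⟩
        refine ⟨?_, hrange ⟨⟨l, hl⟩, rfl⟩⟩
        exact (L ⊔ M).mul_mem (mem_sup_left hl) (mem_sup_right ⟨l, hl, rfl⟩)

end Cfsg.Agent.S1314
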