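import Cfsg.Statements.S1324
import Cfsg.Agent.Lib.H9L1
-- import your own Cfsg.Agent.* helpers here

set_option autoImplicit false
open Cfsg

namespace Cfsg.Agent.S1324

/-- Let A be a noncyclic elementary abelian p-subgroup of a finite group H normalizing a subgroup X of order prime to p. Then X is generated by the subgroups X ∩ C_H(B), B ranging over the subgroups of A of index at most p. -/
theorem result {H : Type*} [Group H] [Finite H] (p : ℕ) [Fact p.Prime] (A X : Subgroup H) (hA : Cfsg.IsElementaryAbelian p A) (hA2 : p ^ 2 ≤ Nat.card ↥A) (hX : ¬ p ∣ Nat.card ↥X) (hAX : A ≤ Subgroup.normalizer (X : Set H)) : X = ⨆ B : {B : Subgroup H // B ≤ A ∧ B.relIndex A ≤ p}, X ⊓ Subgroup.centralizer ((B : Subgroup H) : Set H) := by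
  open Subgroup CfsgLib.H9Sig in
  apply le_antisymm
  · obtain ⟨k, hk⟩ := IsPGroup.iff_card.1 (CfsgLib.H6PR.ea_isPGroup hA)
    have hk2 : 2 ≤ k := by
      by_contra h
      have h1 : k ≤ 1 := by omega
      have h2 := Nat.pow_le_pow_right (Fact.out : p.Prime).pos h1
      rw [← hk] at h2
      have h3 : p ^ 1 < p ^ 2 := Nat.pow_lt_pow_right (Fact.out : p.Prime).one_lt (by omega)
      omega
    obtain ⟨n, rfl⟩ : ∃ n, k = n + 1 := ⟨k - 1, by omega⟩
    have h1 := le_iSup_hyperplane hA hAX hX le_rfl n ⊥ bot_le (by rw [relIndex_bot_left, hk])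
    have h2 : X ⊓ centralizer ((⊥ : Subgroup H) : Set H) = X := by
      rw [inf_eq_left]
      intro x _
      rw [mem_centralizer_iff]
      intro y hy
      have : y = 1 := hy
      rw [this, one_mul, mul_one]
    rw [h2] at h1
    refine h1.trans ?_
    apply iSup_le
    rintro ⟨D, hD⟩
    exact le_iSup (fun B : {B : Subgroup H // B ≤ A ∧ B.relIndex A ≤ p} => X ⊓ Subgroup.centralizer ((B : Subgroup H) : Set H)) ⟨D, hD.1, hD.2.le⟩
  · exact iSup_le fun D => inf_le_left

end Cfsg.Agent.S1324
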