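import Cfsg.Statements.S1331
import Cfsg.Agent.Lib.H9Sig2
-- import your own Cfsg.Agent.* helpers here

set_option autoImplicit false
open Cfsg

namespace Cfsg.Agent.S1331

/-- Let θ be a solvable A-signalizer functor on the finite group G for the prime p, A elementary abelian of rank at least 3, X a member of the family of θ, and B ≤ A with |B| ≥ p². Then X is generated by the subgroups X ∩ ⋂_{d ∈ D, d ≠ 1} θ d, D ranging over the subgroups of index p in B. -/
theorem result {G : Type*} [Group G] [Finite G] (p : ℕ) [Fact p.Prime] (A : Subgroup G) (hA : Cfsg.IsElementaryAbelian p A) (hA3 : p ^ 3 ≤ Nat.card ↥A) (θ : G → Subgroup G) (hθ : Cfsg.IsSolvableSignalizerFunctor p A θ) (X : Subgroup G) (hX : X ∈ Cfsg.signalizerFamily p A θ) (B : Subgroup G) (hB : B ≤ A) (hB2 : p ^ 2 ≤ Nat.card ↥B) : X = ⨆ D : {D : Subgroup G // D ≤ B ∧ D.relIndex B = p}, X ⊓ Cfsg.signalizerInf (D : Subgroup G) θ := by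
  open Subgroup CfsgLib.H9Sig in
  apply le_antisymm
  · have hXA : A ≤ normalizer (X : Set G) := fun b hb => CfsgLib.H7Basic.mem_normalizer_of_conj_mem (hX.2.2.1 b hb)
    obtain ⟨k, hk⟩ := IsPGroup.iff_card.1 (CfsgLib.H6PR.ea_isPGroup (CfsgLib.H6PR.ea_mono hA hB))
    have hk2 : 2 ≤ k := by
      by_contra h
      have h1 : k ≤ 1 := by omega
      have h2 := Nat.pow_le_pow_right (Fact.out : p.Prime).pos h1
      rw [← hk] at h2
      have h3 : p ^ 1 < p ^ 2 := Nat.pow_lt_pow_right (Fact.out : p.Prime).one_lt (by omega)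
      omega
    obtain ⟨n, rfl⟩ : ∃ n, k = n + 1 := ⟨k - 1, by omega⟩
    have h1 := le_iSup_hyperplane hA hXA hX.2.1 hB n ⊥ bot_le (by rw [relIndex_bot_left, hk])
    have h2 : X ⊓ centralizer ((⊥ : Subgroup G) : Set G) = X := by
      rw [inf_eq_left]
      intro x _
      rw [mem_centralizer_iff]
      intro y hy
      have : y = 1 := hy
      rw [this, one_mul, mul_one]
    rw [h2] at h1
    refine h1.trans (iSup_mono ?_)
    rintro ⟨D, hD⟩
    refine le_inf inf_le_left (le_iInf ?_)
    rintro ⟨a, haD, ha1⟩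
    refine le_trans ?_ (hX.2.2.2 a (hB (hD.1 haD)) ha1)
    exact inf_le_inf_left _ (centralizer_le (Set.singleton_subset_iff.2 haD))
  · exact iSup_le fun D => inf_le_left

end Cfsg.Agent.S1331
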