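import Cfsg.Statements.S1335
import Cfsg.Agent.Lib.H9Sig
-- import your own Cfsg.Agent.* helpers here

set_option autoImplicit false
open Cfsg

namespace Cfsg.Agent.S1335

/-- Let H be a subgroup of the finite group G, p a prime, k ≥ 1, P a Sylow p-subgroup of H of p-rank at least k, and suppose N_G(X) ≤ H for every subgroup X ≤ P of p-rank at least k. Then P is a Sylow p-subgroup of G. -/
theorem result {G : Type*} [Group G] [Finite G] {p : ℕ} [Fact p.Prime] (k : ℕ) (hk : 1 ≤ k) (H : Subgroup G) (P : Sylow p ↥H) (hP : ¬ Cfsg.PRankLE p (k - 1) ↥(P : Subgroup ↥H)) (hΓ : (∀ X : Subgroup G, X ≤ (P : Subgroup ↥H).map H.subtype → ¬ Cfsg.PRankLE p (k - 1) ↥X → Subgroup.normalizer (X : Set G) ≤ H)) : ∃ Q : Sylow p G, (Q : Subgroup G) = (P : Subgroup ↥H).map H.subtype := by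
  open Subgroup in
  have h1 := hΓ ((P : Subgroup H).map H.subtype) le_rfl (by
    intro h2
    apply hP
    intro A hA hA2
    have h3 := h2 (A.map (((P : Subgroup H).equivMapOfInjective H.subtype H.subtype_injective).toMonoidHom)) ⟨⟨by
      rintro ⟨_, a, ha, rfl⟩ ⟨_, b, hb, rfl⟩
      have := congrArg Subtype.val (hA.is_comm.comm ⟨a, ha⟩ ⟨b, hb⟩)
      have h4 : a * b = b * a := this
      apply Subtype.ext
      show ((P : Subgroup H).equivMapOfInjective H.subtype H.subtype_injective).toMonoidHom a * ((P : Subgroup H).equivMapOfInjective H.subtype H.subtype_injective).toMonoidHom b =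
        ((P : Subgroup H).equivMapOfInjective H.subtype H.subtype_injective).toMonoidHom b * ((P : Subgroup H).equivMapOfInjective H.subtype H.subtype_injective).toMonoidHom a
      rw [← map_mul, ← map_mul, h4]⟩⟩ (by
      rintro _ ⟨a, ha, rfl⟩
      rw [← map_pow, hA2 a ha, map_one])
    rwa [card_map_of_injective ((P : Subgroup H).equivMapOfInjective H.subtype H.subtype_injective).injective] at h3)
  obtain ⟨Q, hQ⟩ := (P.isPGroup'.map H.subtype).exists_le_sylow
  refine ⟨Q, ?_⟩
  by_contra hne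
  have hlt : (P : Subgroup H).map H.subtype < (Q : Subgroup G) := lt_of_le_of_ne hQ (Ne.symm hne)
  obtain ⟨x, hxQ, hxP, hxn⟩ := CfsgLib.H7Basic.exists_normalizing Q.isPGroup' hlt
  have hxH : x ∈ H := h1 hxn
  have h2 : IsPGroup p ((P : Subgroup H) ⊔ zpowers (⟨x, hxH⟩ : H) : Subgroup H) := by
    have h3 : ((P : Subgroup H) ⊔ zpowers (⟨x, hxH⟩ : H)) ≤ (Q : Subgroup G).subgroupOf H := by
      refine sup_le ?_ ?_
      · intro y hy; exact hQ ⟨y, hy, rfl⟩
      · rw [zpowers_le]; exact hxQ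
    exact (Q.isPGroup'.comap_subtype (K := H)).to_le h3
  have h3 := P.is_maximal' h2 le_sup_left
  apply hxP
  have h4 : (⟨x, hxH⟩ : H) ∈ (P : Subgroup H) := by
    rw [← h3]; exact mem_sup_right (mem_zpowers _)
  exact ⟨_, h4, rfl⟩

end Cfsg.Agent.S1335
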