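import Cfsg.Statements.S1342
import Cfsg.Agent.Lib.H9Sig2
-- import your own Cfsg.Agent.* helpers here

set_option autoImplicit false
open Cfsg

namespace Cfsg.Agent.S1342

/-- For a finite group X, L*_{2'}(X) is normal in X. -/
theorem result {X : Type*} [Group X] [Finite X] : (Cfsg.extendedTwoLayer X).Normal := by
  haveI := CfsgLib.H9Sig.pLayer_normal (p := 2) (G := X)
  haveI := CfsgLib.PSolv.pPrimePCore_normal 2 X
  haveI := CfsgLib.Core.pPrimeCore_normal 2 X
  exact CfsgLib.H9Sig.ext_normal_aux (p := 2) (M := Cfsg.pLayer 2 X ⊔ Cfsg.pPrimePCore 2 X) (N := Cfsg.pLayer 2 X ⊔ Cfsg.pPrimeCore 2 X)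

end Cfsg.Agent.S1342
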