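import Cfsg.Statements.S1474
import Cfsg.Agent.Lib.H7CN3
import Cfsg.Agent.Lib.FrobAct

set_option autoImplicit false
open Cfsg

namespace Cfsg.Agent.S1474

/-- Let G be a finite group in which every non-identity element has nilpotent centralizer, not itself nilpotent, and having a nontrivial normal Sylow p-subgroup for some prime p. Let H be the largest normal nilpotent Hall subgroup of G. Then H is a nontrivial proper normal subgroup with a complement E that is a Frobenius complement in G (no non-identity element of E centralizes a non-identity element of H), and G/H is nilpotent. -/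
theorem result {G : Type*} [Group G] [Finite G] (hCN : Cfsg.IsCNGroup G) (hnn : ¬ Group.IsNilpotent G) (p : ℕ) [Fact p.Prime] (P : Sylow p G)
    (hP1 : (P : Subgroup G) ≠ ⊥) (hPn : (P : Subgroup G).Normal) :
    Cfsg.fittingHall G ≠ ⊥ ∧ Cfsg.fittingHall G ≠ ⊤ ∧
      (∃ E : Subgroup G, Subgroup.IsComplement' (Cfsg.fittingHall G) E ∧ Cfsg.IsFrobeniusComplement E ∧
        ∀ e ∈ E, e ≠ 1 → Cfsg.fittingHall G ⊓ Subgroup.centralizer ({e} : Set G) = ⊥) ∧
      Group.IsNilpotent (G ⧸ Cfsg.fittingHall G) := by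
  classical
  have hne : Cfsg.fittingHall G ≠ ⊥ := by
    intro h
    apply hP1
    have := CfsgLib.H7CN1.sylow_le_fhall P hPn
    rw [h] at this
    exact le_bot_iff.mp this
  obtain ⟨h1, E, hE, hE1, hf, hnil⟩ := CfsgLib.H7CN1.CN.frob hCN hnn hne
  refine ⟨hne, h1, ⟨E, hE, (CfsgLib.FrobAct.frobenius_iff _ E hE hne hE1).mpr hf, hf⟩, ?_⟩
  have hs : Function.Surjective ((QuotientGroup.mk' (Cfsg.fittingHall G)).comp E.subtype) := by
    intro x
    obtain ⟨x, rfl⟩ := QuotientGroup.mk_surjective x
    obtain ⟨⟨a, b⟩, hab⟩ := hE.2 x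
    refine ⟨b, ?_⟩
    show ((b : G) : G ⧸ Cfsg.fittingHall G) = (x : G ⧸ Cfsg.fittingHall G)
    rw [← hab]
    show ((b : G) : G ⧸ Cfsg.fittingHall G) = (((a : G) * (b : G) : G) : G ⧸ Cfsg.fittingHall G)
    rw [QuotientGroup.mk_mul, (QuotientGroup.eq_one_iff _).mpr a.2, one_mul]
  exact Group.nilpotent_of_surjective _ hs

end Cfsg.Agent.S1474
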