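import Cfsg.Statements.S1475
import Mathlib
import Cfsg.Agent.Lib.SZ
import Cfsg.Agent.Lib.Hall
import Cfsg.Agent.Lib.FrobAct2
import Cfsg.Agent.Lib.H7CN1

set_option autoImplicit false
open Cfsg

set_option linter.style.haveILetI false
namespace Cfsg.Agent.S1475

theorem not_pp {G : Type*} [Group G] [Finite G] (h : ∀ g : G, IsPrimePow (orderOf g) ∨ g = 1) {p q : ℕ} (hp : p.Prime) (hq : q.Prime) (hpq : p ≠ q)
    {x y : G} (hx : p ∣ orderOf x) (hy : orderOf y = q) (hxq : ¬ q ∣ orderOf x) (hxy : x * y = y * x) : False := by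
  have hc : Commute x y := hxy
  have hcop : (orderOf x).Coprime (orderOf y) := by
    rw [hy]
    exact ((Nat.Prime.coprime_iff_not_dvd hq).mpr hxq).symm
  have h1 := hc.orderOf_mul_eq_mul_orderOf_of_coprime hcop
  rcases h (x * y) with h2 | h2
  · rw [h1, hy] at h2
    obtain ⟨r, k, hr, hk, hrk⟩ := (isPrimePow_nat_iff _).mp h2
    have h3 : p ∣ r ^ k := by rw [hrk]; exact hx.mul_right q
    have h4 : q ∣ r ^ k := by rw [hrk]; exact dvd_mul_left q _
    have h5 := (Nat.prime_dvd_prime_iff_eq hp hr).mp (hp.dvd_of_dvd_pow h3)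
    have h6 := (Nat.prime_dvd_prime_iff_eq hq hr).mp (hq.dvd_of_dvd_pow h4)
    exact hpq (h5.trans h6.symm)
  · rw [h2, orderOf_one, hy] at h1
    have : q ∣ 1 := h1 ▸ dvd_mul_left q _
    exact hq.one_lt.ne' (Nat.dvd_one.mp this)


/-- Let G be a finite solvable group such that the order of every element is a prime power (1 included). Then at most two distinct primes divide the order of G. -/
theorem result {G : Type*} [Group G] [Finite G] [Group.IsSolvable G] (h : ∀ g : G, IsPrimePow (orderOf g) ∨ g = 1) :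
    (Nat.card G).primeFactors.card ≤ 2 := by
  classical
  by_cases hG : Nat.card G = 1
  · rw [hG]; simp
  have htop : (⊤ : Subgroup G) ≠ ⊥ := by
    intro h1
    apply hG
    rw [← Subgroup.card_top (G := G), h1, Subgroup.card_bot]
  have hsol : Group.IsSolvable (⊤ : Subgroup G) := Group.isSolvable_of_isSolvable_injective (f := (⊤ : Subgroup G).subtype) (⊤ : Subgroup G).subtype_injective
  obtain ⟨M, hM, -, hMb, -, hMc, p, hp, hMp⟩ := CfsgLib.SZ.exists_minimal_normal_le (⊤ : Subgroup G) hsol htop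
  haveI := hM
  haveI : Fact p.Prime := ⟨hp⟩
  have hMpg : IsPGroup p M := fun x => ⟨1, Subtype.ext (by rw [pow_one]; exact hMp x x.2)⟩
  obtain ⟨a, ha⟩ : ∃ a, a = (Nat.card G).factorization p := ⟨_, rfl⟩
  have hcG : Nat.card G ≠ 0 := Nat.card_pos.ne'
  have hmk : Nat.card G = (Nat.card G / p ^ a) * p ^ a := by
    rw [ha, mul_comm]; exact (Nat.ordProj_mul_ordCompl_eq_self _ p).symm
  have hcop : (Nat.card G / p ^ a).Coprime (p ^ a) := by
    rw [ha]; exact Nat.Coprime.pow_right _ ((Nat.coprime_ordCompl hp hcG).symm)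
  obtain ⟨K, hK⟩ := CfsgLib.Hall.exists_of_card ‹Group.IsSolvable G› hmk hcop
  have hpK : ¬ p ∣ Nat.card K := by
    rw [hK, ha]; exact Nat.not_dvd_ordCompl hp hcG
  have hF : CfsgLib.FrobAct.Fpf K M := by
    refine CfsgLib.FrobAct.Fpf.of_forall (by rw [Subgroup.normalizer_eq_top M]; exact le_top) ?_
    intro k hk hk1 v hv hkv
    by_contra hv1
    have hvo : orderOf v = p := by
      exact orderOf_eq_prime (hMp v hv) hv1
    obtain ⟨r, hr, hrd⟩ := Nat.exists_prime_and_dvd (fun hh => hk1 (orderOf_eq_one_iff.mp hh) : orderOf k ≠ 1)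
    have hko : orderOf k ∣ Nat.card K := by
      have := orderOf_dvd_natCard (⟨k, hk⟩ : K)
      rwa [Subgroup.orderOf_mk] at this
    have hrp : r ≠ p := by
      rintro rfl
      exact hpK (hrd.trans hko)
    exact not_pp h hr hp hrp hrd hvo (fun hh => hpK (hh.trans hko)) hkv
  by_cases hKb : K = ⊥
  · have h1 : Nat.card G / p ^ a = 1 := by rw [← hK, hKb, Subgroup.card_bot]
    rw [hmk, h1, one_mul]
    rcases Nat.eq_zero_or_pos a with h0 | h0
    · rw [h0]; simp
    · rw [Nat.primeFactors_prime_pow h0.ne' hp]; simp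
  have hc := hF.center_ne_bot hMb hKb
  obtain ⟨⟨z, hz⟩, hz1⟩ := Subgroup.ne_bot_iff_exists_ne_one.mp hc
  have hz1' : z ≠ 1 := fun hh => hz1 (Subtype.ext hh)
  obtain ⟨q, n, hq, hqo, -⟩ := CfsgLib.H7CN1.exists_prime_pow hz1'
  have hzc : z ^ n ∈ Subgroup.center K := (Subgroup.center K).pow_mem hz n
  refine (Finset.card_le_card (t := {p, q}) ?_).trans Finset.card_le_two
  intro r hr
  have hrp : r.Prime := Nat.prime_of_mem_primeFactors hr
  have hrd : r ∣ Nat.card G := Nat.dvd_of_mem_primeFactors hr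
  rw [Finset.mem_insert, Finset.mem_singleton]
  by_contra hcon
  push Not at hcon
  have hrK : r ∣ Nat.card K := by
    rw [hmk] at hrd
    rcases (Nat.Prime.dvd_mul hrp).mp hrd with h1 | h1
    · rwa [hK]
    · exact absurd ((Nat.prime_dvd_prime_iff_eq hrp hp).mp (hrp.dvd_of_dvd_pow h1)) hcon.1
  haveI : Fact r.Prime := ⟨hrp⟩
  obtain ⟨k, hk⟩ := exists_prime_orderOf_dvd_card' r hrK
  refine not_pp h hrp hq hcon.2 (x := (k : G)) (y := ((z ^ n : K) : G)) ?_ ?_ ?_ ?_
  · rw [Subgroup.orderOf_coe, hk]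
  · rw [Subgroup.orderOf_coe, hqo]
  · rw [Subgroup.orderOf_coe, hk]
    intro hh
    exact hcon.2 ((Nat.prime_dvd_prime_iff_eq hq hrp).mp hh).symm
  · exact congrArg Subtype.val (Subgroup.mem_center_iff.mp hzc k)

end Cfsg.Agent.S1475
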