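import Cfsg.Statements.S1476
import Cfsg.Agent.Lib.H7CN6
import Cfsg.Agent.Lib.FrobAct

set_option autoImplicit false
open Cfsg

set_option linter.style.haveILetI false
namespace Cfsg.Agent.S1476

/-- Let G be a finite solvable group in which every non-identity element has nilpotent centralizer. Then either G is nilpotent; or G has a normal subgroup K with a Frobenius complement E (K E = G, K ∩ E = 1, E meets its conjugates by outside elements trivially) such that E is cyclic or E is generated by two elementwise-commuting subgroups, one cyclic of odd order and one isomorphic to a generalized quaternion group; or G is a three-step group with respect to some prime p. -/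
theorem result {G : Type*} [Group G] [Finite G] [Group.IsSolvable G] (hCN : Cfsg.IsCNGroup G) :
    Group.IsNilpotent G ∨
      (∃ K E : Subgroup G, K.Normal ∧ Subgroup.IsComplement' K E ∧ Cfsg.IsFrobeniusComplement E ∧
        (IsCyclic E ∨ ∃ C Q : Subgroup G, C ⊔ Q = E ∧ (∀ a ∈ C, ∀ b ∈ Q, a * b = b * a) ∧ IsCyclic C ∧ Odd (Nat.card C) ∧
          ∃ n : ℕ, Nonempty (↥Q ≃* QuaternionGroup (2 ^ n)))) ∨
      ∃ p : ℕ, p.Prime ∧ Cfsg.IsThreeStepGroup p G := by
  classical
  by_cases hnil : Group.IsNilpotent G
  · exact Or.inl hnil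
  right
  haveI hnt : Nontrivial G := by
    by_contra hh
    rw [not_nontrivial_iff_subsingleton] at hh
    exact hnil inferInstance
  by_cases hF : Cfsg.fittingHall G = ⊥
  · right
    exact CfsgLib.H7CN1.CN.threeStep hCN ‹_› hnt hF
  · left
    obtain ⟨h1, E, hE, hE1, hf, hEn⟩ := CfsgLib.H7CN1.CN.frob hCN hnil hF
    have hFp : CfsgLib.FrobAct.Fpf E (Cfsg.fittingHall G) := ⟨by rw [Subgroup.normalizer_eq_top (Cfsg.fittingHall G)]; exact le_top, hf⟩
    exact ⟨Cfsg.fittingHall G, E, inferInstance, hE, (CfsgLib.FrobAct.frobenius_iff _ E hE hF hE1).mpr hf, CfsgLib.H7CN1.fpf_structure hFp hF hEn⟩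

end Cfsg.Agent.S1476
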