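import Cfsg.Statements.S1486
import Mathlib
import Cfsg.Agent.Lib.CharClifford

set_option autoImplicit false
open Cfsg

namespace Cfsg.Agent.S1486

/-- Let H be a normal subgroup of the finite group G and θ, φ irreducible characters of H. If φ is a G-conjugate of θ then the functions induced from θ and φ coincide; if φ is not a G-conjugate of θ then the induced functions are orthogonal. -/
theorem result {G : Type*} [Group G] [Fintype G] (H : Subgroup G) [hN : H.Normal] (θ φ : H → ℂ) (hθ : Cfsg.IsIrrCharacter H θ) (hφ : Cfsg.IsIrrCharacter H φ) : ((∃ g : G, φ = fun h : H => θ ⟨g * h * g⁻¹, hN.conj_mem h h.2 g⟩) → Cfsg.indFun H φ = Cfsg.indFun H θ) ∧ ((¬ ∃ g : G, φ = fun h : H => θ ⟨g * h * g⁻¹, hN.conj_mem h h.2 g⟩) → Cfsg.classInner (Cfsg.indFun H φ) (Cfsg.indFun H θ) = 0) := by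
  classical
  haveI : Fintype H := Fintype.ofFinite H
  constructor
  · rintro ⟨g, rfl⟩
    exact CfsgLib.CharClifford.indFun_conjFn θ g
  · intro h
    rw [← CfsgLib.CharBasic.classInner_conj_symm, (CfsgLib.CharClifford.inner_ind_ind_eq_zero_iff hθ hφ).mpr, map_zero]
    intro x hx
    exact h ⟨x, hx.symm⟩

end Cfsg.Agent.S1486
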