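import Cfsg.Statements.S1488
import Mathlib
import Cfsg.Agent.Lib.CharClifford

set_option autoImplicit false
open Cfsg

namespace Cfsg.Agent.S1488

/-- Let A be a normal subgroup of the finite group G contained in the subgroup H, let θ be a function on H and θ₁ a function on the image of H in G ⧸ A whose composite with the projection is θ. Then the function induced from θ₁ to G ⧸ A, composed with the projection G → G ⧸ A, equals the function induced from θ to G. -/
theorem result {G : Type*} [Group G] [Fintype G] (A H : Subgroup G) [A.Normal] (hAH : A ≤ H) [Fintype (G ⧸ A)] [Fintype ↥(H.map (QuotientGroup.mk' A))] (θ : H → ℂ) (θ₁ : ↥(H.map (QuotientGroup.mk' A)) → ℂ) (hθ : ∀ x : H, θ₁ ⟨QuotientGroup.mk' A x, Subgroup.mem_map_of_mem _ x.2⟩ = θ x) (g : G) : Cfsg.indFun (H.map (QuotientGroup.mk' A)) θ₁ (QuotientGroup.mk' A g) = Cfsg.indFun H θ g := by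
  classical
  have hker : ((QuotientGroup.mk' A).ker : Subgroup G) = A := QuotientGroup.ker_mk' A
  rw [CfsgLib.CharInd.indFun_apply, CfsgLib.CharInd.indFun_apply]
  -- the extension by zero
  have hext : ∀ x : G, Cfsg.extendByZero (H.map (QuotientGroup.mk' A)) θ₁ (QuotientGroup.mk' A x) = Cfsg.extendByZero H θ x := by
    intro x
    by_cases hx : x ∈ H
    · rw [CfsgLib.CharInd.ext_of_mem hx, CfsgLib.CharInd.ext_of_mem (Subgroup.mem_map_of_mem _ hx)]
      exact hθ ⟨x, hx⟩
    · rw [CfsgLib.CharInd.ext_of_not_mem hx, CfsgLib.CharInd.ext_of_not_mem]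
      rintro ⟨y, hy, hyx⟩
      apply hx
      have h1 : y⁻¹ * x ∈ A := QuotientGroup.eq.mp hyx
      have h2 := H.mul_mem hy (hAH h1)
      simpa using h2
  have h1 : ∑ x : G, Cfsg.extendByZero H θ (x⁻¹ * g * x) = (Nat.card A : ℂ) * ∑ y : G ⧸ A, Cfsg.extendByZero (H.map (QuotientGroup.mk' A)) θ₁ (y⁻¹ * QuotientGroup.mk' A g * y) := by
    have := CfsgLib.CharBasic.sum_comp_of_surjective (QuotientGroup.mk' A) (QuotientGroup.mk'_surjective A)
      (fun y => Cfsg.extendByZero (H.map (QuotientGroup.mk' A)) θ₁ (y⁻¹ * QuotientGroup.mk' A g * y))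
    rw [hker] at this
    rw [← this]
    apply Finset.sum_congr rfl
    intro x _
    rw [← hext]
    simp
  have h2 : Nat.card H = Nat.card A * Nat.card (H.map (QuotientGroup.mk' A)) := by
    let f : H →* (G ⧸ A) := (QuotientGroup.mk' A).comp H.subtype
    have e1 : f.range = H.map (QuotientGroup.mk' A) := by
      rw [MonoidHom.range_comp, Subgroup.range_subtype]
    have e2 : Nat.card f.ker = Nat.card A := by
      have : f.ker = A.subgroupOf H := by
        ext x
        simp [f, MonoidHom.mem_ker, Subgroup.mem_subgroupOf]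
      rw [this]
      exact Nat.card_congr (Subgroup.subgroupOfEquivOfLe hAH).toEquiv
    rw [← e1, ← e2, ← Subgroup.index_ker, Subgroup.card_mul_index]
  rw [h1, h2]
  have h3 : (Nat.card A : ℂ) ≠ 0 := CfsgLib.CharInd.card_sub_ne_zero A
  have h4 : (Nat.card (H.map (QuotientGroup.mk' A)) : ℂ) ≠ 0 := CfsgLib.CharInd.card_sub_ne_zero _
  push_cast
  field_simp

end Cfsg.Agent.S1488
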