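import Cfsg.Statements.S1489
import Mathlib
import Cfsg.Agent.Lib.CliffordCorr

set_option autoImplicit false
open Cfsg

set_option linter.style.haveILetI false
namespace Cfsg.Agent.S1489

open Cfsg CfsgLib.CharBasic CfsgLib.CharInd CfsgLib.CharClifford CfsgLib.CliffordCorr


/-- Let H be a normal subgroup of the finite group G, θ an irreducible character of H, and T the inertia group of θ (the elements g with θ(g h g⁻¹) = θ(h) for all h ∈ H). If ψ and ψ' are irreducible characters of T having nonzero inner product with the function induced from θ to T, then the function induced from ψ to G is an irreducible character of G, and it equals the one induced from ψ' only if ψ = ψ'. -/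
theorem result {G : Type*} [Group G] [Fintype G] (H T : Subgroup G) [hN : H.Normal] [Fintype T] (θ : H → ℂ) (hθ : Cfsg.IsIrrCharacter H θ) (hT : ∀ g : G, g ∈ T ↔ ∀ h : H, θ ⟨g * h * g⁻¹, hN.conj_mem h h.2 g⟩ = θ h) (hHT : H ≤ T) (ψ ψ' : T → ℂ) (hψ : Cfsg.IsIrrCharacter T ψ) (hψ' : Cfsg.IsIrrCharacter T ψ') (hc : Cfsg.classInner (Cfsg.indFun (H.subgroupOf T) (fun x => θ ⟨(x : T), Subgroup.mem_subgroupOf.mp x.2⟩)) ψ ≠ 0) (hc' : Cfsg.classInner (Cfsg.indFun (H.subgroupOf T) (fun x => θ ⟨(x : T), Subgroup.mem_subgroupOf.mp x.2⟩)) ψ' ≠ 0) : Cfsg.IsIrrCharacter G (Cfsg.indFun T ψ) ∧ (Cfsg.indFun T ψ = Cfsg.indFun T ψ' → ψ = ψ') := by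
  classical
  haveI : Fintype H := Fintype.ofFinite _
  haveI : Fintype (H.subgroupOf T) := Fintype.ofFinite _
  have hT' : ∀ g : G, g ∈ T ↔ conjFn g θ = θ := by
    intro g
    rw [hT g, funext_iff]
    rfl
  have key : ∀ φ : T → ℂ, IsIrrCharacter T φ → classInner (indFun (H.subgroupOf T) (fun x => θ ⟨(x : T), Subgroup.mem_subgroupOf.mp x.2⟩)) φ ≠ 0 →
      classInner (resTo hHT φ) θ ≠ 0 := by
    intro φ hφ h0 h1
    apply h0
    have hφc := IsIrrCharacter.isCharacter hφ
    rw [frobenius (H.subgroupOf T) _ (IsCharacter.isClassFunction hφc)]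
    have h2 := inner_sub hHT φ θ
    rw [h1] at h2
    rw [← classInner_conj_symm]
    have h3 : classInner (fun h : H.subgroupOf T => φ h) (fun x => θ ⟨(x : T), Subgroup.mem_subgroupOf.mp x.2⟩) = 0 := h2
    rw [h3, map_zero]
  have h1 := key ψ hψ hc
  have h2 := key ψ' hψ' hc'
  exact ⟨(corr hHT hθ hT' hψ h1).1, fun heq => corr_inj hHT hθ hT' hψ h1 hψ' h2 heq⟩

end Cfsg.Agent.S1489
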