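import Cfsg.Statements.S1490
import Mathlib
import Cfsg.Agent.Lib.Gallagher2

set_option autoImplicit false
open Cfsg

open scoped Pointwise
set_option linter.style.haveILetI false
namespace Cfsg.Agent.S1490

open Cfsg CfsgLib.CharBasic CfsgLib.CharInd CfsgLib.CharClifford CfsgLib.CliffordCorr CfsgLib.Gallagher CfsgLib.Gallagher2


/-- Let H be a normal subgroup of the finite group G, θ an irreducible character of H with inertia group T, and suppose the commutator of any two elements of T lies in H (T/H abelian). Then there are a positive integer e and a finite set C of irreducible characters of G with e ^ 2 * |C| * |H| = |T|, such that the function induced from θ is e times the sum of the members of C and every member of C has degree [G:T] * e * θ(1). -/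
theorem result {G : Type*} [Group G] [Fintype G] (H T : Subgroup G) [hN : H.Normal] (θ : H → ℂ) (hθ : Cfsg.IsIrrCharacter H θ) (hT : ∀ g : G, g ∈ T ↔ ∀ h : H, θ ⟨g * h * g⁻¹, hN.conj_mem h h.2 g⟩ = θ h) (hab : ∀ x ∈ T, ∀ y ∈ T, x * y * x⁻¹ * y⁻¹ ∈ H) : ∃ (e : ℕ) (C : Finset (G → ℂ)), 0 < e ∧ (∀ χ ∈ C, Cfsg.IsIrrCharacter G χ) ∧ e ^ 2 * C.card * Nat.card H = Nat.card T ∧ Cfsg.indFun H θ = (e : ℂ) • ∑ χ ∈ C, χ ∧ ∀ χ ∈ C, χ 1 = (T.index : ℂ) * e * θ 1 := by
  classical
  haveI : Fintype H := Fintype.ofFinite _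
  haveI : Fintype T := Fintype.ofFinite _
  haveI : Fintype (H.subgroupOf T) := Fintype.ofFinite _
  have hT' : ∀ g : G, g ∈ T ↔ conjFn g θ = θ := by
    intro g
    rw [hT g, funext_iff]
    rfl
  have hHT : H ≤ T := by rw [T_eq hT']; exact le_inertia (IsCharacter.isClassFunction (IsIrrCharacter.isCharacter hθ))
  have hθ' := subFun_irr (T := T) hHT hθ
  have hinv : ∀ g : T, conjFn g (subFun T θ) = subFun T θ := by
    intro g
    have : g ∈ inertia (G := T) (subFun T θ) := by rw [sub_inertia_top hHT hθ hT']; trivial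
    exact this
  obtain ⟨e, C, he, hcard, hsum, hres, -⟩ := ind_abelian (G := T) (N := H.subgroupOf T)
    (fun x y => by rw [Subgroup.mem_subgroupOf]; exact hab x x.2 y y.2) hθ' hinv
  have heC : (e : ℂ) ≠ 0 := by exact_mod_cast he.ne'
  have hover : ∀ ψ ∈ C, classInner (resTo hHT (ψ : T → ℂ)) θ = e := by
    intro ψ hψ
    rw [← inner_sub hHT, hres ψ hψ, classInner_smul_left, IsIrrCharacter.inner_self hθ', mul_one]
  have hinj : Set.InjOn (fun ψ : IrrCharacter T => indFun T (ψ : T → ℂ)) C := by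
    intro ψ hψ ψ' hψ' heq
    apply Subtype.ext
    exact corr_inj hHT hθ hT' ψ.2 (by rw [hover ψ hψ]; exact heC) ψ'.2 (by rw [hover ψ' hψ']; exact heC) heq
  refine ⟨e, C.image (fun ψ : IrrCharacter T => indFun T (ψ : T → ℂ)), he, ?_, ?_, ?_, ?_⟩
  · intro χ hχ
    obtain ⟨ψ, hψ, rfl⟩ := Finset.mem_image.mp hχ
    exact (corr hHT hθ hT' ψ.2 (by rw [hover ψ hψ]; exact heC)).1
  · rw [Finset.card_image_of_injOn hinj, hcard, ← Subgroup.card_mul_index (H.subgroupOf T), mul_comm]
    congr 1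
    exact (Nat.card_congr (Subgroup.subgroupOfEquivOfLe hHT).toEquiv).symm
  · rw [Finset.sum_image hinj, ← indFun_trans H T hHT θ]
    have h1 : indFun (H.subgroupOf T) (fun x => θ ⟨(x : T), Subgroup.mem_subgroupOf.mp x.2⟩) = (e : ℂ) • ∑ χ ∈ C, (χ : T → ℂ) := hsum
    rw [h1, indFun_smul, indFun_sum]
  · intro χ hχ
    obtain ⟨ψ, hψ, rfl⟩ := Finset.mem_image.mp hχ
    have h1 := res_one hHT hθ hT' ψ.2 (by rw [hover ψ hψ]; exact heC)
    rw [indFun_one, h1, hover ψ hψ]
    ring

end Cfsg.Agent.S1490
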