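import Cfsg.Statements.S1491
import Mathlib
import Cfsg.Agent.Lib.DetExt5
import Cfsg.Agent.Lib.CliffordCorr

set_option autoImplicit false
open Cfsg

set_option linter.style.haveILetI false
namespace Cfsg.Agent.S1491

open Cfsg CfsgLib.CharBasic CfsgLib.CharInd CfsgLib.CharClifford CfsgLib.CliffordCorr CfsgLib.Gallagher2 CfsgLib.DetChar CfsgLib.DetExt CfsgLib.DetExt3 CfsgLib.DetExt5


/-- Let H be a normal subgroup of the finite group G and θ an irreducible character of H with inertia group T, where T/H is abelian (commutators of T lie in H) and the index of H in T is coprime to the order of H. Then the function induced from θ is the sum of a set of exactly [T:H] irreducible characters of G, each of degree [G:T] * θ(1). -/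
theorem result {G : Type*} [Group G] [Fintype G] (H T : Subgroup G) [hN : H.Normal] (θ : H → ℂ) (hθ : Cfsg.IsIrrCharacter H θ) (hT : ∀ g : G, g ∈ T ↔ ∀ h : H, θ ⟨g * h * g⁻¹, hN.conj_mem h h.2 g⟩ = θ h) (hab : ∀ x ∈ T, ∀ y ∈ T, x * y * x⁻¹ * y⁻¹ ∈ H) (hcop : Nat.Coprime (Nat.card H) (H.relIndex T)) : ∃ C : Finset (G → ℂ), (∀ χ ∈ C, Cfsg.IsIrrCharacter G χ) ∧ C.card = H.relIndex T ∧ Cfsg.indFun H θ = ∑ χ ∈ C, χ ∧ ∀ χ ∈ C, χ 1 = (T.index : ℂ) * θ 1 := by
  classical
  have hmem : ∀ g : G, g ∈ T ↔ conjFn g θ = θ := by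
    intro g
    rw [hT]
    exact ⟨fun h => funext h, fun h => congrFun h⟩
  have hHT : H ≤ T := by
    intro h hh
    rw [hmem]
    exact conjFn_of_mem (IsCharacter.isClassFunction (IsIrrCharacter.isCharacter hθ)) hh
  haveI : Fintype T := Fintype.ofFinite _
  haveI : Fintype H := Fintype.ofFinite _
  haveI : Fintype (H.subgroupOf T) := Fintype.ofFinite _
  have hθ' := subFun_irr hHT hθ
  have hinv' : ∀ g : T, conjFn g (subFun T θ) = subFun T θ := by
    intro g
    funext n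
    exact congrFun ((hmem g).mp g.2) ⟨((n : T) : G), Subgroup.mem_subgroupOf.mp n.2⟩
  obtain ⟨d, hd0, hd⟩ := IsIrrCharacter.exists_pos hθ
  have hcard : Nat.card (H.subgroupOf T) = Nat.card H := Nat.card_congr (Subgroup.subgroupOfEquivOfLe hHT).toEquiv
  have hidx : (H.subgroupOf T).index = H.relIndex T := rfl
  have hcop' : Nat.Coprime (H.subgroupOf T).index (Cfsg.detOrder (subFun T θ) * d) := by
    rw [hidx]
    apply Nat.Coprime.mul_right
    · apply Nat.Coprime.coprime_dvd_right _ hcop.symm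
      obtain ⟨L, hL⟩ := detChar_hom (IsIrrCharacter.isCharacter hθ')
      have hL' : Cfsg.detChar (subFun T θ) = fun n => (L n : ℂ) := funext hL
      unfold Cfsg.detOrder
      rw [hL', orderOf_linear, ← hcard, orderOf_dvd_iff_pow_eq_one]
      ext n
      rw [MonoidHom.pow_apply, ← map_pow, pow_card_eq_one', map_one]
      rfl
    · exact Nat.Coprime.coprime_dvd_right (IsIrrCharacter.degree_dvd hθ hd) hcop.symm
  obtain ⟨χ₀, ⟨hχ₀, hχ₀N, -⟩, -⟩ := canonical_ext hθ' hinv' hd hcop'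
  obtain ⟨e, C, he, hec, hind, hC, -⟩ := ind_abelian (G := T) (N := H.subgroupOf T) (fun x y => Subgroup.mem_subgroupOf.mpr (hab x x.2 y y.2)) hθ' hinv'
  have he1 : e = 1 := by
    have h1 : Cfsg.classInner (Cfsg.indFun (H.subgroupOf T) (subFun T θ)) χ₀ = 1 := by
      rw [CfsgLib.CharInd.frobenius _ _ (IsCharacter.isClassFunction (IsIrrCharacter.isCharacter hχ₀))]
      have : (fun h : H.subgroupOf T => χ₀ h) = subFun T θ := funext hχ₀N
      rw [this, IsIrrCharacter.inner_self hθ']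
    rw [hind, classInner_smul_left, classInner_sum_left] at h1
    obtain ⟨m, hm⟩ : ∃ m : ℕ, ∑ i ∈ C, Cfsg.classInner (i : T → ℂ) χ₀ = m := by
      refine ⟨∑ i ∈ C, if (i : T → ℂ) = χ₀ then 1 else 0, ?_⟩
      push_cast
      apply Finset.sum_congr rfl
      intro i _
      by_cases h : (i : T → ℂ) = χ₀
      · rw [if_pos h, h, IsIrrCharacter.inner_self hχ₀]
      · rw [if_neg h, IsIrrCharacter.inner_eq_zero i.2 hχ₀ h]
    rw [hm] at h1
    have h2 : e * m = 1 := by exact_mod_cast h1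
    exact Nat.eq_one_of_mul_eq_one_right h2
  have hres : ∀ χ ∈ C, resTo hHT (χ : T → ℂ) = θ := by
    intro χ hχ
    funext n
    have h1 := congrFun (hC χ hχ) ⟨⟨n, hHT n.2⟩, Subgroup.mem_subgroupOf.mpr n.2⟩
    rw [he1, Nat.cast_one, one_smul] at h1
    exact h1
  have hne : ∀ χ ∈ C, Cfsg.classInner (resTo hHT (χ : T → ℂ)) θ ≠ 0 := by
    intro χ hχ
    rw [hres χ hχ, IsIrrCharacter.inner_self hθ]
    exact one_ne_zero
  have hinj : Set.InjOn (fun χ : Cfsg.IrrCharacter T => Cfsg.indFun T (χ : T → ℂ)) C := by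
    intro χ hχ χ' hχ' h
    apply Subtype.ext
    exact corr_inj hHT hθ hmem χ.2 (hne χ hχ) χ'.2 (hne χ' hχ') h
  refine ⟨C.image (fun χ : Cfsg.IrrCharacter T => Cfsg.indFun T (χ : T → ℂ)), ?_, ?_, ?_, ?_⟩
  · intro χ hχ
    obtain ⟨ψ, hψ, rfl⟩ := Finset.mem_image.mp hχ
    exact (corr hHT hθ hmem ψ.2 (hne ψ hψ)).1
  · rw [Finset.card_image_of_injOn hinj]
    rw [he1, one_pow, one_mul] at hec
    exact hec
  · rw [Finset.sum_image hinj, ← indFun_sum]
    rw [he1, Nat.cast_one, one_smul] at hind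
    rw [← hind]
    exact (indFun_trans H T hHT θ).symm
  · intro χ hχ
    obtain ⟨ψ, hψ, rfl⟩ := Finset.mem_image.mp hχ
    have h1 : (ψ : T → ℂ) 1 = θ 1 := congrFun (hres ψ hψ) 1
    show Cfsg.indFun T (ψ : T → ℂ) 1 = _
    rw [indFun_one, h1]

end Cfsg.Agent.S1491
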