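import Cfsg.Statements.S1493
import Mathlib
import Cfsg.Agent.Lib.CharGalois

set_option autoImplicit false
open Cfsg

namespace Cfsg.Agent.S1493

/-- Let G be a finite group of order a * b with a and b coprime, let k be coprime to a, and let χ be a character of G. Then there is a character χ' of G such that χ'(g) = χ(g ^ k) whenever the order of g divides a and χ'(g) = χ(g) whenever the order of g is coprime to a; moreover χ' is irreducible if χ is. -/
theorem result {G : Type*} [Group G] [Finite G] (a b k : ℕ) (hab : Nat.card G = a * b) (hcop : Nat.Coprime a b) (hk : Nat.Coprime k a) (χ : G → ℂ) (hχ : Cfsg.IsCharacter G χ) : ∃ χ' : G → ℂ, Cfsg.IsCharacter G χ' ∧ (Cfsg.IsIrrCharacter G χ → Cfsg.IsIrrCharacter G χ') ∧ (∀ g : G, orderOf g ∣ a → χ' g = χ (g ^ k)) ∧ (∀ g : G, Nat.Coprime (orderOf g) a → χ' g = χ g) := by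
  classical
  have hG0 := Nat.card_pos (α := G)
  have ha : a ≠ 0 := by rintro rfl; rw [zero_mul] at hab; omega
  have hb : b ≠ 0 := by rintro rfl; rw [mul_zero] at hab; omega
  -- k' ≡ k mod a, k' ≡ 1 mod b
  obtain ⟨k', h1, h2⟩ := Nat.chineseRemainder hcop k 1
  have hk1 : Nat.Coprime k' a := by
    have := h1.gcd_eq
    unfold Nat.Coprime
    rw [this]; exact hk
  have hk2 : Nat.Coprime k' b := by
    have := h2.gcd_eq
    unfold Nat.Coprime
    rw [this]; simp
  have hk' : Nat.Coprime k' (Nat.card G) := by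
    rw [hab]; exact Nat.Coprime.mul_right hk1 hk2
  refine ⟨fun g => χ (g ^ k'), CfsgLib.CharGalois.IsCharacter.pow_coprime hχ hk', fun h => CfsgLib.CharGalois.IsIrrCharacter.pow_coprime h hk', ?_, ?_⟩
  · intro g hg
    simp only
    congr 1
    rw [pow_eq_pow_iff_modEq]
    exact h1.of_dvd hg
  · intro g hg
    simp only
    have h3 : orderOf g ∣ b := by
      have : orderOf g ∣ a * b := by rw [← hab]; exact orderOf_dvd_natCard g
      exact hg.dvd_of_dvd_mul_left this
    have h4 : g ^ k' = g ^ 1 := by
      rw [pow_eq_pow_iff_modEq]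
      exact h2.of_dvd h3
    rw [h4, pow_one]

end Cfsg.Agent.S1493
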