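import Cfsg.Statements.S1497
import Mathlib

set_option autoImplicit false
open Cfsg

namespace Cfsg.Agent.S1497

/-- Let A be a nonempty subset of the finite group G not containing 1 and L a subgroup. Then A is a TI-subset whose normaliser is L if and only if the Dade hypothesis holds for A, L and the constant choice H(a) = ⊥. -/
theorem result {G : Type*} [Group G] [Finite G] (A : Set G) (hA : A.Nonempty) (h1 : (1 : G) ∉ A) (L : Subgroup G) : (Cfsg.IsTISubset A ∧ Subgroup.normalizer A = L) ↔ Cfsg.DadeHypothesis A L (fun _ => ⊥) := by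
  have e1 : ∀ g : G, g ∈ Subgroup.normalizer A ↔ ∀ a, a ∈ A ↔ g * a * g⁻¹ ∈ A := fun g => Subgroup.mem_set_normalizer_iff
  constructor
  · rintro ⟨hTI, hN⟩
    have hfus : ∀ a ∈ A, ∀ g : G, g * a * g⁻¹ ∈ A → g ∈ L := by
      intro a ha g hg
      rw [← hN]
      by_contra hcon
      have := hTI g hcon a ha hg
      rw [this] at ha
      exact h1 ha
    have hCL : ∀ a ∈ A, Subgroup.centralizer ({a} : Set G) ≤ L := by
      intro a ha g hg
      rw [Subgroup.mem_centralizer_singleton_iff] at hg
      apply hfus a ha
      rw [hg]; simpa using ha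
    refine ⟨h1, ?_, ?_, ?_, ?_, ?_, ?_, ?_, ?_⟩
    · intro a ha
      exact hfus a ha a (by simpa using ha)
    · intro x hx a ha
      rw [← hN] at hx
      exact ((e1 x).mp hx a).mp ha
    · intro a ha g hg
      exact ⟨g, hfus a ha g hg, rfl⟩
    · intro a _; exact bot_le
    · intro a ha c hc u hu
      rw [Subgroup.mem_bot] at hu ⊢
      rw [hu]; simp
    · intro a _; exact bot_inf_eq _
    · intro a ha
      rw [bot_sup_eq]
      exact inf_eq_right.mpr (hCL a ha)
    · intro a _ b _
      simp
  · intro hD
    have hCL : ∀ a ∈ A, Subgroup.centralizer ({a} : Set G) ≤ L := by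
      intro a ha
      have := hD.sup_eq a ha
      rw [bot_sup_eq] at this
      exact inf_eq_right.mp this
    have hfus : ∀ a ∈ A, ∀ g : G, g * a * g⁻¹ ∈ A → g ∈ L := by
      intro a ha g hg
      obtain ⟨x, hx, hxg⟩ := hD.fusion a ha g hg
      have h2 : x⁻¹ * g ∈ Subgroup.centralizer ({a} : Set G) := by
        rw [Subgroup.mem_centralizer_singleton_iff]
        calc x⁻¹ * g * a = x⁻¹ * (g * a * g⁻¹) * g := by group
          _ = x⁻¹ * (x * a * x⁻¹) * g := by rw [hxg]
          _ = _ := by group
      have h3 := L.mul_mem hx (hCL a ha h2)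
      simpa using h3
    have hN : Subgroup.normalizer A = L := by
      apply le_antisymm
      · intro g hg
        obtain ⟨a, ha⟩ := hA
        exact hfus a ha g (((e1 g).mp hg a).mp ha)
      · intro x hx
        rw [e1]
        intro a
        constructor
        · exact hD.conj_mem x hx a
        · intro h
          have := hD.conj_mem x⁻¹ (L.inv_mem hx) _ h
          have e : x⁻¹ * (x * a * x⁻¹) * x⁻¹⁻¹ = a := by group
          rwa [e] at this
    refine ⟨?_, hN⟩
    intro g hg a ha h
    exfalso
    apply hg
    rw [hN]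
    exact hfus a ha g h

end Cfsg.Agent.S1497
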