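import Cfsg.Statements.S1509
import Mathlib
import Cfsg.Agent.Lib.CharTI

set_option autoImplicit false
open Cfsg

open scoped Pointwise
namespace Cfsg.Agent.S1509

/-- Let α, β, γ, δ be functions on a finite group X each of which is an irreducible character or the negative of one, and u, v nonzero real numbers. Suppose ⟨α, β⟩ = ⟨γ, δ⟩ = 0, ⟨α − β, uγ − vδ⟩ = 0, α 1 = β 1 and u γ 1 = v δ 1. Then also ⟨α, γ⟩ = ⟨α, δ⟩ = ⟨β, γ⟩ = ⟨β, δ⟩ = 0. -/
theorem result {X : Type*} [Group X] [Fintype X] (α β γ δ : X → ℂ) (hα : Cfsg.IsIrrCharacter X α ∨ Cfsg.IsIrrCharacter X (-α)) (hβ : Cfsg.IsIrrCharacter X β ∨ Cfsg.IsIrrCharacter X (-β)) (hγ : Cfsg.IsIrrCharacter X γ ∨ Cfsg.IsIrrCharacter X (-γ)) (hδ : Cfsg.IsIrrCharacter X δ ∨ Cfsg.IsIrrCharacter X (-δ)) (u v : ℝ) (hu : u ≠ 0) (hv : v ≠ 0) (hab : Cfsg.classInner α β = 0) (hcd : Cfsg.classInner γ δ = 0) (hmix : Cfsg.classInner (α - β) ((u : ℂ) • γ - (v : ℂ) • δ) = 0) (h1 : α 1 = β 1) (h2 : (u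 : ℂ) * γ 1 = (v : ℂ) * δ 1) : Cfsg.classInner α γ = 0 ∧ Cfsg.classInner α δ = 0 ∧ Cfsg.classInner β γ = 0 ∧ Cfsg.classInner β δ = 0 := by
  classical
  -- write each as sign times irreducible
  have key : ∀ ζ : X → ℂ, (Cfsg.IsIrrCharacter X ζ ∨ Cfsg.IsIrrCharacter X (-ζ)) → ∃ (s : ℤ) (μ : Cfsg.IrrCharacter X), (s = 1 ∨ s = -1) ∧ ζ = (s : ℂ) • (μ : X → ℂ) := by
    rintro ζ (h | h)
    · exact ⟨1, ⟨ζ, h⟩, Or.inl rfl, by simp⟩
    · exact ⟨-1, ⟨-ζ, h⟩, Or.inr rfl, by simp⟩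
  obtain ⟨a, A, ha, rfl⟩ := key α hα
  obtain ⟨b, B, hb, rfl⟩ := key β hβ
  obtain ⟨c, C, hc, rfl⟩ := key γ hγ
  obtain ⟨d, D, hd, rfl⟩ := key δ hδ
  have hin : ∀ (s t : ℤ) (μ ν : Cfsg.IrrCharacter X), Cfsg.classInner ((s : ℂ) • (μ : X → ℂ)) ((t : ℂ) • (ν : X → ℂ)) =
      if μ = ν then (s : ℂ) * t else 0 := by
    intro s t μ ν
    rw [CfsgLib.CharBasic.classInner_smul_left, CfsgLib.CharBasic.classInner_smul_right, CfsgLib.CharBasic.irr_inner]
    split_ifs <;> simp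
  have hne : ∀ s : ℤ, (s = 1 ∨ s = -1) → (s : ℂ) ≠ 0 := by
    rintro s (rfl | rfl) <;> simp
  have hAB : A ≠ B := by
    intro h
    rw [hin, if_pos h] at hab
    exact mul_ne_zero (hne a ha) (hne b hb) hab
  have hCD : C ≠ D := by
    intro h
    rw [hin, if_pos h] at hcd
    exact mul_ne_zero (hne c hc) (hne d hd) hcd
  have hr : ∀ (w : ℝ) (f g : X → ℂ), Cfsg.classInner f ((w : ℂ) • g) = w * Cfsg.classInner f g := by
    intro w f g
    rw [CfsgLib.CharBasic.classInner_smul_right, Complex.conj_ofReal]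
  rw [CfsgLib.CharBasic.classInner_sub_left, CfsgLib.CharBasic.classInner_sub_right, CfsgLib.CharBasic.classInner_sub_right,
    hr, hr, hr, hr, hin, hin, hin, hin] at hmix
  simp only [Pi.smul_apply, smul_eq_mul] at h1 h2
  obtain ⟨dA, hdA, eA⟩ := CfsgLib.CharBasic.IsIrrCharacter.exists_pos A.2
  obtain ⟨dB, hdB, eB⟩ := CfsgLib.CharBasic.IsIrrCharacter.exists_pos B.2
  obtain ⟨dC, hdC, eC⟩ := CfsgLib.CharBasic.IsIrrCharacter.exists_pos C.2
  obtain ⟨dD, hdD, eD⟩ := CfsgLib.CharBasic.IsIrrCharacter.exists_pos D.2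
  have hu' : (u : ℂ) ≠ 0 := by exact_mod_cast hu
  have hv' : (v : ℂ) ≠ 0 := by exact_mod_cast hv
  have hCone : (C : X → ℂ) 1 ≠ 0 := CfsgLib.CharBasic.IsIrrCharacter.one_ne_zero C.2
  have hDone : (D : X → ℂ) 1 ≠ 0 := CfsgLib.CharBasic.IsIrrCharacter.one_ne_zero D.2
  have hsq : ∀ s : ℤ, (s = 1 ∨ s = -1) → (s : ℂ) * s = 1 := by
    rintro s (rfl | rfl) <;> simp
  have ha2 := hsq a ha
  have hb2 := hsq b hb
  have hc2 := hsq c hc
  have hd2 := hsq d hd
  have ha0 := hne a ha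
  have hb0 := hne b hb
  have hc0 := hne c hc
  have hd0 := hne d hd
  simp only [hin]
  have hAC : A ≠ C := by
    intro hAC
    have hAD : A ≠ D := fun h => hCD (hAC.symm.trans h)
    have hBC : B ≠ C := fun h => hAB (hAC.trans h.symm)
    rw [if_pos hAC, if_neg hAD, if_neg hBC] at hmix
    by_cases hBD : B = D
    · rw [if_pos hBD] at hmix
      rw [← hAC, ← hBD] at h2
      -- u c A1 = v d B1, a A1 = b B1, u a c + v b d = 0
      have hA1 : (A : X → ℂ) 1 ≠ 0 := CfsgLib.CharBasic.IsIrrCharacter.one_ne_zero A.2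
      have hB1 : (B : X → ℂ) 1 ≠ 0 := CfsgLib.CharBasic.IsIrrCharacter.one_ne_zero B.2
      have e1 : (u : ℂ) * c * b = v * d * a := by
        have h5 : ((u : ℂ) * c * b - v * d * a) * (A : X → ℂ) 1 = 0 := by
          linear_combination (b : ℂ) * h2 - (v : ℂ) * d * h1
        rcases mul_eq_zero.mp h5 with h | h
        · linear_combination h
        · exact absurd h hA1
      have e2 : (u : ℂ) * (a * c) + v * (b * d) = 0 := by linear_combination hmix
      -- multiply e1 by a*b : u c a = v d b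
      have e3 : (u : ℂ) * (a * c) = v * (b * d) := by
        linear_combination (a * b : ℂ) * e1 - (u * a * c : ℂ) * hb2 + (v * b * d : ℂ) * ha2
      have e4 : (u : ℂ) * (a * c) = 0 := by linear_combination e2 / 2 + e3 / 2
      exact mul_ne_zero hu' (mul_ne_zero ha0 hc0) e4
    · rw [if_neg hBD] at hmix
      have : (u : ℂ) * (a * c) = 0 := by linear_combination hmix
      exact mul_ne_zero hu' (mul_ne_zero ha0 hc0) this
  have hAD : A ≠ D := by
    intro hAD
    have hBD : B ≠ D := fun h => hAB (hAD.trans h.symm)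
    rw [if_neg hAC, if_pos hAD, if_neg hBD] at hmix
    by_cases hBC : B = C
    · rw [if_pos hBC] at hmix
      rw [← hAD, ← hBC] at h2
      have hA1 : (A : X → ℂ) 1 ≠ 0 := CfsgLib.CharBasic.IsIrrCharacter.one_ne_zero A.2
      -- u c B1 = v d A1 ; a A1 = b B1 ; v a d + u b c = 0
      have e1 : (u : ℂ) * c * a = v * d * b := by
        have h5 : ((u : ℂ) * c * a - v * d * b) * (A : X → ℂ) 1 = 0 := by
          linear_combination (b : ℂ) * h2 + (u : ℂ) * c * h1
        rcases mul_eq_zero.mp h5 with h | h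
        · linear_combination h
        · exact absurd h hA1
      have e3 : (u : ℂ) * (b * c) = v * (a * d) := by
        linear_combination (a * b : ℂ) * e1 - (u * b * c : ℂ) * ha2 + (v * a * d : ℂ) * hb2
      have e2 : (u : ℂ) * (b * c) + v * (a * d) = 0 := by linear_combination -hmix
      have e4 : (u : ℂ) * (b * c) = 0 := by linear_combination e2 / 2 + e3 / 2
      exact mul_ne_zero hu' (mul_ne_zero hb0 hc0) e4
    · rw [if_neg hBC] at hmix
      have : (v : ℂ) * (a * d) = 0 := by linear_combination -hmix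
      exact mul_ne_zero hv' (mul_ne_zero ha0 hd0) this
  rw [if_neg hAC, if_neg hAD] at hmix
  have hBC : B ≠ C := by
    intro hBC
    have hBD : B ≠ D := fun h => hCD (hBC.symm.trans h)
    rw [if_pos hBC, if_neg hBD] at hmix
    have : (u : ℂ) * (b * c) = 0 := by linear_combination -hmix
    exact mul_ne_zero hu' (mul_ne_zero hb0 hc0) this
  have hBD : B ≠ D := by
    intro hBD
    rw [if_neg hBC, if_pos hBD] at hmix
    have : (v : ℂ) * (b * d) = 0 := by linear_combination hmix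
    exact mul_ne_zero hv' (mul_ne_zero hb0 hd0) this
  rw [if_neg hAC, if_neg hAD, if_neg hBC, if_neg hBD]
  exact ⟨rfl, rfl, rfl, rfl⟩

end Cfsg.Agent.S1509
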