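import Cfsg.Statements.S1512
import Mathlib
import Cfsg.Agent.Lib.CopElt

set_option autoImplicit false
open Cfsg

namespace Cfsg.Agent.S1512

/-- Let K be a normal subgroup of the finite group L and x a non-identity element whose order is coprime to the order of K, such that K ⊓ C_L(y) = W₂ for every non-identity element y of the cyclic group generated by x. Then the number of conjugacy classes of K mapped to themselves by conjugation by x is at most Nat.card W₂. -/
theorem result {L : Type*} [Group L] [Finite L] (K W₂ : Subgroup L) [hK : K.Normal] (x : L) (hx1 : x ≠ 1) (hx : Nat.Coprime (orderOf x) (Nat.card K)) (hC : ∀ y ∈ Subgroup.zpowers x, y ≠ 1 → K ⊓ Subgroup.centralizer ({y} : Set L) = W₂) : Nat.card {C : ConjClasses K // ConjClasses.map (MulEquiv.toMonoidHom ((MulAut.conjNormal x : MulAut K))) C = C} ≤ Nat.card W₂ := by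
  classical
  -- every fixed class contains an element of W₂
  have hW2 : K ⊓ Subgroup.centralizer ({x} : Set L) = W₂ := hC x (Subgroup.mem_zpowers x) hx1
  have key : ∀ C : {C : ConjClasses K // ConjClasses.map (MulEquiv.toMonoidHom ((MulAut.conjNormal x : MulAut K))) C = C},
      ∃ w : W₂, ∃ hw : (w : L) ∈ K, ConjClasses.mk (⟨w, hw⟩ : K) = C.1 := by
    rintro ⟨C, hCf⟩
    obtain ⟨k, rfl⟩ := ConjClasses.mk_surjective C
    have h1 : ConjClasses.mk ((MulAut.conjNormal x : MulAut K) k) = ConjClasses.mk k := hCf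
    rw [ConjClasses.mk_eq_mk_iff_isConj, isConj_comm] at h1
    obtain ⟨c, hc⟩ := isConj_iff.mp h1
    have h2 : x * (k : L) * x⁻¹ = (c : L) * k * (c : L)⁻¹ := by
      have := congrArg Subtype.val hc
      rw [MulAut.conjNormal_apply] at this
      exact this.symm
    obtain ⟨z, hz, hzx⟩ := CfsgLib.CopElt.exists_commute_of_fixed_class hx k.2 c.2 h2
    have hzk : z * (k : L) * z⁻¹ ∈ K := K.mul_mem (K.mul_mem hz k.2) (K.inv_mem hz)
    have hzW : z * (k : L) * z⁻¹ ∈ W₂ := by
      rw [← hW2]
      refine Subgroup.mem_inf.mpr ⟨hzk, ?_⟩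
      rw [Subgroup.mem_centralizer_singleton_iff]
      exact hzx
    refine ⟨⟨_, hzW⟩, hzk, ?_⟩
    rw [ConjClasses.mk_eq_mk_iff_isConj, isConj_comm, isConj_iff]
    exact ⟨⟨z, hz⟩, rfl⟩
  choose f hf1 hf2 using key
  apply Nat.card_le_card_of_injective f
  intro C D hCD
  apply Subtype.ext
  rw [← hf2 C, ← hf2 D]
  congr 1
  ext
  simp [hCD]

end Cfsg.Agent.S1512
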