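import Cfsg.Statements.S1514
import Mathlib
import Cfsg.Agent.Lib.CharCoh
import Cfsg.Agent.Lib.CharCoh2
import Cfsg.Agent.S1509

set_option autoImplicit false
open Cfsg

set_option linter.style.haveILetI false
namespace Cfsg.Agent.S1514

open Cfsg CfsgLib.CharBasic CfsgLib.CharInd CfsgLib.CharClifford CfsgLib.CharCoh


/-- Let S be a nonempty set of irreducible characters of the finite group L, closed under complex conjugation and containing no real-valued member, and τ a linear isometry on the integer combinations of S vanishing at 1, with values virtual characters of G vanishing at 1. Then there is a choice R making (S, τ, R) a coherence system. -/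
theorem result {L : Type*} [Group L] [Fintype L] {G : Type*} [Group G] [Fintype G] (S : Set (L → ℂ)) (hS : S.Nonempty) (hirr : ∀ χ ∈ S, Cfsg.IsIrrCharacter L χ) (hconj : ∀ χ ∈ S, Cfsg.conjFun χ ∈ S ∧ Cfsg.conjFun χ ≠ χ) (τ : (L → ℂ) → (G → ℂ)) (hτ : Cfsg.IsLinearIsometryOn (Cfsg.zspanOn S {1}ᶜ) τ) (hτ1 : ∀ α ∈ Cfsg.zspanOn S {1}ᶜ, τ α 1 = 0) : ∃ R : (L → ℂ) → Finset (G → ℂ), Cfsg.IsCoherenceSystem S τ R := by
  classical
  have hchar : ∀ χ ∈ S, IsCharacter L χ := fun χ hχ => IsIrrCharacter.isCharacter (hirr χ hχ)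
  have hmem : ∀ χ ∈ S, χ - conjFun χ ∈ zspanOn S {1}ᶜ := fun χ hχ => sub_conj_mem hchar (fun χ hχ => (hconj χ hχ).1) hχ
  have horth : ∀ χ ∈ S, ∀ φ ∈ S, χ ≠ φ → classInner χ φ = 0 := fun χ hχ φ hφ h => IsIrrCharacter.inner_eq_zero (hirr χ hχ) (hirr φ hφ) h
  have hex : ∀ χ ∈ S, ∃ μ ν : IrrCharacter G, μ ≠ ν ∧ τ (χ - conjFun χ) = (μ : G → ℂ) - (ν : G → ℂ) := by
    intro χ hχ
    apply CfsgLib.CharTI.exists_sub_of_norm_two (hτ.2.2.2 _ (hmem χ hχ)) _ (hτ1 _ (hmem χ hχ))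
    rw [hτ.2.2.1 _ (hmem χ hχ) _ (hmem χ hχ), classInner_sub_left, classInner_sub_right, classInner_sub_right,
      IsIrrCharacter.inner_self (hirr χ hχ), IsIrrCharacter.inner_self (hirr _ (hconj χ hχ).1),
      horth χ hχ _ (hconj χ hχ).1 (hconj χ hχ).2.symm, horth _ (hconj χ hχ).1 χ hχ (hconj χ hχ).2]
    ring
  haveI : Nonempty (IrrCharacter G) := ⟨irrOne G⟩
  choose! μ ν hμν hτμ using hex
  have hin : ∀ a b : IrrCharacter G, a ≠ b → classInner (a : G → ℂ) (b : G → ℂ) = 0 := fun a b h => by rw [irr_inner, if_neg h]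
  have hin1 : ∀ a : IrrCharacter G, classInner (a : G → ℂ) (a : G → ℂ) = 1 := fun a => by rw [irr_inner, if_pos rfl]
  have hne : ∀ χ ∈ S, (μ χ : G → ℂ) ≠ -(ν χ : G → ℂ) := by
    intro χ hχ h
    have h1 := hin1 (μ χ)
    nth_rewrite 2 [h] at h1
    rw [classInner_neg_right, hin _ _ (hμν χ hχ)] at h1
    norm_num at h1
  refine ⟨fun χ => {(μ χ : G → ℂ), -(ν χ : G → ℂ)}, ⟨hS, hchar, fun χ hχ => (hconj χ hχ).1, fun χ hχ => (hconj χ hχ).2, hτ, hτ1, horth, ?_, ?_, ?_, ?_⟩⟩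
  · intro χ hχ α hα β hβ
    rw [Finset.mem_insert, Finset.mem_singleton] at hα hβ
    rcases hα with rfl | rfl <;> rcases hβ with rfl | rfl
    · rw [if_pos rfl, hin1]
    · rw [if_neg (hne χ hχ), classInner_neg_right, hin _ _ (hμν χ hχ), neg_zero]
    · rw [if_neg (hne χ hχ).symm, classInner_neg_left, hin _ _ (hμν χ hχ).symm, neg_zero]
    · rw [if_pos rfl, classInner_neg_left, classInner_neg_right, hin1, neg_neg]
  · intro χ hχ α hα
    rw [Finset.mem_insert, Finset.mem_singleton] at hα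
    rcases hα with rfl | rfl
    · exact IsIrrCharacter.isGeneralized (μ χ).2
    · exact IsGeneralizedCharacter.neg (IsIrrCharacter.isGeneralized (ν χ).2)
  · intro χ hχ
    rw [Finset.sum_pair (hne χ hχ), hτμ χ hχ, sub_eq_add_neg]
  · intro χ hχ φ hφ h1 h2 α hα β hβ
    have h3 : classInner (conjFun φ) χ = 0 := by
      rw [← conjFun_conjFun χ, inner_conjFun, h2, map_zero]
    have h4 : classInner (conjFun φ) (conjFun χ) = 0 := by
      rw [inner_conjFun, h1, map_zero]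
    have h5 : classInner (τ (φ - conjFun φ)) (τ (χ - conjFun χ)) = 0 := by
      rw [hτ.2.2.1 _ (hmem φ hφ) _ (hmem χ hχ), classInner_sub_left, classInner_sub_right, classInner_sub_right, h1, h2, h3, h4]
      ring
    rw [hτμ φ hφ, hτμ χ hχ] at h5
    have h6 := hτ1 _ (hmem φ hφ)
    have h7 := hτ1 _ (hmem χ hχ)
    rw [hτμ φ hφ, Pi.sub_apply, sub_eq_zero] at h6
    rw [hτμ χ hχ, Pi.sub_apply, sub_eq_zero] at h7
    obtain ⟨g1, g2, g3, g4⟩ := Cfsg.Agent.S1509.result (μ φ : G → ℂ) (ν φ : G → ℂ) (μ χ : G → ℂ) (ν χ : G → ℂ) (Or.inl (μ φ).2) (Or.inl (ν φ).2) (Or.inl (μ χ).2) (Or.inl (ν χ).2)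
      1 1 one_ne_zero one_ne_zero (hin _ _ (hμν φ hφ)) (hin _ _ (hμν χ hχ)) (by simpa using h5) h6 (by simpa using h7)
    rw [Finset.mem_insert, Finset.mem_singleton] at hα hβ
    rcases hα with rfl | rfl <;> rcases hβ with rfl | rfl
    · exact g1
    · rw [classInner_neg_right, g2, neg_zero]
    · rw [classInner_neg_left, g3, neg_zero]
    · rw [classInner_neg_left, classInner_neg_right, g4, neg_zero, neg_zero]

end Cfsg.Agent.S1514
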