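import Cfsg.Statements.S1515
import Mathlib
import Cfsg.Agent.Lib.CharCoh
import Cfsg.Agent.Lib.CharCoh2

set_option autoImplicit false
open Cfsg

namespace Cfsg.Agent.S1515

open Cfsg CfsgLib.CharBasic CfsgLib.CharInd CfsgLib.CharClifford CfsgLib.CharCoh


/-- Let (S, τ, R) be a coherence system from L to G, χ ∈ S, and ψ an integer combination of S with ⟨χ, ψ⟩ = ⟨conj χ, ψ⟩ = 0. Let τ₁ be a linear isometry on the integer combinations of χ − ψ and χ − conj χ, with virtual-character values, agreeing with τ on integer multiples of χ − conj χ. Then the sum over α ∈ R χ of the squared absolute values of ⟨τ₁(χ − ψ), α⟩ is at least ⟨χ, χ⟩; and if ⟨τ₁(χ − ψ), τ₁(χ − ψ)⟩ minus that sum is at least ⟨ψ, ψ⟩, then the sum equals ⟨χ, χ⟩ and every ⟨τ₁(χ − ψ), α⟩ with α ∈ R χ is 0 or 1. -/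
theorem result {L : Type*} [Group L] [Fintype L] {G : Type*} [Group G] [Fintype G] (S : Set (L → ℂ)) (τ : (L → ℂ) → (G → ℂ)) (R : (L → ℂ) → Finset (G → ℂ)) (hS : Cfsg.IsCoherenceSystem S τ R) (χ : L → ℂ) (hχ : χ ∈ S) (ψ : L → ℂ) (hψ : ψ ∈ Cfsg.zspan S) (h1 : Cfsg.classInner χ ψ = 0) (h2 : Cfsg.classInner (Cfsg.conjFun χ) ψ = 0) (τ₁ : (L → ℂ) → (G → ℂ)) (hτ₁ : Cfsg.IsLinearIsometryOn (Cfsg.zspan {χ - ψ, χ - Cfsg.conjFun χ}) τ₁) (hagree : ∀ n : ℤ, τ₁ (n • (χ - Cfsg.conjFun χ)) = τ (n • (χ - Cfsg.conjFun χ))) : (Cfsg.classInner χ χ).re ≤ ∑ α ∈ R χ, ‖Cfsg.classInner (τ₁ (χ - ψ)) α‖ ^ 2 ∧ ((Cfsg.classInner ψ ψ).re ≤ (Cfsg.classInner (τ₁ (χ - ψ)) (τ₁ (χ - ψ))).re - ∑ α ∈ R χ, ‖Cfsg.classInner (τ₁ (χ - ψ)) α‖ ^ 2 → (∑ α ∈ R χ, ‖Cfsg.classInner (τ₁ (χ - ψ)) α‖ ^ 2 = (Cfsg.classInner χ χ).re ∧ ∀ α ∈ R χ, Cfsg.classInner (τ₁ (χ - ψ)) α = 0 ∨ Cfsg.classInner (τ₁ (χ - ψ))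 α = 1)) := by
  classical
  have hm1 : χ - ψ ∈ zspan {χ - ψ, χ - conjFun χ} := mem_zspan_of_mem (by simp)
  have hm2 : χ - conjFun χ ∈ zspan {χ - ψ, χ - conjFun χ} := mem_zspan_of_mem (by simp)
  have hX := hτ₁.2.2.2 _ hm1
  have hag : τ₁ (χ - conjFun χ) = τ (χ - conjFun χ) := by simpa using hagree 1
  have h1' : classInner ψ χ = 0 := by rw [← classInner_conj_symm, h1, map_zero]
  have h2' : classInner ψ (conjFun χ) = 0 := by rw [← classInner_conj_symm, h2, map_zero]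
  have h : classInner (τ₁ (χ - ψ)) (τ (χ - conjFun χ)) = classInner χ χ := by
    rw [← hag, hτ₁.2.2.1 _ hm1 _ hm2, classInner_sub_left, sys_inner_sub_conj hS hχ, classInner_sub_right, h1', h2']
    ring
  obtain ⟨x, hx, -, hle, heq⟩ := sys_five hS hχ hX h
  have hn : ∑ α ∈ R χ, ‖classInner (τ₁ (χ - ψ)) α‖ ^ 2 = ((∑ α ∈ R χ, x α ^ 2 : ℤ) : ℝ) := by
    push_cast
    apply Finset.sum_congr rfl
    intro α hα
    rw [hx α hα, Complex.norm_intCast, sq_abs]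
  rw [hn]
  refine ⟨hle, fun hle2 => ?_⟩
  have h3 : classInner (τ₁ (χ - ψ)) (τ₁ (χ - ψ)) = classInner χ χ + classInner ψ ψ := by
    rw [hτ₁.2.2.1 _ hm1 _ hm1, classInner_sub_left, classInner_sub_right, classInner_sub_right, h1, h1']
    ring
  rw [h3, Complex.add_re] at hle2
  have hle3 : ((∑ α ∈ R χ, x α ^ 2 : ℤ) : ℝ) ≤ (classInner χ χ).re := by linarith
  refine ⟨le_antisymm hle3 hle, fun α hα => ?_⟩
  rw [hx α hα]
  rcases heq hle3 α hα with h | h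
  · left; simp [h]
  · right; simp [h]

end Cfsg.Agent.S1515
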