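import Cfsg.Statements.S1518
import Mathlib
import Cfsg.Agent.Lib.CharTI
import Cfsg.Agent.Lib.Dade2

set_option autoImplicit false
open Cfsg

open scoped Pointwise
namespace Cfsg.Agent.S1518

/-- Under the Dade hypothesis for (A, L, H): if χ is an irreducible character of L vanishing at every non-identity element of L outside A, then the Dade image of χ − conj χ equals μ − conj μ for some irreducible character μ of G. -/
theorem result {G : Type*} [Group G] [Fintype G] (A : Set G) (L : Subgroup G) [Fintype L] (H : G → Subgroup G) (hD : Cfsg.DadeHypothesis A L H) (χ : L → ℂ) (hχ : Cfsg.IsIrrCharacter L χ) (hsupp : ∀ x : L, x ≠ 1 → (x : G) ∉ A → χ x = 0) : ∃ μ : G → ℂ, Cfsg.IsIrrCharacter G μ ∧ Cfsg.dadeIsometry A L H (χ - Cfsg.conjFun χ) = μ - Cfsg.conjFun μ := by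
  classical
  have hχc := CfsgLib.CharBasic.IsIrrCharacter.isCharacter hχ
  have hχcl := CfsgLib.CharBasic.IsCharacter.isClassFunction hχc
  have hcj : Cfsg.IsIrrCharacter L (Cfsg.conjFun χ) := CfsgLib.CharBasic.IsIrrCharacter.conj hχ
  have hcjc := CfsgLib.CharBasic.IsIrrCharacter.isCharacter hcj
  by_cases hreal : χ = Cfsg.conjFun χ
  · refine ⟨1, CfsgLib.CharBasic.isIrr_one, ?_⟩
    have h1 : χ - Cfsg.conjFun χ = 0 := by rw [← hreal]; simp
    rw [h1]
    funext g
    have h2 : Cfsg.dadeIsometry A L H (0 : L → ℂ) g = 0 := by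
      by_cases hg : g ∈ CfsgLib.Dade.supp A H
      · obtain ⟨a, ha, u, hu, x, hx⟩ := hg
        exact CfsgLib.Dade.dadeIsometry_apply hD (α := 0) (fun _ _ => rfl) (a := ⟨a, hD.subset ha⟩) ha hu hx
      · exact CfsgLib.Dade.dadeIsometry_eq_zero hD.subset hg
    rw [h2]; simp [Cfsg.conjFun]
  · set α := χ - Cfsg.conjFun χ with hα
    have hαg : Cfsg.IsGeneralizedCharacter L α := ⟨_, _, hχc, hcjc, rfl⟩
    have hαcl := CfsgLib.CharBasic.IsGeneralizedCharacter.isClassFunction hαg
    have hα1 : α 1 = 0 := by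
      obtain ⟨d, hd⟩ := CfsgLib.CharBasic.IsCharacter.exists_nat hχc
      simp [hα, Cfsg.conjFun, hd]
    have hαA : ∀ x : L, (x : G) ∉ A → α x = 0 := by
      intro x hx
      by_cases hx1 : x = 1
      · rw [hx1, hα1]
      · simp [hα, Cfsg.conjFun, hsupp x hx1 hx]
    have hnorm : Cfsg.classInner α α = 2 := by
      rw [hα, CfsgLib.CharBasic.classInner_sub_left, CfsgLib.CharBasic.classInner_sub_right, CfsgLib.CharBasic.classInner_sub_right,
        CfsgLib.CharBasic.IsIrrCharacter.inner_self hχ, CfsgLib.CharBasic.IsIrrCharacter.inner_self hcj,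
        CfsgLib.CharBasic.IsIrrCharacter.inner_eq_zero hχ hcj hreal, CfsgLib.CharBasic.IsIrrCharacter.inner_eq_zero hcj hχ (fun h => hreal h.symm)]
      norm_num
    have hθg := CfsgLib.Dade.isGeneralized_dade hD hαg hαA
    have hθn : Cfsg.classInner (Cfsg.dadeIsometry A L H α) (Cfsg.dadeIsometry A L H α) = 2 := by
      rw [CfsgLib.Dade.inner_dade_dade hD hαcl hαA hαcl, hnorm]
    obtain ⟨μ, ν, hμν, hθ⟩ := CfsgLib.CharTI.exists_sub_of_norm_two hθg hθn (CfsgLib.Dade.dade_one hD α)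
    refine ⟨μ, μ.2, ?_⟩
    rw [hθ]
    -- conj θ = - θ
    have hconj : (fun g => (starRingEnd ℂ) (Cfsg.dadeIsometry A L H α g)) = -Cfsg.dadeIsometry A L H α := by
      rw [← CfsgLib.Dade.dade_conj hD hαcl]
      have h1 : (fun x => (starRingEnd ℂ) (α x)) = (-1 : ℂ) • α := by
        funext x
        simp [hα, Cfsg.conjFun]
      rw [h1, CfsgLib.Dade.dade_smul hD _ hαcl]
      simp
    have h2 : (fun g => (starRingEnd ℂ) ((μ : G → ℂ) g)) - (fun g => (starRingEnd ℂ) ((ν : G → ℂ) g)) = (ν : G → ℂ) - (μ : G → ℂ) := by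
      rw [hθ] at hconj
      have : (ν : G → ℂ) - (μ : G → ℂ) = -((μ : G → ℂ) - (ν : G → ℂ)) := by simp
      rw [this, ← hconj]
      funext g
      simp
    -- take the inner product with ν
    have h3 : (CfsgLib.CharBasic.irrConj μ) = ν := by
      have h4 := congrArg (fun f => Cfsg.classInner f (ν : G → ℂ)) h2
      simp only [CfsgLib.CharBasic.classInner_sub_left] at h4
      have e1 : Cfsg.classInner (fun g => (starRingEnd ℂ) ((μ : G → ℂ) g)) (ν : G → ℂ) = if CfsgLib.CharBasic.irrConj μ = ν then 1 else 0 :=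
        CfsgLib.CharBasic.irr_inner (CfsgLib.CharBasic.irrConj μ) ν
      have e2 : Cfsg.classInner (fun g => (starRingEnd ℂ) ((ν : G → ℂ) g)) (ν : G → ℂ) = if CfsgLib.CharBasic.irrConj ν = ν then 1 else 0 :=
        CfsgLib.CharBasic.irr_inner (CfsgLib.CharBasic.irrConj ν) ν
      rw [e1, e2, CfsgLib.CharBasic.irr_inner, CfsgLib.CharBasic.irr_inner, if_pos rfl, if_neg hμν] at h4
      by_contra hne
      rw [if_neg hne] at h4
      split_ifs at h4 <;> norm_num at h4
    have h5 : (ν : G → ℂ) = Cfsg.conjFun (μ : G → ℂ) := by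
      rw [← h3]; rfl
    rw [h5]

end Cfsg.Agent.S1518
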