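import Cfsg.Statements.S1522
import Mathlib
import Cfsg.Agent.Lib.CharCoh7
import Cfsg.Agent.Lib.CharCoh10
import Cfsg.Agent.Lib.FrobQuot2

set_option autoImplicit false
open Cfsg

open scoped commutatorElement
namespace Cfsg.Agent.S1522

open Cfsg CfsgLib.CharBasic CfsgLib.CharInd CfsgLib.CharClifford CfsgLib.CharCoh CfsgLib.FrobQuot


/-- Let K be a nilpotent normal subgroup of the finite group L of odd order with [K,K] < K < L and L/[K,K] a Frobenius group with kernel K/[K,K] (elements of K outside [K,K] are centralised modulo [K,K] only from inside K); let (S, τ, R) be a coherence system from L to G with S the functions induced from non-principal irreducible characters of K. Let Z be a nontrivial normal subgroup of L contained in the centre of K, and suppose every member of S outside S(Z) is an irreducible character of L. Then S minus S(Z) is the set of irreducible characters χ of L with χ z ≠ χ 1 for some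 z ∈ Z, and it is coherent. -/
theorem result {L : Type*} [Group L] [Fintype L] {G : Type*} [Group G] [Fintype G] (K : Subgroup L) [hK : K.Normal] (hsolv : Group.IsSolvable K) (τ : (L → ℂ) → (G → ℂ)) (R : (L → ℂ) → Finset (G → ℂ)) (hS : Cfsg.IsCoherenceSystem (Cfsg.inducedIrrAbove K ⊥) τ R) (hodd : Odd (Nat.card L)) (hnil : Group.IsNilpotent K) (hH₁K : ⁅K, K⁆ < K) (hKL : K < ⊤) (hfrob : ∀ k ∈ K, k ∉ ⁅K, K⁆ → ∀ x : L, x * k * x⁻¹ * k⁻¹ ∈ ⁅K, K⁆ → x ∈ K) (Z : Subgroup L) [Z.Normal] (hZ1 : Z ≠ ⊥) (hZK : Z ≤ K) (hZc : ∀ z ∈ Z, ∀ k ∈ K, z * k = k * z) (hirr : ∀ χ ∈ Cfsg.inducedIrrAbove K ⊥ \ Cfsg.inducedIrrAbove K Z, Cfsg.IsIrrCharacter L χ) : Cfsg.inducedIrrAbove K ⊥ \ Cfsg.inducedIrrAbove K Z = {χ | Cfsg.IsIrrCharacter L χ ∧ ∃ z ∈ Z, χ z ≠ χ 1} ∧ Cfsg.IsCoherent (Cfsg.inducedIrrAbove K ⊥ \ Cfsg.inducedIrrAbove K Z) {1}ᶜ τ := by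
  classical
  have hset := diff_above_eq hZK hirr
  refine ⟨hset, ?_⟩
  obtain ⟨χ₀, z₀, hz₀, hχz⟩ := exists_irr_not_trivial hZ1
  have hmem : ∀ φ, φ ∈ inducedIrrAbove K ⊥ \ inducedIrrAbove K Z ↔ (IsIrrCharacter L φ ∧ ∃ z ∈ Z, φ z ≠ φ 1) := fun φ => by rw [hset]; rfl
  have hχ₀ : (χ₀ : L → ℂ) ∈ inducedIrrAbove K ⊥ \ inducedIrrAbove K Z := (hmem _).mpr ⟨χ₀.2, z₀, hz₀, hχz⟩
  have hcχ₀ : conjFun (χ₀ : L → ℂ) ∈ inducedIrrAbove K ⊥ \ inducedIrrAbove K Z := by
    refine (hmem _).mpr ⟨isIrr_conjFun χ₀.2, z₀, hz₀, fun h => hχz ?_⟩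
    exact (starRingEnd ℂ).injective h
  have hsub : inducedIrrAbove K ⊥ \ inducedIrrAbove K Z ⊆ inducedIrrAbove K ⊥ := Set.diff_subset
  by_cases hpp : ∃ p m : ℕ, p.Prime ∧ (⊥ : Subgroup L).relIndex K = p ^ m
  · obtain ⟨p, m, hp, hpm⟩ := hpp
    rw [Subgroup.relIndex_bot_left] at hpm
    have hKbot : K ≠ ⊥ := by
      rintro rfl
      exact absurd hH₁K (by simp)
    have hm0 : m ≠ 0 := by
      rintro rfl
      rw [pow_zero, Subgroup.card_eq_one] at hpm
      exact hKbot hpm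
    have hpK : p ∣ Nat.card K := by rw [hpm]; exact dvd_pow_self p hm0
    have hpL : p ∣ Nat.card L := hpK.trans (Subgroup.card_subgroup_dvd_card K)
    have hpodd : Odd p := Odd.of_dvd_nat hodd hpL
    have hp2 : p ≠ 2 := by rintro rfl; revert hpodd; decide
    have hd := index_dvd_relIndex_sub_one ⁅K, K⁆ K K hfrob le_rfl
    have hidx := index_commutator_quotient K (⊥ : Subgroup L) bot_le
    have hrel : p ∣ (⁅K, K⁆).relIndex K := by
      have h1 : (⁅K, K⁆).relIndex K ∣ p ^ m := by rw [← hpm]; exact Subgroup.index_dvd_card _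
      obtain ⟨j, -, hj⟩ := (Nat.dvd_prime_pow hp).mp h1
      rw [hj]
      apply dvd_pow_self
      rintro rfl
      rw [pow_zero, Subgroup.relIndex_eq_one] at hj
      exact absurd hj (not_le_of_gt hH₁K)
    have hcop : Nat.Coprime p K.index := by
      rw [Nat.Prime.coprime_iff_not_dvd hp]
      intro h
      have h1 : p ∣ (⁅K, K⁆).relIndex K - 1 := h.trans hd
      have h2 : 1 ≤ (⁅K, K⁆).relIndex K := Nat.one_le_iff_ne_zero.mpr (relIndex_ne_zero' _ _)
      have h3 : p ∣ 1 := (Nat.dvd_sub_iff_right h2 hrel).mp h1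
      exact hp.one_lt.ne' (Nat.dvd_one.mp h3)
    obtain ⟨F, hF⟩ := ((above_finite K ⊥).subset hsub).exists_finset_coe
    have hFm : ∀ φ, φ ∈ F ↔ φ ∈ inducedIrrAbove K ⊥ \ inducedIrrAbove K Z := fun φ => by rw [← hF, Finset.mem_coe]
    rw [← hF]
    refine irr_central hp hp2 hpm hcop hZK hZc ?_ F (fun φ => by rw [hFm, hmem]) ?_ τ ?_ ?_
    · intro χ h1 h2
      obtain ⟨⟨θ, h3, -, -, h4⟩, -⟩ := (hmem χ).mpr ⟨h1, h2⟩
      exact ⟨θ, h3, h4⟩
    · exact Finset.one_lt_card.mpr ⟨_, (hFm _).mpr hχ₀, _, (hFm _).mpr hcχ₀, (hS.conj_ne _ (hsub hχ₀)).symm⟩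
    · exact iso_mono hS.isometry (zspanOn_mono (by rw [hF]; exact hsub))
    · exact fun α hα => hS.map_one α (zspanOn_mono (by rw [hF]; exact hsub) hα)
  · have hcoh : IsCoherent (inducedIrrAbove K ⊥) {1}ᶜ τ := by
      refine sys_six_four hsolv hS hodd ⊥ bot_le ?_ (⁅K, K⁆ ⊔ ⊥) rfl (by rw [sup_bot_eq]; exact hH₁K) hKL (by rw [sup_bot_eq]; exact hfrob) (Or.inr (Or.inr (Or.inl hpp)))
      infer_instance
    exact coherent_subset hsub hcoh (sys_exists_ne hS hsub hχ₀ hcχ₀)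

end Cfsg.Agent.S1522
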