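import Cfsg.Statements.S1524
import Mathlib
import Cfsg.Agent.Lib.Sibley3

set_option autoImplicit false
open Cfsg

set_option linter.style.haveILetI false
namespace Cfsg.Agent.S1524

open Cfsg CfsgLib.CharBasic CfsgLib.CharInd CfsgLib.CharClifford CfsgLib.CharCoh CfsgLib.FrobQuot CfsgLib.FrobCoh CfsgLib.Sibley2
open scoped commutatorElement


/-- Let G be a finite group and H ≤ L subgroups with L of odd order, H ≠ ⊥ nilpotent and normal in L with a nontrivial complement W₁ in L (H ⊓ W₁ = ⊥, H ⊔ W₁ = L) acting on H without non-identity fixed points (L is a Frobenius group with kernel H), and suppose the underlying set of H is a TI-subset of G whose normaliser is L. Let S be the set of functions on L induced from the non-principal irreducible characters of H. Then (S, L minus 1, induction to G) is coherent. -/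
theorem result {G : Type*} [Group G] [Fintype G] (H L W₁ : Subgroup G) [Fintype L] (hodd : Odd (Nat.card L)) (hHL : H ≤ L) (hW₁L : W₁ ≤ L) (hH1 : H ≠ ⊥) (hW1 : W₁ ≠ ⊥) (hnil : Group.IsNilpotent H) (hHn : ∀ x ∈ L, ∀ h ∈ H, x * h * x⁻¹ ∈ H) (hinf : H ⊓ W₁ = ⊥) (hsup : H ⊔ W₁ = L) (hfpf : ∀ w ∈ W₁, w ≠ 1 → ∀ h ∈ H, w * h = h * w → h = 1) (hTI : Cfsg.IsTISubset (H : Set G)) (hN : Subgroup.normalizer (H : Set G) = L) : Cfsg.IsCoherent (Cfsg.inducedIrrAbove (H.subgroupOf L) ⊥) {1}ᶜ (fun α : L → ℂ => Cfsg.indFun L α) := by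
  classical
  haveI hnorm : (H.subgroupOf L).Normal := by
    refine ⟨fun h hh x => ?_⟩
    rw [Subgroup.mem_subgroupOf] at hh ⊢
    exact hHn x x.2 _ hh
  obtain ⟨K, hK⟩ : ∃ K : Subgroup L, K = H.subgroupOf L := ⟨_, rfl⟩
  haveI hKn : K.Normal := by rw [hK]; exact hnorm
  -- centralizers in L
  have hCK : ∀ h ∈ K, h ≠ 1 → Subgroup.centralizer ({h} : Set L) ≤ K := by
    apply CfsgLib.Sibley3.centralizer_le_of_compl (W := W₁.subgroupOf L)
    · rw [hK, ← Subgroup.subgroupOf_sup hHL hW₁L, hsup, Subgroup.subgroupOf_self]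
    · intro w hw hw1 h hh heq
      rw [Subgroup.mem_subgroupOf] at hw
      rw [hK, Subgroup.mem_subgroupOf] at hh
      apply Subtype.ext
      exact hfpf w hw (fun h => hw1 (Subtype.ext h)) h hh (congrArg Subtype.val heq)
  have hC : ∀ k ∈ H, k ≠ 1 → Subgroup.centralizer ({k} : Set G) ≤ H := by
    intro k hk hk1 x hx
    have h1 := Subgroup.mem_centralizer_iff.mp hx k rfl
    have hxL : x ∈ L := by
      rw [← hN]
      by_contra h
      apply hk1
      apply hTI x h k hk
      rw [← h1, mul_inv_cancel_right]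
      exact hk
    have h2 : (⟨x, hxL⟩ : L) ∈ K := by
      apply hCK ⟨k, hHL hk⟩ (by rw [hK, Subgroup.mem_subgroupOf]; exact hk) (fun h => hk1 (congrArg (Subtype.val : L → G) h))
      rw [Subgroup.mem_centralizer_iff]
      rintro y hy
      rw [Set.mem_singleton_iff] at hy
      rw [hy]
      exact Subtype.ext h1
    rw [hK, Subgroup.mem_subgroupOf] at h2
    exact h2
  have hTI' : ∀ g : G, g ∉ L → ∀ k ∈ H, g * k * g⁻¹ ∈ H → k = 1 := by
    intro g hg k hk hgk
    rw [← hN] at hg
    exact hTI g hg k hk hgk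
  have hiso : IsLinearIsometryOn (zspanOn (inducedIrrAbove K (⊥ : Subgroup L)) {1}ᶜ) (fun α => indFun L α) := by
    rw [hK]; exact CfsgLib.CohTI.ti_isometry hTI'
  have hone : ∀ α ∈ zspanOn (inducedIrrAbove K (⊥ : Subgroup L)) {1}ᶜ, (fun α => indFun L α) α 1 = 0 := by
    rw [hK]; exact fun α hα => CfsgLib.CohTI.ti_one hα
  rw [← hK]
  have hcardK : Nat.card K = Nat.card H := by
    rw [hK]; exact Nat.card_congr (Subgroup.subgroupOfEquivOfLe hHL).toEquiv
  have hnilK : Group.IsNilpotent K := by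
    rw [hK]
    exact Group.nilpotent_of_mulEquiv (_h := hnil) (Subgroup.subgroupOfEquivOfLe hHL).symm
  have hKtop : K ≠ ⊤ := by
    intro h
    apply hW1
    rw [Subgroup.eq_bot_iff_forall]
    intro w hw
    have h1 : (⟨w, hW₁L hw⟩ : L) ∈ K := by rw [h]; trivial
    rw [hK, Subgroup.mem_subgroupOf] at h1
    have h2 : w ∈ H ⊓ W₁ := Subgroup.mem_inf.mpr ⟨h1, hw⟩
    rw [hinf] at h2
    exact h2
  have hKbot : K ≠ ⊥ := by
    intro h
    apply hH1
    rw [Subgroup.eq_bot_iff_forall]
    intro w hw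
    have h1 : (⟨w, hHL hw⟩ : L) ∈ K := by rw [hK, Subgroup.mem_subgroupOf]; exact hw
    rw [h, Subgroup.mem_bot] at h1
    exact congrArg (Subtype.val : L → G) h1
  have hodd2 : Odd (Nat.card K) := hodd.of_dvd_nat (Subgroup.card_subgroup_dvd_card K)
  have hodd3 : Odd K.index := hodd.of_dvd_nat (Subgroup.index_dvd_card K)
  rcases frob_main hCK hiso hone hnilK hKtop hKbot (fun h => (Nat.not_even_iff_odd.mpr hodd2) (by rw [h]; exact hodd3.add_odd odd_one)) with h | ⟨p, hp, ⟨m, hm⟩, hna, -⟩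
  · exact h
  · haveI := Fact.mk hp
    have hp2 : p ≠ 2 := by
      rintro rfl
      have hm0 : m ≠ 0 := by
        rintro rfl
        rw [pow_zero] at hm
        exact hKbot (Subgroup.card_eq_one.mp hm)
      rw [hm] at hodd2
      exact (Nat.not_even_iff_odd.mpr hodd2) (even_iff_two_dvd.mpr (dvd_pow_self 2 hm0))
    have hpH : IsPGroup p H := IsPGroup.iff_card.mpr ⟨m, by rw [← hcardK, hm]⟩
    have hcop := CfsgLib.CohTI.hall hC
    have hHp : ∃ P : Sylow p G, (P : Subgroup G) = H := by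
      have hm0 : m ≠ 0 := by
        rintro rfl
        rw [pow_zero] at hm
        exact hKbot (Subgroup.card_eq_one.mp hm)
      have hnd : ¬ p ∣ H.index := by
        intro h
        rw [← hcardK, hm] at hcop
        have h1 : p ∣ 1 := by
          rw [← hcop]
          exact Nat.dvd_gcd (dvd_pow_self p hm0) h
        exact hp.one_lt.ne' (Nat.dvd_one.mp h1)
      exact ⟨hpH.toSylow hnd, rfl⟩
    obtain ⟨P, rfl⟩ := hHp
    exact sibley hp2 hTI hC L hN.symm K hK hKtop hna

end Cfsg.Agent.S1524
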