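import Cfsg.Statements.S1525
import Mathlib
import Cfsg.Agent.Lib.Dade

set_option autoImplicit false
open Cfsg

namespace Cfsg.Agent.S1525

/-- Under the Dade hypothesis for (A, L, H), let χ be a class function of G and let ψ be a function on L whose value at each a ∈ A is the average of χ over the coset a·H(a). Then (1/|G|) Σ |χ g|² over the elements g of G conjugate into some coset a·H(a) with a ∈ A is at least (1/|L|) Σ_{a ∈ A ∩ L} |ψ a|². -/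
theorem result {G : Type*} [Group G] [Fintype G] (A : Set G) (L : Subgroup G) [Fintype L] (H : G → Subgroup G) (hD : Cfsg.DadeHypothesis A L H) (χ : G → ℂ) (hχ : Cfsg.IsClassFunction G χ) (ψ : L → ℂ) (hψ : ∀ a : L, (a : G) ∈ A → ψ a = (Nat.card (H a) : ℂ)⁻¹ * ∑ᶠ u ∈ (H a : Set G), χ (a * u)) : (Nat.card L : ℝ)⁻¹ * ∑ᶠ a ∈ {a : L | (a : G) ∈ A}, ‖ψ a‖ ^ 2 ≤ (Nat.card G : ℝ)⁻¹ * ∑ᶠ g ∈ {g : G | ∃ a ∈ A, ∃ u ∈ H a, ∃ x : G, x * g * x⁻¹ = a * u}, ‖χ g‖ ^ 2 := by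
  classical
  have hF : Cfsg.IsClassFunction G (fun g => if g ∈ CfsgLib.Dade.supp A H then ((‖χ g‖ ^ 2 : ℝ) : ℂ) else 0) := by
    intro g x
    simp only
    have : (x * g * x⁻¹ ∈ CfsgLib.Dade.supp A H) ↔ g ∈ CfsgLib.Dade.supp A H := CfsgLib.Dade.mem_supp_conj
    by_cases hg : g ∈ CfsgLib.Dade.supp A H
    · rw [if_pos hg, if_pos (this.mpr hg), hχ g x]
    · rw [if_neg hg, if_neg (fun h => hg (this.mp h))]
  have h1 := CfsgLib.Dade.sum_supp hD hF (fun g hg => if_neg hg)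
  have h2 : (∑ g : G, if g ∈ CfsgLib.Dade.supp A H then ((‖χ g‖ ^ 2 : ℝ) : ℂ) else 0) =
      ((∑ᶠ g ∈ {g : G | ∃ a ∈ A, ∃ u ∈ H a, ∃ x : G, x * g * x⁻¹ = a * u}, ‖χ g‖ ^ 2 : ℝ) : ℂ) := by
    rw [CfsgLib.Dade.finsum_mem_eq_sum_ite, Complex.ofReal_sum]
    apply Finset.sum_congr rfl
    intro g _
    by_cases hg : g ∈ CfsgLib.Dade.supp A H
    · rw [if_pos hg, if_pos (show g ∈ {g : G | ∃ a ∈ A, ∃ u ∈ H a, ∃ x : G, x * g * x⁻¹ = a * u} from hg)]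
    · rw [if_neg hg, if_neg (show ¬ g ∈ {g : G | ∃ a ∈ A, ∃ u ∈ H a, ∃ x : G, x * g * x⁻¹ = a * u} from hg)]; simp
  rw [h2, CfsgLib.Dade.finsum_A_eq_sum_L hD.subset] at h1
  -- the inner averages
  let T : L → ℝ := fun a => (Nat.card (H a) : ℝ)⁻¹ * ∑ u : G, if u ∈ (H a : Set G) then ‖χ (a * u)‖ ^ 2 else 0
  have h3 : (∑ a : L, if (a : G) ∈ A then (Nat.card (H a) : ℂ)⁻¹ * ∑ᶠ u ∈ (H a : Set G), (if (a : G) * u ∈ CfsgLib.Dade.supp A H then ((‖χ (a * u)‖ ^ 2 : ℝ) : ℂ) else 0) else 0) =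
      ((∑ a : L, if (a : G) ∈ A then T a else 0 : ℝ) : ℂ) := by
    rw [Complex.ofReal_sum]
    apply Finset.sum_congr rfl
    intro a _
    split_ifs with ha
    · simp only [T]
      rw [Complex.ofReal_mul, Complex.ofReal_inv, Complex.ofReal_natCast, CfsgLib.Dade.finsum_mem_eq_sum_ite, Complex.ofReal_sum]
      congr 1
      apply Finset.sum_congr rfl
      intro u _
      by_cases hu : u ∈ (H a : Set G)
      · rw [if_pos hu, if_pos hu, if_pos]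
        exact ⟨a, ha, u, hu, 1, by simp⟩
      · rw [if_neg hu, if_neg hu]; simp
    · simp
  rw [h3] at h1
  have h4 : (Nat.card G : ℝ)⁻¹ * ∑ᶠ g ∈ {g : G | ∃ a ∈ A, ∃ u ∈ H a, ∃ x : G, x * g * x⁻¹ = a * u}, ‖χ g‖ ^ 2 =
      (Nat.card L : ℝ)⁻¹ * ∑ a : L, if (a : G) ∈ A then T a else 0 := by
    have : (((Nat.card G : ℝ)⁻¹ * ∑ᶠ g ∈ {g : G | ∃ a ∈ A, ∃ u ∈ H a, ∃ x : G, x * g * x⁻¹ = a * u}, ‖χ g‖ ^ 2 : ℝ) : ℂ) =
      (((Nat.card L : ℝ)⁻¹ * ∑ a : L, if (a : G) ∈ A then T a else 0 : ℝ) : ℂ) := by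
      rw [Complex.ofReal_mul, Complex.ofReal_mul, Complex.ofReal_inv, Complex.ofReal_inv, Complex.ofReal_natCast, Complex.ofReal_natCast]
      exact h1
    exact_mod_cast this
  rw [h4]
  apply mul_le_mul_of_nonneg_left _ (by positivity)
  rw [CfsgLib.Dade.finsum_mem_eq_sum_ite]
  apply Finset.sum_le_sum
  intro a _
  by_cases ha : (a : G) ∈ A
  · rw [if_pos ha, if_pos (show a ∈ {a : L | (a : G) ∈ A} from ha), hψ a ha]
    simp only [T]
    rw [CfsgLib.Dade.finsum_mem_eq_sum_ite, norm_mul, norm_inv, Complex.norm_natCast, mul_pow]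
    have hc : (0 : ℝ) < Nat.card (H a) := by
      have : 0 < Nat.card (H (a : G)) := Nat.card_pos
      exact_mod_cast this
    have h5 : ‖∑ u : G, if u ∈ (H a : Set G) then χ (a * u) else 0‖ ^ 2 ≤ (Nat.card (H a) : ℝ) * ∑ u : G, if u ∈ (H a : Set G) then ‖χ (a * u)‖ ^ 2 else 0 := by
      rw [← Finset.sum_filter, ← Finset.sum_filter]
      have h6 : ((Finset.univ.filter (fun u : G => u ∈ (H a : Set G))).card : ℝ) = Nat.card (H a) := by
        rw [Nat.card_eq_fintype_card, Fintype.card_subtype]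
        congr 2
      rw [← h6]
      calc ‖∑ u ∈ Finset.univ.filter (fun u : G => u ∈ (H a : Set G)), χ (a * u)‖ ^ 2 ≤ (∑ u ∈ Finset.univ.filter (fun u : G => u ∈ (H a : Set G)), ‖χ (a * u)‖) ^ 2 := by
            apply pow_le_pow_left₀ (norm_nonneg _) (norm_sum_le _ _)
        _ ≤ _ := sq_sum_le_card_mul_sum_sq
    calc ((Nat.card (H a) : ℝ)⁻¹) ^ 2 * ‖∑ u : G, if u ∈ (H a : Set G) then χ (a * u) else 0‖ ^ 2 ≤
        ((Nat.card (H a) : ℝ)⁻¹) ^ 2 * ((Nat.card (H a) : ℝ) * ∑ u : G, if u ∈ (H a : Set G) then ‖χ (a * u)‖ ^ 2 else 0) := by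
          apply mul_le_mul_of_nonneg_left h5 (by positivity)
      _ = _ := by
        field_simp
  · rw [if_neg ha, if_neg (show ¬ a ∈ {a : L | (a : G) ∈ A} from ha)]

end Cfsg.Agent.S1525
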