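import Cfsg.Statements.S1526
import Mathlib
import Cfsg.Agent.Lib.CNOdd6

set_option autoImplicit false
open Cfsg

set_option linter.style.haveILetI false
namespace Cfsg.Agent.S1526

open Cfsg CfsgLib.CharBasic CfsgLib.CharInd CfsgLib.CNOdd CfsgLib.CNOdd4 CfsgLib.CNOdd5 CfsgLib.CNOdd6


/-- Let G be a finite group of odd order and (L i, H i), i in a finite index type with at least two elements, pairs of subgroups with H i a nontrivial proper normal subgroup of L i such that every non-identity element of H i has its centraliser within L i contained in H i (L i is a Frobenius group with kernel H i), the orders of the H i pairwise coprime, and the underlying set of each H i a TI-subset of G with normaliser L i. If every non-identity element of G is conjugate to an element of some H i, we reach a contradiction. -/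
theorem result {G : Type*} [Group G] [Finite G] (hodd : Odd (Nat.card G)) {ι : Type*} [Fintype ι] (hι : 2 ≤ Fintype.card ι) (L H : ι → Subgroup G) (hHL : ∀ i, H i < L i) (hH1 : ∀ i, H i ≠ ⊥) (hHn : ∀ i, ∀ x ∈ L i, ∀ h ∈ H i, x * h * x⁻¹ ∈ H i) (hfrob : ∀ i, ∀ h ∈ H i, h ≠ 1 → L i ⊓ Subgroup.centralizer ({h} : Set G) ≤ H i) (hcop : ∀ i j, i ≠ j → Nat.Coprime (Nat.card (H i)) (Nat.card (H j))) (hTI : ∀ i, Cfsg.IsTISubset (H i : Set G) ∧ Subgroup.normalizer (H i : Set G) = L i) (hcover : ∀ g : G, g ≠ 1 → ∃ i, ∃ x : G, x * g * x⁻¹ ∈ H i) : False := by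
  classical
  haveI : Fintype G := Fintype.ofFinite G
  haveI : ∀ i, Fintype (L i) := fun i => Fintype.ofFinite _
  have hD : ∀ i, Nonempty (FData (L i) (H i)) := fun i => exists_fdata (H i) (L i) hodd (hHL i) (hH1 i) (hHn i) (hfrob i) (hTI i).1 (hTI i).2
  obtain ⟨D⟩ : Nonempty (∀ i, FData (L i) (H i)) := ⟨fun i => (hD i).some⟩
  have hex : ∀ i j, ∃ n : ℤ, i ≠ j → classInner (CfsgLib.CNOdd4.beta (H i) (D i).ζ) ((D j).σ (D j).ζ) = n := by
    intro i j
    haveI := (D i).normal
    haveI := (D j).normal
    obtain ⟨n, hn⟩ := IsGeneralizedCharacter.inner_int (beta_gen (D i).hC (D i).hζ) (sigma_gen (D j).hσ (D j).hζ)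
    exact ⟨n, fun _ => hn⟩
  choose c hc using hex
  have hne : (Finset.univ : Finset ι).Nonempty := by
    rw [← Finset.card_pos, Finset.card_univ]
    omega
  obtain ⟨i, -, hi⟩ := Finset.exists_min_image Finset.univ (fun i => Nat.card (H i)) hne
  refine contra D hcop c hc hcover hodd i ?_
  intro j hj
  refine lt_of_le_of_ne (hi j (Finset.mem_univ _)) fun h => ?_
  have h1 := hcop j i hj
  rw [h, Nat.coprime_self] at h1
  exact hH1 j (Subgroup.card_eq_one.mp h1)

end Cfsg.Agent.S1526
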