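import Cfsg.Statements.S1527
import Mathlib
import Cfsg.Agent.Lib.CNOdd

set_option autoImplicit false
open Cfsg

set_option linter.style.haveILetI false
namespace Cfsg.Agent.S1527

open Cfsg CfsgLib.CharBasic CfsgLib.CharInd CfsgLib.CNOdd


/-- Let G be a finite group and H i (i in a finite index type) subgroups of pairwise coprime orders, each of whose underlying sets is a TI-subset of G, such that every non-identity element of G is conjugate to an element of some H i. Then Nat.card G − 1 = Σ_i [G : N_G(H i)] · (Nat.card (H i) − 1). -/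
theorem result {G : Type*} [Group G] [Finite G] {ι : Type*} [Fintype ι] (H : ι → Subgroup G) (hcop : ∀ i j, i ≠ j → Nat.Coprime (Nat.card (H i)) (Nat.card (H j))) (hTI : ∀ i, Cfsg.IsTISubset (H i : Set G)) (hcover : ∀ g : G, g ≠ 1 → ∃ i, ∃ x : G, x * g * x⁻¹ ∈ H i) : Nat.card G - 1 = ∑ i, (Subgroup.normalizer (H i : Set G)).index * (Nat.card (H i) - 1) := by
  classical
  haveI : Fintype G := Fintype.ofFinite G
  haveI : ∀ i, Fintype (Subgroup.normalizer (H i : Set G)) := fun i => Fintype.ofFinite _
  have hle : ∀ i, H i ≤ Subgroup.normalizer (H i : Set G) := fun i => Subgroup.le_normalizer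
  have h1 := sum_cover H (fun i => Subgroup.normalizer (H i : Set G))
    (fun i x hx h hh => (Subgroup.mem_normalizer_iff.mp hx h).mp hh) hle
    (fun i g hg k hk hgk => hTI i g hg k hk hgk) hcop hcover (f := fun _ => (1 : ℂ)) (fun _ _ => rfl)
    (fun i x => if (x : G) ∈ H i ∧ x ≠ 1 then 1 else 0) (fun i x h1 h2 => if_pos ⟨h1, h2⟩) (fun i x h => if_neg h)
  have h2 : ∀ i, ∑ x : Subgroup.normalizer (H i : Set G), (if (x : G) ∈ H i ∧ x ≠ 1 then (1 : ℂ) else 0) = ((Nat.card (H i) - 1 : ℕ) : ℂ) := by
    intro i
    rw [Finset.sum_boole]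
    congr 1
    have h3 : (Finset.univ.filter (fun x : Subgroup.normalizer (H i : Set G) => (x : G) ∈ H i ∧ x ≠ 1)) =
        (Finset.univ.filter (fun x : Subgroup.normalizer (H i : Set G) => (x : G) ∈ H i)).erase 1 := by
      ext x
      simp only [Finset.mem_filter, Finset.mem_univ, true_and, Finset.mem_erase]
      tauto
    rw [h3, Finset.card_erase_of_mem (by simp [(H i).one_mem])]
    congr 1
    rw [← Fintype.card_subtype, ← Nat.card_eq_fintype_card]
    exact Nat.card_congr (Subgroup.subgroupOfEquivOfLe (hle i)).toEquiv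
  simp only [Finset.sum_const, Finset.card_univ, nsmul_eq_mul, mul_one] at h1
  rw [Finset.sum_congr rfl (fun i _ => by rw [h2 i])] at h1
  have h3 : Nat.card G = 1 + ∑ i, (Subgroup.normalizer (H i : Set G)).index * (Nat.card (H i) - 1) := by
    rw [Nat.card_eq_fintype_card]
    exact_mod_cast h1
  omega

end Cfsg.Agent.S1527
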