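import Cfsg.Statements.S1528
import Mathlib
import Cfsg.Agent.Lib.Frobenius7

set_option autoImplicit false
open Cfsg

namespace Cfsg.Agent.S1528

/-- Let N be a normal subgroup of the finite group G such that every element of G commuting with a non-identity element of N lies in N. If χ is an irreducible character of G with χ n ≠ χ 1 for some n ∈ N, then χ is the function induced from some irreducible character of N. -/
theorem result {G : Type*} [Group G] [Fintype G] (N : Subgroup G) [N.Normal] (hC : ∀ n ∈ N, n ≠ 1 → Subgroup.centralizer ({n} : Set G) ≤ N) (χ : G → ℂ) (hχ : Cfsg.IsIrrCharacter G χ) (hker : ∃ n ∈ N, χ n ≠ χ 1) : ∃ φ : N → ℂ, Cfsg.IsIrrCharacter N φ ∧ χ = Cfsg.indFun N φ := by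
  classical
  haveI hNn : N.Normal := inferInstance
  haveI : Fintype N := Fintype.ofFinite N
  have hχc := CfsgLib.CharBasic.IsIrrCharacter.isCharacter hχ
  have hχcl := CfsgLib.CharBasic.IsCharacter.isClassFunction hχc
  have hres := CfsgLib.CharBasic.IsCharacter.restrict hχc N
  -- a nonprincipal constituent of the restriction
  have hex : ∃ φ : Cfsg.IrrCharacter N, Cfsg.classInner (fun n : N => χ n) φ ≠ 0 ∧ (φ : N → ℂ) ≠ fun _ => 1 := by
    by_contra hcon
    push Not at hcon
    obtain ⟨n, hn, hne⟩ := hker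
    apply hne
    have h1 := CfsgLib.CharBasic.eq_sum_inner (CfsgLib.CharBasic.IsCharacter.isClassFunction hres)
    have h2 : ∀ m : N, χ m = ∑ φ : Cfsg.IrrCharacter N, Cfsg.classInner (fun n : N => χ n) φ * (φ : N → ℂ) m := by
      intro m
      have := congrFun h1 m
      simpa [Finset.sum_apply] using this
    have h3 : ∀ m : N, χ m = ∑ φ : Cfsg.IrrCharacter N, Cfsg.classInner (fun n : N => χ n) φ := by
      intro m
      rw [h2 m]
      apply Finset.sum_congr rfl
      intro φ _
      by_cases hφ : Cfsg.classInner (fun n : N => χ n) φ = 0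
      · rw [hφ, zero_mul]
      · rw [hcon φ hφ, mul_one]
    have h4 := h3 ⟨n, hn⟩
    have h5 := h3 1
    simp only [Subgroup.coe_one] at h4 h5
    rw [h4, h5]
  obtain ⟨φ, hφ, hφ1⟩ := hex
  have hfix : ∀ g : G, g ∉ N → ∀ k ∈ N, g * k = k * g → k = 1 := by
    intro g hg k hk hc
    by_contra hk1
    apply hg
    apply hC k hk hk1
    rw [Subgroup.mem_centralizer_singleton_iff]
    exact hc
  have hirr := CfsgLib.Frobenius7.isIrr_indFun hfix φ.2 hφ1
  refine ⟨φ, φ.2, ?_⟩
  by_contra hne
  have h1 := CfsgLib.CharBasic.IsIrrCharacter.inner_eq_zero hχ hirr hne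
  rw [CfsgLib.CharInd.frobenius' N _ hχcl] at h1
  exact hφ h1

end Cfsg.Agent.S1528
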