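import Cfsg.Statements.S1530
import Mathlib
import Cfsg.Agent.Lib.CharCoh3

set_option autoImplicit false
open Cfsg

open scoped Pointwise
namespace Cfsg.Agent.S1530

open Cfsg CfsgLib.CharBasic CfsgLib.CharInd CfsgLib.CharClifford CfsgLib.CharCoh


/-- Let N be a subgroup of the finite group G and S₀ a finite set of irreducible characters of N, χ an irreducible character of N not in S₀, with degrees ξ 1 = d ξ. Let τ be a linear isometry on the integer combinations of S₀ ∪ {χ} vanishing at 1, with values virtual characters of G vanishing at 1, such that (S₀, N minus 1, τ) is coherent. If some ψ ∈ S₀ has d ψ dividing d χ and 2 · d ψ · d χ < Σ_{ξ ∈ S₀} (d ξ)², then (S₀ ∪ {χ}, N minus 1, τ) is coherent. -/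
theorem result {G : Type*} [Group G] [Fintype G] (N : Subgroup G) [Fintype N] (S₀ : Finset (N → ℂ)) (χ : N → ℂ) (hirr : ∀ ξ ∈ S₀, Cfsg.IsIrrCharacter N ξ) (hχ : Cfsg.IsIrrCharacter N χ) (hχS : χ ∉ S₀) (d : (N → ℂ) → ℕ) (hd : ∀ ξ ∈ insert χ S₀, ξ 1 = (d ξ : ℂ)) (τ : (N → ℂ) → (G → ℂ)) (hτ : Cfsg.IsLinearIsometryOn (Cfsg.zspanOn (↑(insert χ S₀) : Set (N → ℂ)) {1}ᶜ) τ) (hτ1 : ∀ α ∈ Cfsg.zspanOn (↑(insert χ S₀) : Set (N → ℂ)) {1}ᶜ, τ α 1 = 0) (hcoh : Cfsg.IsCoherent (↑S₀ : Set (N → ℂ)) {1}ᶜ τ) (ψ : N → ℂ) (hψ : ψ ∈ S₀) (hdvd : d ψ ∣ d χ) (hlt : 2 * d ψ * d χ < ∑ ξ ∈ S₀, d ξ ^ 2) : Cfsg.IsCoherent (↑(insert χ S₀) : Set (N → ℂ)) {1}ᶜ τ := by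
  classical
  obtain ⟨⟨α₀, hα₀, hα₀'⟩, τ₁, hτ₁, hagree⟩ := hcoh
  obtain ⟨S', hS'⟩ : ∃ S' : Finset (N → ℂ), S' = insert χ S₀ := ⟨_, rfl⟩
  rw [← hS'] at hτ hτ1 hd ⊢
  have hSS : ∀ φ ∈ S₀, φ ∈ S' := fun φ hφ => by rw [hS']; exact Finset.mem_insert_of_mem hφ
  have hχS' : χ ∈ S' := by rw [hS']; exact Finset.mem_insert_self _ _
  have hirr' : ∀ φ ∈ S', IsIrrCharacter N φ := by
    intro φ hφ
    rw [hS', Finset.mem_insert] at hφ
    rcases hφ with rfl | h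
    · exact hχ
    · exact hirr φ h
  have horth : ∀ φ ∈ S', ∀ ξ ∈ S', φ ≠ ξ → classInner φ ξ = 0 := fun φ hφ ξ hξ h => IsIrrCharacter.inner_eq_zero (hirr' φ hφ) (hirr' ξ hξ) h
  have hself : ∀ φ ∈ S', classInner φ φ = 1 := fun φ hφ => IsIrrCharacter.inner_self (hirr' φ hφ)
  have hdpos : ∀ φ ∈ S', (0 : ℝ) < d φ := by
    intro φ hφ
    obtain ⟨m, hm, hm'⟩ := IsIrrCharacter.exists_pos (hirr' φ hφ)
    rw [hd φ hφ] at hm'
    have : d φ = m := by exact_mod_cast hm'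
    rw [this]; exact_mod_cast hm
  have hmono : zspanOn (S₀ : Set (N → ℂ)) {1}ᶜ ⊆ zspanOn (S' : Set (N → ℂ)) {1}ᶜ := zspanOn_mono (fun φ hφ => hSS φ hφ)
  have hz1 : ∀ φ ∈ S₀, φ ∈ zspan (S₀ : Set (N → ℂ)) := fun φ hφ => mem_zspan_of_mem (Finset.mem_coe.mpr hφ)
  have hχφ : ∀ φ ∈ S₀, φ ≠ χ := fun φ hφ h => hχS (h ▸ hφ)
  have ho1 : ∀ φ ∈ S₀, classInner φ χ = 0 := fun φ hφ => horth φ (hSS φ hφ) χ hχS' (hχφ φ hφ)
  obtain ⟨a, ha⟩ := hdvd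
  have hψS' := hSS ψ hψ
  have hdS' : ∀ φ ∈ (S' : Set (N → ℂ)), φ 1 = (d φ : ℂ) := fun φ hφ => hd φ hφ
  have hdS₀ : ∀ φ ∈ (S₀ : Set (N → ℂ)), φ 1 = (d φ : ℂ) := fun φ hφ => hd φ (hSS φ hφ)
  have hβ : χ - (a : ℂ) • ψ ∈ zspanOn (S' : Set (N → ℂ)) {1}ᶜ := by
    rw [mem_zspanOn_one]
    constructor
    · have h2 : (a : ℂ) • ψ = (a : ℤ) • ψ := by rw [zsmul_eq]; simp
      rw [h2]
      exact zspan_sub (mem_zspan_of_mem hχS') (zspan_zsmul _ (mem_zspan_of_mem hψS'))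
    · simp only [Pi.sub_apply, Pi.smul_apply, smul_eq_mul]
      rw [hd χ hχS', hd ψ hψS', ha]; push_cast; ring
  obtain ⟨V, hV⟩ : ∃ V : G → ℂ, V = τ (χ - (a : ℂ) • ψ) := ⟨_, rfl⟩
  have hVgen : IsGeneralizedCharacter G V := by rw [hV]; exact hτ.2.2.2 _ hβ
  have hVV : classInner V V = 1 + (a : ℂ) ^ 2 := by
    rw [hV, hτ.2.2.1 _ hβ _ hβ, classInner_sub_left, classInner_sub_right, classInner_sub_right, classInner_smul_left, classInner_smul_right,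
      classInner_smul_left, classInner_smul_right, ho1 ψ hψ, symm_zero (ho1 ψ hψ), hself χ hχS', hself ψ hψS']
    simp only [map_natCast]
    ring
  have hy : ∀ φ, ∃ m : ℤ, φ ∈ S₀ → classInner V (τ₁ φ) = (m : ℂ) := by
    intro φ
    by_cases hφ : φ ∈ S₀
    · obtain ⟨m, hm⟩ := IsGeneralizedCharacter.inner_int hVgen (hτ₁.2.2.2 φ (hz1 φ hφ))
      exact ⟨m, fun _ => hm⟩
    · exact ⟨0, fun h => absurd h hφ⟩
  choose y hy using hy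
  have hsubτ : ∀ φ ∈ S₀, τ ((d φ : ℂ) • ψ - (d ψ : ℂ) • φ) = (d φ : ℂ) • τ₁ ψ - (d ψ : ℂ) • τ₁ φ := by
    intro φ hφ
    have hm := sub_smul_mem d hdS₀ (Finset.mem_coe.mpr hψ) (Finset.mem_coe.mpr hφ)
    rw [← hagree _ hm]
    have i1 : (d φ : ℂ) • ψ = (((d φ : ℕ) : ℤ) : ℂ) • ψ := by simp
    have i2 : (d ψ : ℂ) • φ = (((d ψ : ℕ) : ℤ) : ℂ) • φ := by simp
    rw [i1, i2, iso_sub (isZClosed_zspan _) hτ₁ (by rw [← zsmul_eq]; exact zspan_zsmul _ (hz1 _ hψ)) (by rw [← zsmul_eq]; exact zspan_zsmul _ (hz1 _ hφ)),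
      iso_smul hτ₁ (hz1 _ hψ), iso_smul hτ₁ (hz1 _ hφ)]
    simp
  obtain ⟨D, hD⟩ : ∃ D : ℤ, D = y ψ + a := ⟨_, rfl⟩
  have hrelZ : ∀ φ ∈ S₀, (d ψ : ℤ) * y φ = d φ * D - (if φ = ψ then (a : ℤ) * d ψ else 0) := by
    intro φ hφ
    have hm := sub_smul_mem d hdS₀ (Finset.mem_coe.mpr hψ) (Finset.mem_coe.mpr hφ)
    have h1 := hτ.2.2.1 _ hβ _ (hmono hm)
    rw [hsubτ φ hφ, ← hV, classInner_sub_right, classInner_smul_right, classInner_smul_right, hy _ hψ, hy _ hφ, classInner_sub_left, classInner_sub_right,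
      classInner_sub_right, classInner_smul_left, classInner_smul_left, classInner_smul_right, classInner_smul_right, classInner_smul_right,
      classInner_smul_right, symm_zero (ho1 ψ hψ), symm_zero (ho1 φ hφ), hself ψ hψS'] at h1
    have h2 : classInner ψ φ = if φ = ψ then (1 : ℂ) else 0 := by
      split_ifs with h
      · rw [h, hself ψ hψS']
      · exact horth _ hψS' _ (hSS φ hφ) (Ne.symm h)
    rw [h2] at h1
    simp only [map_natCast] at h1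
    have : ((((d ψ : ℤ) * y φ : ℤ)) : ℂ) = ((d φ * D - (if φ = ψ then (a : ℤ) * d ψ else 0) : ℤ) : ℂ) := by
      rw [hD]
      split_ifs with h
      · rw [if_pos h] at h1
        push_cast
        linear_combination -h1
      · rw [if_neg h] at h1
        push_cast
        linear_combination -h1
    exact_mod_cast this
  have hd1 := hdpos ψ hψS'
  have hyφ : ∀ φ ∈ S₀, (y φ : ℝ) = (d φ : ℝ) * D / d ψ - (if φ = ψ then (a : ℝ) else 0) := by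
    intro φ hφ
    have h2 : (d ψ : ℝ) * y φ = d φ * D - (if φ = ψ then (a : ℝ) * d ψ else 0) := by
      have := hrelZ φ hφ
      have h3 : (((d ψ : ℤ) * y φ : ℤ) : ℝ) = ((d φ * D - (if φ = ψ then (a : ℤ) * d ψ else 0) : ℤ) : ℝ) := by rw [this]
      push_cast at h3
      split_ifs at h3 ⊢ <;> simpa using h3
    have : (y φ : ℝ) = (d φ * D - (if φ = ψ then (a : ℝ) * d ψ else 0)) / d ψ := by
      rw [eq_div_iff hd1.ne', mul_comm]; exact h2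
    rw [this]
    split_ifs
    · field_simp
    · field_simp; ring
  obtain ⟨b1, b2⟩ := bessel S₀ (fun φ => τ₁ φ) (fun φ => 1) (fun φ hφ => one_pos) (fun φ hφ ξ hξ => by
    rw [hτ₁.2.2.1 _ (hz1 φ hφ) _ (hz1 ξ hξ)]
    split_ifs with h
    · subst h; rw [hself φ (hSS φ hφ)]; simp
    · exact horth _ (hSS φ hφ) _ (hSS ξ hξ) h) V (fun φ => (y φ : ℝ)) (fun φ hφ => by rw [hy φ hφ]; simp)
  have hVre : (classInner V V).re = 1 + (a : ℝ) ^ 2 := by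
    rw [hVV, show (1 + (a : ℂ) ^ 2) = ((1 + (a : ℝ) ^ 2 : ℝ) : ℂ) by push_cast; ring, Complex.ofReal_re]
  rw [hVre] at b1 b2
  simp only [div_one] at b1 b2
  obtain ⟨Sg, hSg⟩ : ∃ Sg : ℕ, Sg = ∑ ξ ∈ S₀, d ξ ^ 2 := ⟨_, rfl⟩
  rw [← hSg] at hlt
  have hBsum : ∑ φ ∈ S₀, (y φ : ℝ) ^ 2 = (Sg : ℝ) * ((D : ℝ) ^ 2 / (d ψ : ℝ) ^ 2) - 2 * a * D + (a : ℝ) ^ 2 := by
    have h1 : ∀ φ ∈ S₀, (y φ : ℝ) ^ 2 = (d φ : ℝ) ^ 2 * ((D : ℝ) ^ 2 / (d ψ : ℝ) ^ 2) + (if φ = ψ then -2 * a * (D : ℝ) + (a : ℝ) ^ 2 else 0) := by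
      intro φ hφ
      rw [hyφ φ hφ]
      split_ifs with h
      · subst h
        field_simp
        ring
      · field_simp
        ring
    rw [Finset.sum_congr rfl h1, Finset.sum_add_distrib, ← Finset.sum_mul, Finset.sum_ite_eq' S₀ ψ, if_pos hψ, hSg]
    push_cast
    ring
  have hadχ : (d χ : ℝ) = d ψ * a := by rw [ha]; push_cast; ring
  have hdχ := hdpos χ hχS'
  have ha0 : 0 < a := by
    rcases Nat.eq_zero_or_pos a with h | h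
    · rw [hadχ, h] at hdχ; simp at hdχ
    · exact h
  have ha1 : (1 : ℝ) ≤ a := by exact_mod_cast ha0
  have hltR : (2 * d ψ * d χ : ℝ) < Sg := by exact_mod_cast hlt
  have hmain : (Sg : ℝ) * (D : ℝ) ^ 2 ≤ (d ψ : ℝ) ^ 2 + 2 * D * (d ψ * d χ) := by
    have h1 : (Sg : ℝ) * ((D : ℝ) ^ 2 / (d ψ : ℝ) ^ 2) - 2 * a * D - 1 ≤ 0 := by linarith
    have h2 : ((Sg : ℝ) * ((D : ℝ) ^ 2 / (d ψ : ℝ) ^ 2) - 2 * a * D - 1) * (d ψ : ℝ) ^ 2 ≤ 0 := by nlinarith [sq_nonneg (d ψ : ℝ)]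
    have e : ((Sg : ℝ) * ((D : ℝ) ^ 2 / (d ψ : ℝ) ^ 2) - 2 * a * D - 1) * (d ψ : ℝ) ^ 2 = (Sg : ℝ) * (D : ℝ) ^ 2 - 2 * D * (d ψ * d χ) - (d ψ : ℝ) ^ 2 := by
      rw [hadχ]; field_simp
    linarith
  have hψχ : (d ψ : ℝ) ^ 2 ≤ d ψ * d χ := by rw [hadχ]; nlinarith [sq_nonneg (d ψ : ℝ), hd1]
  have hP : 0 < (d ψ : ℝ) * d χ := by positivity
  -- D = 1 impossible
  have hD1 : D ≠ 1 := by
    intro h
    have hq : ∑ φ ∈ S₀, (y φ : ℝ) ^ 2 = (Sg : ℝ) / (d ψ : ℝ) ^ 2 - 2 * a + (a : ℝ) ^ 2 := by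
      rw [hBsum, h]; push_cast; ring
    have hgt : (2 * a : ℝ) < (Sg : ℝ) / (d ψ : ℝ) ^ 2 := by
      rw [lt_div_iff₀ (by positivity)]
      calc (2 * a * (d ψ : ℝ) ^ 2 : ℝ) = 2 * d ψ * d χ := by rw [hadχ]; ring
        _ < Sg := hltR
    have hint : ((∑ φ ∈ S₀, y φ ^ 2 : ℤ) : ℝ) = (Sg : ℝ) / (d ψ : ℝ) ^ 2 - 2 * a + (a : ℝ) ^ 2 := by rw [← hq]; push_cast; rfl
    have hlow : (a : ℤ) ^ 2 < ∑ φ ∈ S₀, y φ ^ 2 := by
      have : ((a : ℤ) ^ 2 : ℝ) < ((∑ φ ∈ S₀, y φ ^ 2 : ℤ) : ℝ) := by rw [hint]; push_cast; linarith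
      exact_mod_cast this
    have hge : 1 + (a : ℝ) ^ 2 ≤ ∑ φ ∈ S₀, (y φ : ℝ) ^ 2 := by
      have : 1 + (a : ℤ) ^ 2 ≤ ∑ φ ∈ S₀, y φ ^ 2 := by omega
      exact_mod_cast this
    have hVe := b2 hge
    have hV1 : V 1 = 0 := by rw [hV]; exact hτ1 _ hβ
    have hdeg1 : ∀ φ ∈ S₀, (d ψ : ℂ) * τ₁ φ 1 = d φ * τ₁ ψ 1 := by
      intro φ hφ
      have h1 := hτ1 _ (hmono (sub_smul_mem d hdS₀ (Finset.mem_coe.mpr hψ) (Finset.mem_coe.mpr hφ)))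
      rw [hsubτ φ hφ] at h1
      simp only [Pi.sub_apply, Pi.smul_apply, smul_eq_mul] at h1
      linear_combination -h1
    have hψ1 : τ₁ ψ 1 ≠ 0 := by
      have h1 : classInner (τ₁ ψ) (τ₁ ψ) = 1 := by rw [hτ₁.2.2.1 _ (hz1 ψ hψ) _ (hz1 ψ hψ), hself ψ hψS']
      rcases IsGeneralizedCharacter.irr_or_neg (hτ₁.2.2.2 _ (hz1 ψ hψ)) h1 with h2 | h2
      · exact IsIrrCharacter.one_ne_zero h2
      · have := IsIrrCharacter.one_ne_zero h2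
        intro h3; apply this; simp [h3]
    have hs : (∑ φ ∈ S₀, (y φ : ℂ) * d φ) * τ₁ ψ 1 = 0 := by
      have h1 := congrFun hVe 1
      rw [hV1] at h1
      simp only [Finset.sum_apply, Pi.smul_apply, smul_eq_mul] at h1
      rw [Finset.sum_mul]
      have h2 : (d ψ : ℂ) * 0 = ∑ φ ∈ S₀, (d ψ : ℂ) * ((((y φ : ℝ) : ℝ) : ℂ) * τ₁ φ 1) := by
        rw [h1, Finset.mul_sum]
      rw [mul_zero] at h2
      rw [h2]
      apply Finset.sum_congr rfl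
      intro φ hφ
      push_cast
      linear_combination -(y φ : ℂ) * hdeg1 φ hφ
    have hs' : ∑ φ ∈ S₀, (y φ : ℂ) * d φ = 0 := (mul_eq_zero.mp hs).resolve_right hψ1
    have hs2 : ∑ φ ∈ S₀, y φ * (d φ : ℤ) = 0 := by
      have : ((∑ φ ∈ S₀, y φ * (d φ : ℤ) : ℤ) : ℂ) = 0 := by push_cast; exact hs'
      exact_mod_cast this
    have hs3 : (d ψ : ℤ) * ∑ φ ∈ S₀, y φ * (d φ : ℤ) = Sg - d ψ * d χ := by
      rw [Finset.mul_sum]
      have : ∀ φ ∈ S₀, (d ψ : ℤ) * (y φ * (d φ : ℤ)) = (d φ : ℤ) ^ 2 - (if φ = ψ then (a : ℤ) * d ψ * d ψ else 0) := by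
        intro φ hφ
        have h1 := hrelZ φ hφ
        rw [h] at h1
        split_ifs at h1 ⊢ with h2
        · subst h2; linear_combination (d φ : ℤ) * h1
        · linear_combination (d φ : ℤ) * h1
      rw [Finset.sum_congr rfl this, Finset.sum_sub_distrib, Finset.sum_ite_eq' S₀ ψ, if_pos hψ, hSg, ha]
      push_cast
      ring
    rw [hs2, mul_zero] at hs3
    have hs4 : (Sg : ℝ) = d ψ * d χ := by
      have : (Sg : ℤ) = d ψ * d χ := by linarith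
      exact_mod_cast this
    nlinarith
  have hD0 : D = 0 := by
    by_contra hD0
    rcases lt_or_gt_of_ne hD0 with h | h
    · have h1 : (D : ℝ) ≤ -1 := by exact_mod_cast Int.le_sub_one_of_lt h
      have h2 : 0 ≤ (Sg : ℝ) * (D : ℝ) ^ 2 := by positivity
      nlinarith
    · have h1 : (2 : ℝ) ≤ D := by
        have : 2 ≤ D := by omega
        exact_mod_cast this
      have h2 : (2 * d ψ * d χ : ℝ) * (D : ℝ) ^ 2 ≤ (Sg : ℝ) * (D : ℝ) ^ 2 := mul_le_mul_of_nonneg_right hltR.le (sq_nonneg _)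
      have h3 : 0 ≤ (D : ℝ) * (D - 1) - 2 := by nlinarith
      nlinarith [mul_nonneg hP.le h3]
  have hyψ : y ψ = -a := by omega
  have hy0 : ∀ φ ∈ S₀, φ ≠ ψ → y φ = 0 := by
    intro φ hφ hne
    have h1 := hrelZ φ hφ
    rw [hD0, if_neg hne, mul_zero, sub_zero] at h1
    rcases mul_eq_zero.mp h1 with h2 | h2
    · have : (d ψ : ℝ) = 0 := by exact_mod_cast h2
      exact absurd this hd1.ne'
    · exact h2
  obtain ⟨Z, hZ⟩ : ∃ Z : G → ℂ, Z = V + (a : ℂ) • τ₁ ψ := ⟨_, rfl⟩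
  have hτ₁gen : ∀ φ ∈ S₀, IsGeneralizedCharacter G (τ₁ φ) := fun φ hφ => hτ₁.2.2.2 _ (hz1 φ hφ)
  have hZgen : IsGeneralizedCharacter G Z := by
    rw [hZ]
    apply IsGeneralizedCharacter.add hVgen
    have := IsGeneralizedCharacter.zsmul (hτ₁gen ψ hψ) (a : ℤ)
    simpa using this
  have hττ : classInner (τ₁ ψ) (τ₁ ψ) = 1 := by rw [hτ₁.2.2.1 _ (hz1 ψ hψ) _ (hz1 ψ hψ), hself ψ hψS']
  have hVψ : classInner V (τ₁ ψ) = -(a : ℂ) := by rw [hy ψ hψ, hyψ]; simp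
  have hψV : classInner (τ₁ ψ) V = -(a : ℂ) := by rw [gen_inner_comm (hτ₁gen ψ hψ) hVgen, hVψ]
  have hZZ : classInner Z Z = 1 := by
    rw [hZ, classInner_add_left, classInner_add_right, classInner_add_right, classInner_smul_left, classInner_smul_right, classInner_smul_left,
      classInner_smul_right, hVV, hVψ, hψV, hττ]
    simp only [map_natCast]
    ring
  have hZφ : ∀ φ ∈ S₀, classInner Z (τ₁ φ) = 0 := by
    intro φ hφ
    rw [hZ, classInner_add_left, classInner_smul_left, hy φ hφ]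
    by_cases h : φ = ψ
    · rw [h, hyψ, hττ]; push_cast; ring
    · rw [hy0 φ hφ h, hτ₁.2.2.1 _ (hz1 ψ hψ) _ (hz1 φ hφ), horth _ hψS' _ (hSS φ hφ) (Ne.symm h)]
      simp
  obtain ⟨T, hT⟩ : ∃ T : (N → ℂ) → (G → ℂ), T = fun φ => if φ = χ then Z else τ₁ φ := ⟨_, rfl⟩
  have hTχ : T χ = Z := by rw [hT]; simp
  have hTφ : ∀ φ ∈ S₀, T φ = τ₁ φ := fun φ hφ => by rw [hT]; simp [hχφ φ hφ]
  have hcase : ∀ P : (N → ℂ) → Prop, P χ → (∀ φ ∈ S₀, P φ) → ∀ φ ∈ S', P φ := by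
    intro P p1 p3 φ hφ
    rw [hS', Finset.mem_insert] at hφ
    rcases hφ with rfl | h
    · exact p1
    · exact p3 φ h
  refine isCoherent_of_base (T := T) horth (fun φ hφ => by rw [hself φ hφ]; exact one_ne_zero) hτ (fun φ => (d φ : ℤ)) (fun φ hφ => by rw [hd φ hφ]; simp)
    (χ₁ := ψ) hψS' ?_ ?_ ?_ ?_ ⟨α₀, hmono hα₀, hα₀'⟩
  · have := hd1.ne'
    exact_mod_cast this
  · apply hcase
    · rw [hTχ]; exact hZgen
    · intro φ hφ; rw [hTφ φ hφ]; exact hτ₁gen φ hφ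
  · apply hcase
    · apply hcase
      · rw [hTχ, hZZ, hself χ hχS']
      · intro φ hφ
        rw [hTχ, hTφ φ hφ, hZφ φ hφ, symm_zero (ho1 φ hφ)]
    · intro φ hφ
      apply hcase
      · rw [hTχ, hTφ φ hφ, symm_zero (hZφ φ hφ), ho1 φ hφ]
      · intro ξ hξ
        rw [hTφ φ hφ, hTφ ξ hξ, hτ₁.2.2.1 _ (hz1 φ hφ) _ (hz1 ξ hξ)]
  · apply hcase
    · have hβ1 : (((d ψ : ℕ) : ℤ) : ℂ) • χ - (((d χ : ℕ) : ℤ) : ℂ) • ψ = (((d ψ : ℕ) : ℤ) : ℂ) • (χ - (a : ℂ) • ψ) := by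
        rw [ha]; push_cast; rw [smul_sub, smul_smul]
      rw [hβ1, iso_smul hτ hβ, hTχ, hTφ ψ hψ, ← hV, hZ, ha, smul_add, smul_smul]
      push_cast
      ring
    · intro φ hφ
      have h1 := hsubτ φ hφ
      have hm := sub_smul_mem d hdS₀ (Finset.mem_coe.mpr hψ) (Finset.mem_coe.mpr hφ)
      have e : (((d ψ : ℕ) : ℤ) : ℂ) • φ - (((d φ : ℕ) : ℤ) : ℂ) • ψ = -((d φ : ℂ) • ψ - (d ψ : ℂ) • φ) := by
        push_cast; ring
      rw [e, iso_neg hτ (hmono hm), h1, hTφ φ hφ, hTφ ψ hψ]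
      push_cast; ring

end Cfsg.Agent.S1530
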