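import Cfsg.Statements.S1532
import Mathlib
import Cfsg.Agent.Lib.Sibley2

set_option autoImplicit false
open Cfsg

open scoped commutatorElement
set_option linter.style.haveILetI false
namespace Cfsg.Agent.S1532

open Cfsg CfsgLib.CharBasic CfsgLib.CharInd CfsgLib.CharClifford CfsgLib.CharCoh CfsgLib.FrobQuot CfsgLib.FrobCoh CfsgLib.Sibley2
open scoped commutatorElement


/-- Let G be a finite group, p an odd prime and P a Sylow p-subgroup that is non-abelian, whose underlying set is a TI-subset of G, with P properly contained in its set normaliser N and C_G(x) ≤ P for every non-identity x ∈ P. Let Z be a nontrivial subgroup of the centre of P normalised by N. Then the set of irreducible characters χ of N with χ z ≠ χ 1 for some z ∈ Z is coherent for the map induced by induction from N to G. -/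
theorem result {G : Type*} [Group G] [Fintype G] (p : ℕ) [Fact p.Prime] (hp : p ≠ 2) (P : Sylow p G) (hna : ¬ IsMulCommutative (P : Subgroup G)) (hTI : Cfsg.IsTISubset ((P : Subgroup G) : Set G)) (hlt : (P : Subgroup G) < Subgroup.normalizer ((P : Subgroup G) : Set G)) (hC : ∀ k ∈ (P : Subgroup G), k ≠ 1 → Subgroup.centralizer ({k} : Set G) ≤ (P : Subgroup G)) [Fintype ↥(Subgroup.normalizer ((P : Subgroup G) : Set G))] (Z : Subgroup G) (hZ1 : Z ≠ ⊥) (hZP : ∀ z ∈ Z, z ∈ (P : Subgroup G) ∧ ∀ y ∈ (P : Subgroup G), z * y = y * z) (hZn : ∀ x ∈ Subgroup.normalizer ((P : Subgroup G) : Set G), ∀ z ∈ Z, x * z * x⁻¹ ∈ Z) : Cfsg.IsCoherent {χ : ↥(Subgroup.normalizer ((P : Subgroup G) : Set G)) → ℂ | Cfsg.IsIrrCharacter ↥(Subgroup.normalizer ((P : Subgroup G) : Set G)) χ ∧ ∃ z : ↥(Subgroup.normalizer ((P : Subgroup G) : Set G)), (z : G) ∈ Z ∧ χ z ≠ χ 1} {1}ᶜ (fun α => Cfsg.indFun (Subgroup.normalizer ((P : Subgroup G) : Set G)) α)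 := by
  classical
  have hpp : p.Prime := Fact.out
  obtain ⟨N, hN⟩ : ∃ N : Subgroup G, N = Subgroup.normalizer ((P : Subgroup G) : Set G) := ⟨_, rfl⟩
  rename_i inst
  revert inst
  rw [← hN] at hlt hZn ⊢
  intro inst
  have hPN : (P : Subgroup G) ≤ N := hlt.le
  obtain ⟨H, hH⟩ : ∃ H : Subgroup N, H = (P : Subgroup G).subgroupOf N := ⟨_, rfl⟩
  haveI hnorm : H.Normal := by
    rw [hH, hN]; infer_instance
  have hCN : ∀ h ∈ H, h ≠ 1 → Subgroup.centralizer ({h} : Set N) ≤ H := by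
    rw [hH]; exact CfsgLib.CohTI.hC_sub hC
  have hTI' : ∀ g : G, g ∉ N → ∀ k ∈ (P : Subgroup G), g * k * g⁻¹ ∈ (P : Subgroup G) → k = 1 := by
    intro g hg k hk hgk
    by_contra hk1
    apply hg
    rw [hN]
    exact CfsgLib.TIMod.mem_normalizer_of_commute hTI hk hk1 hgk
  haveI hnorm' : ((P : Subgroup G).subgroupOf N).Normal := by rw [← hH]; exact hnorm
  have hiso : IsLinearIsometryOn (zspanOn (inducedIrrAbove H (⊥ : Subgroup N)) {1}ᶜ) (fun α => indFun N α) := by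
    rw [hH]; exact CfsgLib.CohTI.ti_isometry hTI'
  have hone : ∀ α ∈ zspanOn (inducedIrrAbove H (⊥ : Subgroup N)) {1}ᶜ, (fun α => indFun N α) α 1 = 0 := by
    rw [hH]; exact fun α hα => CfsgLib.CohTI.ti_one hα
  have hcardP : Nat.card H = Nat.card (P : Subgroup G) := by
    rw [hH]; exact Nat.card_congr (Subgroup.subgroupOfEquivOfLe hPN).toEquiv
  obtain ⟨m, hm⟩ : ∃ m : ℕ, Nat.card H = p ^ m := by
    rw [hcardP]; exact IsPGroup.iff_card.mp P.isPGroup'
  have hoddp : Odd p := hpp.odd_of_ne_two hp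
  have hoddH : Odd (Nat.card H) := by rw [hm]; exact hoddp.pow
  have hna' : ⁅H, H⁆ ≠ ⊥ := by
    intro h
    apply hna
    rw [Subgroup.commutator_eq_bot_iff_le_centralizer] at h
    refine ⟨⟨fun a b => Subtype.ext ?_⟩⟩
    have h1 : (⟨a, hPN a.2⟩ : N) ∈ H := by rw [hH, Subgroup.mem_subgroupOf]; exact a.2
    have h2 : (⟨b, hPN b.2⟩ : N) ∈ H := by rw [hH, Subgroup.mem_subgroupOf]; exact b.2
    have h3 := (Subgroup.mem_centralizer_iff.mp (h h2)) _ h1
    exact congrArg (Subtype.val : N → G) h3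
  have hoddI : Odd H.index := index_odd hCN hoddH hna'
  have hoddN : Odd (Nat.card N) := by rw [← Subgroup.card_mul_index H]; exact hoddH.mul hoddI
  have hH1 : H ≠ ⊥ := fun h => hna' (by rw [h]; exact Subgroup.commutator_bot_left _)
  have hcop : Nat.Coprime p H.index := by
    have h1 := CfsgLib.CohTI.hall hCN
    rw [hm] at h1
    have hm0 : m ≠ 0 := by
      rintro rfl
      rw [pow_zero] at hm
      exact hH1 (Subgroup.card_eq_one.mp hm)
    exact Nat.Coprime.coprime_dvd_left (dvd_pow_self p hm0) h1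
  -- the central subgroup
  obtain ⟨Z', hZ'⟩ : ∃ Z' : Subgroup N, Z' = Z.subgroupOf N := ⟨_, rfl⟩
  haveI hZ'n : Z'.Normal := by
    refine ⟨fun z hz x => ?_⟩
    rw [hZ', Subgroup.mem_subgroupOf] at hz ⊢
    exact hZn x x.2 _ hz
  have hZN : Z ≤ N := fun z hz => hPN (hZP z hz).1
  have hZ'1 : Z' ≠ ⊥ := by
    obtain ⟨⟨z, hz⟩, hz1⟩ := Subgroup.ne_bot_iff_exists_ne_one.mp hZ1
    intro h
    apply hz1
    have h1 : (⟨z, hZN hz⟩ : N) ∈ Z' := by rw [hZ', Subgroup.mem_subgroupOf]; exact hz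
    rw [h, Subgroup.mem_bot] at h1
    have h2 : z = 1 := congrArg (Subtype.val : N → G) h1
    exact Subtype.ext h2
  have hZH : Z' ≤ H := by
    intro z hz
    rw [hZ', Subgroup.mem_subgroupOf] at hz
    rw [hH, Subgroup.mem_subgroupOf]
    exact (hZP _ hz).1
  have hZcent : ∀ z ∈ Z', ∀ k ∈ H, z * k = k * z := by
    intro z hz k hk
    rw [hZ', Subgroup.mem_subgroupOf] at hz
    rw [hH, Subgroup.mem_subgroupOf] at hk
    exact Subtype.ext ((hZP _ hz).2 _ hk)
  have hirrS : ∀ χ ∈ inducedIrrAbove H (⊥ : Subgroup N), IsIrrCharacter N χ := fun χ hχ => frob_isIrr hCN hχ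
  obtain ⟨X, hX⟩ : ∃ X : Set (N → ℂ), X = {χ : N → ℂ | IsIrrCharacter N χ ∧ ∃ z ∈ Z', χ z ≠ χ 1} := ⟨_, rfl⟩
  have hXdiff : X = inducedIrrAbove H (⊥ : Subgroup N) \ inducedIrrAbove H Z' := by
    rw [hX, diff_above_eq hZH (fun χ hχ => hirrS χ hχ.1)]
  have hXS : X ⊆ inducedIrrAbove H (⊥ : Subgroup N) := by rw [hXdiff]; exact Set.diff_subset
  have hconj : ∀ χ ∈ inducedIrrAbove H (⊥ : Subgroup N), conjFun χ ≠ χ := by
    intro χ hχ heq
    have h1 := hirrS χ hχ
    have h2 : χ = fun _ => 1 := by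
      apply CfsgLib.CharFS.real_odd hoddN h1
      intro g
      have h3 := congrFun heq g
      exact Complex.conj_eq_iff_im.mp h3
    rw [frob_set hCN] at hχ
    obtain ⟨-, h, -, hne⟩ := hχ
    exact hne (by rw [h2])
  have hconjX : ∀ χ ∈ X, conjFun χ ∈ X := by
    intro χ hχ
    rw [hX] at hχ ⊢
    obtain ⟨h1, z, hz, hne⟩ := hχ
    refine ⟨isIrr_conjFun h1, z, hz, fun h => hne ?_⟩
    exact (starRingEnd ℂ).injective h
  have hfin : (inducedIrrAbove H (⊥ : Subgroup N)).Finite := above_finite H ⊥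
  obtain ⟨FX, hFX⟩ := (hfin.subset hXS).exists_finset_coe
  have hFXm : ∀ φ, φ ∈ FX ↔ φ ∈ X := fun φ => by rw [← hFX, Finset.mem_coe]
  have hset : {χ : N → ℂ | IsIrrCharacter N χ ∧ ∃ z : N, (z : G) ∈ Z ∧ χ z ≠ χ 1} = (FX : Set (N → ℂ)) := by
    rw [hFX, hX, hZ']
    rfl
  rw [hset]
  refine irr_central hpp hp hm hcop hZH hZcent ?_ FX (fun φ => by rw [hFXm, hX]; rfl) ?_ _ (iso_mono hiso (zspanOn_mono (by rw [hFX]; exact hXS)))
    (fun α hα => hone α (zspanOn_mono (by rw [hFX]; exact hXS) hα))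
  · intro χ h1 h2
    have h3 : χ ∈ X := by rw [hX]; exact ⟨h1, h2⟩
    obtain ⟨θ, h4, -, -, h5⟩ := hXS h3
    exact ⟨θ, h4, h5⟩
  · obtain ⟨χ, z, hz, hne⟩ := exists_irr_not_trivial hZ'1
    have hχ : (χ : N → ℂ) ∈ X := by rw [hX]; exact ⟨χ.2, z, hz, hne⟩
    exact Finset.one_lt_card.mpr ⟨χ, (hFXm _).mpr hχ, conjFun χ, (hFXm _).mpr (hconjX _ hχ), (hconj _ (hXS hχ)).symm⟩

end Cfsg.Agent.S1532
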