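import Cfsg.Statements.S1533
import Mathlib
import Cfsg.Agent.Lib.Sibley3
import Cfsg.Agent.S1534

set_option autoImplicit false
open Cfsg

set_option linter.style.haveILetI false
namespace Cfsg.Agent.S1533

open Cfsg CfsgLib.CharBasic CfsgLib.CharInd CfsgLib.CharClifford CfsgLib.CharCoh CfsgLib.FrobQuot CfsgLib.FrobCoh CfsgLib.Sibley2
open scoped commutatorElement


/-- Let G be a finite group, p an odd prime, and P a nontrivial Sylow p-subgroup whose underlying set is a TI-subset of G, with P properly contained in its set normaliser N and C_G(x) ≤ P for every non-identity x ∈ P. Let S be the set of irreducible characters χ of N with χ x ≠ χ 1 for some x ∈ P. Then either S has exactly one member, P is elementary abelian and Nat.card P = [N:P] + 1; or (S, N minus 1, induction to G) is coherent. -/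
theorem result {G : Type*} [Group G] [Fintype G] (p : ℕ) [Fact p.Prime] (hp : p ≠ 2) (P : Sylow p G) (hP1 : (P : Subgroup G) ≠ ⊥) (hTI : Cfsg.IsTISubset ((P : Subgroup G) : Set G)) (hlt : (P : Subgroup G) < Subgroup.normalizer ((P : Subgroup G) : Set G)) (hC : ∀ k ∈ (P : Subgroup G), k ≠ 1 → Subgroup.centralizer ({k} : Set G) ≤ (P : Subgroup G)) [Fintype ↥(Subgroup.normalizer ((P : Subgroup G) : Set G))] : (Nat.card {χ : ↥(Subgroup.normalizer ((P : Subgroup G) : Set G)) → ℂ // Cfsg.IsIrrCharacter ↥(Subgroup.normalizer ((P : Subgroup G) : Set G)) χ ∧ ∃ x : ↥(Subgroup.normalizer ((P : Subgroup G) : Set G)), (x : G) ∈ (P : Subgroup G) ∧ χ x ≠ χ 1} = 1 ∧ Cfsg.IsElementaryAbelian p (P : Subgroup G) ∧ Nat.card (P : Subgroup G) = ((P : Subgroup G).subgroupOf (Subgroup.normalizer ((P : Subgroup G) : Set G))).index + 1) ∨ Cfsg.IsCoherent {χ : ↥(Subgroup.normalizer ((P : Subgroup G) : Set G)) → ℂ | Cfsg.IsIrrCharacter ↥(Subgroup.normalizer ((P : Subgroup G) : Set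 G)) χ ∧ ∃ x : ↥(Subgroup.normalizer ((P : Subgroup G) : Set G)), (x : G) ∈ (P : Subgroup G) ∧ χ x ≠ χ 1} {1}ᶜ (fun α => Cfsg.indFun (Subgroup.normalizer ((P : Subgroup G) : Set G)) α) := by
  classical
  have hpp : p.Prime := Fact.out
  have hnil : Group.IsNilpotent (P : Subgroup G) := P.isPGroup'.isNilpotent
  obtain ⟨m, hm⟩ : ∃ m : ℕ, Nat.card (P : Subgroup G) = p ^ m := IsPGroup.iff_card.mp P.isPGroup'
  have hm0 : m ≠ 0 := by
    rintro rfl
    rw [pow_zero] at hm
    exact hP1 (Subgroup.card_eq_one.mp hm)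
  rcases Cfsg.Agent.S1534.result (P : Subgroup G) hP1 hnil hTI hlt hC with ⟨h1, h2, q, hq, h3⟩ | ⟨h1, -⟩ | h1
  · left
    refine ⟨h1, ?_, h2⟩
    have hqp : q = p := by
      obtain ⟨⟨x, hx⟩, hx1⟩ := Subgroup.ne_bot_iff_exists_ne_one.mp hP1
      have h4 : x ^ q = 1 := h3.2 x hx
      have hx1' : x ≠ 1 := fun h => hx1 (Subtype.ext h)
      haveI := Fact.mk hq
      have h5 : orderOf x = q := orderOf_eq_prime h4 hx1'
      have h6 : orderOf (⟨x, hx⟩ : (P : Subgroup G)) ∣ Nat.card (P : Subgroup G) := orderOf_dvd_natCard _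
      rw [Subgroup.orderOf_mk, h5, hm] at h6
      exact (Nat.prime_dvd_prime_iff_eq hq hpp).mp (hq.dvd_of_dvd_pow h6)
    refine ⟨h3.1, fun a ha => ?_⟩
    have h4 := h3.2 a ha
    rwa [hqp] at h4
  · exfalso
    rw [hm] at h1
    have h2 : p ∣ 2 ^ (Nat.card G).factorization 2 := by rw [← h1]; exact dvd_pow_self p hm0
    exact hp ((Nat.prime_dvd_prime_iff_eq hpp Nat.prime_two).mp (hpp.dvd_of_dvd_pow h2))
  · exact Or.inr h1

end Cfsg.Agent.S1533
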