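import Cfsg.Statements.S1536
import Mathlib
import Cfsg.Agent.Lib.CopElt

set_option autoImplicit false
open Cfsg

namespace Cfsg.Agent.S1536

/-- Let H be a normal subgroup of the finite group M whose order is coprime to its index. For x ∈ M: some non-principal irreducible character of H is unchanged under h ↦ θ(x h x⁻¹) if and only if some non-identity element of H commutes with x. -/
theorem result {M : Type*} [Group M] [Finite M] (H : Subgroup M) [hN : H.Normal] (hHall : Nat.Coprime (Nat.card H) H.index) (x : M) : (∃ θ : H → ℂ, Cfsg.IsIrrCharacter H θ ∧ θ ≠ (fun _ => 1) ∧ (fun h : H => θ ⟨x * h * x⁻¹, hN.conj_mem h h.2 x⟩) = θ) ↔ ∃ h ∈ H, h ≠ 1 ∧ x * h = h * x := by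
  classical
  haveI : Fintype H := Fintype.ofFinite H
  have hperm := CfsgLib.CharFS.permutation_lemma (G := H) (fun h => ⟨x * h * x⁻¹, hN.conj_mem h h.2 x⟩)
    (fun χ => ⟨CfsgLib.CharClifford.conjFn x χ.1, CfsgLib.CharClifford.isIrr_conjFn χ.2 x⟩) (fun χ k => rfl)
  -- the left side: more than one fixed character
  have hleft : (∃ θ : H → ℂ, Cfsg.IsIrrCharacter H θ ∧ θ ≠ (fun _ => 1) ∧ (fun h : H => θ ⟨x * h * x⁻¹, hN.conj_mem h h.2 x⟩) = θ) ↔
      1 < Nat.card {χ : Cfsg.IrrCharacter H // (⟨CfsgLib.CharClifford.conjFn x χ.1, CfsgLib.CharClifford.isIrr_conjFn χ.2 x⟩ : Cfsg.IrrCharacter H) = χ} := by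
    rw [Finite.one_lt_card_iff_nontrivial]
    constructor
    · rintro ⟨θ, h1, h2, h3⟩
      refine ⟨⟨⟨θ, h1⟩, Subtype.ext h3⟩, ⟨⟨fun _ => 1, CfsgLib.CharBasic.isIrr_one'⟩, Subtype.ext (by funext k; rfl)⟩, ?_⟩
      intro h
      exact h2 (congrArg (fun y => y.1.1) h)
    · intro hnt
      obtain ⟨χ, hχ⟩ := exists_ne (⟨⟨fun _ => 1, CfsgLib.CharBasic.isIrr_one'⟩, Subtype.ext (by funext k; rfl)⟩ :
        {χ : Cfsg.IrrCharacter H // (⟨CfsgLib.CharClifford.conjFn x χ.1, CfsgLib.CharClifford.isIrr_conjFn χ.2 x⟩ : Cfsg.IrrCharacter H) = χ})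
      refine ⟨χ.1.1, χ.1.2, ?_, congrArg Subtype.val χ.2⟩
      intro h
      apply hχ
      apply Subtype.ext
      exact Subtype.ext h
  rw [hleft, hperm, Finite.one_lt_card_iff_nontrivial]
  constructor
  · intro hnt
    -- a fixed nontrivial class
    have hfix1 : ∀ g : H, ConjClasses.mk g = ConjClasses.mk 1 → IsConj (⟨x * g * x⁻¹, hN.conj_mem g g.2 x⟩ : H) g := by
      intro g hg
      rw [ConjClasses.mk_eq_mk_iff_isConj] at hg
      have : g = 1 := (isConj_one_right.mp hg.symm)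
      subst this
      have : (⟨x * ((1 : H) : M) * x⁻¹, hN.conj_mem _ (1 : H).2 x⟩ : H) = 1 := by ext; simp
      rw [this]
    obtain ⟨C, hC⟩ := exists_ne (⟨ConjClasses.mk 1, hfix1⟩ : {C : ConjClasses H // ∀ g : H, ConjClasses.mk g = C → IsConj (⟨x * g * x⁻¹, hN.conj_mem g g.2 x⟩ : H) g})
    obtain ⟨C, hCf⟩ := C
    obtain ⟨k, rfl⟩ := ConjClasses.mk_surjective C
    have hk1 : k ≠ 1 := by
      rintro rfl
      exact hC rfl
    obtain ⟨c, hc⟩ := isConj_iff.mp (hCf k rfl).symm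
    have h2 : x * (k : M) * x⁻¹ = (c : M) * k * (c : M)⁻¹ := (congrArg Subtype.val hc).symm
    -- decompose x
    set m := Nat.card H with hm
    have hxm : ∀ y : M, y ^ H.index ∈ H := by
      intro y
      have : (QuotientGroup.mk' H) (y ^ H.index) = 1 := by
        rw [map_pow, Subgroup.index]
        exact pow_card_eq_one'
      rw [QuotientGroup.mk'_apply, QuotientGroup.eq_one_iff] at this
      exact this
    obtain ⟨e, he1, he2⟩ := Nat.chineseRemainder hHall 0 1
    -- x' = x ^ e : e ≡ 0 mod |H|, e ≡ 1 mod index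
    set x' := x ^ e with hx'
    have hx'H : x * x'⁻¹ ∈ H := by
      have h3 : (QuotientGroup.mk' H) x' = (QuotientGroup.mk' H) x := by
        rw [hx', map_pow]
        conv_rhs => rw [← pow_one ((QuotientGroup.mk' H) x)]
        apply pow_eq_pow_iff_modEq.mpr
        apply he2.of_dvd
        rw [Subgroup.index]
        exact orderOf_dvd_natCard _
      have h4 : (QuotientGroup.mk' H) (x * x'⁻¹) = 1 := by rw [map_mul, map_inv, h3, mul_inv_cancel]
      rw [QuotientGroup.mk'_apply, QuotientGroup.eq_one_iff] at h4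
      exact h4
    have hox' : Nat.Coprime (orderOf x') (Nat.card H) := by
      apply Nat.Coprime.coprime_dvd_left _ hHall.symm
      apply orderOf_dvd_of_pow_eq_one
      rw [hx', ← pow_mul]
      obtain ⟨e', he'⟩ := (Nat.modEq_zero_iff_dvd).mp he1
      rw [he']
      have : m * e' * H.index = (H.index * m) * e' := by ring
      rw [this, pow_mul]
      have h5 : x ^ (H.index * m) = 1 := by
        rw [pow_mul]
        have := pow_card_eq_one' (x := (⟨x ^ H.index, hxm x⟩ : H))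
        exact congrArg Subtype.val this
      rw [h5, one_pow]
    have hxx' : Commute x x' := by rw [hx']; exact (Commute.refl x).pow_right e
    by_cases hxe : x = x'
    · rw [← hxe] at hox'
      obtain ⟨z, hz, hzx⟩ := CfsgLib.CopElt.exists_commute_of_fixed_class hox' k.2 c.2 h2
      refine ⟨z * k * z⁻¹, H.mul_mem (H.mul_mem hz k.2) (H.inv_mem hz), ?_, hzx.symm⟩
      intro h
      apply hk1
      ext
      have : (k : M) = z⁻¹ * (z * k * z⁻¹) * z := by group
      rw [this, h]; simp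
    · refine ⟨x * x'⁻¹, hx'H, ?_, ?_⟩
      · intro h
        exact hxe (mul_inv_eq_one.mp h)
      · have : Commute x (x * x'⁻¹) := (Commute.refl x).mul_right hxx'.inv_right
        exact this
  · rintro ⟨h, hh, hh1, hcomm⟩
    have hfix : ∀ (h : H), x * h = h * x → ∀ g : H, ConjClasses.mk g = ConjClasses.mk h → IsConj (⟨x * g * x⁻¹, hN.conj_mem g g.2 x⟩ : H) g := by
      intro h hcomm g hg
      rw [ConjClasses.mk_eq_mk_iff_isConj, isConj_comm] at hg
      obtain ⟨c, rfl⟩ := isConj_iff.mp hg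
      have e1 : (⟨x * ((c * h * c⁻¹ : H) : M) * x⁻¹, hN.conj_mem _ (c * h * c⁻¹ : H).2 x⟩ : H) =
          (⟨x * (c : M) * x⁻¹, hN.conj_mem c c.2 x⟩ : H) * h * (⟨x * (c : M) * x⁻¹, hN.conj_mem c c.2 x⟩ : H)⁻¹ := by
        ext
        simp only [Subgroup.coe_mul, Subgroup.coe_inv]
        calc x * ((c : M) * h * (c : M)⁻¹) * x⁻¹ = (x * c * x⁻¹) * (x * h * x⁻¹) * (x * (c : M)⁻¹ * x⁻¹) := by group
          _ = (x * c * x⁻¹) * h * (x * (c : M)⁻¹ * x⁻¹) := by rw [hcomm]; group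
          _ = _ := by group
      rw [e1]
      have e2 : IsConj h ((⟨x * (c : M) * x⁻¹, hN.conj_mem c c.2 x⟩ : H) * h * (⟨x * (c : M) * x⁻¹, hN.conj_mem c c.2 x⟩ : H)⁻¹) := isConj_iff.mpr ⟨_, rfl⟩
      have e3 : IsConj h (c * h * c⁻¹) := isConj_iff.mpr ⟨_, rfl⟩
      exact e2.symm.trans e3
    refine ⟨⟨ConjClasses.mk (⟨h, hh⟩ : H), hfix ⟨h, hh⟩ hcomm⟩, ⟨ConjClasses.mk (1 : H), hfix 1 (by simp)⟩, ?_⟩
    intro he
    have h1 : ConjClasses.mk (⟨h, hh⟩ : H) = ConjClasses.mk 1 := congrArg Subtype.val he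
    rw [ConjClasses.mk_eq_mk_iff_isConj] at h1
    have h2 : (⟨h, hh⟩ : H) = 1 := isConj_one_right.mp h1.symm
    exact hh1 (congrArg Subtype.val h2)

end Cfsg.Agent.S1536
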