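import Cfsg.Statements.S1551
import Cfsg.Agent.Lib.GolayEnum
import Cfsg.Agent.Lib.GolaySextOrb

set_option autoImplicit false
open scoped Pointwise
open Cfsg

open scoped Pointwise
namespace Cfsg.Agent.S1551

section
open CfsgLib.Golay

theorem lS0_chk : chkSext lS0 = true := by decide +kernel

theorem S0_eq' : S0 = (lS0.map toFS).toFinset := by
  rw [← sext_explicit lS0_chk (by decide) (m := 15) (by decide)]
  rfl

theorem sext_norm {l : List (Finset Cfsg.GolayPt)} (hl : l.Nodup) (h6 : l.length = 6) {S : Finset (Finset Cfsg.GolayPt)}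
    (hS : S ∈ Cfsg.sextets) (hlS : ∀ t, t ∈ l ↔ t ∈ S) : ∃ g ∈ Cfsg.M24, l.map (fun t => g • t) = lS0.map toFS := by
  match l, h6 with
  | [t1, t2, t3, t4, t5, t6], _ =>
    have m1 : t1 ∈ S := (hlS _).mp (by simp)
    have m2 : t2 ∈ S := (hlS _).mp (by simp)
    have m3 : t3 ∈ S := (hlS _).mp (by simp)
    have m4 : t4 ∈ S := (hlS _).mp (by simp)
    have m5 : t5 ∈ S := (hlS _).mp (by simp)
    have m6 : t6 ∈ S := (hlS _).mp (by simp)
    have c1 : t1.card = 4 := (hS.2.1 t1 m1)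
    have hSe := sextet_eq_sext hS m1
    have c2 : t2.card = 4 := (hS.2.1 t2 m2)
    have c3 : t3.card = 4 := (hS.2.1 t3 m3)
    have n12 : t1 ≠ t2 := by rintro rfl; simp at hl
    have n13 : t1 ≠ t3 := by rintro rfl; simp at hl
    have n23 : t2 ≠ t3 := by rintro rfl; simp at hl
    have d12 := sextet_disjoint hS m1 m2 n12
    have d13 := sextet_disjoint hS m1 m3 n13
    have d23 := sextet_disjoint hS m2 m3 n23
    have ho : t1 ∪ t2 ∈ Cfsg.octads := by
      rw [hSe] at m1 m2
      exact sext_union c1 m1 m2 n12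
    obtain ⟨a, ha, ha4, haS⟩ := exists_list_of_le_card (s := t1) (n := 4) c1.ge
    obtain ⟨b, hb, hb2, hbS⟩ := exists_app t2 a ha 2 (by omega) (fun p hp hc => by
      exact Finset.disjoint_left.mp d12 (haS p hp) hc)
    obtain ⟨x, hx⟩ : t3.Nonempty := by rw [← Finset.card_pos]; omega
    obtain ⟨g, hg, hgo, hgl, hgx⟩ := frame_list ho hb (by rw [List.length_append]; omega) (by
      intro p hp
      rw [List.mem_append] at hp
      rcases hp with hp | hp
      · exact Finset.mem_union_left _ (haS p hp)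
      · exact Finset.mem_union_right _ (hbS p hp)) (x := x) (by
      rw [Finset.mem_union]
      rintro (h | h)
      · exact Finset.disjoint_left.mp d13 h hx
      · exact Finset.disjoint_left.mp d23 h hx)
    have hga := app_left (m := [pt 0, pt 1, pt 2, pt 3]) hgl (by rw [ha4]; rfl)
    have g1 : g • t1 = toFS 15 := by
      have := mask_of_list ha haS (by rw [c1, ha4]) hga (a := 15) (by decide +kernel)
      rw [← this, toFS_mask]
    have gS : g • S = S0 := by
      rw [hSe, smul_sext hg c1, g1]; rfl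
    have gm : ∀ t ∈ S, g • t ∈ (lS0.map toFS).toFinset := by
      intro t ht
      rw [← S0_eq', ← gS]
      exact mem_smul_fam.mpr ht
    have g2 : g • t2 = toFS 0x1490 := by
      have h1 : g • t2 = O0 \ toFS 15 := by
        rw [← hgo, ← g1, ← smul_sdiff']
        congr 1
        rw [Finset.union_sdiff_left, Finset.sdiff_eq_self_of_disjoint d12.symm]
      rw [h1]
      decide +kernel
    have inj : Function.Injective (fun t : Finset Cfsg.GolayPt => g • t) := fun u v h => smul_left_cancel g h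
    have g3 : g • t3 = toFS 0x824020 := by
      have h1 := gm t3 m3
      have h2 : pt 5 ∈ g • t3 := by rw [← hgx]; exact mem_smul_iff.mpr hx
      rw [List.mem_toFinset, List.mem_map] at h1
      obtain ⟨m, hm, hme⟩ := h1
      rw [← hme] at h2
      have key : ∀ m ∈ lS0, pt 5 ∈ toFS m → m = 0x824020 := by decide +kernel
      rw [← hme, key m hm h2]
    have hrest : ∀ t ∈ S, t ≠ t1 → t ≠ t2 → t ≠ t3 → ∃ a ∈ rest6, g • t = toFS a := by
      intro t ht h1 h2 h3
      have h4 := gm t ht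
      rw [List.mem_toFinset, List.mem_map] at h4
      obtain ⟨m, hm, hme⟩ := h4
      refine ⟨m, ?_, hme.symm⟩
      have e1 : m ≠ 15 := by
        rintro rfl; exact h1 (inj (by show g • t = g • t1; rw [g1, ← hme]))
      have e2 : m ≠ 0x1490 := by
        rintro rfl; exact h2 (inj (by show g • t = g • t2; rw [g2, ← hme]))
      have e3 : m ≠ 0x824020 := by
        rintro rfl; exact h3 (inj (by show g • t = g • t3; rw [g3, ← hme]))
      simp only [lS0, List.mem_cons, List.not_mem_nil, or_false] at hm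
      simp only [rest6, List.mem_cons, List.not_mem_nil, or_false]
      tauto
    obtain ⟨x4, hx4, e4⟩ := hrest t4 m4 (by rintro rfl; simp at hl) (by rintro rfl; simp at hl) (by rintro rfl; simp at hl)
    obtain ⟨x5, hx5, e5⟩ := hrest t5 m5 (by rintro rfl; simp at hl) (by rintro rfl; simp at hl) (by rintro rfl; simp at hl)
    obtain ⟨x6, hx6, e6⟩ := hrest t6 m6 (by rintro rfl; simp at hl) (by rintro rfl; simp at hl) (by rintro rfl; simp at hl)
    have n45 : x4 ≠ x5 := by
      rintro rfl; have : t4 = t5 := inj (e4.trans e5.symm); subst this; simp at hl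
    have n46 : x4 ≠ x6 := by
      rintro rfl; have : t4 = t6 := inj (e4.trans e6.symm); subst this; simp at hl
    have n56 : x5 ≠ x6 := by
      rintro rfl; have : t5 = t6 := inj (e5.trans e6.symm); subst this; simp at hl
    have h7 := List.all_eq_true.mp (List.all_eq_true.mp (List.all_eq_true.mp chk6_all x4 hx4) x5 hx5) x6 hx6
    have f45 : Nat.beq x4 x5 = false := by
      rw [Bool.eq_false_iff]; intro h; exact n45 (Nat.eq_of_beq_eq_true h)
    have f46 : Nat.beq x4 x6 = false := by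
      rw [Bool.eq_false_iff]; intro h; exact n46 (Nat.eq_of_beq_eq_true h)
    have f56 : Nat.beq x5 x6 = false := by
      rw [Bool.eq_false_iff]; intro h; exact n56 (Nat.eq_of_beq_eq_true h)
    rw [f45, f46, f56, Bool.false_or, Bool.false_or, Bool.false_or] at h7
    rw [List.any_eq_true] at h7
    obtain ⟨P, -, hP⟩ := h7
    simp only [chk6, Bool.and_eq_true] at hP
    obtain ⟨hgood, ⟨p1, p2⟩, ⟨p3, p4⟩, p5, p6⟩ := hP
    obtain ⟨k, hk, hPk⟩ := exists_of_good hgood
    have kk : ∀ {a b : ℕ}, a < 2 ^ 24 → Nat.beq (act P a) b = true → k • toFS a = toFS b := by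
      intro a b ha hb
      rw [← toFS_mask (k • toFS a), hPk.mask_smul, mask_toFS ha, Nat.eq_of_beq_eq_true hb]
    have hlt : ∀ m ∈ rest6, m < 2 ^ 24 := by decide
    refine ⟨k * g, M24_mul hk hg, ?_⟩
    simp only [List.map_cons, List.map_nil, lS0, mul_smul, g1, g2, g3, e4, e5, e6]
    rw [kk (by norm_num) p1, kk (by norm_num) p2, kk (by norm_num) p3, kk (hlt _ hx4) p4, kk (hlt _ hx5) p5, kk (hlt _ hx6) p6]

theorem perm_induced {S : Finset (Finset Cfsg.GolayPt)} (hS : S ∈ Cfsg.sextets) (e : Equiv.Perm ↥S) :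
    ∃ g ∈ Cfsg.M24, ∀ t : ↥S, g • (t : Finset Cfsg.GolayPt) = ((e t : ↥S) : Finset Cfsg.GolayPt) := by
  have c6 : S.card = 6 := hS.1
  let l : List ↥S := S.attach.toList
  have hl : l.Nodup := Finset.nodup_toList _
  have hlm : ∀ t : ↥S, t ∈ l := fun t => Finset.mem_toList.mpr (Finset.mem_attach _ _)
  have hlen : l.length = 6 := by rw [Finset.length_toList, Finset.card_attach, c6]
  obtain ⟨g, hg, h1⟩ := sext_norm (l := l.map Subtype.val) (hl.map Subtype.val_injective) (by rw [List.length_map, hlen]) hS (by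
    intro t
    rw [List.mem_map]
    exact ⟨fun ⟨u, _, hu⟩ => hu ▸ u.2, fun ht => ⟨⟨t, ht⟩, hlm _, rfl⟩⟩)
  obtain ⟨k, hk, h2⟩ := sext_norm (l := l.map (fun t => (e t : Finset Cfsg.GolayPt)))
    (hl.map (Subtype.val_injective.comp e.injective)) (by rw [List.length_map, hlen]) hS (by
    intro t
    rw [List.mem_map]
    exact ⟨fun ⟨u, _, hu⟩ => hu ▸ (e u).2, fun ht => ⟨e.symm ⟨t, ht⟩, hlm _, by simp⟩⟩)
  refine ⟨k⁻¹ * g, M24_mul (inv_mem hk) hg, ?_⟩
  intro t
  have h3 := h1.trans h2.symm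
  rw [List.map_map, List.map_map] at h3
  have h4 := List.map_inj_left.mp h3 t (hlm t)
  simp only [Function.comp_apply] at h4
  rw [mul_smul, h4, inv_smul_smul]

/-- tetrad-wise stabilizer -/
def KS (S : Finset (Finset Cfsg.GolayPt)) : Subgroup (Equiv.Perm Cfsg.GolayPt) where
  carrier := {g | g ∈ Cfsg.M24 ∧ ∀ t ∈ S, g • t = t}
  mul_mem' := by
    rintro a b ⟨ha, ha'⟩ ⟨hb, hb'⟩
    exact ⟨M24_mul ha hb, fun t ht => by rw [mul_smul, hb' t ht, ha' t ht]⟩
  one_mem' := ⟨one_mem _, fun t _ => one_smul _ t⟩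
  inv_mem' := by
    rintro a ⟨ha, ha'⟩
    exact ⟨inv_mem ha, fun t ht => by rw [inv_smul_eq_iff, ha' t ht]⟩

theorem stab_iff {S : Finset (Finset Cfsg.GolayPt)} (g : Cfsg.M24) : g ∈ MulAction.stabilizer Cfsg.M24 S ↔ (g : Equiv.Perm Cfsg.GolayPt) • S = S := Iff.rfl

theorem trans_sext {S X : Finset (Finset Cfsg.GolayPt)} (hS : S ∈ Cfsg.sextets) (hX : X ∈ Cfsg.sextets) : ∃ g ∈ Cfsg.M24, g • S = X := by
  have key : ∀ {S : Finset (Finset Cfsg.GolayPt)}, S ∈ Cfsg.sextets → ∃ g ∈ Cfsg.M24, g • S = S0 := by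
    intro S hS
    have hl : (S.toList).Nodup := Finset.nodup_toList _
    obtain ⟨g, hg, h⟩ := sext_norm hl (by rw [Finset.length_toList]; exact hS.1) hS (fun t => Finset.mem_toList)
    refine ⟨g, hg, ?_⟩
    rw [S0_eq', ← h]
    ext t
    rw [List.mem_toFinset, List.mem_map]
    constructor
    · intro ht
      refine ⟨g⁻¹ • t, ?_, by simp⟩
      rw [Finset.mem_toList, ← mem_smul_fam (g := g), smul_inv_smul]; exact ht
    · rintro ⟨u, hu, rfl⟩
      exact mem_smul_fam.mpr (Finset.mem_toList.mp hu)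
  obtain ⟨g, hg, h1⟩ := key hS
  obtain ⟨k, hk, h2⟩ := key hX
  exact ⟨k⁻¹ * g, M24_mul (inv_mem hk) hg, by rw [mul_smul, h1, inv_smul_eq_iff, h2]⟩

theorem card_stab {S : Finset (Finset Cfsg.GolayPt)} (hS : S ∈ Cfsg.sextets) : Nat.card (MulAction.stabilizer Cfsg.M24 S) = 138240 := by
  have h1 := MulAction.index_stabilizer Cfsg.M24 S
  have h2 : MulAction.orbit Cfsg.M24 S = Cfsg.sextets := by
    ext X
    rw [MulAction.mem_orbit_iff]
    constructor
    · rintro ⟨g, rfl⟩; exact smul_mem_sextets g.2 hS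
    · intro hX
      obtain ⟨g, hg, h⟩ := trans_sext hS hX
      exact ⟨⟨g, hg⟩, h⟩
  have h3 := Subgroup.card_mul_index (MulAction.stabilizer Cfsg.M24 S)
  rw [h1, h2, ncard_sextets, card_M24] at h3
  omega

/-- action on the tetrads -/
def ph (S : Finset (Finset Cfsg.GolayPt)) : MulAction.stabilizer Cfsg.M24 S →* Equiv.Perm ↥S where
  toFun g := (MulAction.toPerm (g.1 : Equiv.Perm Cfsg.GolayPt) : Equiv.Perm (Finset Cfsg.GolayPt)).subtypePerm (fun t => by
    have h1 : ((g.1 : Cfsg.M24) : Equiv.Perm Cfsg.GolayPt) • S = S := g.2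
    have h2 := mem_smul_fam (g := ((g.1 : Cfsg.M24) : Equiv.Perm Cfsg.GolayPt)) (S := S) (t := t)
    rw [h1] at h2
    exact h2)
  map_one' := by
    apply Equiv.ext
    intro t
    apply Subtype.ext
    exact one_smul (Equiv.Perm Cfsg.GolayPt) (t : Finset Cfsg.GolayPt)
  map_mul' a b := by
    apply Equiv.ext
    intro t
    apply Subtype.ext
    exact mul_smul ((a.1 : Cfsg.M24) : Equiv.Perm Cfsg.GolayPt) ((b.1 : Cfsg.M24) : Equiv.Perm Cfsg.GolayPt) (t : Finset Cfsg.GolayPt)

theorem ph_apply {S : Finset (Finset Cfsg.GolayPt)} (g : MulAction.stabilizer Cfsg.M24 S) (t : ↥S) :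
    ((ph S g t : ↥S) : Finset Cfsg.GolayPt) = ((g : Cfsg.M24) : Equiv.Perm Cfsg.GolayPt) • (t : Finset Cfsg.GolayPt) := rfl

theorem ph_surj {S : Finset (Finset Cfsg.GolayPt)} (hS : S ∈ Cfsg.sextets) : Function.Surjective (ph S) := by
  intro e
  obtain ⟨g, hg, h⟩ := perm_induced hS e
  have hgS : g • S = S := by
    apply Finset.eq_of_subset_of_card_le
    · intro t ht
      have h1 : g⁻¹ • t ∈ S := by rw [← mem_smul_fam (g := g), smul_inv_smul]; exact ht
      have h2 := h ⟨_, h1⟩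
      rw [smul_inv_smul] at h2
      rw [h2]; exact (e _).2
    · rw [Finset.card_smul_finset]
  refine ⟨⟨⟨g, hg⟩, hgS⟩, ?_⟩
  ext1 t
  apply Subtype.ext
  rw [ph_apply]
  exact h t

theorem mem_ker {S : Finset (Finset Cfsg.GolayPt)} (g : MulAction.stabilizer Cfsg.M24 S) : g ∈ (ph S).ker ↔
    ∀ t ∈ S, ((g : Cfsg.M24) : Equiv.Perm Cfsg.GolayPt) • t = t := by
  rw [MonoidHom.mem_ker]
  constructor
  · intro h t ht
    have := congrArg (fun f : Equiv.Perm ↥S => ((f ⟨t, ht⟩ : ↥S) : Finset Cfsg.GolayPt)) h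
    exact this
  · intro h
    ext1 t
    apply Subtype.ext
    rw [ph_apply]
    exact h t t.2

theorem card_ker {S : Finset (Finset Cfsg.GolayPt)} (hS : S ∈ Cfsg.sextets) : Nat.card (ph S).ker = 192 := by
  have h1 := Subgroup.card_mul_index (ph S).ker
  rw [Subgroup.index_ker, card_stab hS, MonoidHom.range_eq_top.mpr (ph_surj hS), Subgroup.card_top, Nat.card_perm] at h1
  have h2 : Nat.card ↥S = 6 := by rw [Nat.card_eq_fintype_card, Fintype.card_coe, hS.1]
  have h3 : Nat.factorial 6 = 720 := rfl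
  rw [h2, h3] at h1
  omega

/-! base sextet enumeration -/

theorem mem_S0 {t : Finset Cfsg.GolayPt} : t ∈ S0 ↔ ∃ m ∈ lS0, toFS m = t := by
  rw [S0_eq', List.mem_toFinset, List.mem_map]

def chkK (P : ℕ) : Bool := and (good P) (lS0.all fun m => Nat.beq (act P m) m)

theorem K192_chk : K192.all chkK = true := by decide +kernel

theorem K192_sorted : sortedB K192 = true := by decide +kernel

theorem K192_inv : K192.all (fun P => Bool.or (Bool.and (isInvol P) (N6.all fun Q => commB P Q))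
    (Bool.and (!isInvol P) (!N6.all fun Q => commB P Q))) = true := by decide +kernel

theorem K192_cnt : (K192.filter isInvol).length = 64 := by decide +kernel

theorem N6_good : N6.all good = true := by decide +kernel

theorem S0_mem : S0 ∈ Cfsg.sextets := by
  rw [S0_eq']
  exact chkSext_spec lS0_chk (by decide)

theorem card_KS : Nat.card (KS S0) = 192 := by
  have h := card_ker S0_mem
  rw [← h]
  symm
  apply Nat.card_congr
  exact
    { toFun := fun g => ⟨((g.1 : MulAction.stabilizer Cfsg.M24 S0) : Cfsg.M24), ((g.1 : MulAction.stabilizer Cfsg.M24 S0) : Cfsg.M24).2, (mem_ker g.1).mp g.2⟩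
      invFun := fun g => ⟨⟨⟨g.1, g.2.1⟩, by
        show (g.1 : Equiv.Perm Cfsg.GolayPt) • S0 = S0
        have h1 : (g.1 : Equiv.Perm Cfsg.GolayPt) • S0 ⊆ S0 := by
          intro t ht
          have h3 : (g.1)⁻¹ • t ∈ S0 := by
            have e := mem_smul_fam (g := g.1) (S := S0) (t := (g.1)⁻¹ • t)
            rw [smul_inv_smul] at e
            exact e.mp ht
          have h2 := g.2.2 _ h3
          rw [smul_inv_smul] at h2
          rw [h2]; exact h3
        exact Finset.eq_of_subset_of_card_le h1 (by rw [Finset.card_smul_finset])⟩, (mem_ker _).mpr g.2.2⟩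
      left_inv := fun g => rfl
      right_inv := fun g => rfl }

theorem KS_enum : ∀ g ∈ KS S0, ∃ P ∈ K192, Packs P g := by
  apply enum_of_card _ _ K192_sorted
  · intro P hP
    have h1 := List.all_eq_true.mp K192_chk P hP
    rw [chkK, Bool.and_eq_true] at h1
    obtain ⟨g, hg, hPg⟩ := exists_of_good h1.1
    refine ⟨g, ⟨hg, ?_⟩, hPg⟩
    intro t ht
    obtain ⟨m, hm, rfl⟩ := mem_S0.mp ht
    have h2 := List.all_eq_true.mp h1.2 m hm
    have h3 : ∀ m ∈ lS0, m < 2 ^ 24 := by decide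
    rw [← toFS_mask (g • toFS m), hPg.mask_smul, mask_toFS (h3 m hm), Nat.eq_of_beq_eq_true h2]
  · rw [card_KS]; rfl

theorem inv_mul_closed {g k : Equiv.Perm Cfsg.GolayPt} (hg : g ∈ KS S0) (hk : k ∈ KS S0) (h1 : g * g = 1) (h2 : k * k = 1) :
    g * k * (g * k) = 1 := by
  have key : ∀ g ∈ KS S0, g * g = 1 ↔ ∀ Q ∈ N6, ∀ n : Equiv.Perm Cfsg.GolayPt, Packs Q n → g * n = n * g := by
    intro g hg
    obtain ⟨P, hP, hPg⟩ := KS_enum g hg
    have h3 := List.all_eq_true.mp K192_inv P hP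
    rw [← isInvol_iff hPg]
    constructor
    · intro h4 Q hQ n hn
      rw [h4] at h3
      simp only [Bool.true_and, Bool.not_true, Bool.false_and, Bool.or_false] at h3
      exact (commB_iff hPg hn).mp (List.all_eq_true.mp h3 Q hQ)
    · intro h4
      by_contra h5
      rw [Bool.not_eq_true] at h5
      rw [h5] at h3
      simp only [Bool.false_and, Bool.not_false, Bool.true_and, Bool.false_or, Bool.not_eq_true'] at h3
      have h6 : (N6.all fun Q => commB P Q) = true := by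
        rw [List.all_eq_true]
        intro Q hQ
        obtain ⟨n, hn, hQn⟩ := exists_of_good (List.all_eq_true.mp N6_good Q hQ)
        exact (commB_iff hPg hQn).mpr (h4 Q hQ n hQn)
      rw [h6] at h3
      exact Bool.noConfusion h3
  have hgk := mul_mem hg hk
  rw [key _ hgk]
  intro Q hQ n hn
  have e1 := (key g hg).mp h1 Q hQ n hn
  have e2 := (key k hk).mp h2 Q hQ n hn
  rw [mul_assoc, e2, ← mul_assoc, e1, mul_assoc]

theorem ncard_inv : {g : Equiv.Perm Cfsg.GolayPt | g ∈ KS S0 ∧ g * g = 1}.ncard = 64 := by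
  have h := ncard_enum (KS S0) K192 K192_sorted (by
    intro P hP
    have h1 := List.all_eq_true.mp K192_chk P hP
    rw [chkK, Bool.and_eq_true] at h1
    obtain ⟨g, hg, hPg⟩ := exists_of_good h1.1
    refine ⟨g, ⟨hg, ?_⟩, hPg⟩
    intro t ht
    obtain ⟨m, hm, rfl⟩ := mem_S0.mp ht
    have h2 := List.all_eq_true.mp h1.2 m hm
    have h3 : ∀ m ∈ lS0, m < 2 ^ 24 := by decide
    rw [← toFS_mask (g • toFS m), hPg.mask_smul, mask_toFS (h3 m hm), Nat.eq_of_beq_eq_true h2]) (by rw [card_KS]; rfl) isInvol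
  rw [K192_cnt] at h
  rw [← h]
  congr 1
  ext g
  constructor
  · rintro ⟨hg, h1⟩
    obtain ⟨P, hP, hPg⟩ := KS_enum g hg
    exact ⟨hg, P, hP, hPg, (isInvol_iff hPg).mpr h1⟩
  · rintro ⟨hg, P, hP, hPg, h1⟩
    exact ⟨hg, (isInvol_iff hPg).mp h1⟩

theorem conj_KS {S : Finset (Finset Cfsg.GolayPt)} {h : Equiv.Perm Cfsg.GolayPt} (hh : h ∈ Cfsg.M24) (hS : h • S = S0)
    {g : Equiv.Perm Cfsg.GolayPt} : h * g * h⁻¹ ∈ KS S0 ↔ g ∈ KS S := by
  constructor
  · rintro ⟨h1, h2⟩
    refine ⟨?_, ?_⟩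
    · have := M24_mul (M24_mul (inv_mem hh) h1) hh
      simpa [mul_assoc] using this
    · intro t ht
      have h3 := h2 (h • t) (by rw [← hS]; exact mem_smul_fam.mpr ht)
      rw [mul_smul, mul_smul, inv_smul_smul] at h3
      exact smul_left_cancel h h3
  · rintro ⟨h1, h2⟩
    refine ⟨M24_mul (M24_mul hh h1) (inv_mem hh), ?_⟩
    intro t ht
    rw [← hS] at ht
    have h3 : h⁻¹ • t ∈ S := by rw [← mem_smul_fam (g := h), smul_inv_smul]; exact ht
    rw [mul_smul, mul_smul, h2 _ h3, smul_inv_smul]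

end


/-- Structure of a sextet stabiliser: it induces every permutation of the six tetrads, the subgroup fixing each tetrad setwise has order 192, and there is a normal subgroup of order 64 consisting of elements squaring to the identity. -/
theorem result (S : Finset (Finset Cfsg.GolayPt)) (hS : S ∈ Cfsg.sextets) : (∀ e : Equiv.Perm ↥S, ∃ g ∈ MulAction.stabilizer Cfsg.M24 S, ∀ t : ↥S, (g : Equiv.Perm Cfsg.GolayPt) • (t : Finset Cfsg.GolayPt) = ((e t : ↥S) : Finset Cfsg.GolayPt)) ∧ Nat.card {g : ↥(MulAction.stabilizer Cfsg.M24 S) // ∀ t ∈ S, ((g : Cfsg.M24) : Equiv.Perm Cfsg.GolayPt) • t = t} = 192 ∧ ∃ N : Subgroup ↥(MulAction.stabilizer Cfsg.M24 S), N.Normal ∧ Nat.card N = 64 ∧ ∀ x ∈ N, x * x = 1 := by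
  refine ⟨?_, ?_, ?_⟩
  · intro e
    obtain ⟨g, hg⟩ := ph_surj hS e
    refine ⟨g.1, g.2, ?_⟩
    intro t
    rw [← hg]; rfl
  · rw [← card_ker hS]
    exact Nat.card_congr (Equiv.subtypeEquivRight (fun g => (mem_ker g).symm))
  · obtain ⟨h, hh, hS0⟩ := trans_sext hS S0_mem
    have sq : ∀ g : Equiv.Perm Cfsg.GolayPt, h * g * h⁻¹ * (h * g * h⁻¹) = 1 ↔ g * g = 1 := by
      intro g
      have e : h * g * h⁻¹ * (h * g * h⁻¹) = h * (g * g) * h⁻¹ := by group
      rw [e]
      exact ⟨fun h1 => by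
        have := congrArg (fun x => h⁻¹ * x * h) h1
        simpa [mul_assoc] using this, fun h1 => by rw [h1]; simp⟩
    have memK : ∀ g : MulAction.stabilizer Cfsg.M24 S, g ∈ (ph S).ker ↔ (((g : Cfsg.M24) : Equiv.Perm Cfsg.GolayPt)) ∈ KS S :=
      fun g => (mem_ker g).trans ⟨fun h1 => ⟨(g : Cfsg.M24).2, h1⟩, fun h1 => h1.2⟩
    let N : Subgroup ↥(MulAction.stabilizer Cfsg.M24 S) :=
      { carrier := {g | g ∈ (ph S).ker ∧ g * g = 1}
        mul_mem' := by
          rintro a b ⟨ha, ha'⟩ ⟨hb, hb'⟩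
          refine ⟨mul_mem ha hb, ?_⟩
          have a1 : h * (((a : Cfsg.M24) : Equiv.Perm Cfsg.GolayPt)) * h⁻¹ ∈ KS CfsgLib.Golay.S0 := (conj_KS hh hS0).mpr ((memK a).mp ha)
          have b1 : h * (((b : Cfsg.M24) : Equiv.Perm Cfsg.GolayPt)) * h⁻¹ ∈ KS CfsgLib.Golay.S0 := (conj_KS hh hS0).mpr ((memK b).mp hb)
          have a2 := (sq _).mpr (congrArg (fun x : MulAction.stabilizer Cfsg.M24 S => ((x : Cfsg.M24) : Equiv.Perm Cfsg.GolayPt)) ha')
          have b2 := (sq _).mpr (congrArg (fun x : MulAction.stabilizer Cfsg.M24 S => ((x : Cfsg.M24) : Equiv.Perm Cfsg.GolayPt)) hb')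
          have c := inv_mul_closed a1 b1 a2 b2
          have e : h * (((a : Cfsg.M24) : Equiv.Perm Cfsg.GolayPt)) * h⁻¹ * (h * (((b : Cfsg.M24) : Equiv.Perm Cfsg.GolayPt)) * h⁻¹) =
            h * (((a : Cfsg.M24) : Equiv.Perm Cfsg.GolayPt) * ((b : Cfsg.M24) : Equiv.Perm Cfsg.GolayPt)) * h⁻¹ := by group
          rw [e, sq] at c
          exact Subtype.ext (Subtype.ext c)
        one_mem' := ⟨one_mem _, one_mul _⟩
        inv_mem' := by
          rintro a ⟨ha, ha'⟩
          exact ⟨inv_mem ha, by rw [← mul_inv_rev, ha', inv_one]⟩ }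
    refine ⟨N, ⟨?_⟩, ?_, ?_⟩
    · rintro n ⟨hn, hn'⟩ g
      refine ⟨(ph S).normal_ker.conj_mem n hn g, ?_⟩
      have e : g * n * g⁻¹ * (g * n * g⁻¹) = g * (n * n) * g⁻¹ := by group
      rw [e, hn']; simp
    · rw [← ncard_inv, ← Nat.card_coe_set_eq]
      refine Nat.card_congr (Equiv.ofBijective (fun n : N => (⟨h * (((n.1 : MulAction.stabilizer Cfsg.M24 S) : Cfsg.M24) : Equiv.Perm Cfsg.GolayPt) * h⁻¹,
        (conj_KS hh hS0).mpr ((memK n.1).mp n.2.1),
        (sq _).mpr (congrArg (fun x : MulAction.stabilizer Cfsg.M24 S => ((x : Cfsg.M24) : Equiv.Perm Cfsg.GolayPt)) n.2.2)⟩ :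
          {g : Equiv.Perm Cfsg.GolayPt | g ∈ KS CfsgLib.Golay.S0 ∧ g * g = 1})) ⟨?_, ?_⟩)
      · intro a b hab
        have h1 := congrArg Subtype.val hab
        simp only at h1
        have h2 := mul_left_cancel (mul_right_cancel h1)
        exact Subtype.ext (Subtype.ext (Subtype.ext h2))
      · rintro ⟨g, hg, hg2⟩
        have e : h * (h⁻¹ * g * h) * h⁻¹ = g := by group
        have h3 : h⁻¹ * g * h ∈ KS S := by
          rw [← conj_KS hh hS0, e]; exact hg
        have h4 : (h⁻¹ * g * h) * (h⁻¹ * g * h) = 1 := by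
          rw [← sq, e]; exact hg2
        have h5 : (h⁻¹ * g * h) • S = S := by
          have h1 : (h⁻¹ * g * h) • S ⊆ S := by
            intro t ht
            have h6 : (h⁻¹ * g * h)⁻¹ • t ∈ S := by rw [← CfsgLib.Golay.mem_smul_fam (g := h⁻¹ * g * h), smul_inv_smul]; exact ht
            have h7 := h3.2 _ h6
            rw [smul_inv_smul] at h7
            rw [h7]; exact h6
          exact Finset.eq_of_subset_of_card_le h1 (by rw [Finset.card_smul_finset])
        refine ⟨⟨⟨⟨h⁻¹ * g * h, h3.1⟩, h5⟩, (mem_ker _).mpr h3.2, Subtype.ext (Subtype.ext h4)⟩, ?_⟩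
        apply Subtype.ext
        exact e
    · intro x hx
      exact hx.2

end Cfsg.Agent.S1551
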