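import Cfsg.Statements.S1552
import Cfsg.Agent.Lib.GolaySextOrb

set_option autoImplicit false
open scoped Pointwise
open Cfsg

open scoped Pointwise
namespace Cfsg.Agent.S1552

section
open CfsgLib.Golay
theorem tr {S : Finset (Finset GolayPt)} (hS : S ∈ sextets) {X Y : Finset (Finset GolayPt)} (hX : X ∈ sextets) (hY : Y ∈ sextets)
    (h : scls S X = scls S Y) : ∃ g ∈ MulAction.stabilizer M24 S, g • X = Y := by
  have key : ∀ Z : Finset (Finset GolayPt), ∀ g ∈ M24, ∀ k ∈ M24, g • S = S0 → g • X = Z → k • S = S0 → k • Y = Z →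
      ∃ g ∈ MulAction.stabilizer M24 S, g • X = Y := by
    intro Z g hg k hk h1 h2 h3 h4
    refine ⟨⟨k⁻¹ * g, M24_mul (inv_mem hk) hg⟩, ?_, ?_⟩
    · show (k⁻¹ * g) • S = S
      rw [mul_smul, h1, ← h3, inv_smul_smul]
    · show (k⁻¹ * g) • X = Y
      rw [mul_smul, h2, ← h4, inv_smul_smul]
  rcases scls_spec hS hX with a | a | a | a <;> rcases scls_spec hS hY with b | b | b | b
  · exact ⟨1, one_mem _, by rw [one_smul, a.2.1, b.2.1]⟩
  · rw [a.1, b.1] at h; omega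
  · rw [a.1, b.1] at h; omega
  · rw [a.1, b.1] at h; omega
  · rw [a.1, b.1] at h; omega
  · obtain ⟨g, hg, h1, h2⟩ := a.2.2
    obtain ⟨k, hk, h3, h4⟩ := b.2.2
    exact key _ g hg k hk h1 h2 h3 h4
  · rw [a.1, b.1] at h; omega
  · rw [a.1, b.1] at h; omega
  · rw [a.1, b.1] at h; omega
  · rw [a.1, b.1] at h; omega
  · obtain ⟨g, hg, h1, h2⟩ := a.2.2
    obtain ⟨k, hk, h3, h4⟩ := b.2.2
    exact key _ g hg k hk h1 h2 h3 h4
  · rw [a.1, b.1] at h; omega
  · rw [a.1, b.1] at h; omega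
  · rw [a.1, b.1] at h; omega
  · rw [a.1, b.1] at h; omega
  · obtain ⟨g, hg, h1, h2⟩ := a.2.2
    obtain ⟨k, hk, h3, h4⟩ := b.2.2
    exact key _ g hg k hk h1 h2 h3 h4
theorem inv {S : Finset (Finset GolayPt)} (hS : S ∈ sextets) {X : Finset (Finset GolayPt)} (hX : X ∈ sextets)
    {g : ↥M24} (hg : g ∈ MulAction.stabilizer M24 S) : g • X ∈ sextets ∧ scls S (g • X) = scls S X := by
  have hgS : (g : Equiv.Perm GolayPt) • S = S := hg
  have h1 : (g : Equiv.Perm GolayPt) • X ∈ sextets := smul_mem_sextets g.2 hX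
  refine ⟨h1, ?_⟩
  have e3 : nInt 3 (g • X) S = nInt 3 X S := by
    conv_lhs => rw [← hgS]
    exact nInt_smul _ _ _ _
  have e2 : nInt 2 (g • X) S = nInt 2 X S := by
    conv_lhs => rw [← hgS]
    exact nInt_smul _ _ _ _
  have e0 : g • X = S ↔ X = S := by
    constructor
    · intro h
      have : g • X = g • S := by rw [h]; exact hgS.symm
      exact (MulAction.injective g) this
    · rintro rfl; exact hgS
  simp only [scls, e0, e3, e2]
theorem orb {S : Finset (Finset GolayPt)} (hS : S ∈ sextets) {X : Finset (Finset GolayPt)} (hX : X ∈ sextets) :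
    MulAction.orbit ↥(MulAction.stabilizer Cfsg.M24 S) X = {Y | Y ∈ sextets ∧ scls S Y = scls S X} := by
  ext Y
  rw [MulAction.mem_orbit_iff]
  constructor
  · rintro ⟨⟨g, hg⟩, rfl⟩
    exact inv hS hX hg
  · rintro ⟨hY, h⟩
    obtain ⟨g, hg, h1⟩ := tr hS hX hY h.symm
    exact ⟨⟨g, hg⟩, h1⟩
theorem coat {S : Finset (Finset GolayPt)} (hS : S ∈ sextets) : IsCoatom (MulAction.stabilizer Cfsg.M24 S) := by
  obtain ⟨n0, n1, n2, n3⟩ := class_counts hS
  apply CfsgLib.CoatomCrit.isCoatom_of_classes S sextets _ (scls S) 4 _ _ _ _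
    (fun i => if i = 0 then 1 else if i = 1 then 240 else if i = 2 then 90 else 1440)
  · intro i hi
    interval_cases i
    · exact n0
    · exact n1
    · exact n2
    · exact n3
  · decide +kernel
  · obtain ⟨X, hX, h1⟩ := Set.nonempty_of_ncard_ne_zero (by rw [n1]; norm_num)
    refine ⟨X, hX, ?_⟩
    rintro rfl
    rw [scls, if_pos rfl] at h1; omega
  · intro Y
    constructor
    · intro hY
      obtain ⟨t, ht⟩ : S.Nonempty := by rw [← Finset.card_pos, hS.1]; norm_num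
      obtain ⟨u, hu⟩ : Y.Nonempty := by rw [← Finset.card_pos, hY.1]; norm_num
      obtain ⟨l, hl, hl4, hlt⟩ := exists_list_eq t
      obtain ⟨m, hm, hm4, hmu⟩ := exists_list_eq u
      have htc := hS.2.1 t ht
      have huc := hY.2.1 u hu
      obtain ⟨g, hg, hgl⟩ := trans_list hl hm (by rw [hl4, hm4, htc, huc]) (by omega)
      have hgt : g • t = u := smul_of_list hl (fun p hp => (hlt p).mp hp) hl4.symm hgl (fun p hp => (hmu p).mp hp) (by rw [hl4, htc, huc])
      refine ⟨⟨g, hg⟩, ?_⟩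
      show g • S = Y
      rw [sextet_eq_sext hS ht, smul_sext hg htc, hgt, sextet_eq_sext hY hu]
    · rintro ⟨g, rfl⟩
      exact smul_mem_sextets g.2 hS
  · intro Y hY
    rcases scls_spec hS hY with a | a | a | a <;> rw [a.1] <;> norm_num
  · intro Y hY h
    rcases scls_spec hS hY with a | a | a | a
    · exact a.2.1
    · rw [a.1] at h; omega
    · rw [a.1] at h; omega
    · rw [a.1] at h; omega
  · rw [scls, if_pos rfl]
  · intro Y hY Z hZ h
    exact tr hS hY hZ h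
theorem aux (S : Finset (Finset Cfsg.GolayPt)) (hS : S ∈ Cfsg.sextets) : ∃ X₁ ∈ Cfsg.sextets, ∃ X₂ ∈ Cfsg.sextets, ∃ X₃ ∈ Cfsg.sextets, (MulAction.orbit ↥(MulAction.stabilizer Cfsg.M24 S) X₁).ncard = 90 ∧ (MulAction.orbit ↥(MulAction.stabilizer Cfsg.M24 S) X₂).ncard = 240 ∧ (MulAction.orbit ↥(MulAction.stabilizer Cfsg.M24 S) X₃).ncard = 1440 ∧ Cfsg.sextets = {S} ∪ MulAction.orbit ↥(MulAction.stabilizer Cfsg.M24 S) X₁ ∪ MulAction.orbit ↥(MulAction.stabilizer Cfsg.M24 S) X₂ ∪ MulAction.orbit ↥(MulAction.stabilizer Cfsg.M24 S) X₃ ∧ IsCoatom (MulAction.stabilizer Cfsg.M24 S) := by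
  obtain ⟨n0, n1, n2, n3⟩ := class_counts hS
  obtain ⟨X1, hX1, h1⟩ := Set.nonempty_of_ncard_ne_zero (by rw [n1]; norm_num)
  obtain ⟨X2, hX2, h2⟩ := Set.nonempty_of_ncard_ne_zero (by rw [n2]; norm_num)
  obtain ⟨X3, hX3, h3⟩ := Set.nonempty_of_ncard_ne_zero (by rw [n3]; norm_num)
  refine ⟨X2, hX2, X1, hX1, X3, hX3, ?_, ?_, ?_, ?_, coat hS⟩
  · rw [orb hS hX2, h2]; exact n2
  · rw [orb hS hX1, h1]; exact n1
  · rw [orb hS hX3, h3]; exact n3
  · rw [orb hS hX1, orb hS hX2, orb hS hX3, h1, h2, h3]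
    ext Y
    simp only [Set.mem_union, Set.mem_singleton_iff, Set.mem_setOf_eq]
    constructor
    · intro hY
      rcases scls_spec hS hY with a | a | a | a
      · exact Or.inl (Or.inl (Or.inl a.2.1))
      · exact Or.inl (Or.inr ⟨hY, a.1⟩)
      · exact Or.inl (Or.inl (Or.inr ⟨hY, a.1⟩))
      · exact Or.inr ⟨hY, a.1⟩
    · rintro (((rfl | h) | h) | h)
      · exact hS
      · exact h.1
      · exact h.1
      · exact h.1
end


/-- A sextet stabiliser has four orbits on the 1771 sextets, of sizes 1, 90, 240, 1440; and the stabiliser is a maximal proper subgroup. -/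
theorem result (S : Finset (Finset Cfsg.GolayPt)) (hS : S ∈ Cfsg.sextets) : ∃ X₁ ∈ Cfsg.sextets, ∃ X₂ ∈ Cfsg.sextets, ∃ X₃ ∈ Cfsg.sextets, (MulAction.orbit ↥(MulAction.stabilizer Cfsg.M24 S) X₁).ncard = 90 ∧ (MulAction.orbit ↥(MulAction.stabilizer Cfsg.M24 S) X₂).ncard = 240 ∧ (MulAction.orbit ↥(MulAction.stabilizer Cfsg.M24 S) X₃).ncard = 1440 ∧ Cfsg.sextets = {S} ∪ MulAction.orbit ↥(MulAction.stabilizer Cfsg.M24 S) X₁ ∪ MulAction.orbit ↥(MulAction.stabilizer Cfsg.M24 S) X₂ ∪ MulAction.orbit ↥(MulAction.stabilizer Cfsg.M24 S) X₃ ∧ IsCoatom (MulAction.stabilizer Cfsg.M24 S) := by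
  exact aux S hS

end Cfsg.Agent.S1552
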