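import Cfsg.Statements.S1553
import Cfsg.Agent.Lib.GolayOct

set_option autoImplicit false
open scoped Pointwise
open Cfsg

open scoped Pointwise
namespace Cfsg.Agent.S1553

/-- The stabiliser of an octad in the group of the length-24 code induces on the octad exactly its alternating group. -/
theorem result (o : Finset Cfsg.GolayPt) (ho : o ∈ Cfsg.octads) : {e : Equiv.Perm ↥o | ∃ g : Equiv.Perm Cfsg.GolayPt, g ∈ Cfsg.M24 ∧ ∃ h : (∀ x, g x ∈ o ↔ x ∈ o), g.subtypePerm h = e} = (alternatingGroup ↥o : Set (Equiv.Perm ↥o)) := by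
  have h := CfsgLib.Golay.range_res_octad ho
  rw [← h]
  ext e
  constructor
  · rintro ⟨g, hg, h1, rfl⟩
    have hgo : g • o = o := by
      apply Finset.eq_of_subset_of_card_le
      · intro q hq
        rw [Finset.mem_smul_finset] at hq
        obtain ⟨p, hp, rfl⟩ := hq
        exact (h1 p).mpr hp
      · rw [CfsgLib.Golay.card_smul']
    exact ⟨⟨g, hg, hgo, by simp⟩, rfl⟩
  · rintro ⟨⟨g, hg, hgo, _⟩, rfl⟩
    have h1 : ∀ x, g x ∈ o ↔ x ∈ o := fun x => by
      conv_lhs => rw [← hgo]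
      exact CfsgLib.Golay.mem_smul_iff
    exact ⟨g, hg, h1, rfl⟩

end Cfsg.Agent.S1553
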