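import Cfsg.Statements.S1554
import Cfsg.Agent.Lib.GolayOct

set_option autoImplicit false
open scoped Pointwise
open Cfsg

open scoped Pointwise
namespace Cfsg.Agent.S1554

section
open CfsgLib.Golay
theorem inf (o : Finset Cfsg.GolayPt) (ho : o ∈ Cfsg.octads) (p : Cfsg.GolayPt) (hp : p ∉ o) (g : Equiv.Perm GolayPt) (hg : g ∈ M24)
    (h : ∀ x ∈ o, g x = x) (hgp : g p = p) : g = 1 := by
  obtain ⟨x0, x1, x2, x3, x4, x5, x6, h0, h1, h2, h3, h4, h5, hn, h6⟩ := exists_octad_frame ho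
  exact frame_unique hg (one_mem _) ho h0 h1 h2 h3 h4 h5 hn hp (h _ h0) (h _ h1) (h _ h2) (h _ h3) (h _ h4) (h _ h5) hgp
theorem trans (o : Finset Cfsg.GolayPt) (ho : o ∈ Cfsg.octads) (p q : Cfsg.GolayPt) (hp : p ∉ o) (hq : q ∉ o) :
    ∃ g ∈ M24, (∀ x ∈ o, g x = x) ∧ g p = q := by
  obtain ⟨x0, x1, x2, x3, x4, x5, x6, h0, h1, h2, h3, h4, h5, hn, h6⟩ := exists_octad_frame ho
  obtain ⟨g, hg, _, e0, e1, e2, e3, e4, e5, e6⟩ := frame_trans ho h0 h1 h2 h3 h4 h5 hn hp ho h0 h1 h2 h3 h4 h5 hn hq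
  exact ⟨g, hg, (fix_octad hg ho h0 h1 h2 h3 h4 h5 hn e0 e1 e2 e3 e4 e5).1, e6⟩
theorem aux1 (o : Finset Cfsg.GolayPt) (ho : o ∈ Cfsg.octads) (p : Cfsg.GolayPt) (hp : p ∉ o) : (Cfsg.M24 ⊓ fixingSubgroup (Equiv.Perm Cfsg.GolayPt) (o : Set Cfsg.GolayPt)) ⊓ (Cfsg.M24 ⊓ MulAction.stabilizer (Equiv.Perm Cfsg.GolayPt) o ⊓ MulAction.stabilizer (Equiv.Perm Cfsg.GolayPt) p) = ⊥ := by
  rw [eq_bot_iff]
  intro g hg
  rw [Subgroup.mem_inf, Subgroup.mem_inf, Subgroup.mem_inf, Subgroup.mem_inf, mem_fixingSubgroup_iff] at hg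
  rw [Subgroup.mem_bot]
  exact inf o ho p hp g hg.1.1 (fun x hx => hg.1.2 x hx) hg.2.2
theorem aux2 (o : Finset Cfsg.GolayPt) (ho : o ∈ Cfsg.octads) (p : Cfsg.GolayPt) (hp : p ∉ o) : (Cfsg.M24 ⊓ fixingSubgroup (Equiv.Perm Cfsg.GolayPt) (o : Set Cfsg.GolayPt)) ⊔ (Cfsg.M24 ⊓ MulAction.stabilizer (Equiv.Perm Cfsg.GolayPt) o ⊓ MulAction.stabilizer (Equiv.Perm Cfsg.GolayPt) p) = (Cfsg.M24 ⊓ MulAction.stabilizer (Equiv.Perm Cfsg.GolayPt) o) := by
  apply le_antisymm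
  · apply sup_le
    · intro g hg
      rw [Subgroup.mem_inf, mem_fixingSubgroup_iff] at hg
      exact ⟨hg.1, smul_eq_of_fix (fun x hx => hg.2 x hx)⟩
    · exact inf_le_left
  · rintro g ⟨hg, hgo⟩
    have hgo' : g • o = o := hgo
    have hgp : g p ∉ o := by
      intro hc; rw [← hgo'] at hc; exact hp (mem_smul_iff.mp hc)
    obtain ⟨k, hk, hk1, hk2⟩ := trans o ho p (g p) hp hgp
    have e : g = k * (k⁻¹ * g) := by group
    rw [e]
    apply Subgroup.mul_mem_sup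
    · rw [Subgroup.mem_inf, mem_fixingSubgroup_iff]
      exact ⟨hk, fun x hx => hk1 x hx⟩
    · refine ⟨⟨M24.mul_mem (M24.inv_mem hk) hg, ?_⟩, ?_⟩
      · show (k⁻¹ * g) • o = o
        rw [mul_smul, hgo', inv_smul_eq_iff, smul_eq_of_fix hk1]
      · show (k⁻¹ * g) • p = p
        rw [mul_smul, inv_smul_eq_iff]; exact hk2.symm
theorem aux3 (o : Finset Cfsg.GolayPt) (ho : o ∈ Cfsg.octads) (p : Cfsg.GolayPt) (hp : p ∉ o) : Nonempty (↥(Cfsg.M24 ⊓ MulAction.stabilizer (Equiv.Perm Cfsg.GolayPt) o ⊓ MulAction.stabilizer (Equiv.Perm Cfsg.GolayPt) p) ≃* alternatingGroup (Fin 8)) := by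
  set C : Subgroup (Equiv.Perm GolayPt) := Cfsg.M24 ⊓ MulAction.stabilizer (Equiv.Perm Cfsg.GolayPt) o ⊓ MulAction.stabilizer (Equiv.Perm Cfsg.GolayPt) p with hC
  have hCo : ∀ g ∈ C, g • o = o := fun g hg => hg.1.2
  have hcard : Nat.card C = 20160 := by
    have h1 := card_eq_of_orbit (PSd o []) C p ((oᶜ : Finset GolayPt) : Set GolayPt) (fun g => by
      rw [mem_PSd, hC]
      constructor
      · rintro ⟨⟨h1, h2⟩, h3⟩; exact ⟨⟨h1, h2, by simp⟩, h3⟩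
      · rintro ⟨⟨h1, h2, _⟩, h3⟩; exact ⟨⟨h1, h2⟩, h3⟩) (fun q => by
      rw [Finset.mem_coe, Finset.mem_compl]
      constructor
      · intro hq
        obtain ⟨g, hg, h1, h2⟩ := trans o ho p q hp hq
        exact ⟨g, ⟨hg, smul_eq_of_fix h1, by simp⟩, h2⟩
      · rintro ⟨g, ⟨hg, hgo, _⟩, rfl⟩ hc
        rw [← hgo] at hc; exact hp (mem_smul_iff.mp hc))
    rw [card_PSd_octad ho, Set.ncard_coe_finset, Finset.card_compl, ho.2] at h1
    have : Fintype.card GolayPt = 24 := by decide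
    rw [this] at h1; omega
  have hinj : Function.Injective (res o C hCo) := by
    rw [← MonoidHom.ker_eq_bot_iff, eq_bot_iff]
    rintro ⟨g, hg⟩ hk
    rw [Subgroup.mem_bot]
    apply Subtype.ext
    apply inf o ho p hp g hg.1.1 _ hg.2
    intro x hx
    exact congrArg (fun f : Equiv.Perm ↥o => ((f ⟨x, hx⟩ : ↥o) : GolayPt)) (MonoidHom.mem_ker.mp hk)
  have hrange : (res o C hCo).range = alternatingGroup ↥o := by
    apply range_eq_alternating ho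
    rw [← Nat.card_congr (MonoidHom.ofInjective hinj).toEquiv, hcard]
  have e1 : C ≃* (res o C hCo).range := MonoidHom.ofInjective hinj
  have e2 : (res o C hCo).range ≃* alternatingGroup ↥o := MulEquiv.subgroupCongr hrange
  have e3 : ↥o ≃ Fin 8 := Fintype.equivFinOfCardEq (by rw [Fintype.card_coe, ho.2])
  exact ⟨e1.trans (e2.trans (Equiv.altCongrHom e3))⟩
end


/-- An octad stabiliser is a split extension: the joint stabiliser of the octad and a point outside it is a complement to the pointwise stabiliser of the octad, and is isomorphic to the alternating group of degree 8. -/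
theorem result (o : Finset Cfsg.GolayPt) (ho : o ∈ Cfsg.octads) (p : Cfsg.GolayPt) (hp : p ∉ o) : (Cfsg.M24 ⊓ fixingSubgroup (Equiv.Perm Cfsg.GolayPt) (o : Set Cfsg.GolayPt)) ⊓ (Cfsg.M24 ⊓ MulAction.stabilizer (Equiv.Perm Cfsg.GolayPt) o ⊓ MulAction.stabilizer (Equiv.Perm Cfsg.GolayPt) p) = ⊥ ∧ (Cfsg.M24 ⊓ fixingSubgroup (Equiv.Perm Cfsg.GolayPt) (o : Set Cfsg.GolayPt)) ⊔ (Cfsg.M24 ⊓ MulAction.stabilizer (Equiv.Perm Cfsg.GolayPt) o ⊓ MulAction.stabilizer (Equiv.Perm Cfsg.GolayPt) p) = (Cfsg.M24 ⊓ MulAction.stabilizer (Equiv.Perm Cfsg.GolayPt) o) ∧ Nonempty (↥(Cfsg.M24 ⊓ MulAction.stabilizer (Equiv.Perm Cfsg.GolayPt) o ⊓ MulAction.stabilizer (Equiv.Perm Cfsg.GolayPt) p) ≃* alternatingGroup (Fin 8)) := by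
  exact ⟨aux1 o ho p hp, aux2 o ho p hp, aux3 o ho p hp⟩

end Cfsg.Agent.S1554
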