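import Cfsg.Statements.S1555
import Cfsg.Agent.Lib.GolayPairs

set_option autoImplicit false
open scoped Pointwise
open Cfsg

open scoped Pointwise
namespace Cfsg.Agent.S1555

section
open CfsgLib.Golay
theorem aux (o : Finset Cfsg.GolayPt) (ho : o ∈ Cfsg.octads) (s : Finset Cfsg.GolayPt) (hs : s ⊆ o) (k : ℕ) (hk : s.card = k) (hk6 : k ≤ 6)
    (a n : ℕ) (ha : a < 2 ^ 24) (ham : mask ([pt 0, pt 1, pt 2, pt 3, pt 4, pt 7].take k).toFinset = a)
    (h : cntC (fun m => and (Nat.beq (pop m) 8) (Nat.beq (Nat.land 5279 m) a)) rows 0 = n) :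
    {o' : Finset Cfsg.GolayPt | o' ∈ Cfsg.octads ∧ o ∩ o' = s}.ncard = n := by
  have h8 : o.card = 8 := ho.2
  obtain ⟨l, hl, hlk, hls⟩ := exists_list_of_le_card (s := s) (n := k) hk.ge
  obtain ⟨l', hl', h6, hlo⟩ := exists_extend_in o 6 (by omega) l hl (fun p hp => hs (hls p hp)) (by omega)
  obtain ⟨x, hx⟩ := exists_not_mem_octad ho
  obtain ⟨g, hg, hgo, hgl, _⟩ := frame_list ho hl' h6 hlo hx
  have hgs : mask (g • s) = a := by
    have h1 : l.map g = [pt 0, pt 1, pt 2, pt 3, pt 4, pt 7].take k := by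
      rw [← hgl, List.map_append, List.take_left' (by rw [List.length_map, hlk])]
    exact mask_of_list hl hls (by rw [hk, hlk]) h1 ham
  rw [ncard_transfer g _ (fun o' => o' ∈ Cfsg.octads ∧ O0 ∩ o' = g • s)]
  · apply count_code _ _ h
    intro o'
    rw [octads_iff', Bool.and_eq_true, and_assoc]
    apply and_congr_right
    intro _
    apply and_congr_right
    intro _
    have : Nat.land 5279 (mask o') = mask (O0 ∩ o') := by rw [mask_inter, mask_O0]; rfl
    rw [this, Nat.beq_eq, ← hgs]
    constructor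
    · intro h; rw [h]
    · intro h; rw [← toFS_mask (O0 ∩ o'), h, toFS_mask]
  · intro o'
    rw [smul_mem_octads hg, ← hgo, ← smul_inter']
    apply and_congr_right
    intro _
    exact (MulAction.injective g).eq_iff.symm
end


/-- Bottom row of the Leech triangle: an octad is met in a prescribed pair of its points by exactly 16 octads and in a prescribed 4-subset by exactly 4 octads. -/
theorem result (o : Finset Cfsg.GolayPt) (ho : o ∈ Cfsg.octads) (s : Finset Cfsg.GolayPt) (hs : s ⊆ o) : (s.card = 2 → {o' : Finset Cfsg.GolayPt | o' ∈ Cfsg.octads ∧ o ∩ o' = s}.ncard = 16) ∧ (s.card = 4 → {o' : Finset Cfsg.GolayPt | o' ∈ Cfsg.octads ∧ o ∩ o' = s}.ncard = 4) := by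
  refine ⟨fun h => aux o ho s hs 2 h (by norm_num) 3 16 (by norm_num) (by decide +kernel) (by decide +kernel),
    fun h => aux o ho s hs 4 h (by norm_num) 15 4 (by norm_num) (by decide +kernel) (by decide +kernel)⟩

end Cfsg.Agent.S1555
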