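import Cfsg.Statements.S1556
import Cfsg.Agent.Lib.GolayPairs

set_option autoImplicit false
open scoped Pointwise
open Cfsg

open scoped Pointwise
namespace Cfsg.Agent.S1556

section
open CfsgLib.Golay
theorem aux (o o' o'' : Finset Cfsg.GolayPt) (ho : o ∈ Cfsg.octads) (ho' : o' ∈ Cfsg.octads) (ho'' : o'' ∈ Cfsg.octads) (h : (o ∩ o').card = (o ∩ o'').card) : ∃ g : Equiv.Perm Cfsg.GolayPt, g ∈ Cfsg.M24 ∧ g • o = o ∧ g • o' = o'' := by
  have h8 : o.card = 8 := ho.2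
  by_cases h1 : o = o'
  · subst h1
    rw [Finset.inter_self, h8] at h
    have : o = o'' := eq_of_five ho ho'' (by omega)
    exact ⟨1, one_mem _, one_smul _ _, by rw [one_smul, this]⟩
  by_cases h2 : o = o''
  · subst h2
    rw [Finset.inter_self, h8] at h
    exact absurd (eq_of_five ho ho' (by omega)) h1
  rcases octad_inter_octad ho ho' h1 with h3 | h3 | h3
  · obtain ⟨g, hg, e1, e2⟩ := pair0 ho ho' h3
    obtain ⟨k, hk, f1, f2⟩ := pair0 ho ho'' (h ▸ h3)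
    exact ⟨_, combine hg hk e1 e2 f1 f2⟩
  · obtain ⟨x, y, hxy, he⟩ := Finset.card_eq_two.mp h3
    obtain ⟨x', y', hxy', he'⟩ := Finset.card_eq_two.mp (h ▸ h3)
    obtain ⟨g, hg, e1, e2, _⟩ := pair2 ho ho' h3 (x := x) (y := y) (by rw [he]; simp) (by rw [he]; simp) hxy
    obtain ⟨k, hk, f1, f2, _⟩ := pair2 ho ho'' (h ▸ h3) (x := x') (y := y') (by rw [he']; simp) (by rw [he']; simp) hxy'
    exact ⟨_, combine hg hk e1 e2 f1 f2⟩
  · obtain ⟨l, hl, hl4, hlo⟩ := exists_list_of_le_card (s := o ∩ o') (n := 4) h3.ge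
    obtain ⟨l', hl', hl4', hlo'⟩ := exists_list_of_le_card (s := o ∩ o'') (n := 4) (h ▸ h3).ge
    obtain ⟨g, hg, e1, e2, _⟩ := pair4 ho ho' h3 hl hl4 hlo
    obtain ⟨k, hk, f1, f2, _⟩ := pair4 ho ho'' (h ▸ h3) hl' hl4' hlo'
    exact ⟨_, combine hg hk e1 e2 f1 f2⟩
end


/-- Two octads meeting a fixed octad in equally many points are in the same orbit of its stabiliser. -/
theorem result (o o' o'' : Finset Cfsg.GolayPt) (ho : o ∈ Cfsg.octads) (ho' : o' ∈ Cfsg.octads) (ho'' : o'' ∈ Cfsg.octads) (h : (o ∩ o').card = (o ∩ o'').card) : ∃ g : Equiv.Perm Cfsg.GolayPt, g ∈ Cfsg.M24 ∧ g • o = o ∧ g • o' = o'' := by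
  exact aux o o' o'' ho ho' ho'' h

end Cfsg.Agent.S1556
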