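import Cfsg.Statements.S1559
import Cfsg.Agent.Lib.GolayTrio
import Cfsg.Agent.Lib.CoatomCrit

set_option autoImplicit false
open scoped Pointwise
open Cfsg

open scoped Pointwise
namespace Cfsg.Agent.S1559

section
open CfsgLib.Golay

def cl (T X : Finset (Finset Cfsg.GolayPt)) : ℕ :=
  if nInt 0 X T = 6 then 0 else if nInt 0 X T = 4 then 1 else if nInt 0 X T = 3 then 2 else if nInt 0 X T = 1 then 3 else 4

def zc : ℕ → ℕ
  | 0 => 6 | 1 => 4 | 2 => 3 | 3 => 1 | _ => 0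

theorem cl_iff {T X : Finset (Finset Cfsg.GolayPt)} (hT : T ∈ Cfsg.trios) (hX : X ∈ Cfsg.trios) {i : ℕ} (hi : i < 5) :
    cl T X = i ↔ nInt 0 X T = zc i := by
  unfold cl
  rcases nInt_trio_mem hT hX with h | h | h | h | h <;> rw [h] <;> interval_cases i <;> simp [zc]

theorem cl_lt (T X : Finset (Finset Cfsg.GolayPt)) : cl T X < 5 := by
  unfold cl
  split_ifs <;> norm_num

theorem tr' {T X Y : Finset (Finset Cfsg.GolayPt)} (hT : T ∈ Cfsg.trios) (hX : X ∈ Cfsg.trios) (hY : Y ∈ Cfsg.trios) (h : nInt 0 X T = nInt 0 Y T) :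
    ∃ g ∈ MulAction.stabilizer Cfsg.M24 T, g • X = Y := by
  obtain ⟨g, hg, h1, h2⟩ := trio_pair hT hX hY h
  exact ⟨⟨g, hg⟩, h1, h2⟩

theorem orb {T X : Finset (Finset Cfsg.GolayPt)} (hT : T ∈ Cfsg.trios) (hX : X ∈ Cfsg.trios) :
    MulAction.orbit ↥(MulAction.stabilizer Cfsg.M24 T) X = {Y | Y ∈ Cfsg.trios ∧ nInt 0 Y T = nInt 0 X T} := by
  ext Y
  rw [MulAction.mem_orbit_iff]
  constructor
  · rintro ⟨⟨⟨g, hg⟩, hgT⟩, rfl⟩
    refine ⟨smul_mem_trios hg hX, ?_⟩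
    have hgT' : g • T = T := hgT
    show nInt 0 (g • X) T = _
    conv_lhs => rw [← hgT']
    exact nInt_smul _ _ _ _
  · rintro ⟨hY, h⟩
    obtain ⟨g, hg, h1⟩ := tr' hT hX hY h.symm
    exact ⟨⟨g, hg⟩, h1⟩

theorem cnts {T : Finset (Finset Cfsg.GolayPt)} (hT : T ∈ Cfsg.trios) :
    {X | X ∈ Cfsg.trios ∧ nInt 0 X T = 6}.ncard = 1 ∧ {X | X ∈ Cfsg.trios ∧ nInt 0 X T = 4}.ncard = 42 ∧
    {X | X ∈ Cfsg.trios ∧ nInt 0 X T = 3}.ncard = 56 ∧ {X | X ∈ Cfsg.trios ∧ nInt 0 X T = 1}.ncard = 1008 ∧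
    {X | X ∈ Cfsg.trios ∧ nInt 0 X T = 0}.ncard = 2688 := by
  rw [trio_count hT, trio_count hT, trio_count hT, trio_count hT, trio_count hT]
  exact t_cnt

theorem coat {T : Finset (Finset Cfsg.GolayPt)} (hT : T ∈ Cfsg.trios) : IsCoatom (MulAction.stabilizer Cfsg.M24 T) := by
  obtain ⟨n0, n1, n2, n3, n4⟩ := cnts hT
  apply CfsgLib.CoatomCrit.isCoatom_of_classes T Cfsg.trios _ (cl T) 5 _ _ _ _
    (fun i => if i = 0 then 1 else if i = 1 then 42 else if i = 2 then 56 else if i = 3 then 1008 else 2688)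
  · intro i hi
    have e : {y | y ∈ Cfsg.trios ∧ cl T y = i} = {X | X ∈ Cfsg.trios ∧ nInt 0 X T = zc i} := by
      ext X
      exact and_congr_right fun hX => cl_iff hT hX hi
    rw [e]
    interval_cases i
    · exact n0
    · exact n1
    · exact n2
    · exact n3
    · exact n4
  · decide +kernel
  · obtain ⟨X, hX, h1⟩ := Set.nonempty_of_ncard_ne_zero (by rw [n1]; norm_num)
    refine ⟨X, hX, ?_⟩
    rintro rfl
    rw [nInt_self hX] at h1; omega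
  · intro Y
    constructor
    · intro hY
      obtain ⟨g, hg, h⟩ := trios_transitive hT hY
      exact ⟨⟨g, hg⟩, h⟩
    · rintro ⟨g, rfl⟩
      exact smul_mem_trios g.2 hT
  · intro Y _
    exact cl_lt T Y
  · intro Y hY h
    exact eq_of_nInt hT hY ((cl_iff hT hY (by norm_num)).mp h)
  · exact (cl_iff hT hT (by norm_num)).mpr (nInt_self hT)
  · intro Y hY Z hZ h
    apply tr' hT hY hZ
    have h1 := (cl_iff hT hY (cl_lt T Y)).mp rfl
    have h2 := (cl_iff hT hZ (cl_lt T Z)).mp rfl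
    rw [h1, h2, h]

theorem aux (T : Finset (Finset Cfsg.GolayPt)) (hT : T ∈ Cfsg.trios) : ∃ X₁ ∈ Cfsg.trios, ∃ X₂ ∈ Cfsg.trios, ∃ X₃ ∈ Cfsg.trios, ∃ X₄ ∈ Cfsg.trios, (MulAction.orbit ↥(MulAction.stabilizer Cfsg.M24 T) X₁).ncard = 42 ∧ (MulAction.orbit ↥(MulAction.stabilizer Cfsg.M24 T) X₂).ncard = 56 ∧ (MulAction.orbit ↥(MulAction.stabilizer Cfsg.M24 T) X₃).ncard = 1008 ∧ (MulAction.orbit ↥(MulAction.stabilizer Cfsg.M24 T) X₄).ncard = 2688 ∧ Cfsg.trios = {T} ∪ MulAction.orbit ↥(MulAction.stabilizer Cfsg.M24 T) X₁ ∪ MulAction.orbit ↥(MulAction.stabilizer Cfsg.M24 T) X₂ ∪ MulAction.orbit ↥(MulAction.stabilizer Cfsg.M24 T) X₃ ∪ MulAction.orbit ↥(MulAction.stabilizer Cfsg.M24 T) X₄ ∧ IsCoatom (MulAction.stabilizer Cfsg.M24 T) := by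
  obtain ⟨n0, n1, n2, n3, n4⟩ := cnts hT
  obtain ⟨X1, hX1, h1⟩ := Set.nonempty_of_ncard_ne_zero (by rw [n1]; norm_num)
  obtain ⟨X2, hX2, h2⟩ := Set.nonempty_of_ncard_ne_zero (by rw [n2]; norm_num)
  obtain ⟨X3, hX3, h3⟩ := Set.nonempty_of_ncard_ne_zero (by rw [n3]; norm_num)
  obtain ⟨X4, hX4, h4⟩ := Set.nonempty_of_ncard_ne_zero (by rw [n4]; norm_num)
  refine ⟨X1, hX1, X2, hX2, X3, hX3, X4, hX4, ?_, ?_, ?_, ?_, ?_, coat hT⟩
  · rw [orb hT hX1, h1]; exact n1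
  · rw [orb hT hX2, h2]; exact n2
  · rw [orb hT hX3, h3]; exact n3
  · rw [orb hT hX4, h4]; exact n4
  · rw [orb hT hX1, orb hT hX2, orb hT hX3, orb hT hX4, h1, h2, h3, h4]
    ext Y
    simp only [Set.mem_union, Set.mem_singleton_iff, Set.mem_setOf_eq]
    constructor
    · intro hY
      rcases nInt_trio_mem hT hY with a | a | a | a | a
      · exact Or.inl (Or.inl (Or.inl (Or.inl (eq_of_nInt hT hY a))))
      · exact Or.inl (Or.inl (Or.inl (Or.inr ⟨hY, a⟩)))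
      · exact Or.inl (Or.inl (Or.inr ⟨hY, a⟩))
      · exact Or.inl (Or.inr ⟨hY, a⟩)
      · exact Or.inr ⟨hY, a⟩
    · rintro ((((rfl | h) | h) | h) | h)
      · exact hT
      · exact h.1
      · exact h.1
      · exact h.1
      · exact h.1
end


/-- A trio stabiliser has five orbits on the 3795 trios, of sizes 1, 42, 56, 1008, 2688; and the stabiliser is a maximal proper subgroup. -/
theorem result (T : Finset (Finset Cfsg.GolayPt)) (hT : T ∈ Cfsg.trios) : ∃ X₁ ∈ Cfsg.trios, ∃ X₂ ∈ Cfsg.trios, ∃ X₃ ∈ Cfsg.trios, ∃ X₄ ∈ Cfsg.trios, (MulAction.orbit ↥(MulAction.stabilizer Cfsg.M24 T) X₁).ncard = 42 ∧ (MulAction.orbit ↥(MulAction.stabilizer Cfsg.M24 T) X₂).ncard = 56 ∧ (MulAction.orbit ↥(MulAction.stabilizer Cfsg.M24 T) X₃).ncard = 1008 ∧ (MulAction.orbit ↥(MulAction.stabilizer Cfsg.M24 T) X₄).ncard = 2688 ∧ Cfsg.trios = {T} ∪ MulAction.orbit ↥(MulAction.stabilizer Cfsg.M24 T)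 X₁ ∪ MulAction.orbit ↥(MulAction.stabilizer Cfsg.M24 T) X₂ ∪ MulAction.orbit ↥(MulAction.stabilizer Cfsg.M24 T) X₃ ∪ MulAction.orbit ↥(MulAction.stabilizer Cfsg.M24 T) X₄ ∧ IsCoatom (MulAction.stabilizer Cfsg.M24 T) := by
  exact aux T hT

end Cfsg.Agent.S1559
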