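import Cfsg.Statements.S1560
import Cfsg.Agent.Lib.GolayPairs

set_option autoImplicit false
open scoped Pointwise
open Cfsg

namespace Cfsg.Agent.S1560

section
open CfsgLib.Golay
theorem aux (d : Finset Cfsg.GolayPt) (hd : d ∈ Cfsg.dodecads) (k n : ℕ)
    (h : cntC (fun m => and (Nat.beq (pop m) 12) (Nat.beq (pop (Nat.land 0x7a0bf m)) k)) rows 0 = n) :
    {d' : Finset Cfsg.GolayPt | d' ∈ Cfsg.dodecads ∧ (d ∩ d').card = k}.ncard = n := by
  obtain ⟨g, hg, hgd, _⟩ := dod_trans hd D0_mem (l := []) (l' := []) (by simp) (by simp) (by simp) (by simp) rfl (by simp)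
  rw [ncard_transfer g _ (fun d' => d' ∈ Cfsg.dodecads ∧ (D0 ∩ d').card = k)]
  · apply count_code _ _ h
    intro d'
    rw [dodecads_iff', Bool.and_eq_true, and_assoc, D0, inter_card_eq (by norm_num), Nat.beq_eq, Nat.beq_eq]
  · intro d'
    rw [smul_mem_dodecads hg, ← hgd, ← smul_inter', card_smul']
end


/-- Intersection numbers of dodecads: a dodecad meets every other dodecad in 0, 4, 6 or 8 points, meeting 495 of them in 4 points, 1584 in 6 points and 495 in 8 points. -/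
theorem result (d : Finset Cfsg.GolayPt) (hd : d ∈ Cfsg.dodecads) : (∀ d' ∈ Cfsg.dodecads, d' ≠ d → (d ∩ d').card = 0 ∨ (d ∩ d').card = 4 ∨ (d ∩ d').card = 6 ∨ (d ∩ d').card = 8) ∧ {d' : Finset Cfsg.GolayPt | d' ∈ Cfsg.dodecads ∧ (d ∩ d').card = 4}.ncard = 495 ∧ {d' : Finset Cfsg.GolayPt | d' ∈ Cfsg.dodecads ∧ (d ∩ d').card = 6}.ncard = 1584 ∧ {d' : Finset Cfsg.GolayPt | d' ∈ Cfsg.dodecads ∧ (d ∩ d').card = 8}.ncard = 495 := by
  refine ⟨?_, aux d hd 4 495 (by decide +kernel), aux d hd 6 1584 (by decide +kernel), aux d hd 8 495 (by decide +kernel)⟩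
  intro d' hd' hne
  rcases CfsgLib.Golay.dodecad_inter_dodecad hd hd' with h | h | h | h | h
  · exact Or.inl h
  · exact Or.inr (Or.inl h)
  · exact Or.inr (Or.inr (Or.inl h))
  · exact Or.inr (Or.inr (Or.inr h))
  · exfalso
    apply hne
    have h1 : d ∩ d' = d := Finset.eq_of_subset_of_card_le Finset.inter_subset_left (by rw [h, hd.2])
    have h2 : d ∩ d' = d' := Finset.eq_of_subset_of_card_le Finset.inter_subset_right (by rw [h, hd'.2])
    rw [← h1, ← h2]; simp

end Cfsg.Agent.S1560
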