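import Cfsg.Statements.S1561
import Cfsg.Agent.Lib.GolayPairs

set_option autoImplicit false
open scoped Pointwise
open Cfsg

open scoped Pointwise
namespace Cfsg.Agent.S1561

section
open CfsgLib.Golay
theorem aux (d d' d'' : Finset Cfsg.GolayPt) (hd : d ∈ Cfsg.dodecads) (hd' : d' ∈ Cfsg.dodecads) (hd'' : d'' ∈ Cfsg.dodecads) (h : (d ∩ d').card = (d ∩ d'').card) : ∃ g : Equiv.Perm Cfsg.GolayPt, g ∈ Cfsg.M24 ∧ g • d = d ∧ g • d' = d'' := by
  have h12 : d.card = 12 := hd.2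
  have key : ∀ d' ∈ Cfsg.dodecads, 0 < (d ∩ d').card → ∃ x, x ∈ d ∧ x ∈ d' := by
    intro d' _ h
    obtain ⟨x, hx⟩ := Finset.card_pos.mp h
    exact ⟨x, Finset.mem_inter.mp hx⟩
  rcases dodecad_inter_dodecad hd hd' with h3 | h3 | h3 | h3 | h3
  · have e1 : d' = dᶜ := by
      apply Finset.eq_of_subset_of_card_le
      · intro p hp
        rw [Finset.mem_compl]
        intro hc
        have : p ∈ d ∩ d' := Finset.mem_inter.mpr ⟨hc, hp⟩
        rw [Finset.card_eq_zero.mp h3] at this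
        simp at this
      · rw [(compl_mem_dodecads hd).2, hd'.2]
    have e2 : d'' = dᶜ := by
      apply Finset.eq_of_subset_of_card_le
      · intro p hp
        rw [Finset.mem_compl]
        intro hc
        have : p ∈ d ∩ d'' := Finset.mem_inter.mpr ⟨hc, hp⟩
        have h3' : (d ∩ d'').card = 0 := by rw [← h]; exact h3
        rw [Finset.card_eq_zero.mp h3'] at this
        simp at this
      · rw [(compl_mem_dodecads hd).2, hd''.2]
    exact ⟨1, one_mem _, one_smul _ _, by rw [one_smul, e1, e2]⟩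
  · obtain ⟨x, hx, hx'⟩ := key d' hd' (by omega)
    obtain ⟨y, hy, hy'⟩ := key d'' hd'' (by omega)
    obtain ⟨g, hg, e1, e2, _⟩ := dpair4 hd hd' h3 hx hx'
    obtain ⟨k, hk, f1, f2, _⟩ := dpair4 hd hd'' (h ▸ h3) hy hy'
    exact ⟨_, combine hg hk e1 e2 f1 f2⟩
  · obtain ⟨x, hx, hx'⟩ := key d' hd' (by omega)
    obtain ⟨y, hy, hy'⟩ := key d'' hd'' (by omega)
    obtain ⟨g, hg, e1, e2, _⟩ := dpair6 hd hd' h3 hx hx'
    obtain ⟨k, hk, f1, f2, _⟩ := dpair6 hd hd'' (h ▸ h3) hy hy'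
    exact ⟨_, combine hg hk e1 e2 f1 f2⟩
  · obtain ⟨x, hx, hx'⟩ := key d' hd' (by omega)
    obtain ⟨y, hy, hy'⟩ := key d'' hd'' (by omega)
    obtain ⟨g, hg, e1, e2, _⟩ := dpair8 hd hd' h3 hx hx'
    obtain ⟨k, hk, f1, f2, _⟩ := dpair8 hd hd'' (h ▸ h3) hy hy'
    exact ⟨_, combine hg hk e1 e2 f1 f2⟩
  · have e1 : d ∩ d' = d := Finset.eq_of_subset_of_card_le Finset.inter_subset_left (by rw [h3, h12])
    have e2 : d ∩ d' = d' := Finset.eq_of_subset_of_card_le Finset.inter_subset_right (by rw [h3, hd'.2])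
    have e3 : d ∩ d'' = d := Finset.eq_of_subset_of_card_le Finset.inter_subset_left (by rw [← h, h3, h12])
    have e4 : d ∩ d'' = d'' := Finset.eq_of_subset_of_card_le Finset.inter_subset_right (by rw [← h, h3, hd''.2])
    exact ⟨1, one_mem _, one_smul _ _, by rw [one_smul, ← e2, e1, ← e4, e3]⟩
end


/-- Two dodecads meeting a fixed dodecad in equally many points lie in one orbit of its stabiliser. -/
theorem result (d d' d'' : Finset Cfsg.GolayPt) (hd : d ∈ Cfsg.dodecads) (hd' : d' ∈ Cfsg.dodecads) (hd'' : d'' ∈ Cfsg.dodecads) (h : (d ∩ d').card = (d ∩ d'').card) : ∃ g : Equiv.Perm Cfsg.GolayPt, g ∈ Cfsg.M24 ∧ g • d = d ∧ g • d' = d'' := by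
  exact aux d d' d'' hd hd' hd'' h

end Cfsg.Agent.S1561
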