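import Cfsg.Statements.S1563
import Cfsg.Agent.Lib.GolayTriads

set_option autoImplicit false
open scoped Pointwise
open Cfsg

open scoped Pointwise
namespace Cfsg.Agent.S1563

section
open CfsgLib.Golay
theorem aux (s : Finset Cfsg.GolayPt) (hs : s.card = 2) : IsCoatom (MulAction.stabilizer Cfsg.M24 s) := by
  have hle : ∀ y : Finset GolayPt, y.card = 2 → (s ∩ y).card ≤ 2 := fun y hy => by
    rw [← hs]; exact Finset.card_le_card Finset.inter_subset_left
  apply CfsgLib.CoatomCrit.isCoatom_of_classes s {y | y.card = 2} _ (fun y => 2 - (s ∩ y).card) 3 _ _ _ _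
    (fun i => if i = 0 then 1 else if i = 1 then 44 else 231)
  · intro i hi
    have e : {y : Finset GolayPt | y ∈ {y : Finset GolayPt | y.card = 2} ∧ 2 - (s ∩ y).card = i} = {y : Finset GolayPt | y.card = 2 ∧ (s ∩ y).card = 2 - i} := by
      ext y
      simp only [Set.mem_setOf_eq]
      apply and_congr_right
      intro hy
      have := hle y hy
      omega
    rw [e, ncard_inter s 2 (2 - i) (by omega), hs]
    interval_cases i <;> decide
  · decide +kernel
  · obtain ⟨l, hl, hl3⟩ := exists_extend 4 (by norm_num) [] (by simp) (by simp)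
    obtain ⟨a, b, hab, he⟩ := Finset.card_eq_two.mp hs
    obtain ⟨y, hy⟩ := exists_not_mem [a, b] (by simp)
    refine ⟨{a, y}, ?_, ?_⟩
    · simp at hy
      simp [Finset.card_pair (Ne.symm hy.1)]
    · intro hc
      have : y ∈ s := by rw [← hc]; simp
      rw [he] at this
      simp at hy this
      tauto
  · intro y
    constructor
    · intro hy
      obtain ⟨l, hl, hl2, hls⟩ := exists_list_eq s
      obtain ⟨m, hm, hm2, hms⟩ := exists_list_eq y
      obtain ⟨g, hg, hgl⟩ := trans_list hl hm (by rw [hl2, hm2, hs, hy]) (by omega)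
      exact ⟨⟨g, hg⟩, smul_of_list hl (fun p hp => (hls p).mp hp) hl2.symm hgl (fun p hp => (hms p).mp hp) (by rw [hl2, hs, hy])⟩
    · rintro ⟨g, rfl⟩
      show (g • s).card = 2
      rw [← hs]; exact card_smul' _ _
  · intro y hy; show 2 - (s ∩ y).card < 3; omega
  · intro y hy h0
    have h1 : (s ∩ y).card = 2 := by
      have := hle y hy
      have h0' : 2 - (s ∩ y).card = 0 := h0
      omega
    have e1 : s ∩ y = s := Finset.eq_of_subset_of_card_le Finset.inter_subset_left (by rw [h1, hs])
    have e2 : s ∩ y = y := Finset.eq_of_subset_of_card_le Finset.inter_subset_right (by rw [h1]; exact le_of_eq hy)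
    rw [← e2, e1]
  · show 2 - (s ∩ s).card = 0
    rw [Finset.inter_self, hs]
  · intro y hy z hz h
    have h' : 2 - (s ∩ y).card = 2 - (s ∩ z).card := h
    have hy' : y.card = 2 := hy
    have hz' : z.card = 2 := hz
    have h1 := hle y hy
    have h2 := hle z hz
    have h3 : (s ∩ y).card = (s ∩ z).card := by omega
    obtain ⟨g, hg, h4, h5⟩ := small_trans (by rw [hy', hs]) (by rw [hz', hs]) h3 (by omega)
    exact ⟨⟨g, hg⟩, h4, h5⟩
end


/-- The stabiliser of a pair of points (setwise) is a maximal proper subgroup of the group of the length-24 code. -/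
theorem result (s : Finset Cfsg.GolayPt) (hs : s.card = 2) : IsCoatom (MulAction.stabilizer Cfsg.M24 s) := by
  exact aux s hs

end Cfsg.Agent.S1563
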