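import Cfsg.Statements.S1564
import Cfsg.Agent.Lib.GolayTriads

set_option autoImplicit false
open scoped Pointwise
open Cfsg

open scoped Pointwise
namespace Cfsg.Agent.S1564

section
open CfsgLib.Golay
open Classical in
noncomputable def cls (s y : Finset GolayPt) : ℕ := if (∃ o ∈ octads, s ∪ y ⊆ o) then 3 - (s ∩ y).card else 4 - (s ∩ y).card
theorem in_oct {s y : Finset GolayPt} (hs : s.card = 3) (hy : y.card = 3) (h : 0 < (s ∩ y).card) : ∃ o ∈ octads, s ∪ y ⊆ o := by
  have h1 : (s ∪ y).card ≤ 5 := by
    have := Finset.card_union_add_card_inter s y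
    omega
  obtain ⟨l, hl, hl2, hls⟩ := exists_list_eq (s ∪ y)
  obtain ⟨l', h2, h3⟩ := exists_extend 5 (by norm_num) l hl (by omega)
  obtain ⟨o, ho, h4⟩ := octad_through_list h2 h3
  exact ⟨o, ho, fun p hp => h4 p (List.mem_append_left _ ((hls p).mpr hp))⟩
theorem aux (s : Finset Cfsg.GolayPt) (hs : s.card = 3) : IsCoatom (MulAction.stabilizer Cfsg.M24 s) := by
  classical
  have hle : ∀ y : Finset GolayPt, y.card = 3 → (s ∩ y).card ≤ 3 := fun y hy => by
    rw [← hs]; exact Finset.card_le_card Finset.inter_subset_left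
  have hcl : ∀ y : Finset GolayPt, y.card = 3 → ∀ i < 3, cls s y = i ↔ (s ∩ y).card = 3 - i := by
    intro y hy i hi
    have := hle y hy
    rw [cls]
    split_ifs with h
    · omega
    · have h0 : (s ∩ y).card = 0 := by
        by_contra hc; exact h (in_oct hs hy (Nat.pos_of_ne_zero hc))
      omega
  have hcl3 : ∀ y : Finset GolayPt, y.card = 3 → (cls s y = 3 ↔ (Disjoint s y ∧ ∃ o ∈ octads, s ∪ y ⊆ o)) := by
    intro y hy
    have := hle y hy
    rw [cls, Finset.disjoint_iff_inter_eq_empty, ← Finset.card_eq_zero]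
    split_ifs with h
    · constructor
      · intro h1; exact ⟨by omega, h⟩
      · intro h1; omega
    · constructor
      · intro h1
        exact absurd (in_oct hs hy (by omega)) h
      · intro h1; exact absurd h1.2 h
  have hcl4 : ∀ y : Finset GolayPt, y.card = 3 → (cls s y = 4 ↔ (Disjoint s y ∧ ¬ ∃ o ∈ octads, s ∪ y ⊆ o)) := by
    intro y hy
    have := hle y hy
    rw [cls, Finset.disjoint_iff_inter_eq_empty, ← Finset.card_eq_zero]
    split_ifs with h
    · constructor
      · intro h1; omega
      · intro h1; exact absurd h h1.2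
    · constructor
      · intro h1
        exact ⟨by omega, h⟩
      · intro h1; omega
  apply CfsgLib.CoatomCrit.isCoatom_of_classes s {y | y.card = 3} _ (cls s) 5 _ _ _ _
    (fun i => if i = 0 then 1 else if i = 1 then 63 else if i = 2 then 630 else if i = 3 then 210 else 1120)
  · intro i hi
    by_cases hi3 : i < 3
    · have e : {y : Finset GolayPt | y ∈ {y : Finset GolayPt | y.card = 3} ∧ cls s y = i} = {y : Finset GolayPt | y.card = 3 ∧ (s ∩ y).card = 3 - i} := by
        ext y
        simp only [Set.mem_setOf_eq]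
        apply and_congr_right
        intro hy
        exact hcl y hy i hi3
      rw [e, ncard_inter s 3 (3 - i) (by omega), hs]
      interval_cases i <;> decide
    · have : i = 3 ∨ i = 4 := by omega
      rcases this with rfl | rfl
      · rw [← ncard_disjoint_triads hs]
        congr 1
        ext y
        simp only [Set.mem_setOf_eq]
        apply and_congr_right
        intro hy
        exact hcl3 y hy
      · rw [← ncard_disjoint_triads' hs]
        congr 1
        ext y
        simp only [Set.mem_setOf_eq]
        apply and_congr_right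
        intro hy
        exact hcl4 y hy
  · decide +kernel
  · obtain ⟨a, b, c, hab, hac, hbc, he⟩ := Finset.card_eq_three.mp hs
    obtain ⟨y, hy⟩ := exists_not_mem [a, b, c] (by simp)
    simp only [List.mem_cons, List.not_mem_nil, or_false, not_or] at hy
    refine ⟨{a, b, y}, ?_, ?_⟩
    · exact Finset.card_eq_three.mpr ⟨a, b, y, hab, (Ne.symm hy.1), (Ne.symm hy.2.1), rfl⟩
    · intro hc
      have : y ∈ s := by rw [← hc]; simp
      rw [he] at this
      simp at this
      tauto
  · intro y
    constructor
    · intro hy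
      obtain ⟨l, hl, hl2, hls⟩ := exists_list_eq s
      obtain ⟨m, hm, hm2, hms⟩ := exists_list_eq y
      have hy' : y.card = 3 := hy
      obtain ⟨g, hg, hgl⟩ := trans_list hl hm (by rw [hl2, hm2, hs, hy']) (by omega)
      exact ⟨⟨g, hg⟩, smul_of_list hl (fun p hp => (hls p).mp hp) hl2.symm hgl (fun p hp => (hms p).mp hp) (by rw [hl2, hs, hy'])⟩
    · rintro ⟨g, rfl⟩
      show (g • s).card = 3
      rw [← hs]; exact card_smul' _ _
  · intro y hy
    rw [cls]; split_ifs <;> omega
  · intro y hy h0
    have hy' : y.card = 3 := hy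
    have h1 : (s ∩ y).card = 3 := (hcl y hy 0 (by norm_num)).mp h0
    have e1 : s ∩ y = s := Finset.eq_of_subset_of_card_le Finset.inter_subset_left (by rw [h1, hs])
    have e2 : s ∩ y = y := Finset.eq_of_subset_of_card_le Finset.inter_subset_right (by rw [h1, hy'])
    rw [← e2, e1]
  · exact (hcl s hs 0 (by norm_num)).mpr (by rw [Finset.inter_self, hs])
  · intro y hy z hz h
    have hy' : y.card = 3 := hy
    have hz' : z.card = 3 := hz
    by_cases h3 : cls s y < 3
    · have h4 := (hcl y hy' _ h3).mp rfl
      have h5 := (hcl z hz' _ h3).mp h.symm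
      obtain ⟨g, hg, h6, h7⟩ := small_trans (T := s) (by rw [hy', hs]) (by rw [hz', hs]) (h4.trans h5.symm) (by omega)
      exact ⟨⟨g, hg⟩, h6, h7⟩
    · have hlt : cls s y < 5 := by rw [cls]; split_ifs <;> omega
      have h34 : cls s y = 3 ∨ cls s y = 4 := by omega
      rcases h34 with h8 | h8
      · have h9 := (hcl3 y hy').mp h8
        have h10 := (hcl3 z hz').mp (by rw [← h, h8])
        obtain ⟨g, hg, h6, h7⟩ := triad_disj hs hy' hz' h9.1 h10.1 ⟨fun _ => h10.2, fun _ => h9.2⟩
        exact ⟨⟨g, hg⟩, h6, h7⟩
      · have h9 := (hcl4 y hy').mp h8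
        have h10 := (hcl4 z hz').mp (by rw [← h, h8])
        obtain ⟨g, hg, h6, h7⟩ := triad_disj hs hy' hz' h9.1 h10.1 ⟨fun h => absurd h h9.2, fun h => absurd h h10.2⟩
        exact ⟨⟨g, hg⟩, h6, h7⟩
end


/-- The stabiliser of a set of three points (setwise) is a maximal proper subgroup of the group of the length-24 code. -/
theorem result (s : Finset Cfsg.GolayPt) (hs : s.card = 3) : IsCoatom (MulAction.stabilizer Cfsg.M24 s) := by
  exact aux s hs

end Cfsg.Agent.S1564
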