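import Cfsg.Statements.S1565
import Cfsg.Agent.Lib.GolayTriads
import Cfsg.Agent.Lib.CoatomCrit
import Cfsg.Agent.S1556

set_option autoImplicit false
open scoped Pointwise
open Cfsg

namespace Cfsg.Agent.S1565

section
open CfsgLib.Golay
def cf (k : ℕ) : ℕ := if 8 ≤ k then 0 else if 4 ≤ k then 1 else if 2 ≤ k then 2 else 3
def fc (i : ℕ) : ℕ := if i = 0 then 8 else if i = 1 then 4 else if i = 2 then 2 else 0
theorem cnt (o : Finset Cfsg.GolayPt) (ho : o ∈ Cfsg.octads) (k n : ℕ)
    (h : cntC (fun m => and (Nat.beq (pop m) 8) (Nat.beq (pop (Nat.land 5279 m)) k)) rows 0 = n) :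
    {x : Finset Cfsg.GolayPt | x ∈ Cfsg.octads ∧ (o ∩ x).card = k}.ncard = n := by
  obtain ⟨g, hg, hgo⟩ := octads_transitive ho O0_mem
  rw [ncard_transfer g _ (fun x => x ∈ Cfsg.octads ∧ (O0 ∩ x).card = k)]
  · apply count_code _ _ h
    intro s
    rw [octads_iff', Bool.and_eq_true, and_assoc, O0, inter_card_eq (by norm_num), Nat.beq_eq, Nat.beq_eq]
  · intro s
    rw [smul_mem_octads hg, ← hgo, ← smul_inter', card_smul']
theorem aux (s : Finset Cfsg.GolayPt) (hs : s ∈ octads) : IsCoatom (MulAction.stabilizer Cfsg.M24 s) := by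
  have h8 : s.card = 8 := hs.2
  have hle : ∀ y : Finset GolayPt, y ∈ octads → (s ∩ y).card = 0 ∨ (s ∩ y).card = 2 ∨ (s ∩ y).card = 4 ∨ (s ∩ y).card = 8 := fun y hy => by
    by_cases h : s = y
    · subst h; rw [Finset.inter_self, h8]; tauto
    · rcases octad_inter_octad hs hy h with h | h | h <;> tauto
  apply CfsgLib.CoatomCrit.isCoatom_of_classes s octads _ (fun y => cf (s ∩ y).card) 4 _ _ _ _
    (fun i => if i = 0 then 1 else if i = 1 then 280 else if i = 2 then 448 else 30)
  · intro i hi
    have e : {y : Finset GolayPt | y ∈ octads ∧ cf (s ∩ y).card = i} = {y : Finset GolayPt | y ∈ octads ∧ (s ∩ y).card = fc i} := by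
      ext y
      simp only [Set.mem_setOf_eq]
      apply and_congr_right
      intro hy
      interval_cases i <;> rcases hle y hy with h | h | h | h <;> rw [h] <;> decide
    rw [e]
    interval_cases i
    · exact cnt s hs 8 1 (by decide +kernel)
    · exact cnt s hs 4 280 (by decide +kernel)
    · exact cnt s hs 2 448 (by decide +kernel)
    · exact cnt s hs 0 30 (by decide +kernel)
  · decide +kernel
  · have h1 := cnt s hs 0 30 (by decide +kernel)
    obtain ⟨y, hy⟩ := Set.nonempty_of_ncard_ne_zero (by rw [h1]; norm_num)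
    refine ⟨y, hy.1, ?_⟩
    rintro rfl
    have := hy.2
    rw [Finset.inter_self] at this
    omega
  · intro y
    constructor
    · intro hy
      obtain ⟨g, hg, h⟩ := octads_transitive hs hy
      exact ⟨⟨g, hg⟩, h⟩
    · rintro ⟨g, rfl⟩
      exact (smul_mem_octads g.2).mpr hs
  · intro y hy; show cf (s ∩ y).card < 4
    rcases hle y hy with h | h | h | h <;> rw [h] <;> decide
  · intro y hy h0
    have h0' : cf (s ∩ y).card = 0 := h0
    have h1 : (s ∩ y).card = 8 := by
      rcases hle y hy with h | h | h | h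
      · rw [h] at h0' ⊢; revert h0'; decide
      · rw [h] at h0' ⊢; revert h0'; decide
      · rw [h] at h0' ⊢; revert h0'; decide
      · exact h
    exact (eq_of_five hs hy (by omega)).symm
  · show cf (s ∩ s).card = 0
    rw [Finset.inter_self, h8]; rfl
  · intro y hy z hz h
    have h' : cf (s ∩ y).card = cf (s ∩ z).card := h
    have h3 : (s ∩ y).card = (s ∩ z).card := by
      rcases hle y hy with h | h | h | h <;> rcases hle z hz with h'' | h'' | h'' | h'' <;> rw [h, h''] at h' ⊢ <;> revert h' <;> decide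
    obtain ⟨g, hg, h4, h5⟩ := Cfsg.Agent.S1556.result s y z hs hy hz h3
    exact ⟨⟨g, hg⟩, h4, h5⟩
end


/-- The stabiliser of an octad is a maximal proper subgroup of the group of the length-24 code. -/
theorem result (o : Finset Cfsg.GolayPt) (ho : o ∈ Cfsg.octads) : IsCoatom (MulAction.stabilizer Cfsg.M24 o) := by
  exact aux o ho

end Cfsg.Agent.S1565
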