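import Cfsg.Statements.S1566
import Cfsg.Agent.Lib.GolaySext
import Cfsg.Agent.Lib.CoatomCrit
import Cfsg.Agent.S1561

set_option autoImplicit false
open scoped Pointwise
open Cfsg

open scoped Pointwise
namespace Cfsg.Agent.S1566

section
open CfsgLib.Golay
theorem compl_card {d a : Finset GolayPt} (hd : d ∈ dodecads) : (d ∩ aᶜ).card + (d ∩ a).card = 12 := by
  rw [← Finset.sdiff_eq_inter_compl, Finset.card_sdiff_add_card_inter, hd.2]
open Classical in
noncomputable def cls (d : Finset GolayPt) (y : Finset (Finset GolayPt)) : ℕ :=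
  if y = {d, dᶜ} then 0 else if ∃ a ∈ y, (d ∩ a).card = 6 then 2 else 1
theorem cnt (d : Finset Cfsg.GolayPt) (hd : d ∈ Cfsg.dodecads) (p : GolayPt) (hp : p ∈ d) (f : ℕ → Bool) (n : ℕ)
    (h : cntC (fun m => and (Nat.beq (pop m) 12) (and (Nat.testBit m 0) (f (pop (Nat.land 0x7a0bf m))))) rows 0 = n) :
    {x : Finset Cfsg.GolayPt | x ∈ Cfsg.dodecads ∧ p ∈ x ∧ f (d ∩ x).card = true}.ncard = n := by
  obtain ⟨g, hg, hgd, hgl⟩ := dod_trans hd D0_mem (l := [p]) (l' := [pt 0]) (by simp) (by simp) (by simp [hp]) (by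
    intro q hq; exact mem_D0_base q (by simp at hq ⊢; tauto)) rfl (by simp)
  simp only [List.map_cons, List.map_nil, List.cons.injEq, and_true] at hgl
  rw [ncard_transfer g _ (fun x => x ∈ Cfsg.dodecads ∧ pt 0 ∈ x ∧ f (D0 ∩ x).card = true)]
  · apply count_code _ _ h
    intro s
    rw [dodecads_iff', Bool.and_eq_true, Bool.and_eq_true, and_assoc, D0, inter_card_eq (by norm_num), mem_pt_iff (by norm_num)]
  · intro s
    rw [smul_mem_dodecads hg, ← hgd, ← smul_inter', card_smul', ← hgl, mem_smul_iff]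
theorem pair_inj {p : GolayPt} {a b : Finset GolayPt} (ha : p ∈ a) (hb : p ∈ b) (h : ({a, aᶜ} : Finset (Finset GolayPt)) = {b, bᶜ}) : a = b := by
  have : a ∈ ({b, bᶜ} : Finset (Finset GolayPt)) := by rw [← h]; simp
  simp only [Finset.mem_insert, Finset.mem_singleton] at this
  rcases this with h | h
  · exact h
  · rw [h, Finset.mem_compl] at ha; exact absurd hb ha
theorem aux (d : Finset Cfsg.GolayPt) (hd : d ∈ Cfsg.dodecads) : IsCoatom (MulAction.stabilizer Cfsg.M24 ({d, dᶜ} : Finset (Finset Cfsg.GolayPt))) := by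
  classical
  have h12 : d.card = 12 := hd.2
  obtain ⟨p, hp⟩ : d.Nonempty := by rw [← Finset.card_pos, h12]; norm_num
  set O : Set (Finset (Finset GolayPt)) := {y | ∃ a ∈ dodecads, y = {a, aᶜ}} with hOdef
  have hrep : ∀ y ∈ O, ∃ a ∈ dodecads, p ∈ a ∧ y = {a, aᶜ} := by
    rintro y ⟨a, ha, rfl⟩
    by_cases hpa : p ∈ a
    · exact ⟨a, ha, hpa, rfl⟩
    · exact ⟨aᶜ, compl_mem_dodecads ha, Finset.mem_compl.mpr hpa, by rw [compl_compl, Finset.pair_comm]⟩
  have hc0 : ∀ a ∈ dodecads, p ∈ a → (cls d {a, aᶜ} = 0 ↔ (d ∩ a).card = 12) := by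
    intro a ha hpa
    rw [cls]
    constructor
    · intro h
      by_cases h1 : ({a, aᶜ} : Finset (Finset GolayPt)) = {d, dᶜ}
      · rw [pair_inj hpa hp h1, Finset.inter_self, h12]
      · rw [if_neg h1] at h; split_ifs at h
    · intro h
      have e1 : d ∩ a = d := Finset.eq_of_subset_of_card_le Finset.inter_subset_left (by rw [h, h12])
      have e2 : d ∩ a = a := Finset.eq_of_subset_of_card_le Finset.inter_subset_right (by rw [h, ha.2])
      rw [if_pos (by rw [← e2, e1])]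
  have hc2 : ∀ a ∈ dodecads, p ∈ a → (cls d {a, aᶜ} = 2 ↔ (d ∩ a).card = 6) := by
    intro a ha hpa
    have hcc := compl_card (a := a) hd
    rw [cls]
    constructor
    · intro h
      by_cases h1 : ({a, aᶜ} : Finset (Finset GolayPt)) = {d, dᶜ}
      · rw [if_pos h1] at h; omega
      · rw [if_neg h1] at h
        split_ifs at h with h2
        · obtain ⟨b, hb, h3⟩ := h2
          simp only [Finset.mem_insert, Finset.mem_singleton] at hb
          rcases hb with rfl | rfl
          · exact h3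
          · omega
        · omega
    · intro h
      have h1 : ¬ ({a, aᶜ} : Finset (Finset GolayPt)) = {d, dᶜ} := by
        intro h1
        rw [pair_inj hpa hp h1, Finset.inter_self, h12] at h; omega
      rw [if_neg h1, if_pos ⟨a, by simp, h⟩]
  have hc1 : ∀ a ∈ dodecads, p ∈ a → (cls d {a, aᶜ} = 1 ↔ (d ∩ a).card = 4 ∨ (d ∩ a).card = 8) := by
    intro a ha hpa
    have h1 := hc0 a ha hpa
    have h2 := hc2 a ha hpa
    have h3 := dodecad_inter_dodecad hd ha
    have h4 : 0 < (d ∩ a).card := Finset.card_pos.mpr ⟨p, Finset.mem_inter.mpr ⟨hp, hpa⟩⟩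
    have h5 : cls d {a, aᶜ} = 0 ∨ cls d {a, aᶜ} = 1 ∨ cls d {a, aᶜ} = 2 := by
      rw [cls]; split_ifs <;> simp
    omega
  have hcount : ∀ (i : ℕ) (f : ℕ → Bool) (n : ℕ), (∀ a ∈ dodecads, p ∈ a → (cls d {a, aᶜ} = i ↔ f (d ∩ a).card = true)) →
      cntC (fun m => and (Nat.beq (pop m) 12) (and (Nat.testBit m 0) (f (pop (Nat.land 0x7a0bf m))))) rows 0 = n →
      {y | y ∈ O ∧ cls d y = i}.ncard = n := by
    intro i f n hf h
    rw [← cnt d hd p hp f n h]
    have e : {y | y ∈ O ∧ cls d y = i} = (fun a => ({a, aᶜ} : Finset (Finset GolayPt))) '' {x : Finset Cfsg.GolayPt | x ∈ Cfsg.dodecads ∧ p ∈ x ∧ f (d ∩ x).card = true} := by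
      ext y
      constructor
      · rintro ⟨hy, hyi⟩
        obtain ⟨a, ha, hpa, rfl⟩ := hrep y hy
        exact ⟨a, ⟨ha, hpa, (hf a ha hpa).mp hyi⟩, rfl⟩
      · rintro ⟨a, ⟨ha, hpa, h1⟩, rfl⟩
        exact ⟨⟨a, ha, rfl⟩, (hf a ha hpa).mpr h1⟩
    rw [e, Set.ncard_image_of_injOn]
    rintro a ⟨_, ha, _⟩ b ⟨_, hb, _⟩ hab
    exact pair_inj ha hb hab
  apply CfsgLib.CoatomCrit.isCoatom_of_classes ({d, dᶜ} : Finset (Finset GolayPt)) O _ (cls d) 3 _ _ _ _
    (fun i => if i = 0 then 1 else if i = 1 then 495 else 792)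
  · intro i hi
    interval_cases i
    · exact hcount 0 (fun k => Nat.beq k 12) 1 (fun a ha hpa => by rw [hc0 a ha hpa, Nat.beq_eq]) (by decide +kernel)
    · exact hcount 1 (fun k => or (Nat.beq k 4) (Nat.beq k 8)) 495 (fun a ha hpa => by rw [hc1 a ha hpa, Bool.or_eq_true, Nat.beq_eq, Nat.beq_eq]) (by decide +kernel)
    · exact hcount 2 (fun k => Nat.beq k 6) 792 (fun a ha hpa => by rw [hc2 a ha hpa, Nat.beq_eq]) (by decide +kernel)
  · decide +kernel
  · have h1 := cnt d hd p hp (fun k => Nat.beq k 6) 792 (by decide +kernel)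
    obtain ⟨a, ha, hpa, h6⟩ := Set.nonempty_of_ncard_ne_zero (by rw [h1]; norm_num)
    refine ⟨{a, aᶜ}, ⟨a, ha, rfl⟩, ?_⟩
    intro hc
    rw [pair_inj hpa hp hc, Finset.inter_self, h12] at h6
    revert h6; decide
  · intro y
    constructor
    · rintro ⟨a, ha, rfl⟩
      obtain ⟨g, hg, h, _⟩ := dod_trans hd ha (l := []) (l' := []) (by simp) (by simp) (by simp) (by simp) rfl (by simp)
      refine ⟨⟨g, hg⟩, ?_⟩
      show g • ({d, dᶜ} : Finset (Finset GolayPt)) = {a, aᶜ}
      rw [Finset.smul_finset_insert, Finset.smul_finset_singleton, smul_compl, h]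
    · rintro ⟨⟨g, hg⟩, rfl⟩
      refine ⟨g • d, (smul_mem_dodecads hg).mpr hd, ?_⟩
      show g • ({d, dᶜ} : Finset (Finset GolayPt)) = {g • d, (g • d)ᶜ}
      rw [Finset.smul_finset_insert, Finset.smul_finset_singleton, smul_compl]
  · intro y hy; rw [cls]; split_ifs <;> norm_num
  · intro y hy h0
    by_contra hc
    rw [cls, if_neg hc] at h0
    split_ifs at h0
  · rw [cls, if_pos rfl]
  · intro y hy z hz h
    obtain ⟨a, ha, hpa, rfl⟩ := hrep y hy
    obtain ⟨b, hb, hpb, rfl⟩ := hrep z hz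
    have key : ∀ a b : Finset GolayPt, a ∈ dodecads → b ∈ dodecads → (d ∩ a).card = (d ∩ b).card →
        ∃ g ∈ MulAction.stabilizer Cfsg.M24 ({d, dᶜ} : Finset (Finset Cfsg.GolayPt)), g • ({a, aᶜ} : Finset (Finset GolayPt)) = {b, bᶜ} := by
      intro a b ha hb hab
      obtain ⟨g, hg, h1, h2⟩ := Cfsg.Agent.S1561.result d a b hd ha hb hab
      refine ⟨⟨g, hg⟩, ?_, ?_⟩
      · show g • ({d, dᶜ} : Finset (Finset GolayPt)) = {d, dᶜ}
        rw [Finset.smul_finset_insert, Finset.smul_finset_singleton, smul_compl, h1]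
      · show g • ({a, aᶜ} : Finset (Finset GolayPt)) = {b, bᶜ}
        rw [Finset.smul_finset_insert, Finset.smul_finset_singleton, smul_compl, h2]
    have h5 : cls d {a, aᶜ} = 0 ∨ cls d {a, aᶜ} = 1 ∨ cls d {a, aᶜ} = 2 := by
      rw [cls]; split_ifs <;> simp
    rcases h5 with h5 | h5 | h5
    · have h6 := (hc0 a ha hpa).mp h5
      have h7 := (hc0 b hb hpb).mp (by rw [← h, h5])
      exact key a b ha hb (by rw [h6, h7])
    · have h6 := (hc1 a ha hpa).mp h5
      have h7 := (hc1 b hb hpb).mp (by rw [← h, h5])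
      have hcc := compl_card (a := b) hd
      by_cases h8 : (d ∩ a).card = (d ∩ b).card
      · exact key a b ha hb h8
      · obtain ⟨g, h9, h10⟩ := key a bᶜ ha (compl_mem_dodecads hb) (by omega)
        refine ⟨g, h9, ?_⟩
        rw [h10, compl_compl, Finset.pair_comm]
    · have h6 := (hc2 a ha hpa).mp h5
      have h7 := (hc2 b hb hpb).mp (by rw [← h, h5])
      exact key a b ha hb (by rw [h6, h7])
end


/-- The setwise stabiliser of a dodecad together with its complement is a maximal proper subgroup of the group of the length-24 code. -/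
theorem result (d : Finset Cfsg.GolayPt) (hd : d ∈ Cfsg.dodecads) : IsCoatom (MulAction.stabilizer Cfsg.M24 ({d, dᶜ} : Finset (Finset Cfsg.GolayPt))) := by
  exact aux d hd

end Cfsg.Agent.S1566
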