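import Cfsg.Statements.S1579
import Cfsg.Agent.Lib.Leech17

set_option autoImplicit false
open Cfsg

open scoped Pointwise
namespace Cfsg.Agent.S1579

section
end


/-- The stabiliser of a vector of customary norm 6 is transitive on the 552 minimal vectors that complete it to a sum of two minimal vectors. -/
theorem result (u v v' : ↥Cfsg.leechLattice) (hu : Cfsg.sqNorm (u : Cfsg.GolayPt → ℤ) = 48) (hv : Cfsg.sqNorm (v : Cfsg.GolayPt → ℤ) = 32 ∧ Cfsg.sqNorm ((u - v) : Cfsg.GolayPt → ℤ) = 32) (hv' : Cfsg.sqNorm (v' : Cfsg.GolayPt → ℤ) = 32 ∧ Cfsg.sqNorm ((u - v') : Cfsg.GolayPt → ℤ) = 32) : ∃ g : ↥Cfsg.Co0, g • u = u ∧ g • v = v' := by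
  have key : ∀ v : Cfsg.leechLattice, (Cfsg.sqNorm (v : Cfsg.GolayPt → ℤ) = 32 ∧ Cfsg.sqNorm ((u - v) : Cfsg.GolayPt → ℤ) = 32) →
      ∃ g : Cfsg.Co0, g • v = CfsgLib.Leech.uA ∧ g • (u - v) = CfsgLib.Leech.u3 := by
    intro v hv
    apply CfsgLib.Leech.trans_T2 v (u - v) hv.1 hv.2
    have h1 := CfsgLib.Leech.norm_sub (u : Cfsg.GolayPt → ℤ) (v : Cfsg.GolayPt → ℤ)
    have h2 : Cfsg.dotInt (v : Cfsg.GolayPt → ℤ) ((u - v : Cfsg.leechLattice) : Cfsg.GolayPt → ℤ) = Cfsg.dotInt (v : Cfsg.GolayPt → ℤ) u - Cfsg.dotInt (v : Cfsg.GolayPt → ℤ) v :=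
      CfsgLib.Leech.dot_sub_right _ _ _
    rw [← CfsgLib.Leech.sqNorm_eq_dot, hv.1, CfsgLib.Leech.dot_symm (v : Cfsg.GolayPt → ℤ) (u : Cfsg.GolayPt → ℤ)] at h2
    rw [hv.1, hv.2, hu] at h1
    omega
  obtain ⟨g, hg, hg'⟩ := key v hv
  obtain ⟨k, hk, hk'⟩ := key v' hv'
  have e : ∀ v : Cfsg.leechLattice, u = v + (u - v) := fun v => by abel
  refine ⟨k⁻¹ * g, ?_, ?_⟩
  · have h1 : g • u = k • u := by
      conv_lhs => rw [e v, CfsgLib.Leech.co_add, hg, hg']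
      conv_rhs => rw [e v', CfsgLib.Leech.co_add, hk, hk']
    rw [mul_smul, h1, inv_smul_smul]
  · rw [mul_smul, hg, ← hk, inv_smul_smul]

end Cfsg.Agent.S1579
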