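import Cfsg.Statements.S1585
import Cfsg.Agent.Lib.Leech17

set_option autoImplicit false
open Cfsg

open scoped Pointwise
namespace Cfsg.Agent.S1585

section
end


/-- Two vectors of customary norm 6 with inner product −4 are exchanged by some automorphism of the lattice. -/
theorem result (v w : ↥Cfsg.leechLattice) (hv : Cfsg.sqNorm (v : Cfsg.GolayPt → ℤ) = 48) (hw : Cfsg.sqNorm (w : Cfsg.GolayPt → ℤ) = 48) (hvw : Cfsg.dotInt (v : Cfsg.GolayPt → ℤ) (w : Cfsg.GolayPt → ℤ) = -32) : ∃ g : ↥Cfsg.Co0, g • v = w ∧ g • w = v := by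
  have key : ∀ v w : Cfsg.leechLattice, Cfsg.sqNorm (v : Cfsg.GolayPt → ℤ) = 48 → Cfsg.sqNorm (w : Cfsg.GolayPt → ℤ) = 48 → Cfsg.dotInt (v : Cfsg.GolayPt → ℤ) (w : Cfsg.GolayPt → ℤ) = -32 →
      ∃ g : Cfsg.Co0, g • (-(v + w)) = CfsgLib.Leech.uD ∧ g • v = CfsgLib.Leech.u5 := by
    intro v w hv hw hvw
    apply CfsgLib.Leech.trans_T4 _ _ _ hv
    · show Cfsg.dotInt (-((v : Cfsg.GolayPt → ℤ) + (w : Cfsg.GolayPt → ℤ))) (v : Cfsg.GolayPt → ℤ) = -16
      rw [CfsgLib.Leech.dot_neg_left, CfsgLib.Leech.dot_add_left, ← CfsgLib.Leech.sqNorm_eq_dot, hv, CfsgLib.Leech.dot_symm, hvw]; norm_num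
    · show Cfsg.sqNorm (-((v : Cfsg.GolayPt → ℤ) + (w : Cfsg.GolayPt → ℤ))) = 32
      rw [CfsgLib.Leech.norm_neg, CfsgLib.Leech.norm_add, hv, hw, hvw]; norm_num
  obtain ⟨g, hg, hg'⟩ := key v w hv hw hvw
  obtain ⟨k, hk, hk'⟩ := key w v hw hv (by rw [CfsgLib.Leech.dot_symm, hvw])
  have h1 : g • (v + w) = k • (v + w) := by
    have e : v + w = -(-(v + w)) := (neg_neg _).symm
    have e2 : w + v = v + w := add_comm _ _
    rw [e2] at hk
    rw [e, CfsgLib.Leech.co_neg, hg, CfsgLib.Leech.co_neg, hk]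
  refine ⟨k⁻¹ * g, ?_, ?_⟩
  · rw [mul_smul, hg', ← hk', inv_smul_smul]
  · have h2 : g • w = k • v := by
      have h3 : g • w = g • (v + w) - g • v := by rw [← CfsgLib.Leech.co_sub]; congr 1; abel
      have h4 : k • v = k • (v + w) - k • w := by rw [← CfsgLib.Leech.co_sub]; congr 1; abel
      rw [h3, h4, h1, hg', hk']
    rw [mul_smul, h2, inv_smul_smul]

end Cfsg.Agent.S1585
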