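import Cfsg.Statements.S1592
import Cfsg.Agent.Lib.Ternary2

set_option autoImplicit false
open Cfsg

namespace Cfsg.Agent.S1592

/-- The supports of the weight-6 words of the length-12 ternary code form a Steiner system S(5, 6, 12) with 132 blocks. -/
theorem result : Cfsg.IsSteinerSystem 5 6 {h : Finset Cfsg.ArrayPt | ∃ x ∈ Cfsg.ternaryGolayCode, Cfsg.ternarySupport x = h ∧ h.card = 6} ∧ {h : Finset Cfsg.ArrayPt | ∃ x ∈ Cfsg.ternaryGolayCode, Cfsg.ternarySupport x = h ∧ h.card = 6}.ncard = 132 := by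
  refine ⟨CfsgLib.Ternary.steiner, ?_⟩
  rw [← CfsgLib.Ternary.card_hexF, ← Set.ncard_coe_finset]
  congr 1
  ext h
  exact (Finset.mem_coe.trans CfsgLib.Ternary.mem_hexF).symm

end Cfsg.Agent.S1592
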