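import Cfsg.Statements.S1594
import Cfsg.Agent.Lib.Ternary3
import Cfsg.Agent.S0425

set_option autoImplicit false
open Cfsg

namespace Cfsg.Agent.S1594

/-- The monomial automorphism group of the length-12 ternary code has order 190080 and its permutation parts are exactly the automorphisms of its hexad system. -/
theorem result : Nat.card {f : Equiv.Perm Cfsg.ArrayPt × (Cfsg.ArrayPt → (ZMod 3)ˣ) // (∀ x ∈ Cfsg.ternaryGolayCode, Cfsg.monomialMap f.1 f.2 x ∈ Cfsg.ternaryGolayCode)} = 190080 ∧ {σ : Equiv.Perm Cfsg.ArrayPt | ∃ c : Cfsg.ArrayPt → (ZMod 3)ˣ, (∀ x ∈ Cfsg.ternaryGolayCode, Cfsg.monomialMap σ c x ∈ Cfsg.ternaryGolayCode)} = (Cfsg.setSystemAut {h : Finset Cfsg.ArrayPt | ∃ x ∈ Cfsg.ternaryGolayCode, Cfsg.ternarySupport x = h ∧ h.card = 6} : Set (Equiv.Perm Cfsg.ArrayPt)) := by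
  have hA : Nat.card (Cfsg.setSystemAut CfsgLib.Ternary.hex) = 95040 :=
    (Cfsg.Agent.S0425.result (α := Cfsg.ArrayPt) (by decide) CfsgLib.Ternary.steiner).1.2
  have hge := CfsgLib.Ternary.card_HH_ge
  have heq : CfsgLib.Ternary.HH = Cfsg.setSystemAut CfsgLib.Ternary.hex :=
    Subgroup.eq_of_le_of_card_ge CfsgLib.Ternary.HH_le (by rw [hA]; exact hge)
  constructor
  · have h1 := CfsgLib.Ternary.card_mono
    rw [heq, hA] at h1
    exact h1
  · change (CfsgLib.Ternary.HH : Set (Equiv.Perm Cfsg.ArrayPt)) = _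
    rw [heq]; rfl

end Cfsg.Agent.S1594
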