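import Cfsg.Statements.S1595
import Cfsg.Agent.Lib.Steiner

set_option autoImplicit false
open Cfsg

namespace Cfsg.Agent.S1595

/-- Leech triangle of S(5, 6, 12): blocks meet in 0, 2, 3 or 4 points, and a block is met exactly in a given 2-, 3- or 4-subset by 3, 2, 3 blocks respectively. -/
theorem result {α : Type*} [Fintype α] [DecidableEq α] (hα : Fintype.card α = 12) {B : Set (Finset α)} (hB : Cfsg.IsSteinerSystem 5 6 B) (b : Finset α) (hb : b ∈ B) : (∀ c ∈ B, c ≠ b → (b ∩ c).card = 0 ∨ (b ∩ c).card = 2 ∨ (b ∩ c).card = 3 ∨ (b ∩ c).card = 4) ∧ ∀ s ⊆ b, (s.card = 2 → {c : Finset α | c ∈ B ∧ b ∩ c = s}.ncard = 3) ∧ (s.card = 3 → {c : Finset α | c ∈ B ∧ b ∩ c = s}.ncard = 2) ∧ (s.card = 4 → {c : Finset α | c ∈ B ∧ b ∩ c = s}.ncard = 3) := by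
  refine ⟨fun c hc hcb => CfsgLib.Steiner.inter_5_6_12 hα hB hb hc hcb.symm, ?_⟩
  intro s hs
  obtain ⟨x, hx, h⟩ := CfsgLib.Steiner.block_eqs' hB (by norm_num) hb s hs
  rw [hα] at h
  have key : s.card ≤ 4 → {c : Finset α | c ∈ B ∧ b ∩ c = s}.ncard = x 0 := by
    intro hs4
    rw [CfsgLib.Steiner.ncard_filter, hx]
    congr 1
    ext c
    simp only [Finset.mem_filter, Finset.mem_erase, CfsgLib.Steiner.mem_bl, Finset.card_eq_zero]
    constructor
    · rintro ⟨hc, hbc⟩
      refine ⟨⟨?_, hc, ?_⟩, ?_⟩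
      · rintro rfl
        rw [Finset.inter_self] at hbc
        have := hB.1 c hb
        rw [hbc] at this; omega
      · rw [← hbc]; exact Finset.inter_subset_right
      · rw [← hbc]
        ext y; simp only [Finset.mem_inter, Finset.mem_sdiff, Finset.notMem_empty, iff_false]
        tauto
    · rintro ⟨⟨hcb, hc, hsc⟩, hbs⟩
      refine ⟨hc, ?_⟩
      ext y
      constructor
      · intro hy
        rw [Finset.mem_inter] at hy
        by_contra hys
        have : y ∈ (b \ s) ∩ c := by rw [Finset.mem_inter, Finset.mem_sdiff]; exact ⟨⟨hy.1, hys⟩, hy.2⟩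
        rw [hbs] at this; simp at this
      · intro hy
        rw [Finset.mem_inter]
        exact ⟨hs hy, hsc hy⟩
  refine ⟨?_, ?_, ?_⟩
  · intro hs2
    rw [key (by omega)]
    rw [hs2] at h
    have h0 := h 0 (by norm_num)
    have h1 := h 1 (by norm_num)
    have h2 := h 2 (by norm_num)
    simp only [Nat.reduceSub, Finset.sum_range_succ, Finset.sum_range_zero, Nat.choose, CfsgLib.Steiner.lam] at h0 h1 h2
    norm_num [Nat.choose] at h0 h1 h2
    omega
  · intro hs2
    rw [key (by omega)]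
    rw [hs2] at h
    have h0 := h 0 (by norm_num)
    have h1 := h 1 (by norm_num)
    simp only [Nat.reduceSub, Finset.sum_range_succ, Finset.sum_range_zero, Nat.choose, CfsgLib.Steiner.lam] at h0 h1
    norm_num [Nat.choose] at h0 h1
    omega
  · intro hs2
    rw [key (by omega)]
    rw [hs2] at h
    have h0 := h 0 (by norm_num)
    simp only [Nat.reduceSub, Finset.sum_range_succ, Finset.sum_range_zero, Nat.choose, CfsgLib.Steiner.lam] at h0
    norm_num [Nat.choose] at h0
    omega

end Cfsg.Agent.S1595
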