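import Cfsg.Statements.S1596
import Cfsg.Agent.Lib.GolayQuartet

set_option autoImplicit false
open scoped Pointwise
open Cfsg

open scoped Pointwise
namespace Cfsg.Agent.S1596

/-- A quartet of a dodecad is determined by any two of its triples: two disjoint triples uniting to a hexad extend to exactly one quartet. -/
theorem result (d : Finset Cfsg.GolayPt) (hd : d ∈ Cfsg.dodecads) (t u : Finset Cfsg.GolayPt) (ht : t.card = 3) (hu : u.card = 3) (htu : Disjoint t u) (hh : t ∪ u ∈ Cfsg.hexadsOn d) : ∃! Q : Finset (Finset Cfsg.GolayPt), Q ∈ Cfsg.quartets d ∧ t ∈ Q ∧ u ∈ Q := by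
  obtain ⟨g, hg, h1, h2, h3⟩ := CfsgLib.Golay.norm_pair hd ht hu htu hh
  have ht0 : g⁻¹ • CfsgLib.Golay.t0 = t := by rw [inv_smul_eq_iff, h2]
  have hu0 : g⁻¹ • CfsgLib.Golay.u0 = u := by rw [inv_smul_eq_iff, h3]
  refine ⟨g⁻¹ • CfsgLib.Golay.Q0, ⟨?_, ?_, ?_⟩, ?_⟩
  · rw [CfsgLib.Golay.mem_quartets_smul (inv_mem hg) (d := CfsgLib.Golay.D0) (by rw [inv_smul_eq_iff, h1])]
    exact CfsgLib.Golay.Q0_mem
  · rw [← ht0]; exact CfsgLib.Golay.mem_smul_fam.mpr (CfsgLib.Golay.mem_Q0.mpr (Or.inl rfl))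
  · rw [← hu0]; exact CfsgLib.Golay.mem_smul_fam.mpr (CfsgLib.Golay.mem_Q0.mpr (Or.inr (Or.inl rfl)))
  · rintro Q ⟨hQ, htQ, huQ⟩
    have h4 : g • Q = CfsgLib.Golay.Q0 := by
      apply CfsgLib.Golay.eq_Q0 ((CfsgLib.Golay.mem_quartets_smul hg h1).mpr hQ)
      · rw [← h2]; exact CfsgLib.Golay.mem_smul_fam.mpr htQ
      · rw [← h3]; exact CfsgLib.Golay.mem_smul_fam.mpr huQ
    rw [← h4, inv_smul_smul]

end Cfsg.Agent.S1596
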