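import Cfsg.Statements.S1597
import Cfsg.Agent.Lib.GolayQuartet

set_option autoImplicit false
open scoped Pointwise
open Cfsg

open scoped Pointwise
namespace Cfsg.Agent.S1597

/-- A dodecad has 220 quartets and its stabiliser is transitive on them. -/
theorem result (d : Finset Cfsg.GolayPt) (hd : d ∈ Cfsg.dodecads) : (Cfsg.quartets d).ncard = 220 ∧ ∀ Q ∈ Cfsg.quartets d, ∀ Q' ∈ Cfsg.quartets d, ∃ g : Equiv.Perm Cfsg.GolayPt, g ∈ Cfsg.M24 ∧ g • d = d ∧ g • Q = Q' := by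
  refine ⟨?_, fun Q hQ Q' hQ' => ?_⟩
  · obtain ⟨g, hg, hgl⟩ : ∃ g ∈ Cfsg.M24, g • d = CfsgLib.Golay.D0 := by
      obtain ⟨g, hg, h, -⟩ := CfsgLib.Golay.dod_trans hd CfsgLib.Golay.D0_mem (l := []) (l' := []) (by simp) (by simp) (by simp) (by simp) rfl (by simp)
      exact ⟨g, hg, h⟩
    rw [← CfsgLib.Golay.ncard_quartets_base]
    exact CfsgLib.Golay.ncard_fam_transfer g _ _ (fun Q => (CfsgLib.Golay.mem_quartets_smul hg hgl).symm)
  · obtain ⟨g, hg, h1, h2⟩ := CfsgLib.Golay.quartets_trans hd hQ hQ'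
    exact ⟨g, hg, h1, h2⟩

end Cfsg.Agent.S1597
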