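import Cfsg.Statements.S1598
import Cfsg.Agent.Lib.GolayQuartet

set_option autoImplicit false
open scoped Pointwise
open Cfsg

open scoped Pointwise
namespace Cfsg.Agent.S1598

section
open CfsgLib.Golay

def vx : ℕ → ZMod 3
  | 8 => 0 | 20 => 0 | 14 => 0 | 19 => 1 | 21 => 1 | 23 => 1 | 9 => 2 | 11 => 2 | 22 => 2 | _ => 0
def vy : ℕ → ZMod 3
  | 8 => 0 | 20 => 1 | 14 => 2 | 19 => 0 | 21 => 1 | 23 => 2 | 9 => 0 | 11 => 1 | 22 => 2 | _ => 0

def L9 : List ℕ := [8, 20, 14, 19, 21, 23, 9, 11, 22]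

def chkQ (P : ℕ) : Bool := and (good P) (and (Nat.beq (act P 0x7a0bf) 0x7a0bf)
  ([7, 0x98, 0xa020, 0x70000].all fun m => [7, 0x98, 0xa020, 0x70000].any fun m' => Nat.beq (act P m) m'))

theorem L_chk : L432.all chkQ = true := by decide +kernel
theorem L_sorted : sortedB L432 = true := by decide +kernel
theorem L_len : L432.length = 432 := by decide +kernel

theorem L_aff : ∀ P ∈ L432, ∀ i ∈ L9, img P i ∈ L9 ∧
    vx (img P i) = (vx (img P 19) - vx (img P 8)) * vx i + (vx (img P 20) - vx (img P 8)) * vy i + vx (img P 8) ∧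
    vy (img P i) = (vy (img P 19) - vy (img P 8)) * vx i + (vy (img P 20) - vy (img P 8)) * vy i + vy (img P 8) := by decide +kernel

theorem L_surj : ∀ a b c d : ZMod 3, a * d - b * c ≠ 0 → ∃ P ∈ L432, vx (img P 19) - vx (img P 8) = a ∧ vx (img P 20) - vx (img P 8) = b ∧
    vy (img P 19) - vy (img P 8) = c ∧ vy (img P 20) - vy (img P 8) = d := by
  decide +kernel

theorem L_trans : ∀ i < 24, (0x7a0bf : ℕ).testBit i = true → ∃ P ∈ L432, img P 0 = i := by decide +kernel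

theorem mem_KQ_of {P : ℕ} (h : chkQ P = true) : ∃ g ∈ KQ, Packs P g := by
  simp only [chkQ, Bool.and_eq_true] at h
  obtain ⟨h1, h2, h3⟩ := h
  obtain ⟨g, hg, hP⟩ := exists_of_good h1
  refine ⟨g, ⟨⟨hg, ?_, by simp⟩, ?_⟩, hP⟩
  · rw [D0, ← toFS_mask (g • toFS 0x7a0bf), hP.mask_smul, mask_toFS (by norm_num), Nat.eq_of_beq_eq_true h2]
  · have lt : ∀ m ∈ [7, 0x98, 0xa020, 0x70000], m < 2 ^ 24 := by decide
    have mem : ∀ t, t ∈ Q0 ↔ ∃ m ∈ [7, 0x98, 0xa020, 0x70000], toFS m = t := by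
      intro t
      rw [mem_Q0]
      simp only [List.mem_cons, List.not_mem_nil, or_false, exists_eq_or_imp, exists_eq_left]
      constructor
      · rintro (rfl | rfl | rfl | rfl)
        · exact Or.inl rfl
        · exact Or.inr (Or.inl rfl)
        · exact Or.inr (Or.inr (Or.inl rfl))
        · exact Or.inr (Or.inr (Or.inr rfl))
      · rintro (rfl | rfl | rfl | rfl)
        · exact Or.inl rfl
        · exact Or.inr (Or.inl rfl)
        · exact Or.inr (Or.inr (Or.inl rfl))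
        · exact Or.inr (Or.inr (Or.inr rfl))
    show g • Q0 = Q0
    apply Finset.eq_of_subset_of_card_le
    · intro t ht
      rw [← smul_inv_smul g t, mem_smul_fam, mem] at ht
      obtain ⟨m, hm, hme⟩ := ht
      have h4 := List.all_eq_true.mp h3 m hm
      rw [List.any_eq_true] at h4
      obtain ⟨m', hm', he⟩ := h4
      rw [mem]
      refine ⟨m', hm', ?_⟩
      rw [← Nat.eq_of_beq_eq_true he, ← mask_toFS (lt m hm), ← hP.mask_smul, toFS_mask, hme, smul_inv_smul]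
    · rw [Finset.card_smul_finset]

theorem enumQ : ∀ g ∈ KQ, ∃ P ∈ L432, Packs P g := by
  apply enum_of_card _ _ L_sorted
  · intro P hP
    exact mem_KQ_of (List.all_eq_true.mp L_chk P hP)
  · rw [card_KQ, L_len]

theorem aff {k : Equiv.Perm Cfsg.GolayPt} (hk : k ∈ KQ) {i : ℕ} (hi : i ∈ L9) : idx (k (pt i)) ∈ L9 ∧
    vx (idx (k (pt i))) = (vx (idx (k (pt 19))) - vx (idx (k (pt 8)))) * vx i + (vx (idx (k (pt 20))) - vx (idx (k (pt 8)))) * vy i + vx (idx (k (pt 8))) ∧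
    vy (idx (k (pt i))) = (vy (idx (k (pt 19))) - vy (idx (k (pt 8)))) * vx i + (vy (idx (k (pt 20))) - vy (idx (k (pt 8)))) * vy i + vy (idx (k (pt 8))) := by
  obtain ⟨P, hPL, hPk⟩ := enumQ k hk
  have h := L_aff P hPL i hi
  have hi24 : i < 24 := by
    have : ∀ i ∈ L9, i < 24 := by decide
    exact this i hi
  rw [hPk, hPk, hPk, hPk, idx_pt hi24, idx_pt (by norm_num), idx_pt (by norm_num), idx_pt (by norm_num)]
  exact h

/-- linear part -/
def linp : KQ →* Matrix (Fin 2) (Fin 2) (ZMod 3) where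
  toFun k := !![vx (idx ((k : Equiv.Perm Cfsg.GolayPt) (pt 19))) - vx (idx ((k : Equiv.Perm Cfsg.GolayPt) (pt 8))),
      vx (idx ((k : Equiv.Perm Cfsg.GolayPt) (pt 20))) - vx (idx ((k : Equiv.Perm Cfsg.GolayPt) (pt 8)));
    vy (idx ((k : Equiv.Perm Cfsg.GolayPt) (pt 19))) - vy (idx ((k : Equiv.Perm Cfsg.GolayPt) (pt 8))),
      vy (idx ((k : Equiv.Perm Cfsg.GolayPt) (pt 20))) - vy (idx ((k : Equiv.Perm Cfsg.GolayPt) (pt 8)))]
  map_one' := by
    show !![vx (idx (pt 19)) - vx (idx (pt 8)), vx (idx (pt 20)) - vx (idx (pt 8)); vy (idx (pt 19)) - vy (idx (pt 8)), vy (idx (pt 20)) - vy (idx (pt 8))] = 1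
    rw [idx_pt (by norm_num), idx_pt (by norm_num), idx_pt (by norm_num)]
    decide
  map_mul' a b := by
    have m0 := aff a.2 (aff b.2 (i := 8) (by decide)).1
    have m1 := aff a.2 (aff b.2 (i := 19) (by decide)).1
    have m2 := aff a.2 (aff b.2 (i := 20) (by decide)).1
    rw [pt_idx] at m0 m1 m2
    show !![vx (idx (((a : Equiv.Perm Cfsg.GolayPt) ((b : Equiv.Perm Cfsg.GolayPt) (pt 19))))) - vx (idx (((a : Equiv.Perm Cfsg.GolayPt) ((b : Equiv.Perm Cfsg.GolayPt) (pt 8))))),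
        vx (idx (((a : Equiv.Perm Cfsg.GolayPt) ((b : Equiv.Perm Cfsg.GolayPt) (pt 20))))) - vx (idx (((a : Equiv.Perm Cfsg.GolayPt) ((b : Equiv.Perm Cfsg.GolayPt) (pt 8)))));
      vy (idx (((a : Equiv.Perm Cfsg.GolayPt) ((b : Equiv.Perm Cfsg.GolayPt) (pt 19))))) - vy (idx (((a : Equiv.Perm Cfsg.GolayPt) ((b : Equiv.Perm Cfsg.GolayPt) (pt 8))))),
        vy (idx (((a : Equiv.Perm Cfsg.GolayPt) ((b : Equiv.Perm Cfsg.GolayPt) (pt 20))))) - vy (idx (((a : Equiv.Perm Cfsg.GolayPt) ((b : Equiv.Perm Cfsg.GolayPt) (pt 8)))))] = _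
    rw [m0.2.1, m0.2.2, m1.2.1, m1.2.2, m2.2.1, m2.2.2, Matrix.mul_fin_two]
    ext i j
    fin_cases i <;> fin_cases j <;> simp <;> ring

theorem linp_surj (M : Matrix (Fin 2) (Fin 2) (ZMod 3)) (hM : M.det ≠ 0) : ∃ k, linp k = M := by
  rw [Matrix.det_fin_two] at hM
  obtain ⟨P, hPL, h1, h2, h3, h4⟩ := L_surj _ _ _ _ hM
  obtain ⟨g, hg, hP⟩ := mem_KQ_of (List.all_eq_true.mp L_chk P hPL)
  refine ⟨⟨g, hg⟩, ?_⟩
  show !![vx (idx (g (pt 19))) - vx (idx (g (pt 8))), vx (idx (g (pt 20))) - vx (idx (g (pt 8)));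
    vy (idx (g (pt 19))) - vy (idx (g (pt 8))), vy (idx (g (pt 20))) - vy (idx (g (pt 8)))] = M
  rw [hP, hP, hP, idx_pt (by norm_num), idx_pt (by norm_num), idx_pt (by norm_num), h1, h2, h3, h4]
  exact (Matrix.eta_fin_two M).symm

theorem linG_surj : Function.Surjective linp.toHomUnits := by
  intro M
  obtain ⟨k, hk⟩ := linp_surj (M : Matrix (Fin 2) (Fin 2) (ZMod 3)) (by
    have := M.isUnit
    rw [Matrix.isUnit_iff_isUnit_det] at this
    exact this.ne_zero)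
  exact ⟨k, Units.ext hk⟩

theorem card_GL23 : Nat.card (GL (Fin 2) (ZMod 3)) = 48 := by
  rw [Matrix.card_GL_field, ZMod.card, Fin.prod_univ_two]
  norm_num

theorem KQ_trans {p : Cfsg.GolayPt} (hp : p ∈ D0) : ∃ g ∈ KQ, g (pt 0) = p := by
  obtain ⟨P, hP, h0⟩ := L_trans (idx p) (idx_lt p) (by
    have : mask D0 = 0x7a0bf := mask_D0
    rw [← this, testBit_mask]; exact decide_eq_true hp)
  obtain ⟨g, hg, hPg⟩ := mem_KQ_of (List.all_eq_true.mp L_chk P hP)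
  exact ⟨g, hg, by rw [hPg.apply (by norm_num) h0, pt_idx]⟩

end


/-- A quartet stabiliser inside the dodecad stabiliser has order 432, a normal subgroup of order 9 with quotient GL(2, 3), and is transitive on the dodecad. -/
theorem result (d : Finset Cfsg.GolayPt) (hd : d ∈ Cfsg.dodecads) (Q : Finset (Finset Cfsg.GolayPt)) (hQ : Q ∈ Cfsg.quartets d) : Nat.card ↥(MulAction.stabilizer Cfsg.M24 d ⊓ MulAction.stabilizer Cfsg.M24 Q) = 432 ∧ (∃ (N : Subgroup ↥(MulAction.stabilizer Cfsg.M24 d ⊓ MulAction.stabilizer Cfsg.M24 Q)) (_ : N.Normal), Nat.card N = 9 ∧ Nonempty (↥(MulAction.stabilizer Cfsg.M24 d ⊓ MulAction.stabilizer Cfsg.M24 Q) ⧸ N ≃* GL (Fin 2) (ZMod 3))) ∧ ∀ p ∈ d, ∀ q ∈ d, ∃ g ∈ (MulAction.stabilizer Cfsg.M24 d ⊓ MulAction.stabilizer Cfsg.M24 Q), ((g : ↥Cfsg.M24) : Equiv.Perm Cfsg.GolayPt) p = q := by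
  obtain ⟨k, hk, hkd, hkQ⟩ := CfsgLib.Golay.norm_quartet' hd hQ
  have hki : k⁻¹ • CfsgLib.Golay.D0 = d := by rw [inv_smul_eq_iff]; exact hkd.symm
  have hkq : k⁻¹ • CfsgLib.Golay.Q0 = Q := by rw [inv_smul_eq_iff]; exact hkQ.symm
  let ε : ↥(MulAction.stabilizer Cfsg.M24 d ⊓ MulAction.stabilizer Cfsg.M24 Q) ≃* CfsgLib.Golay.KQ :=
    { toFun := fun g => ⟨k * (((g : Cfsg.M24) : Equiv.Perm Cfsg.GolayPt)) * k⁻¹, by
        have h1 : ((g : Cfsg.M24) : Equiv.Perm Cfsg.GolayPt) • d = d := g.2.1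
        have h2 : ((g : Cfsg.M24) : Equiv.Perm Cfsg.GolayPt) • Q = Q := g.2.2
        refine ⟨⟨CfsgLib.Golay.M24_mul (CfsgLib.Golay.M24_mul hk (g : Cfsg.M24).2) (inv_mem hk), ?_, by simp⟩, ?_⟩
        · rw [mul_smul, mul_smul, hki, h1, hkd]
        · show (k * ((g : Cfsg.M24) : Equiv.Perm Cfsg.GolayPt) * k⁻¹) • CfsgLib.Golay.Q0 = CfsgLib.Golay.Q0
          rw [mul_smul, mul_smul, hkq, h2, hkQ]⟩
      invFun := fun g => ⟨⟨k⁻¹ * g.1 * k, CfsgLib.Golay.M24_mul (CfsgLib.Golay.M24_mul (inv_mem hk) g.2.1.1) hk⟩, by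
        have h1 : (g : Equiv.Perm Cfsg.GolayPt) • CfsgLib.Golay.D0 = CfsgLib.Golay.D0 := g.2.1.2.1
        have h2 : (g : Equiv.Perm Cfsg.GolayPt) • CfsgLib.Golay.Q0 = CfsgLib.Golay.Q0 := g.2.2
        constructor
        · show (k⁻¹ * g.1 * k) • d = d
          rw [mul_smul, mul_smul, hkd, h1, hki]
        · show (k⁻¹ * g.1 * k) • Q = Q
          rw [mul_smul, mul_smul, hkQ, h2, hkq]⟩
      left_inv := fun g => by
        apply Subtype.ext; apply Subtype.ext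
        show k⁻¹ * (k * _ * k⁻¹) * k = _
        group
      right_inv := fun g => by
        apply Subtype.ext
        show k * (k⁻¹ * _ * k) * k⁻¹ = _
        group
      map_mul' := fun a b => by
        apply Subtype.ext
        show k * (_ * _) * k⁻¹ = k * _ * k⁻¹ * (k * _ * k⁻¹)
        group }
  refine ⟨?_, ?_, ?_⟩
  · rw [Nat.card_congr ε.toEquiv, CfsgLib.Golay.card_KQ]
  · let Ψ := linp.toHomUnits.comp ε.toMonoidHom
    have hΨ : Function.Surjective Ψ := linG_surj.comp ε.surjective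
    refine ⟨Ψ.ker, Ψ.normal_ker, ?_, ⟨QuotientGroup.quotientKerEquivOfSurjective Ψ hΨ⟩⟩
    have h1 := Subgroup.card_mul_index Ψ.ker
    rw [Subgroup.index_ker, MonoidHom.range_eq_top.mpr hΨ, Subgroup.card_top, card_GL23, Nat.card_congr ε.toEquiv, CfsgLib.Golay.card_KQ] at h1
    generalize Nat.card Ψ.ker = n at h1 ⊢
    omega
  · intro p hp q hq
    have hpD : k p ∈ CfsgLib.Golay.D0 := by rw [← hkd]; exact CfsgLib.Golay.mem_smul_iff.mpr hp
    have hqD : k q ∈ CfsgLib.Golay.D0 := by rw [← hkd]; exact CfsgLib.Golay.mem_smul_iff.mpr hq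
    obtain ⟨a, ha, ha1⟩ := KQ_trans hpD
    obtain ⟨b, hb, hb1⟩ := KQ_trans hqD
    have hab : b * a⁻¹ ∈ CfsgLib.Golay.KQ := mul_mem hb (inv_mem ha)
    refine ⟨(ε.symm ⟨b * a⁻¹, hab⟩ : _), (ε.symm ⟨b * a⁻¹, hab⟩).2, ?_⟩
    show (k⁻¹ * (b * a⁻¹) * k) p = q
    rw [Equiv.Perm.mul_apply, Equiv.Perm.mul_apply, Equiv.Perm.mul_apply, ← ha1]
    simp [hb1]

end Cfsg.Agent.S1598
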