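import Cfsg.Statements.S1600
import Cfsg.Agent.Lib.GolayDod

set_option autoImplicit false
open scoped Pointwise
open Cfsg

namespace Cfsg.Agent.S1600

/-- The pointwise stabiliser of three points of a dodecad inside the dodecad stabiliser (order 72) is transitive on the complementary dodecad. -/
theorem result (d : Finset Cfsg.GolayPt) (hd : d ∈ Cfsg.dodecads) (p q r : Cfsg.GolayPt) (hp : p ∈ d) (hq : q ∈ d) (hr : r ∈ d) (hpq : p ≠ q) (hpr : p ≠ r) (hqr : q ≠ r) : Nat.card ↥(MulAction.stabilizer Cfsg.M24 d ⊓ MulAction.stabilizer Cfsg.M24 p ⊓ MulAction.stabilizer Cfsg.M24 q ⊓ MulAction.stabilizer Cfsg.M24 r) = 72 ∧ ∀ x ∉ d, ∀ y ∉ d, ∃ g ∈ (MulAction.stabilizer Cfsg.M24 d ⊓ MulAction.stabilizer Cfsg.M24 p ⊓ MulAction.stabilizer Cfsg.M24 q ⊓ MulAction.stabilizer Cfsg.M24 r), ((g : ↥Cfsg.M24) : Equiv.Perm Cfsg.GolayPt) x = y := by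
  have h72 := CfsgLib.Golay.card_PSd hd (l := [p, q, r]) (by simp [hpq, hpr, hqr]) (by simp [hp, hq, hr]) (by simp)
  have h72' : Nat.card (CfsgLib.Golay.PSd d [p, q, r]) = 72 := by
    simp [Nat.descFactorial] at h72; omega
  refine ⟨?_, ?_⟩
  · rw [← h72']
    refine CfsgLib.Golay.card_subEquiv (L := CfsgLib.Golay.PSd d [p, q, r]) ?_ (fun g hg => hg.1)
    intro g hg
    simp only [Subgroup.mem_inf, MulAction.mem_stabilizer_iff, CfsgLib.Golay.mem_PSd, List.mem_cons, List.not_mem_nil, or_false, forall_eq_or_imp, forall_eq]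
    constructor
    · rintro ⟨⟨⟨h1, h2⟩, h3⟩, h4⟩; exact ⟨hg, h1, h2, h3, h4⟩
    · rintro ⟨_, h1, h2, h3, h4⟩; exact ⟨⟨⟨h1, h2⟩, h3⟩, h4⟩
  · intro x hx y hy
    obtain ⟨g, hg, hgd, h0, h1, h2, h3⟩ := CfsgLib.Golay.dod_trans3 hd hd hp hq hr (by simp [hpq, hpr, hqr]) hx hp hq hr (by simp [hpq, hpr, hqr]) hy
    refine ⟨⟨g, hg⟩, ?_, h3⟩
    simp only [Subgroup.mem_inf, MulAction.mem_stabilizer_iff]
    exact ⟨⟨⟨hgd, h0⟩, h1⟩, h2⟩

end Cfsg.Agent.S1600
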