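import Cfsg.Statements.S1602
import Cfsg.Agent.Lib.GolayOct

set_option autoImplicit false
open scoped Pointwise
open Cfsg

open scoped Pointwise
namespace Cfsg.Agent.S1602

section
open CfsgLib.Golay

/-- M11 is transitive on ordered pairs of the other dodecad -/
theorem tr2 {d : Finset Cfsg.GolayPt} (hd : d ∈ Cfsg.dodecads) {p q q' a b : Cfsg.GolayPt} (hp : p ∈ d) (hq : q ∉ d) (hq' : q' ∉ d)
    (hqq' : q ≠ q') (ha : a ∉ d) (hb : b ∉ d) (hab : a ≠ b) {d' : Finset Cfsg.GolayPt} (hd' : d' ∈ Cfsg.dodecads) {p' a' b' : Cfsg.GolayPt}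
    (hp' : p' ∈ d') (ha' : a' ∉ d') (hb' : b' ∉ d') (hab' : a' ≠ b') : ∃ g ∈ Cfsg.M24, g • d = d' ∧ g p = p' ∧ g a = a' ∧ g b = b' := by
  have hD := compl_mem_dodecads hd
  have hD' := compl_mem_dodecads hd'
  obtain ⟨l, hl, h3, hld⟩ := exists_extend_in dᶜ 3 (by rw [hD.2]; norm_num) [a, b] (by simp [hab]) (by simp [ha, hb]) (by simp)
  obtain ⟨l', hl', h3', hld'⟩ := exists_extend_in d'ᶜ 3 (by rw [hD'.2]; norm_num) [a', b'] (by simp [hab']) (by simp [ha', hb']) (by simp)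
  match l, h3, l', h3' with
  | [c], _, [c'], _ =>
    obtain ⟨g, hg, h1, h2, h4, h5, h6⟩ := dod_trans3 hD hD' (hld a (by simp)) (hld b (by simp)) (hld c (by simp)) hl
      (x := p) (by rw [Finset.mem_compl, not_not]; exact hp) (hld' a' (by simp)) (hld' b' (by simp)) (hld' c' (by simp)) hl'
      (x' := p') (by rw [Finset.mem_compl, not_not]; exact hp')
    refine ⟨g, hg, ?_, h6, h2, h4⟩
    rw [smul_compl, compl_inj_iff] at h1
    exact h1

theorem uniq {d : Finset Cfsg.GolayPt} (hd : d ∈ Cfsg.dodecads) {p q q' : Cfsg.GolayPt} (hp : p ∈ d) (hq : q ∉ d) (hq' : q' ∉ d)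
    (hqq' : q ≠ q') {o o' : Finset Cfsg.GolayPt} (ho : o ∈ Cfsg.octads) (ho' : o' ∈ Cfsg.octads) (h : p ∈ o ∧ q ∈ o ∧ q' ∈ o ∧ (o ∩ d).card = 6)
    (h' : p ∈ o' ∧ q ∈ o' ∧ q' ∈ o' ∧ (o' ∩ d).card = 6) : o = o' := by
  by_contra hne
  have key : ∀ {o : Finset Cfsg.GolayPt}, o ∈ Cfsg.octads → p ∈ o ∧ q ∈ o ∧ q' ∈ o ∧ (o ∩ d).card = 6 → o \ d = {q, q'} := by
    intro o ho h
    symm
    apply Finset.eq_of_subset_of_card_le
    · intro x hx
      rw [Finset.mem_insert, Finset.mem_singleton] at hx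
      rcases hx with rfl | rfl
      · exact Finset.mem_sdiff.mpr ⟨h.2.1, hq⟩
      · exact Finset.mem_sdiff.mpr ⟨h.2.2.1, hq'⟩
    · have := card_sdiff_octad (s := d) ho
      rw [Finset.card_pair hqq']; omega
  have e1 := key ho h
  have e2 := key ho' h'
  have hsub : symmDiff o o' ⊆ d := by
    intro x hx
    by_contra hxd
    rw [Finset.mem_symmDiff] at hx
    rcases hx with ⟨h1, h2⟩ | ⟨h1, h2⟩
    · have : x ∈ o \ d := Finset.mem_sdiff.mpr ⟨h1, hxd⟩
      rw [e1, ← e2] at this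
      exact h2 (Finset.mem_sdiff.mp this).1
    · have : x ∈ o' \ d := Finset.mem_sdiff.mpr ⟨h1, hxd⟩
      rw [e2, ← e1] at this
      exact h2 (Finset.mem_sdiff.mp this).1
  have h3 : 3 ≤ (o ∩ o').card := by
    have : ({p, q, q'} : Finset Cfsg.GolayPt) ⊆ o ∩ o' := by
      intro x hx
      simp only [Finset.mem_insert, Finset.mem_singleton] at hx
      rw [Finset.mem_inter]
      rcases hx with rfl | rfl | rfl
      · exact ⟨h.1, h'.1⟩
      · exact ⟨h.2.1, h'.2.1⟩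
      · exact ⟨h.2.2.1, h'.2.2.1⟩
    have hc : ({p, q, q'} : Finset Cfsg.GolayPt).card = 3 := by
      have n1 : p ≠ q := by rintro rfl; exact hq hp
      have n2 : p ≠ q' := by rintro rfl; exact hq' hp
      rw [Finset.card_insert_of_notMem (by simp [n1, n2]), Finset.card_pair hqq']
    rw [← hc]; exact Finset.card_le_card this
  have h4 : (o ∩ o').card = 4 := by
    rcases octad_inter_octad ho ho' hne with h4 | h4 | h4 <;> omega
  have h5 := card_symmDiff' o o'
  have h6 : symmDiff o o' ∈ Cfsg.octads := by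
    refine ⟨symmDiff_mem ho.1 ho'.1, ?_⟩
    have h7 : o.card = 8 := ho.2
    have h8 : o'.card = 8 := ho'.2
    show (symmDiff o o').card = 8
    omega
  have h7 := octad_inter_dodecad h6 hd
  rw [Finset.inter_eq_left.mpr hsub] at h7
  have h8 : (symmDiff o o').card = 8 := h6.2
  omega

theorem ex {d : Finset Cfsg.GolayPt} (hd : d ∈ Cfsg.dodecads) {p q q' : Cfsg.GolayPt} (hp : p ∈ d) (hq : q ∉ d) (hq' : q' ∉ d)
    (hqq' : q ≠ q') : ∃ o ∈ Cfsg.octads, p ∈ o ∧ q ∈ o ∧ q' ∈ o ∧ (o ∩ d).card = 6 := by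
  have m0 : pt 0 ∈ D0 := by decide +kernel
  have m6 : pt 6 ∉ D0 := by decide +kernel
  have m8 : pt 8 ∉ D0 := by decide +kernel
  obtain ⟨g, hg, h1, h2, h3, h4⟩ := tr2 hd hp hq hq' hqq' hq hq' hqq' D0_mem m0 m6 m8 (by decide)
  have ho : toFS 0x401ed ∈ Cfsg.octads := by
    rw [mem_octads_iff, mask_toFS (by norm_num)]; decide +kernel
  refine ⟨g⁻¹ • toFS 0x401ed, (smul_mem_octads (inv_mem hg)).mpr ho, ?_, ?_, ?_, ?_⟩
  · rw [← mem_smul_iff (g := g), smul_inv_smul, h2]; decide +kernel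
  · rw [← mem_smul_iff (g := g), smul_inv_smul, h3]; decide +kernel
  · rw [← mem_smul_iff (g := g), smul_inv_smul, h4]; decide +kernel
  · rw [← card_smul' g, smul_inter', smul_inv_smul, h1, D0, inter_card_eq (by norm_num), mask_toFS (by norm_num)]; decide +kernel

/-- the stabilizer -/
def HH (d : Finset Cfsg.GolayPt) (p q q' : Cfsg.GolayPt) : Subgroup (Equiv.Perm Cfsg.GolayPt) :=
  PSd d [p] ⊓ MulAction.stabilizer (Equiv.Perm Cfsg.GolayPt) ({q, q'} : Finset Cfsg.GolayPt)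

theorem smul_pair (g : Equiv.Perm Cfsg.GolayPt) (a b : Cfsg.GolayPt) : g • ({a, b} : Finset Cfsg.GolayPt) = {g a, g b} := by
  rw [Finset.smul_finset_insert, Finset.smul_finset_singleton]; rfl

theorem card_HH {d : Finset Cfsg.GolayPt} (hd : d ∈ Cfsg.dodecads) {p q q' : Cfsg.GolayPt} (hp : p ∈ d) (hq : q ∉ d) (hq' : q' ∉ d)
    (hqq' : q ≠ q') : Nat.card (HH d p q q') = 120 := by
  have h1 := card_eq_of_orbit (PSd d [p]) (HH d p q q') ({q, q'} : Finset Cfsg.GolayPt)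
    (↑((dᶜ).powersetCard 2) : Set (Finset Cfsg.GolayPt)) (fun g => Iff.rfl) (fun y => by
    rw [Finset.mem_coe, Finset.mem_powersetCard]
    constructor
    · rintro ⟨hy, hy2⟩
      obtain ⟨a, b, hab, rfl⟩ := Finset.card_eq_two.mp hy2
      have ha : a ∉ d := Finset.mem_compl.mp (hy (by simp))
      have hb : b ∉ d := Finset.mem_compl.mp (hy (by simp))
      obtain ⟨g, hg, h1, h2, h3, h4⟩ := tr2 hd hp hq hq' hqq' hq hq' hqq' hd hp ha hb hab
      refine ⟨g, ⟨hg, h1, by simpa using h2⟩, ?_⟩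
      rw [smul_pair, h3, h4]
    · rintro ⟨g, hg, rfl⟩
      have hgd : g • d = d := hg.2.1
      have hn : ∀ x, x ∉ d → g x ∉ d := by
        intro x hx h
        rw [← hgd] at h
        exact hx (mem_smul_iff.mp h)
      rw [smul_pair]
      refine ⟨?_, Finset.card_pair (fun h => hqq' (g.injective h))⟩
      intro x hx
      rw [Finset.mem_insert, Finset.mem_singleton] at hx
      rw [Finset.mem_compl]
      rcases hx with rfl | rfl
      · exact hn _ hq
      · exact hn _ hq')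
  rw [card_PSd_one hd hp, Set.ncard_coe_finset, Finset.card_powersetCard, (compl_mem_dodecads hd).2] at h1
  have h2 : Nat.choose 12 2 = 66 := by decide
  rw [h2] at h1
  omega

end


/-- In the 12-point action of the smallest Mathieu group the setwise stabiliser of a pair is isomorphic to the symmetric group of degree 5. -/
theorem result (d : Finset Cfsg.GolayPt) (hd : d ∈ Cfsg.dodecads) (p q q' : Cfsg.GolayPt) (hp : p ∈ d) (hq : q ∉ d) (hq' : q' ∉ d) (hqq' : q ≠ q') : Nonempty (↥(MulAction.stabilizer Cfsg.M24 d ⊓ MulAction.stabilizer Cfsg.M24 p ⊓ MulAction.stabilizer Cfsg.M24 ({q, q'} : Finset Cfsg.GolayPt)) ≃* Equiv.Perm (Fin 5)) := by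
  obtain ⟨o, ho, ho2⟩ := ex hd hp hq hq' hqq'
  have hinv : ∀ g ∈ HH d p q q', g • ((o ∩ d) \ {p}) = (o ∩ d) \ {p} := by
    rintro g ⟨hg, hg2⟩
    have h1 : g p = p := hg.2.2 p (by simp)
    have h2 : g • ({q, q'} : Finset Cfsg.GolayPt) = {q, q'} := hg2
    have h3 : g • o = o := by
      apply uniq hd hp hq hq' hqq' ((CfsgLib.Golay.smul_mem_octads hg.1).mpr ho) ho ?_ ho2
      have h4 : ({q, q'} : Finset Cfsg.GolayPt) ⊆ g • o := by
        rw [← h2, Finset.smul_finset_subset_smul_finset_iff]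
        intro x hx
        rw [Finset.mem_insert, Finset.mem_singleton] at hx
        rcases hx with rfl | rfl
        · exact ho2.2.1
        · exact ho2.2.2.1
      refine ⟨?_, h4 (by simp), h4 (by simp), ?_⟩
      · nth_rewrite 1 [← h1]; exact CfsgLib.Golay.mem_smul_iff.mpr ho2.1
      · have h5 : g • d = d := hg.2.1
        nth_rewrite 1 [← h5]
        rw [← CfsgLib.Golay.smul_inter', CfsgLib.Golay.card_smul']; exact ho2.2.2.2
    rw [CfsgLib.Golay.smul_sdiff', CfsgLib.Golay.smul_inter', h3, hg.2.1, Finset.smul_finset_singleton]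
    congr 2
  have hF : ((o ∩ d) \ {p}).card = 5 := by
    rw [Finset.card_sdiff_of_subset (by simpa using ⟨ho2.1, hp⟩), ho2.2.2.2]; rfl
  let φ := CfsgLib.Golay.res ((o ∩ d) \ {p}) (HH d p q q') hinv
  have hinj : Function.Injective φ := by
    rw [injective_iff_map_eq_one]
    intro g hg
    apply Subtype.ext
    obtain ⟨l, hl, h5, hlF⟩ := CfsgLib.Golay.exists_list_of_le_card (s := (o ∩ d) \ {p}) (n := 5) hF.ge
    apply CfsgLib.Golay.dod_unique hd g.2.1.1 g.2.1.2.1 hl (fun x hx => (Finset.mem_inter.mp (Finset.mem_sdiff.mp (hlF x hx)).1).2) h5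
    intro x hx
    have := congrArg (fun f : Equiv.Perm ↥((o ∩ d) \ {p}) => ((f ⟨x, hlF x hx⟩ : ↥((o ∩ d) \ {p})) : Cfsg.GolayPt)) hg
    exact this
  have hcard : Nat.card (HH d p q q') = Nat.card (Equiv.Perm ↥((o ∩ d) \ {p})) := by
    rw [card_HH hd hp hq hq' hqq', Nat.card_perm, Nat.card_eq_fintype_card, Fintype.card_coe, hF]; rfl
  have hbij : Function.Bijective φ := (Nat.bijective_iff_injective_and_card φ).mpr ⟨hinj, hcard⟩
  have e1 : ↥(MulAction.stabilizer Cfsg.M24 d ⊓ MulAction.stabilizer Cfsg.M24 p ⊓ MulAction.stabilizer Cfsg.M24 ({q, q'} : Finset Cfsg.GolayPt)) ≃* HH d p q q' :=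
    CfsgLib.Golay.subEquiv _ _ (fun g hg => by
      constructor
      · rintro ⟨⟨h1, h2⟩, h3⟩
        exact ⟨⟨hg, h1, fun x hx => by rw [List.mem_singleton] at hx; rw [hx]; exact h2⟩, h3⟩
      · rintro ⟨⟨_, h1, h2⟩, h3⟩
        exact ⟨⟨h1, h2 p (by simp)⟩, h3⟩) (fun g hg => hg.1.1)
  have e2 : ↥((o ∩ d) \ {p}) ≃ Fin 5 := Fintype.equivFinOfCardEq (by rw [Fintype.card_coe, hF])
  exact ⟨e1.trans ((MulEquiv.ofBijective φ hbij).trans e2.permCongrHom)⟩

end Cfsg.Agent.S1602
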