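import Cfsg.Statements.S1603
import Cfsg.Agent.Lib.GolayEnum

set_option autoImplicit false
open scoped Pointwise
open Cfsg

open scoped Pointwise
namespace Cfsg.Agent.S1603

section
open CfsgLib.Golay

def L48 : List ℕ := [0xbdab49ca307b9ac5a928398a418820, 0xbbaab9bda595a2aa310939a0320820, 0xbda8b49c6493a06ab1137aa2d28820, 0xbba954ca113d86c59a687a88568820, 0xbb97441c837d8a6aa933931b180820, 0xbd97543cad3b88aa1a699307088820, 0xbda68abcad93a0a4b17439a2418440, 0xbba69aca117d8ac42a8b399a320440, 0xbd933a4a303b88c41aab7a86d28440, 0xbb928a1c8395a269b1757aa0568440, 0xbb9135bda53d86a49ab49309180440, 0xbd90959c647b9a69aa95930b088440, 0x34dc9b3e11955ac5aa883dca209060, 0x355cbb49a57ce0a4b1143de2111060, 0x34d2ba1c227d6377311692a0d29060, 0x3552ea3e303cc2c5dec89284569060, 0x34d6e448ad3d44a4ded47b03181060, 0x3556941c4194cb772a967b1b089060, 0x34ec8748ad7d62aa31693de0208c80, 0x356d473e3094cac4292b3dda110c80, 0x34e964be113d44c45dcb9282d28c80,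 0x3568849c417ce17b316e92a2568c80, 0x34d1459c22955b7b292e7b0b180c80, 0x355165c9a53cc2aa5dc97b05088c80, 0x525c8b48833d206ab1737de220b4a0, 0x551d5b1e119248c41a6b7dc61134a0, 0x552a89bc413a6377317691a041b4a0, 0x526ae99e307d04c45ecb91823234a0, 0x5510e5c8647a426aded33b051834a0, 0x525155bc229507771a763b0908b4a0, 0x526d371e309506c59aa87dc82095a0, 0x552cb748643a6269b1157de01115a0, 0x55276a9e117a42c5ddc891844195a0, 0x5266babc223d217b310e91a23215a0, 0x5517343c4192497b1aae3b071815a0, 0x52576448837d0469ddd53b030895a0, 0x622c973c643aca6aaa9395da20c600, 0x62ed571cad7a06a49a7495c8114600, 0x622b699da592c4a4ddd4798241c600, 0x62ea99c8413a1b7b2a8e798a324600, 0x62d36a3c8392026addd33a84d2c600, 0x62135a48227ac97b1a6e3a8656c600, 0x621d3b1da57ac8aa1aa995c620c220, 0x62dd4b3c833a1a69a93595ca114220, 0x62274ac8223acb772936799a41c220, 0x62e6ea9cad9202aa5ec97984324220, 0x62e934c8417a07771ab63a88d2c220, 0x6228e4bc6492c469ded53a8256c220]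

def X0 : ℕ := 0xbba69aca117d8ac42a8b399a320440

def E8 : List ℕ := [1, 2, 3, 4, 5, 13, 16, 17]

def vx : ℕ → ZMod 3
  | 1 => 1 | 2 => 2 | 3 => 0 | 4 => 0 | 5 => 1 | 13 => 2 | 16 => 1 | 17 => 2 | _ => 0

def vy : ℕ → ZMod 3
  | 1 => 0 | 2 => 0 | 3 => 1 | 4 => 2 | 5 => 1 | 13 => 2 | 16 => 2 | 17 => 1 | _ => 0

theorem X0_chk : and (good X0) (and (Nat.beq (act X0 0x7a0bf) 0x7a0bf) (and (Nat.beq (img X0 0) 0) (isInvol X0))) = true := by
  decide +kernel

theorem L48_chk : L48.all (fun P => and (good P) (and (Nat.beq (act P 0x7a0bf) 0x7a0bf) (and (Nat.beq (img P 0) 0)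
    (commB P X0)))) = true := by decide +kernel

theorem L48_lin : ∀ P ∈ L48, ∀ i ∈ E8, img P i ∈ E8 ∧ vx (img P i) = vx (img P 1) * vx i + vx (img P 3) * vy i ∧
    vy (img P i) = vy (img P 1) * vx i + vy (img P 3) * vy i := by decide +kernel

theorem L48_tr : ∀ a ∈ E8, ∀ b ∈ E8, a = b ∨ b = img X0 a ∨ ∃ P ∈ L48, img P 1 = a ∧ img P 3 = b := by decide +kernel

theorem L48_surj : ∀ a b c d : ZMod 3, a * d - b * c ≠ 0 → ∃ P ∈ L48, vx (img P 1) = a ∧ vx (img P 3) = b ∧ vy (img P 1) = c ∧ vy (img P 3) = d := by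
  decide +kernel

theorem vec_inj : ∀ i ∈ E8, ∀ j ∈ E8, vx i = vx j → vy i = vy j → i = j := by decide +kernel

theorem E8_mem : ∀ i < 24, pt i ∈ D0 → img X0 i ≠ i → i ∈ E8 := by decide +kernel

theorem exists_x0 : ∃ x0 ∈ PSd D0 [pt 0], Packs X0 x0 ∧ x0 * x0 = 1 := by
  have h := X0_chk
  simp only [Bool.and_eq_true] at h
  obtain ⟨h1, h2, h3, h4⟩ := h
  obtain ⟨x, hx, hP⟩ := exists_of_good h1
  refine ⟨x, ⟨hx, ?_, ?_⟩, hP, (isInvol_iff hP).mp h4⟩
  · rw [D0, ← toFS_mask (x • toFS 0x7a0bf), hP.mask_smul, mask_toFS (by norm_num), Nat.eq_of_beq_eq_true h2]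
  · intro p hp
    rw [List.mem_singleton] at hp
    rw [hp, hP.apply (by norm_num) (Nat.eq_of_beq_eq_true h3)]

theorem mem_D0_iff {i : ℕ} (hi : i < 24) : pt i ∈ D0 ↔ (0x7a0bf : ℕ).testBit i = true := by
  rw [D0, mem_toFS, idx_pt hi]

/-- the base centralizer -/
def C0 (x0 : Equiv.Perm Cfsg.GolayPt) : Subgroup (Equiv.Perm Cfsg.GolayPt) := PSd D0 [pt 0] ⊓ Subgroup.centralizer {x0}

theorem mem_C0 {x0 k : Equiv.Perm Cfsg.GolayPt} : k ∈ C0 x0 ↔ k ∈ PSd D0 [pt 0] ∧ k * x0 = x0 * k := by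
  rw [C0, Subgroup.mem_inf, Subgroup.mem_centralizer_singleton_iff]

theorem unique5 {k k' : Equiv.Perm Cfsg.GolayPt} (hk : k ∈ PSd D0 [pt 0]) (hk' : k' ∈ PSd D0 [pt 0])
    (h : ∀ i ∈ [1, 2, 3, 4], k (pt i) = k' (pt i)) : k = k' := by
  have h1 : k'⁻¹ * k ∈ PSd D0 [pt 0] := mul_mem (inv_mem hk') hk
  have h2 : k'⁻¹ * k = 1 := by
    apply dod_unique D0_mem h1.1 h1.2.1 (l := [pt 0, pt 1, pt 2, pt 3, pt 4]) (by decide) mem_D0_base rfl
    intro p hp
    simp only [List.mem_cons, List.not_mem_nil, or_false] at hp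
    rcases hp with rfl | hp
    · exact h1.2.2 _ (by simp)
    · have : ∃ i ∈ [1, 2, 3, 4], p = pt i := by
        rcases hp with rfl | rfl | rfl | rfl
        · exact ⟨1, by simp, rfl⟩
        · exact ⟨2, by simp, rfl⟩
        · exact ⟨3, by simp, rfl⟩
        · exact ⟨4, by simp, rfl⟩
      obtain ⟨i, hi, rfl⟩ := this
      rw [Equiv.Perm.mul_apply, h i hi]; simp
  rw [inv_mul_eq_one] at h2
  exact h2.symm

theorem moved {x0 : Equiv.Perm Cfsg.GolayPt} (hP : Packs X0 x0) {k : Equiv.Perm Cfsg.GolayPt}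
    (hk : k ∈ C0 x0) {i : ℕ} (hi : i ∈ E8) : idx (k (pt i)) ∈ E8 := by
  rw [mem_C0] at hk
  have hE : ∀ i ∈ E8, i < 24 ∧ pt i ∈ D0 ∧ img X0 i ≠ i ∧ img X0 i < 24 := by decide +kernel
  obtain ⟨h1, h2, h3, h4⟩ := hE i hi
  apply E8_mem _ (idx_lt _)
  · rw [pt_idx]
    have : k • D0 = D0 := hk.1.2.1
    rw [← this]; exact mem_smul_iff.mpr h2
  · intro h
    have e1 := hP (k (pt i))
    rw [h] at e1
    have e2 : x0 (k (pt i)) = k (pt i) := idx_injective e1
    have e3 : k (x0 (pt i)) = x0 (k (pt i)) := by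
      have := congrArg (fun f : Equiv.Perm Cfsg.GolayPt => f (pt i)) hk.2
      exact this
    rw [e2] at e3
    have e4 := k.injective e3
    have e5 := hP (pt i)
    rw [e4, idx_pt h1] at e5
    exact h3 e5.symm

theorem enumC {x0 : Equiv.Perm Cfsg.GolayPt} (hP : Packs X0 x0) {k : Equiv.Perm Cfsg.GolayPt}
    (hk : k ∈ C0 x0) : ∃ P ∈ L48, Packs P k := by
  have m1 := moved hP hk (i := 1) (by decide)
  have m3 := moved hP hk (i := 3) (by decide)
  have hk2 := hk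
  rw [mem_C0] at hk2
  have i1 : x0 (pt 1) = pt 2 := hP.apply (by norm_num) (by decide +kernel)
  have i2 : x0 (pt 2) = pt 1 := hP.apply (by norm_num) (by decide +kernel)
  have i3 : x0 (pt 3) = pt 4 := hP.apply (by norm_num) (by decide +kernel)
  have comm : ∀ q, k (x0 q) = x0 (k q) := fun q => congrArg (fun f : Equiv.Perm Cfsg.GolayPt => f q) hk2.2
  rcases L48_tr _ m1 _ m3 with h | h | ⟨P, hPL, hP1, hP3⟩
  · exfalso
    have := k.injective (idx_injective h)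
    exact absurd this (by decide)
  · exfalso
    rw [← hP (k (pt 1)), ← comm, i1] at h
    have := k.injective (idx_injective h)
    exact absurd this (by decide)
  · refine ⟨P, hPL, ?_⟩
    have h5 := List.all_eq_true.mp L48_chk P hPL
    simp only [Bool.and_eq_true] at h5
    obtain ⟨h6, h7, h8, h9⟩ := h5
    obtain ⟨k', hk', hPk'⟩ := exists_of_good h6
    have hk'2 : k' ∈ PSd D0 [pt 0] := by
      refine ⟨hk', ?_, ?_⟩
      · rw [D0, ← toFS_mask (k' • toFS 0x7a0bf), hPk'.mask_smul, mask_toFS (by norm_num), Nat.eq_of_beq_eq_true h7]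
      · intro p hp
        rw [List.mem_singleton] at hp
        rw [hp, hPk'.apply (by norm_num) (Nat.eq_of_beq_eq_true h8)]
    have comm' : ∀ q, k' (x0 q) = x0 (k' q) := fun q => congrArg (fun f : Equiv.Perm Cfsg.GolayPt => f q) ((commB_iff hPk' hP).mp h9)
    have e1 : k (pt 1) = k' (pt 1) := by
      apply idx_injective
      rw [hPk', ← hP1]; rfl
    have e3 : k (pt 3) = k' (pt 3) := by
      apply idx_injective
      rw [hPk', ← hP3]; rfl
    have e2 : k (pt 2) = k' (pt 2) := by rw [← i1, comm, comm', e1]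
    have e4 : k (pt 4) = k' (pt 4) := by rw [← i3, comm, comm', e3]
    rw [unique5 hk2.1 hk'2 (by
      intro i hi
      simp only [List.mem_cons, List.not_mem_nil, or_false] at hi
      rcases hi with rfl | rfl | rfl | rfl <;> assumption)]
    exact hPk'

theorem lin {x0 : Equiv.Perm Cfsg.GolayPt} (hP : Packs X0 x0) {k : Equiv.Perm Cfsg.GolayPt}
    (hk : k ∈ C0 x0) {i : ℕ} (hi : i ∈ E8) :
    vx (idx (k (pt i))) = vx (idx (k (pt 1))) * vx i + vx (idx (k (pt 3))) * vy i ∧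
    vy (idx (k (pt i))) = vy (idx (k (pt 1))) * vx i + vy (idx (k (pt 3))) * vy i := by
  obtain ⟨P, hPL, hPk⟩ := enumC hP hk
  have h := L48_lin P hPL i hi
  have hi24 : i < 24 := by
    have : ∀ i ∈ E8, i < 24 := by decide
    exact this i hi
  rw [hPk, hPk, hPk, idx_pt hi24, idx_pt (by norm_num), idx_pt (by norm_num)]
  exact h.2

/-- the matrix of an element -/
def mat (x0 : Equiv.Perm Cfsg.GolayPt) (hP : Packs X0 x0) : C0 x0 →* Matrix (Fin 2) (Fin 2) (ZMod 3) where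
  toFun k := !![vx (idx ((k : Equiv.Perm Cfsg.GolayPt) (pt 1))), vx (idx ((k : Equiv.Perm Cfsg.GolayPt) (pt 3)));
    vy (idx ((k : Equiv.Perm Cfsg.GolayPt) (pt 1))), vy (idx ((k : Equiv.Perm Cfsg.GolayPt) (pt 3)))]
  map_one' := by
    show !![vx (idx (pt 1)), vx (idx (pt 3)); vy (idx (pt 1)), vy (idx (pt 3))] = 1
    rw [idx_pt (by norm_num), idx_pt (by norm_num)]
    decide
  map_mul' a b := by
    have m1 := lin hP a.2 (moved hP b.2 (i := 1) (by decide))
    have m3 := lin hP a.2 (moved hP b.2 (i := 3) (by decide))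
    rw [pt_idx] at m1 m3
    show !![vx (idx (((a : Equiv.Perm Cfsg.GolayPt) ((b : Equiv.Perm Cfsg.GolayPt) (pt 1))))), vx (idx (((a : Equiv.Perm Cfsg.GolayPt) ((b : Equiv.Perm Cfsg.GolayPt) (pt 3)))));
      vy (idx (((a : Equiv.Perm Cfsg.GolayPt) ((b : Equiv.Perm Cfsg.GolayPt) (pt 1))))), vy (idx (((a : Equiv.Perm Cfsg.GolayPt) ((b : Equiv.Perm Cfsg.GolayPt) (pt 3)))))] = _
    rw [m1.1, m1.2, m3.1, m3.2, Matrix.mul_fin_two]

theorem mat_inj (x0 : Equiv.Perm Cfsg.GolayPt) (hP : Packs X0 x0) : Function.Injective (mat x0 hP) := by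
  intro a b hab
  have a2 := (mem_C0.mp a.2)
  have b2 := (mem_C0.mp b.2)
  have h00 := congrFun (congrFun hab 0) 0
  have h01 := congrFun (congrFun hab 0) 1
  have h10 := congrFun (congrFun hab 1) 0
  have h11 := congrFun (congrFun hab 1) 1
  have e1 : (a : Equiv.Perm Cfsg.GolayPt) (pt 1) = (b : Equiv.Perm Cfsg.GolayPt) (pt 1) :=
    idx_injective (vec_inj _ (moved hP a.2 (by decide)) _ (moved hP b.2 (by decide)) h00 h10)
  have e3 : (a : Equiv.Perm Cfsg.GolayPt) (pt 3) = (b : Equiv.Perm Cfsg.GolayPt) (pt 3) :=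
    idx_injective (vec_inj _ (moved hP a.2 (by decide)) _ (moved hP b.2 (by decide)) h01 h11)
  have i1 : x0 (pt 1) = pt 2 := hP.apply (by norm_num) (by decide +kernel)
  have i3 : x0 (pt 3) = pt 4 := hP.apply (by norm_num) (by decide +kernel)
  have ca : ∀ q, (a : Equiv.Perm Cfsg.GolayPt) (x0 q) = x0 ((a : Equiv.Perm Cfsg.GolayPt) q) := fun q => congrArg (fun f : Equiv.Perm Cfsg.GolayPt => f q) a2.2
  have cb : ∀ q, (b : Equiv.Perm Cfsg.GolayPt) (x0 q) = x0 ((b : Equiv.Perm Cfsg.GolayPt) q) := fun q => congrArg (fun f : Equiv.Perm Cfsg.GolayPt => f q) b2.2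
  have e2 : (a : Equiv.Perm Cfsg.GolayPt) (pt 2) = (b : Equiv.Perm Cfsg.GolayPt) (pt 2) := by rw [← i1, ca, cb, e1]
  have e4 : (a : Equiv.Perm Cfsg.GolayPt) (pt 4) = (b : Equiv.Perm Cfsg.GolayPt) (pt 4) := by rw [← i3, ca, cb, e3]
  apply Subtype.ext
  exact unique5 a2.1 b2.1 (by
      intro i hi
      simp only [List.mem_cons, List.not_mem_nil, or_false] at hi
      rcases hi with rfl | rfl | rfl | rfl <;> assumption)

theorem mat_surj (x0 : Equiv.Perm Cfsg.GolayPt) (hP : Packs X0 x0) (M : Matrix (Fin 2) (Fin 2) (ZMod 3)) (hM : M.det ≠ 0) :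
    ∃ k, mat x0 hP k = M := by
  rw [Matrix.det_fin_two] at hM
  obtain ⟨P, hPL, h1, h2, h3, h4⟩ := L48_surj _ _ _ _ hM
  have h5 := List.all_eq_true.mp L48_chk P hPL
  simp only [Bool.and_eq_true] at h5
  obtain ⟨h6, h7, h8, h9⟩ := h5
  obtain ⟨k', hk', hPk'⟩ := exists_of_good h6
  have hk'2 : k' ∈ PSd D0 [pt 0] := by
    refine ⟨hk', ?_, ?_⟩
    · rw [D0, ← toFS_mask (k' • toFS 0x7a0bf), hPk'.mask_smul, mask_toFS (by norm_num), Nat.eq_of_beq_eq_true h7]
    · intro p hp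
      rw [List.mem_singleton] at hp
      rw [hp, hPk'.apply (by norm_num) (Nat.eq_of_beq_eq_true h8)]
  refine ⟨⟨k', mem_C0.mpr ⟨hk'2, (commB_iff hPk' hP).mp h9⟩⟩, ?_⟩
  show !![vx (idx (k' (pt 1))), vx (idx (k' (pt 3))); vy (idx (k' (pt 1))), vy (idx (k' (pt 3)))] = M
  rw [hPk', hPk', idx_pt (by norm_num), idx_pt (by norm_num), h1, h2, h3, h4]
  exact (Matrix.eta_fin_two M).symm

theorem equivGL (x0 : Equiv.Perm Cfsg.GolayPt) (hP : Packs X0 x0) : Nonempty (C0 x0 ≃* GL (Fin 2) (ZMod 3)) := by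
  refine ⟨MulEquiv.ofBijective (mat x0 hP).toHomUnits ⟨?_, ?_⟩⟩
  · intro a b h
    apply mat_inj x0 hP
    exact congrArg Units.val h
  · intro M
    obtain ⟨k, hk⟩ := mat_surj x0 hP (M : Matrix (Fin 2) (Fin 2) (ZMod 3)) (by
      have := M.isUnit
      rw [Matrix.isUnit_iff_isUnit_det] at this
      exact this.ne_zero)
    exact ⟨k, Units.ext hk⟩

/-- every involution is conjugate to the base one -/
theorem conj_base {d : Finset Cfsg.GolayPt} (hd : d ∈ Cfsg.dodecads) {p : Cfsg.GolayPt} (hp : p ∈ d) {x x0 : Equiv.Perm Cfsg.GolayPt}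
    (hx : x ∈ PSd d [p]) (h1 : x ≠ 1) (h2 : x * x = 1) (h0 : x0 ∈ PSd D0 [pt 0]) (hP : Packs X0 x0) :
    ∃ g ∈ Cfsg.M24, g • d = D0 ∧ g p = pt 0 ∧ g * x * g⁻¹ = x0 := by
  have hd12 : d.card = 12 := hd.2
  have key : ∀ s : Finset Cfsg.GolayPt, s.card ≤ 3 → ∃ u ∈ d, u ∉ s ∧ x u ≠ u := by
    intro s hs
    by_contra hcon
    push Not at hcon
    have h3 : 5 ≤ (d \ s).card := by
      have := Finset.le_card_sdiff s d
      omega
    obtain ⟨l, hl, hl5, hls⟩ := exists_list_of_le_card h3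
    apply h1
    apply dod_unique hd hx.1 hx.2.1 hl (fun q hq => (Finset.mem_sdiff.mp (hls q hq)).1) hl5
    intro q hq
    exact hcon q (Finset.mem_sdiff.mp (hls q hq)).1 (Finset.mem_sdiff.mp (hls q hq)).2
  have hxx : ∀ q, x (x q) = q := fun q => congrArg (fun f : Equiv.Perm Cfsg.GolayPt => f q) h2
  have hxp : x p = p := hx.2.2 p (by simp)
  obtain ⟨u, hu, -, hxu⟩ := key ∅ (by simp)
  obtain ⟨w, hw, hwn, hxw⟩ := key {u, x u} (Finset.card_le_two.trans (by norm_num))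
  have hxu' : x u ∈ d := PSd_apply_mem hx hu
  have hxw' : x w ∈ d := PSd_apply_mem hx hw
  have hwu : w ≠ u := fun h => hwn (by simp [h])
  have hwxu : w ≠ x u := fun h => hwn (by simp [h])
  have hnd : [p, u, x u, w, x w].Nodup := by
    have a1 : p ≠ u := by rintro rfl; exact hxu hxp
    have a2 : p ≠ x u := by intro h; apply hxu; rw [← h]; have := hxx u; rw [← h, hxp] at this; exact this
    have a3 : p ≠ w := by rintro rfl; exact hxw hxp
    have a4 : p ≠ x w := by intro h; apply hxw; rw [← h]; have := hxx w; rw [← h, hxp] at this; exact this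
    have a5 : u ≠ x w := by rintro rfl; exact hwxu (hxx w).symm
    have a6 : x u ≠ x w := fun h => hwu (x.injective h).symm
    simp only [List.nodup_cons, List.mem_cons, List.not_mem_nil, or_false, not_or, List.nodup_nil, and_true, not_false_eq_true]
    exact ⟨⟨a1, a2, a3, a4⟩, ⟨hxu.symm, hwu.symm, a5⟩, ⟨hwxu.symm, a6⟩, hxw.symm⟩
  obtain ⟨g, hg, hgd, hgl⟩ := dod_trans hd D0_mem hnd (l' := [pt 0, pt 1, pt 2, pt 3, pt 4]) (by decide)
    (by
      intro q hq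
      simp only [List.mem_cons, List.not_mem_nil, or_false] at hq
      rcases hq with rfl | rfl | rfl | rfl | rfl <;> assumption) mem_D0_base rfl (by norm_num)
  simp only [List.map_cons, List.map_nil, List.cons.injEq, and_true] at hgl
  obtain ⟨g0, g1, g2, g3, g4⟩ := hgl
  refine ⟨g, hg, hgd, g0, ?_⟩
  have hinv : ∀ {q a : Cfsg.GolayPt}, g q = a → g⁻¹ a = q := fun h => by rw [← h]; simp
  apply unique5 _ h0
  · intro i hi
    simp only [List.mem_cons, List.not_mem_nil, or_false] at hi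
    rw [Equiv.Perm.mul_apply, Equiv.Perm.mul_apply]
    rcases hi with rfl | rfl | rfl | rfl
    · rw [hinv g1, g2, hP.apply (i := 1) (j := 2) (by norm_num) (by decide +kernel)]
    · rw [hinv g2, hxx, g1, hP.apply (i := 2) (j := 1) (by norm_num) (by decide +kernel)]
    · rw [hinv g3, g4, hP.apply (i := 3) (j := 4) (by norm_num) (by decide +kernel)]
    · rw [hinv g4, hxx, g3, hP.apply (i := 4) (j := 3) (by norm_num) (by decide +kernel)]
  · refine ⟨M24_mul (M24_mul hg hx.1) (inv_mem hg), ?_, ?_⟩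
    · have h5 : x • d = d := hx.2.1
      rw [mul_smul, mul_smul, inv_smul_eq_iff.mpr hgd.symm, h5, hgd]
    · intro q hq
      rw [List.mem_singleton] at hq
      rw [hq, Equiv.Perm.mul_apply, Equiv.Perm.mul_apply, hinv g0, hxp, g0]

end


/-- Involution centralisers in the smallest Mathieu group are isomorphic to GL(2, 3). -/
theorem result (d : Finset Cfsg.GolayPt) (hd : d ∈ Cfsg.dodecads) (p : Cfsg.GolayPt) (hp : p ∈ d) (x : ↥(MulAction.stabilizer Cfsg.M24 d ⊓ MulAction.stabilizer Cfsg.M24 p)) (hx : orderOf x = 2) : Nonempty (↥(Subgroup.centralizer ({x} : Set ↥(MulAction.stabilizer Cfsg.M24 d ⊓ MulAction.stabilizer Cfsg.M24 p))) ≃* GL (Fin 2) (ZMod 3)) := by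
  obtain ⟨x0, hx0, hP, -⟩ := exists_x0
  have hx1 : (((x : Cfsg.M24) : Equiv.Perm Cfsg.GolayPt)) ≠ 1 := by
    intro h
    have : x = 1 := Subtype.ext (Subtype.ext h)
    rw [this, orderOf_one] at hx
    omega
  have hx2 : (((x : Cfsg.M24) : Equiv.Perm Cfsg.GolayPt)) * (((x : Cfsg.M24) : Equiv.Perm Cfsg.GolayPt)) = 1 := by
    have h1 := pow_orderOf_eq_one x
    rw [hx, pow_two] at h1
    exact congrArg (fun y : ↥(MulAction.stabilizer Cfsg.M24 d ⊓ MulAction.stabilizer Cfsg.M24 p) => ((y : Cfsg.M24) : Equiv.Perm Cfsg.GolayPt)) h1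
  have memH : ∀ g (hg : g ∈ Cfsg.M24), (⟨g, hg⟩ : Cfsg.M24) ∈ MulAction.stabilizer Cfsg.M24 d ⊓ MulAction.stabilizer Cfsg.M24 p ↔ g ∈ CfsgLib.Golay.PSd d [p] := by
    intro g hg
    constructor
    · rintro ⟨h1, h2⟩
      exact ⟨hg, h1, fun q hq => by rw [List.mem_singleton] at hq; rw [hq]; exact h2⟩
    · rintro ⟨_, h1, h2⟩
      exact ⟨h1, h2 p (by simp)⟩
  obtain ⟨g, hg, hgd, hgp, hgx⟩ := conj_base hd hp ((memH _ (x : Cfsg.M24).2).mp x.2) hx1 hx2 hx0 hP
  obtain ⟨e⟩ := equivGL x0 hP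
  refine ⟨MulEquiv.trans ?_ e⟩
  have conjmem : ∀ k : Equiv.Perm Cfsg.GolayPt, g * k * g⁻¹ ∈ CfsgLib.Golay.PSd CfsgLib.Golay.D0 [CfsgLib.Golay.pt 0] ↔ k ∈ CfsgLib.Golay.PSd d [p] := by
    intro k
    have hgi : g⁻¹ • CfsgLib.Golay.D0 = d := by rw [inv_smul_eq_iff]; exact hgd.symm
    have hpi : g⁻¹ (CfsgLib.Golay.pt 0) = p := by rw [← hgp]; simp
    constructor
    · rintro ⟨h1, h2, h3⟩
      refine ⟨?_, ?_, ?_⟩
      · have := CfsgLib.Golay.M24_mul (CfsgLib.Golay.M24_mul (inv_mem hg) h1) hg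
        simpa [mul_assoc] using this
      · rw [mul_smul, mul_smul, hgi, ← hgd] at h2
        exact smul_left_cancel g h2
      · intro q hq
        rw [List.mem_singleton] at hq
        have h4 := h3 (CfsgLib.Golay.pt 0) (by simp)
        rw [Equiv.Perm.mul_apply, Equiv.Perm.mul_apply, hpi, ← hgp] at h4
        rw [hq]; exact g.injective h4
    · rintro ⟨h1, h2, h3⟩
      refine ⟨CfsgLib.Golay.M24_mul (CfsgLib.Golay.M24_mul hg h1) (inv_mem hg), ?_, ?_⟩
      · rw [mul_smul, mul_smul, hgi, h2, hgd]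
      · intro q hq
        rw [List.mem_singleton] at hq
        rw [hq, Equiv.Perm.mul_apply, Equiv.Perm.mul_apply, hpi, h3 p (by simp), hgp]
  have comm : ∀ k : Equiv.Perm Cfsg.GolayPt, (g * k * g⁻¹) * x0 = x0 * (g * k * g⁻¹) ↔ k * (((x : Cfsg.M24) : Equiv.Perm Cfsg.GolayPt)) = (((x : Cfsg.M24) : Equiv.Perm Cfsg.GolayPt)) * k := by
    intro k
    rw [← hgx]
    have e1 : g * k * g⁻¹ * (g * (((x : Cfsg.M24) : Equiv.Perm Cfsg.GolayPt)) * g⁻¹) = g * (k * (((x : Cfsg.M24) : Equiv.Perm Cfsg.GolayPt))) * g⁻¹ := by group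
    have e2 : g * (((x : Cfsg.M24) : Equiv.Perm Cfsg.GolayPt)) * g⁻¹ * (g * k * g⁻¹) = g * ((((x : Cfsg.M24) : Equiv.Perm Cfsg.GolayPt)) * k) * g⁻¹ := by group
    rw [e1, e2]
    exact ⟨fun h => mul_left_cancel (mul_right_cancel h), fun h => by rw [h]⟩
  have memC : ∀ k : ↥(MulAction.stabilizer Cfsg.M24 d ⊓ MulAction.stabilizer Cfsg.M24 p), k ∈ Subgroup.centralizer ({x} : Set ↥(MulAction.stabilizer Cfsg.M24 d ⊓ MulAction.stabilizer Cfsg.M24 p)) ↔
      (((k : Cfsg.M24) : Equiv.Perm Cfsg.GolayPt)) * (((x : Cfsg.M24) : Equiv.Perm Cfsg.GolayPt)) = (((x : Cfsg.M24) : Equiv.Perm Cfsg.GolayPt)) * (((k : Cfsg.M24) : Equiv.Perm Cfsg.GolayPt)) := by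
    intro k
    rw [Subgroup.mem_centralizer_singleton_iff]
    constructor
    · intro h
      exact congrArg (fun y : ↥(MulAction.stabilizer Cfsg.M24 d ⊓ MulAction.stabilizer Cfsg.M24 p) => ((y : Cfsg.M24) : Equiv.Perm Cfsg.GolayPt)) h
    · intro h
      exact Subtype.ext (Subtype.ext h)
  exact
    { toFun := fun k => ⟨g * (((k.1 : Cfsg.M24) : Equiv.Perm Cfsg.GolayPt)) * g⁻¹, mem_C0.mpr ⟨(conjmem _).mpr ((memH _ (k.1 : Cfsg.M24).2).mp k.1.2), (comm _).mpr ((memC k.1).mp k.2)⟩⟩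
      invFun := fun k => ⟨⟨⟨g⁻¹ * k.1 * g, by
        have := (mem_C0.mp k.2).1.1
        exact CfsgLib.Golay.M24_mul (CfsgLib.Golay.M24_mul (inv_mem hg) this) hg⟩, (memH _ _).mpr ((conjmem _).mp (by
          have e : g * (g⁻¹ * k.1 * g) * g⁻¹ = k.1 := by group
          rw [e]; exact (mem_C0.mp k.2).1))⟩, (memC _).mpr ((comm _).mp (by
          have e : g * (g⁻¹ * k.1 * g) * g⁻¹ = k.1 := by group
          show g * (g⁻¹ * k.1 * g) * g⁻¹ * x0 = x0 * (g * (g⁻¹ * k.1 * g) * g⁻¹)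
          rw [e]; exact (mem_C0.mp k.2).2))⟩
      left_inv := fun k => by
        apply Subtype.ext; apply Subtype.ext; apply Subtype.ext
        show g⁻¹ * (g * _ * g⁻¹) * g = _
        group
      right_inv := fun k => by
        apply Subtype.ext
        show g * (g⁻¹ * _ * g) * g⁻¹ = _
        group
      map_mul' := fun a b => by
        apply Subtype.ext
        show g * (_ * _) * g⁻¹ = g * _ * g⁻¹ * (g * _ * g⁻¹)
        group }

end Cfsg.Agent.S1603
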