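import Cfsg.Statements.S1604
import Cfsg.Agent.Lib.GolayPairs

set_option autoImplicit false
open scoped Pointwise
open Cfsg

open scoped Pointwise
namespace Cfsg.Agent.S1604

section
open CfsgLib.Golay
theorem cnt (p q : Cfsg.GolayPt) (hpq : p ≠ q) (o : Finset Cfsg.GolayPt) (ho : o ∈ Cfsg.octads) (hp : p ∈ o) (hq : q ∈ o) (k n : ℕ)
    (h : cntC (fun m => and (Nat.beq (pop m) 8) (and (Nat.beq (Nat.land m 3) 3) (Nat.beq (pop (Nat.land 5279 m)) k))) rows 0 = n) :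
    {x : Finset Cfsg.GolayPt | x ∈ Cfsg.octads ∧ p ∈ x ∧ q ∈ x ∧ (o ∩ x).card = k}.ncard = n := by
  have h8 : o.card = 8 := ho.2
  obtain ⟨l, hl, h6, hlo⟩ := exists_extend_in o 6 (by omega) [p, q] (by simp [hpq]) (by simp [hp, hq]) (by simp)
  obtain ⟨x, hx⟩ := exists_not_mem_octad ho
  obtain ⟨g, hg, hgo, hgl, _⟩ := frame_list ho hl h6 hlo hx
  have hgl2 := app_left (m := [pt 0, pt 1]) hgl rfl
  simp only [List.map_cons, List.map_nil, List.cons.injEq, and_true] at hgl2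
  rw [ncard_transfer g _ (fun x => x ∈ Cfsg.octads ∧ pt 0 ∈ x ∧ pt 1 ∈ x ∧ (O0 ∩ x).card = k)]
  · apply count_code _ _ h
    intro s
    rw [octads_iff', Bool.and_eq_true, Bool.and_eq_true, and_assoc, O0, inter_card_eq (by norm_num), Nat.beq_eq, Nat.beq_eq, Nat.beq_eq]
    apply and_congr_right
    intro _
    apply and_congr_right
    intro _
    rw [← and_assoc]
    apply and_congr_left
    intro _
    have h1 : Nat.land (mask s) 3 = mask (s ∩ {pt 0, pt 1}) := by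
      rw [mask_inter]
      have : mask {pt 0, pt 1} = 3 := by decide +kernel
      rw [this]; rfl
    have h2 : (3 : ℕ) = mask {pt 0, pt 1} := by decide +kernel
    rw [h1]
    constructor
    · rintro ⟨h3, h4⟩
      rw [h2]; congr 1
      rw [Finset.inter_eq_right]
      intro z hz
      simp only [Finset.mem_insert, Finset.mem_singleton] at hz
      rcases hz with rfl | rfl <;> assumption
    · intro h3
      rw [h2] at h3
      have h4 : s ∩ {pt 0, pt 1} = {pt 0, pt 1} := by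
        rw [← toFS_mask (s ∩ {pt 0, pt 1}), h3, toFS_mask]
      rw [Finset.inter_eq_right] at h4
      exact ⟨h4 (by simp), h4 (by simp)⟩
  · intro s
    rw [smul_mem_octads hg, ← hgo, ← smul_inter', card_smul', ← hgl2.1, ← hgl2.2, mem_smul_iff, mem_smul_iff]
theorem aux (p q : Cfsg.GolayPt) (hpq : p ≠ q) (o o' o'' : Finset Cfsg.GolayPt) (ho : o ∈ Cfsg.octads) (ho' : o' ∈ Cfsg.octads) (ho'' : o'' ∈ Cfsg.octads) (hp : p ∈ o ∧ p ∈ o' ∧ p ∈ o'') (hq : q ∈ o ∧ q ∈ o' ∧ q ∈ o'') (h : (o ∩ o').card = (o ∩ o'').card) :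
    ∃ g : Equiv.Perm Cfsg.GolayPt, g ∈ Cfsg.M24 ∧ g p = p ∧ g q = q ∧ g • o = o ∧ g • o' = o'' := by
  have h8 : o.card = 8 := ho.2
  have hp1 : p ∈ o ∩ o' := Finset.mem_inter.mpr ⟨hp.1, hp.2.1⟩
  have hq1 : q ∈ o ∩ o' := Finset.mem_inter.mpr ⟨hq.1, hq.2.1⟩
  have hp2 : p ∈ o ∩ o'' := Finset.mem_inter.mpr ⟨hp.1, hp.2.2⟩
  have hq2 : q ∈ o ∩ o'' := Finset.mem_inter.mpr ⟨hq.1, hq.2.2⟩
  by_cases h1 : o = o'
  · subst h1
    rw [Finset.inter_self, h8] at h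
    have : o = o'' := eq_of_five ho ho'' (by omega)
    exact ⟨1, one_mem _, rfl, rfl, one_smul _ _, by rw [one_smul, this]⟩
  by_cases h2 : o = o''
  · subst h2
    rw [Finset.inter_self, h8] at h
    exact absurd (eq_of_five ho ho' (by omega)) h1
  rcases octad_inter_octad ho ho' h1 with h3 | h3 | h3
  · rw [Finset.card_eq_zero.mp h3] at hp1; simp at hp1
  · obtain ⟨g, hg, e1, e2, e3, e4⟩ := pair2 ho ho' h3 hp1 hq1 hpq
    obtain ⟨k, hk, f1, f2, f3, f4⟩ := pair2 ho ho'' (h ▸ h3) hp2 hq2 hpq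
    obtain ⟨c1, c2, c3⟩ := combine hg hk e1 e2 f1 f2
    exact ⟨_, c1, combine_pt e3 f3, combine_pt e4 f4, c2, c3⟩
  · obtain ⟨l, hl, hl4, hlo⟩ := exists_extend_in (o ∩ o') 4 h3.ge [p, q] (by simp [hpq]) (by simp [hp, hq]) (by simp)
    obtain ⟨l', hl', hl4', hlo'⟩ := exists_extend_in (o ∩ o'') 4 (h ▸ h3).ge [p, q] (by simp [hpq]) (by simp [hp, hq]) (by simp)
    obtain ⟨g, hg, e1, e2, e3⟩ := pair4 ho ho' h3 hl hl4 hlo
    obtain ⟨k, hk, f1, f2, f3⟩ := pair4 ho ho'' (h ▸ h3) hl' hl4' hlo'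
    obtain ⟨c1, c2, c3⟩ := combine hg hk e1 e2 f1 f2
    have g2 := app_left (m := [pt 0, pt 1]) (m' := [pt 2, pt 3]) e3 rfl
    have k2 := app_left (m := [pt 0, pt 1]) (m' := [pt 2, pt 3]) f3 rfl
    simp only [List.map_cons, List.map_nil, List.cons.injEq, and_true] at g2 k2
    exact ⟨_, c1, combine_pt g2.1 k2.1, combine_pt g2.2 k2.2, c2, c3⟩
end


/-- A hexad stabiliser in the two-point stabiliser has orbits of sizes 1, 16, 60 on the 77 hexads: the 16 hexads disjoint from it and the 60 meeting it in two points. -/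
theorem result (p q : Cfsg.GolayPt) (hpq : p ≠ q) (o o' o'' : Finset Cfsg.GolayPt) (ho : o ∈ Cfsg.octads) (ho' : o' ∈ Cfsg.octads) (ho'' : o'' ∈ Cfsg.octads) (hp : p ∈ o ∧ p ∈ o' ∧ p ∈ o'') (hq : q ∈ o ∧ q ∈ o' ∧ q ∈ o'') (h : (o ∩ o').card = (o ∩ o'').card) : {x : Finset Cfsg.GolayPt | x ∈ Cfsg.octads ∧ p ∈ x ∧ q ∈ x ∧ (o ∩ x).card = 2}.ncard = 16 ∧ {x : Finset Cfsg.GolayPt | x ∈ Cfsg.octads ∧ p ∈ x ∧ q ∈ x ∧ (o ∩ x).card = 4}.ncard = 60 ∧ ∃ g : Equiv.Perm Cfsg.GolayPt, g ∈ Cfsg.M24 ∧ g p = p ∧ g q = q ∧ g • o = o ∧ g • o' = o'' := by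
  exact ⟨cnt p q hpq o ho hp.1 hq.1 2 16 (by decide +kernel), cnt p q hpq o ho hp.1 hq.1 4 60 (by decide +kernel), aux p q hpq o o' o'' ho ho' ho'' hp hq h⟩

end Cfsg.Agent.S1604
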