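import Cfsg.Statements.S1605
import Cfsg.Agent.Lib.GolayPairs

set_option autoImplicit false
open scoped Pointwise
open Cfsg

open scoped Pointwise
namespace Cfsg.Agent.S1605

section
open CfsgLib.Golay
theorem cnt0 (p q : Cfsg.GolayPt) (hpq : p ≠ q) : {x : Finset Cfsg.GolayPt | (x ∈ Cfsg.octads ∧ p ∈ x ∧ q ∉ x)}.ncard = 176 := by
  obtain ⟨g, hg, hgl⟩ := trans_list (l := [p, q]) (l' := [pt 0, pt 1]) (by simp [hpq]) (by decide) rfl (by simp)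
  simp only [List.map_cons, List.map_nil, List.cons.injEq, and_true] at hgl
  rw [ncard_transfer g _ (fun x => x ∈ Cfsg.octads ∧ pt 0 ∈ x ∧ pt 1 ∉ x)]
  · apply count_code (fun m => and (Nat.beq (pop m) 8) (and (Nat.testBit m 0) (not (Nat.testBit m 1)))) _ (by decide +kernel)
    intro s
    rw [octads_iff', Bool.and_eq_true, Bool.and_eq_true, and_assoc, mem_pt_iff (by norm_num), mem_pt_iff (by norm_num), Bool.not_eq_true, Bool.not_eq_true']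
  · intro s
    rw [smul_mem_octads hg, ← hgl.1, ← hgl.2, mem_smul_iff, mem_smul_iff]
theorem cnt (p q : Cfsg.GolayPt) (o : Finset Cfsg.GolayPt) (ho : o ∈ Cfsg.octads) (hp : p ∈ o) (hq : q ∉ o) (k n : ℕ)
    (h : cntC (fun m => and (Nat.beq (pop m) 8) (and (Nat.testBit m 0) (and (not (Nat.testBit m 5)) (Nat.beq (pop (Nat.land 5279 m)) k)))) rows 0 = n) :
    {x : Finset Cfsg.GolayPt | (x ∈ Cfsg.octads ∧ p ∈ x ∧ q ∉ x) ∧ (o ∩ x).card = k}.ncard = n := by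
  have h8 : o.card = 8 := ho.2
  obtain ⟨l, hl, h6, hlo⟩ := exists_extend_in o 6 (by omega) [p] (by simp) (by simp [hp]) (by simp)
  obtain ⟨g, hg, hgo, hgl, hgx⟩ := frame_list ho hl h6 hlo hq
  have hgl2 := app_left (m := [pt 0]) hgl rfl
  simp only [List.map_cons, List.map_nil, List.cons.injEq, and_true] at hgl2
  rw [ncard_transfer g _ (fun x => (x ∈ Cfsg.octads ∧ pt 0 ∈ x ∧ pt 5 ∉ x) ∧ (O0 ∩ x).card = k)]
  · apply count_code _ _ h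
    intro s
    rw [octads_iff', Bool.and_eq_true, Bool.and_eq_true, Bool.and_eq_true, and_assoc, and_assoc, and_assoc, O0, inter_card_eq (by norm_num), Nat.beq_eq, Nat.beq_eq,
      mem_pt_iff (by norm_num), mem_pt_iff (by norm_num), Bool.not_eq_true, Bool.not_eq_true']
  · intro s
    rw [smul_mem_octads hg, ← hgo, ← smul_inter', card_smul', ← hgx, mem_smul_iff, ← hgl2, mem_smul_iff]
theorem aux0 (p q : Cfsg.GolayPt) (o o' : Finset Cfsg.GolayPt) (ho : (o ∈ Cfsg.octads ∧ p ∈ o ∧ q ∉ o)) (ho' : (o' ∈ Cfsg.octads ∧ p ∈ o' ∧ q ∉ o')) : ∃ g : Equiv.Perm Cfsg.GolayPt, g ∈ Cfsg.M24 ∧ g p = p ∧ g q = q ∧ g • o = o' := by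
  have key : ∀ o : Finset Cfsg.GolayPt, (o ∈ Cfsg.octads ∧ p ∈ o ∧ q ∉ o) → ∃ g ∈ Cfsg.M24, g p = pt 0 ∧ g q = pt 5 ∧ g • o = O0 := by
    rintro o ⟨ho, hp, hq⟩
    have h8 : o.card = 8 := ho.2
    obtain ⟨l, hl, h6, hlo⟩ := exists_extend_in o 6 (by omega) [p] (by simp) (by simp [hp]) (by simp)
    obtain ⟨g, hg, hgo, hgl, hgx⟩ := frame_list ho hl h6 hlo hq
    have hgl2 := app_left (m := [pt 0]) hgl rfl
    simp only [List.map_cons, List.map_nil, List.cons.injEq, and_true] at hgl2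
    exact ⟨g, hg, hgl2, hgx, hgo⟩
  obtain ⟨g, hg, e1, e2, e3⟩ := key o ho
  obtain ⟨k, hk, f1, f2, f3⟩ := key o' ho'
  obtain ⟨c1, c2, _⟩ := combine hg hk e3 e3 f3 f3
  exact ⟨_, c1, combine_pt e1 f1, combine_pt e2 f2, c2⟩
theorem aux (p x : Cfsg.GolayPt) (o : Finset Cfsg.GolayPt) (ho : o ∈ Cfsg.octads) (hp : p ∈ o) (hx : x ∉ o) (o' o'' : Finset Cfsg.GolayPt) (ho' : o' ∈ Cfsg.octads) (ho'' : o'' ∈ Cfsg.octads) (hp' : p ∈ o') (hp'' : p ∈ o'') (hx' : x ∉ o') (hx'' : x ∉ o'') (h : (o ∩ o').card = (o ∩ o'').card) :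
    ∃ g : Equiv.Perm Cfsg.GolayPt, g ∈ Cfsg.M24 ∧ g p = p ∧ g x = x ∧ g • o = o ∧ g • o' = o'' := by
  have h8 : o.card = 8 := ho.2
  have hp1 : p ∈ o ∩ o' := Finset.mem_inter.mpr ⟨hp, hp'⟩
  have hp2 : p ∈ o ∩ o'' := Finset.mem_inter.mpr ⟨hp, hp''⟩
  by_cases h1 : o = o'
  · subst h1
    rw [Finset.inter_self, h8] at h
    have : o = o'' := eq_of_five ho ho'' (by omega)
    exact ⟨1, one_mem _, rfl, rfl, one_smul _ _, by rw [one_smul, this]⟩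
  by_cases h2 : o = o''
  · subst h2
    rw [Finset.inter_self, h8] at h
    exact absurd (eq_of_five ho ho' (by omega)) h1
  rcases octad_inter_octad ho ho' h1 with h3 | h3 | h3
  · rw [Finset.card_eq_zero.mp h3] at hp1; simp at hp1
  · obtain ⟨g, hg, e1, e2, e4, e3⟩ := pair2x ho ho' h3 hp1 hx hx'
    obtain ⟨k, hk, f1, f2, f4, f3⟩ := pair2x ho ho'' (h ▸ h3) hp2 hx hx''
    obtain ⟨c1, c2, c3⟩ := combine hg hk e1 e2 f1 f2
    exact ⟨_, c1, combine_pt e4 f4, combine_pt e3 f3, c2, c3⟩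
  · obtain ⟨g, hg, e1, e2, e4, e3⟩ := pair4x ho ho' h3 hp1 hx hx'
    obtain ⟨k, hk, f1, f2, f4, f3⟩ := pair4x ho ho'' (h ▸ h3) hp2 hx hx''
    obtain ⟨c1, c2, c3⟩ := combine hg hk e1 e2 f1 f2
    exact ⟨_, c1, combine_pt e4 f4, combine_pt e3 f3, c2, c3⟩
end


/-- The two-point stabiliser acts on the 176 octads through the first point avoiding the second with rank 3 and subdegrees 1, 70, 105 (intersections 8, 2, 4). -/
theorem result (p q : Cfsg.GolayPt) (hpq : p ≠ q) : {x : Finset Cfsg.GolayPt | (x ∈ Cfsg.octads ∧ p ∈ x ∧ q ∉ x)}.ncard = 176 ∧ (∀ o o' : Finset Cfsg.GolayPt, (o ∈ Cfsg.octads ∧ p ∈ o ∧ q ∉ o) → (o' ∈ Cfsg.octads ∧ p ∈ o' ∧ q ∉ o') → ∃ g : Equiv.Perm Cfsg.GolayPt, g ∈ Cfsg.M24 ∧ g p = p ∧ g q = q ∧ g • o = o') ∧ ∀ o : Finset Cfsg.GolayPt, (o ∈ Cfsg.octads ∧ p ∈ o ∧ q ∉ o) → {x : Finset Cfsg.GolayPt | (x ∈ Cfsg.octads ∧ p ∈ x ∧ q ∉ x)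 ∧ (o ∩ x).card = 2}.ncard = 70 ∧ {x : Finset Cfsg.GolayPt | (x ∈ Cfsg.octads ∧ p ∈ x ∧ q ∉ x) ∧ (o ∩ x).card = 4}.ncard = 105 ∧ ∀ o' o'' : Finset Cfsg.GolayPt, (o' ∈ Cfsg.octads ∧ p ∈ o' ∧ q ∉ o') → (o'' ∈ Cfsg.octads ∧ p ∈ o'' ∧ q ∉ o'') → (o ∩ o').card = (o ∩ o'').card → ∃ g : Equiv.Perm Cfsg.GolayPt, g ∈ Cfsg.M24 ∧ g p = p ∧ g q = q ∧ g • o = o ∧ g • o' = o'' := by
  refine ⟨cnt0 p q hpq, fun o o' ho ho' => aux0 p q o o' ho ho', fun o ho => ⟨cnt p q o ho.1 ho.2.1 ho.2.2 2 70 (by decide +kernel), cnt p q o ho.1 ho.2.1 ho.2.2 4 105 (by decide +kernel),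
    fun o' o'' ho' ho'' h => aux p q o ho.1 ho.2.1 ho.2.2 o' o'' ho'.1 ho''.1 ho'.2.1 ho''.2.1 ho'.2.2 ho''.2.2 h⟩⟩

end Cfsg.Agent.S1605
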