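import Cfsg.Statements.S1607
import Cfsg.Agent.Lib.GolayPairs

set_option autoImplicit false
open scoped Pointwise
open Cfsg

open scoped Pointwise
namespace Cfsg.Agent.S1607

section
open CfsgLib.Golay
theorem cnt (p : Cfsg.GolayPt) (o : Finset Cfsg.GolayPt) (ho : o ∈ Cfsg.octads) (hp : p ∈ o) (k n : ℕ)
    (h : cntC (fun m => and (Nat.beq (pop m) 8) (and (Nat.testBit m 0) (Nat.beq (pop (Nat.land 5279 m)) k))) rows 0 = n) :
    {x : Finset Cfsg.GolayPt | x ∈ Cfsg.octads ∧ p ∈ x ∧ (o ∩ x).card = k}.ncard = n := by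
  have h8 : o.card = 8 := ho.2
  obtain ⟨l, hl, h6, hlo⟩ := exists_extend_in o 6 (by omega) [p] (by simp) (by simp [hp]) (by simp)
  obtain ⟨x, hx⟩ := exists_not_mem_octad ho
  obtain ⟨g, hg, hgo, hgl, _⟩ := frame_list ho hl h6 hlo hx
  have hgl2 := app_left (m := [pt 0]) hgl rfl
  simp only [List.map_cons, List.map_nil, List.cons.injEq, and_true] at hgl2
  rw [ncard_transfer g _ (fun x => x ∈ Cfsg.octads ∧ pt 0 ∈ x ∧ (O0 ∩ x).card = k)]
  · apply count_code _ _ h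
    intro s
    rw [octads_iff', Bool.and_eq_true, Bool.and_eq_true, and_assoc, O0, inter_card_eq (by norm_num), Nat.beq_eq, Nat.beq_eq,
      mem_pt_iff (by norm_num)]
  · intro s
    rw [smul_mem_octads hg, ← hgo, ← smul_inter', card_smul', ← hgl2, mem_smul_iff]
theorem aux (x : Cfsg.GolayPt) (o : Finset Cfsg.GolayPt) (ho : o ∈ Cfsg.octads) (hx : x ∈ o) (o' o'' : Finset Cfsg.GolayPt) (ho' : o' ∈ Cfsg.octads) (ho'' : o'' ∈ Cfsg.octads) (hx' : x ∈ o') (hx'' : x ∈ o'') (h : (o ∩ o').card = (o ∩ o'').card) :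
    ∃ g : Equiv.Perm Cfsg.GolayPt, g ∈ Cfsg.M24 ∧ g x = x ∧ g • o = o ∧ g • o' = o'' := by
  have h8 : o.card = 8 := ho.2
  have hp1 : x ∈ o ∩ o' := Finset.mem_inter.mpr ⟨hx, hx'⟩
  have hp2 : x ∈ o ∩ o'' := Finset.mem_inter.mpr ⟨hx, hx''⟩
  by_cases h1 : o = o'
  · subst h1
    rw [Finset.inter_self, h8] at h
    have : o = o'' := eq_of_five ho ho'' (by omega)
    exact ⟨1, one_mem _, rfl, one_smul _ _, by rw [one_smul, this]⟩
  by_cases h2 : o = o''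
  · subst h2
    rw [Finset.inter_self, h8] at h
    exact absurd (eq_of_five ho ho' (by omega)) h1
  rcases octad_inter_octad ho ho' h1 with h3 | h3 | h3
  · rw [Finset.card_eq_zero.mp h3] at hp1; simp at hp1
  · have h3' : (o ∩ o'').card = 2 := h ▸ h3
    obtain ⟨y, hy⟩ : ((o ∩ o').erase x).Nonempty := by
      rw [← Finset.card_pos, Finset.card_erase_of_mem hp1]; omega
    obtain ⟨y', hy'⟩ : ((o ∩ o'').erase x).Nonempty := by
      rw [← Finset.card_pos, Finset.card_erase_of_mem hp2]; omega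
    rw [Finset.mem_erase] at hy hy'
    obtain ⟨g, hg, e1, e2, e3, e4⟩ := pair2 ho ho' h3 hp1 hy.2 hy.1.symm
    obtain ⟨k, hk, f1, f2, f3, f4⟩ := pair2 ho ho'' h3' hp2 hy'.2 hy'.1.symm
    obtain ⟨c1, c2, c3⟩ := combine hg hk e1 e2 f1 f2
    exact ⟨_, c1, combine_pt e3 f3, c2, c3⟩
  · obtain ⟨l, hl, hl4, hlo⟩ := exists_extend_in (o ∩ o') 4 h3.ge [x] (by simp) (by simp [hx, hx']) (by simp)
    obtain ⟨l', hl', hl4', hlo'⟩ := exists_extend_in (o ∩ o'') 4 (h ▸ h3).ge [x] (by simp) (by simp [hx, hx'']) (by simp)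
    obtain ⟨g, hg, e1, e2, e3⟩ := pair4 ho ho' h3 hl hl4 hlo
    obtain ⟨k, hk, f1, f2, f3⟩ := pair4 ho ho'' (h ▸ h3) hl' hl4' hlo'
    obtain ⟨c1, c2, c3⟩ := combine hg hk e1 e2 f1 f2
    have g2 := app_left (m := [pt 0]) (m' := [pt 1, pt 2, pt 3]) e3 rfl
    have k2 := app_left (m := [pt 0]) (m' := [pt 1, pt 2, pt 3]) f3 rfl
    simp only [List.map_cons, List.map_nil, List.cons.injEq, and_true] at g2 k2
    exact ⟨_, c1, combine_pt g2 k2, c2, c3⟩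
end


/-- The point stabiliser acts on the 253 heptads of its S(4, 7, 23) with rank 3 and subdegrees 1, 112, 140 (intersections 8, 2, 4). -/
theorem result (x : Cfsg.GolayPt) (o : Finset Cfsg.GolayPt) (ho : o ∈ Cfsg.octads) (hx : x ∈ o) : {o' : Finset Cfsg.GolayPt | o' ∈ Cfsg.octads ∧ x ∈ o' ∧ (o ∩ o').card = 2}.ncard = 112 ∧ {o' : Finset Cfsg.GolayPt | o' ∈ Cfsg.octads ∧ x ∈ o' ∧ (o ∩ o').card = 4}.ncard = 140 ∧ ∀ o' o'' : Finset Cfsg.GolayPt, o' ∈ Cfsg.octads → o'' ∈ Cfsg.octads → x ∈ o' → x ∈ o'' → (o ∩ o').card = (o ∩ o'').card → ∃ g : Equiv.Perm Cfsg.GolayPt, g ∈ Cfsg.M24 ∧ g x = x ∧ g • o = o ∧ g • o' = o'' := by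
  exact ⟨cnt x o ho hx 2 112 (by decide +kernel), cnt x o ho hx 4 140 (by decide +kernel), fun o' o'' ho' ho'' hx' hx'' h => aux x o ho hx o' o'' ho' ho'' hx' hx'' h⟩

end Cfsg.Agent.S1607
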