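import Cfsg.Statements.S1608
import Cfsg.Agent.Lib.GolayPairs

set_option autoImplicit false
open scoped Pointwise
open Cfsg

open scoped Pointwise
namespace Cfsg.Agent.S1608

section
open CfsgLib.Golay
theorem cnt (p : Cfsg.GolayPt) (o : Finset Cfsg.GolayPt) (ho : o ∈ Cfsg.octads) (hp : p ∉ o) (k n : ℕ)
    (h : cntC (fun m => and (Nat.beq (pop m) 8) (and (not (Nat.testBit m 5)) (Nat.beq (pop (Nat.land 5279 m)) k))) rows 0 = n) :
    {x : Finset Cfsg.GolayPt | x ∈ Cfsg.octads ∧ p ∉ x ∧ (o ∩ x).card = k}.ncard = n := by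
  have h8 : o.card = 8 := ho.2
  obtain ⟨l, hl, h6, hlo⟩ := exists_list_of_le_card (s := o) (n := 6) (by omega)
  obtain ⟨g, hg, hgo, hgl, hgx⟩ := frame_list ho hl h6 hlo hp
  rw [ncard_transfer g _ (fun x => x ∈ Cfsg.octads ∧ pt 5 ∉ x ∧ (O0 ∩ x).card = k)]
  · apply count_code _ _ h
    intro s
    rw [octads_iff', Bool.and_eq_true, Bool.and_eq_true, and_assoc, O0, inter_card_eq (by norm_num), Nat.beq_eq, Nat.beq_eq,
      mem_pt_iff (by norm_num), Bool.not_eq_true, Bool.not_eq_true']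
  · intro s
    rw [smul_mem_octads hg, ← hgo, ← smul_inter', card_smul', ← hgx, mem_smul_iff]
theorem aux (x : Cfsg.GolayPt) (o : Finset Cfsg.GolayPt) (ho : o ∈ Cfsg.octads) (hx : x ∉ o) (o' o'' : Finset Cfsg.GolayPt) (ho' : o' ∈ Cfsg.octads) (ho'' : o'' ∈ Cfsg.octads) (hx' : x ∉ o') (hx'' : x ∉ o'') (h : (o ∩ o').card = (o ∩ o'').card) :
    ∃ g : Equiv.Perm Cfsg.GolayPt, g ∈ Cfsg.M24 ∧ g x = x ∧ g • o = o ∧ g • o' = o'' := by
  have h8 : o.card = 8 := ho.2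
  by_cases h1 : o = o'
  · subst h1
    rw [Finset.inter_self, h8] at h
    have : o = o'' := eq_of_five ho ho'' (by omega)
    exact ⟨1, one_mem _, rfl, one_smul _ _, by rw [one_smul, this]⟩
  by_cases h2 : o = o''
  · subst h2
    rw [Finset.inter_self, h8] at h
    exact absurd (eq_of_five ho ho' (by omega)) h1
  rcases octad_inter_octad ho ho' h1 with h3 | h3 | h3
  · obtain ⟨g, hg, e1, e2, e3⟩ := pair0x ho ho' h3 hx hx'
    obtain ⟨k, hk, f1, f2, f3⟩ := pair0x ho ho'' (h ▸ h3) hx hx''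
    obtain ⟨c1, c2, c3⟩ := combine hg hk e1 e2 f1 f2
    exact ⟨_, c1, combine_pt e3 f3, c2, c3⟩
  · obtain ⟨y, hy⟩ := Finset.card_pos.mp (show 0 < (o ∩ o').card by omega)
    obtain ⟨y', hy'⟩ := Finset.card_pos.mp (show 0 < (o ∩ o'').card by omega)
    obtain ⟨g, hg, e1, e2, e4, e3⟩ := pair2x ho ho' h3 hy hx hx'
    obtain ⟨k, hk, f1, f2, f4, f3⟩ := pair2x ho ho'' (h ▸ h3) hy' hx hx''
    obtain ⟨c1, c2, c3⟩ := combine hg hk e1 e2 f1 f2
    exact ⟨_, c1, combine_pt e3 f3, c2, c3⟩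
  · obtain ⟨y, hy⟩ := Finset.card_pos.mp (show 0 < (o ∩ o').card by omega)
    obtain ⟨y', hy'⟩ := Finset.card_pos.mp (show 0 < (o ∩ o'').card by omega)
    obtain ⟨g, hg, e1, e2, e4, e3⟩ := pair4x ho ho' h3 hy hx hx'
    obtain ⟨k, hk, f1, f2, f4, f3⟩ := pair4x ho ho'' (h ▸ h3) hy' hx hx''
    obtain ⟨c1, c2, c3⟩ := combine hg hk e1 e2 f1 f2
    exact ⟨_, c1, combine_pt e3 f3, c2, c3⟩
end


/-- The point stabiliser acts on the 506 octads avoiding the point with rank 4 and subdegrees 1, 15, 210, 280, the suborbits being given by intersection size with the fixed octad. -/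
theorem result (x : Cfsg.GolayPt) (o : Finset Cfsg.GolayPt) (ho : o ∈ Cfsg.octads) (hx : x ∉ o) : {o' : Finset Cfsg.GolayPt | o' ∈ Cfsg.octads ∧ x ∉ o' ∧ (o ∩ o').card = 0}.ncard = 15 ∧ {o' : Finset Cfsg.GolayPt | o' ∈ Cfsg.octads ∧ x ∉ o' ∧ (o ∩ o').card = 4}.ncard = 210 ∧ {o' : Finset Cfsg.GolayPt | o' ∈ Cfsg.octads ∧ x ∉ o' ∧ (o ∩ o').card = 2}.ncard = 280 ∧ ∀ o' o'' : Finset Cfsg.GolayPt, o' ∈ Cfsg.octads → o'' ∈ Cfsg.octads → x ∉ o' → x ∉ o'' → (o ∩ o').card = (o ∩ o'').card → ∃ g : Equiv.Perm Cfsg.GolayPt, g ∈ Cfsg.M24 ∧ g x = x ∧ g • o = o ∧ g • o' = o'' := by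
  exact ⟨cnt x o ho hx 0 15 (by decide +kernel), cnt x o ho hx 4 210 (by decide +kernel), cnt x o ho hx 2 280 (by decide +kernel),
    fun o' o'' ho' ho'' hx' hx'' h => aux x o ho hx o' o'' ho' ho'' hx' hx'' h⟩

end Cfsg.Agent.S1608
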