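import Cfsg.Statements.S1610
import Cfsg.Agent.Lib.Hexacode

set_option autoImplicit false
open Cfsg

namespace Cfsg.Agent.S1610

/-- The hexacode has 64 words, minimum weight 4, and weight distribution 0^1 4^45 6^18. -/
theorem result (F : Type*) [Field F] [Fintype F] [DecidableEq F] (hF : Fintype.card F = 4) (ω : F) (hω : ω ^ 2 + ω + 1 = 0) : Nat.card ↥(Cfsg.hexacode F ω) = 64 ∧ (∀ x ∈ Cfsg.hexacode F ω, x ≠ 0 → (Finset.univ.filter fun i => x i ≠ 0).card = 4 ∨ (Finset.univ.filter fun i => x i ≠ 0).card = 6) ∧ {x : Fin 6 → F | x ∈ Cfsg.hexacode F ω ∧ (Finset.univ.filter fun i => x i ≠ 0).card = 4}.ncard = 45 ∧ {x : Fin 6 → F | x ∈ Cfsg.hexacode F ω ∧ (Finset.univ.filter fun i => x i ≠ 0).card = 6}.ncard = 18 := by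
  refine ⟨?_, ?_, CfsgLib.Hexacode.ncard_wt hF hω 4 45 CfsgLib.Hexacode.cnt4, CfsgLib.Hexacode.ncard_wt hF hω 6 18 CfsgLib.Hexacode.cnt6⟩
  · obtain ⟨e, -⟩ := CfsgLib.Hexacode.exists_equiv hF hω
    rw [← Nat.card_congr e]
    simp [Nat.card_prod]
  · intro x hx h0
    obtain ⟨a, b, c, rfl⟩ := (CfsgLib.Hexacode.mem_iff hF hω).mp hx
    rw [CfsgLib.Hexacode.supp_ph hF hω]
    rcases CfsgLib.Hexacode.wts a b c with ⟨rfl, rfl, rfl⟩ | h | h
    · exfalso; apply h0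
      funext i
      have : CfsgLib.Hexacode.cmb CfsgLib.Hexacode.u4 0 0 0 i = 0 := by revert i; decide
      rw [this]; rfl
    · exact Or.inl h
    · exact Or.inr h

end Cfsg.Agent.S1610
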