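import Cfsg.Statements.S1611
import Cfsg.Agent.Lib.Hexacode

set_option autoImplicit false
open Cfsg

namespace Cfsg.Agent.S1611

section
open Cfsg CfsgLib.Hexacode CfsgLib.Mono Finset
variable {F : Type*} [Field F] [Fintype F] [DecidableEq F] (hF : Fintype.card F = 4) {ω : F} (hω : ω ^ 2 + ω + 1 = 0)
include hF hω

theorem mono_ph (σ : Equiv.Perm (Fin 6)) (c : Fin 6 → Fˣ) (d : Fin 6 → Fin 4) (hcd : ∀ i, (c i : F) = ph ω (d i)) (x : Fin 6 → Fin 4) :
    monomialMap σ c (fun i => ph ω (x i)) = fun i => ph ω (mul4 (d i) (x (σ.symm i))) := by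
  funext i
  simp only [monomialMap, hcd, ph_mul hF hω]

theorem pres_iff (σ : Equiv.Perm (Fin 6)) (c : Fin 6 → Fˣ) (d : Fin 6 → Fin 4) (hcd : ∀ i, (c i : F) = ph ω (d i)) :
    Pres (hexacode F ω) σ c ↔ presT (fun i => σ.symm i) d = true := by
  rw [presT, List.all_eq_true]
  have hU : ∀ j : Fin 3, (fun i => ph ω (u4 j i)) ∈ hexacode F ω := by
    intro j
    obtain ⟨a, b, c, h⟩ := u_in_v j
    have : (fun i => ph ω (u4 j i)) = fun i => ph ω (cmb v4 a b c i) := by funext i; rw [h]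
    rw [this]; exact mem_v hF hω a b c
  constructor
  · intro h j _
    rw [← mem_ph hF hω, ← mono_ph hF hω σ c d hcd]
    exact h _ (hU j)
  · intro h x hx
    obtain ⟨a, b, e, rfl⟩ := (mem_iff hF hω).mp hx
    rw [ph_cmb hF hω, mono_add, mono_add, mono_smul, mono_smul, mono_smul, mono_ph hF hω σ c d hcd, mono_ph hF hω σ c d hcd, mono_ph hF hω σ c d hcd]
    exact add_mem (add_mem (Submodule.smul_mem _ _ ((mem_ph hF hω).mpr (h 0 (List.mem_finRange _))))
      (Submodule.smul_mem _ _ ((mem_ph hF hω).mpr (h 1 (List.mem_finRange _))))) (Submodule.smul_mem _ _ ((mem_ph hF hω).mpr (h 2 (List.mem_finRange _))))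

theorem exists_d (c : Fin 6 → Fˣ) : ∃ d : Fin 6 → Fin 3, ∀ i, (c i : F) = ph ω (d i).succ := by
  have h : ∀ i, ∃ d : Fin 3, (c i : F) = ph ω d.succ := by
    intro i
    obtain ⟨a, ha⟩ := ph_surj hF hω (c i : F)
    have ha0 : a ≠ 0 := by
      rintro rfl
      exact (c i).ne_zero ha.symm
    exact ⟨a.pred ha0, by rw [Fin.succ_pred, ha]⟩
  choose d hd using h
  exact ⟨d, hd⟩

theorem vec_eq (d : Fin 6 → Fin 3) : (fun i => (d i).succ) = ![(d 0).succ, (d 1).succ, (d 2).succ, (d 3).succ, (d 4).succ, (d 5).succ] := by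
  funext i; fin_cases i <;> rfl

theorem three_mem {σ : Equiv.Perm (Fin 6)} (h : σ.IsThreeCycle) : σ ∈ HH (hexacode F ω) := by
  obtain ⟨a, ha⟩ : σ.support.Nonempty := by rw [← Finset.card_pos, h.card_support]; norm_num
  have h1 := h.eq_swap_mul_swap_iff_mem_support.mpr ha
  have h2 := h.nodup_iff_mem_support.mpr ha
  set b := σ a with hb
  set c := σ b with hc
  simp only [List.nodup_cons, List.mem_cons, List.not_mem_nil, or_false, not_or, not_false_eq_true, and_true, List.nodup_nil] at h2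
  have h3 := tab_all a b c h2.1.1 h2.1.2 h2.2
  rw [List.any_eq_true] at h3
  obtain ⟨e, he, h4⟩ := h3
  rw [decide_eq_true_iff] at h4
  obtain ⟨e1, e2, e3⟩ := h4
  have h5 := List.all_eq_true.mp tab_ok e he
  rw [Bool.and_eq_true, decide_eq_true_iff] at h5
  have hne : ∀ i : Fin 6, ph ω (e.2.2.2.getD i 0) ≠ 0 := fun i => by
    rw [ne_eq, ph_zero_iff hF hω]; exact h5.2 i
  refine ⟨fun i => Units.mk0 _ (hne i), ?_⟩
  rw [pres_iff hF hω σ _ (fun i => e.2.2.2.getD i 0) (fun i => rfl)]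
  have e4 : (fun i => σ.symm i) = fun i => Equiv.swap e.2.1 e.2.2.1 (Equiv.swap e.1 e.2.1 i) := by
    funext i
    rw [Equiv.symm_apply_eq, e1, e2, e3]
    conv_rhs => rw [h1]
    simp
  rw [e4]; exact h5.1

theorem HH_eq : HH (hexacode F ω) = alternatingGroup (Fin 6) := by
  have hle : alternatingGroup (Fin 6) ≤ HH (hexacode F ω) := by
    rw [← Equiv.Perm.closure_three_cycles_eq_alternating, Subgroup.closure_le]
    intro σ hσ
    exact three_mem hF hω hσ
  apply le_antisymm _ hle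
  intro σ hσ
  rw [Equiv.Perm.mem_alternatingGroup]
  rcases Int.units_eq_one_or (Equiv.Perm.sign σ) with h | h
  · exact h
  · exfalso
    have h1 : σ⁻¹ * Equiv.swap 0 1 ∈ HH (hexacode F ω) := by
      apply hle
      rw [Equiv.Perm.mem_alternatingGroup, map_mul, map_inv, h, Equiv.Perm.sign_swap (by decide)]
      rfl
    have h2 : Equiv.swap (0 : Fin 6) 1 ∈ HH (hexacode F ω) := by
      have := Subgroup.mul_mem _ hσ h1
      rwa [mul_inv_cancel_left] at this
    obtain ⟨c, hc⟩ := h2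
    obtain ⟨d, hd⟩ := exists_d hF hω c
    rw [pres_iff hF hω _ c (fun i => (d i).succ) hd, Equiv.symm_swap, vec_eq hF hω] at hc
    rw [no_swap] at hc
    exact Bool.noConfusion hc

theorem scal (c : Fin 6 → Fˣ) (h : Pres (hexacode F ω) 1 c) : ∀ i j, c i = c j := by
  obtain ⟨d, hd⟩ := exists_d hF hω c
  rw [pres_iff hF hω _ c (fun i => (d i).succ) hd, vec_eq hF hω] at h
  obtain ⟨h1, h2, h3, h4, h5⟩ := scal4 _ _ _ _ _ _ h
  have h0 : ∀ i, d i = d 0 := by
    intro i; fin_cases i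
    · rfl
    · exact h1.symm
    · exact h2.symm
    · exact h3.symm
    · exact h4.symm
    · exact h5.symm
  intro i j
  apply Units.ext
  rw [hd, hd, h0 i, h0 j]

end


/-- The monomial automorphism group of the hexacode has order 1080: its diagonal part is the scalars and its permutation parts form the alternating group of degree 6. -/
theorem result (F : Type*) [Field F] [Fintype F] [DecidableEq F] (hF : Fintype.card F = 4) (ω : F) (hω : ω ^ 2 + ω + 1 = 0) : Nat.card {f : Equiv.Perm (Fin 6) × (Fin 6 → Fˣ) // (∀ x ∈ Cfsg.hexacode F ω, Cfsg.monomialMap f.1 f.2 x ∈ Cfsg.hexacode F ω)} = 1080 ∧ (∀ c : Fin 6 → Fˣ, (∀ x ∈ Cfsg.hexacode F ω, Cfsg.monomialMap 1 c x ∈ Cfsg.hexacode F ω) → ∀ i j, c i = c j) ∧ {σ : Equiv.Perm (Fin 6) | ∃ c : Fin 6 → Fˣ, (∀ x ∈ Cfsg.hexacode F ω, Cfsg.monomialMap σ c x ∈ Cfsg.hexacode F ω)} = (alternatingGroup (Fin 6) : Set (Equiv.Perm (Fin 6))) := by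
  refine ⟨?_, fun c hc => scal hF hω c hc, ?_⟩
  · have h1 := CfsgLib.Mono.card_mono (C := Cfsg.hexacode F ω) 0 (scal hF hω)
    rw [HH_eq hF hω, nat_card_alternatingGroup, Nat.card_units, Nat.card_eq_fintype_card (α := F), hF] at h1
    refine h1.trans ?_
    rw [Nat.card_eq_fintype_card, Fintype.card_fin]
    rfl
  · rw [← HH_eq hF hω]; rfl

end Cfsg.Agent.S1611
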