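import Cfsg.Statements.S1618
import Cfsg.Agent.Lib.H8ZApp

set_option autoImplicit false
open Cfsg

set_option linter.style.haveILetI false
namespace Cfsg.Agent.S1618

/-- A group generated by a class of involutions whose pairwise products (of distinct members) have p-power order for a fixed odd prime p has nilpotent derived subgroup. -/
theorem result {G : Type*} [Group G] [Finite G] (p : ℕ) (hp : p.Prime) (hodd : p ≠ 2) {D : Set G} (hinv : ∀ d ∈ D, orderOf d = 2) (hconj : ∃ d ∈ D, D = conjugatesOf d) (hgen : Subgroup.closure D = ⊤) (hprod : ∀ x ∈ D, ∀ y ∈ D, x ≠ y → ∃ k : ℕ, orderOf (x * y) = p ^ k) : Group.IsNilpotent ↥(commutator G) := by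
  classical
  haveI : Fact p.Prime := ⟨hp⟩
  obtain ⟨d, hdD, hD⟩ := hconj
  have hd := hinv d hdD
  have hprod' : ∀ g : G, ∃ k : ℕ, orderOf (d * (g * d * g⁻¹)) = p ^ k := by
    intro g
    by_cases h : d = g * d * g⁻¹
    · refine ⟨0, ?_⟩
      rw [← h, CfsgLib.H7Invol.sq_eq_one_of_orderOf hd, orderOf_one, pow_zero]
    · exact hprod d hdD _ (by rw [hD]; exact (isConj_iff.mpr ⟨g, rfl⟩ : IsConj d _)) h
  haveI hOn : (Cfsg.pCore p G).Normal := CfsgLib.Core.pCore_normal p G
  have hDO : ∀ x ∈ D, ∀ y ∈ D, x * y ∈ Cfsg.pCore p G := by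
    intro x hx y hy
    rw [hD] at hx hy
    exact CfsgLib.Zstar.conj_prod_mem hodd hd hprod' hx hy
  have hgenq : ∀ g : G, QuotientGroup.mk' (Cfsg.pCore p G) g ∈ Subgroup.zpowers (QuotientGroup.mk' (Cfsg.pCore p G) d) := by
    intro g
    have hg : g ∈ Subgroup.closure D := by rw [hgen]; exact Subgroup.mem_top g
    have h1 : Subgroup.closure D ≤ (Subgroup.zpowers (QuotientGroup.mk' (Cfsg.pCore p G) d)).comap (QuotientGroup.mk' (Cfsg.pCore p G)) := by
      rw [Subgroup.closure_le]
      intro x hx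
      show QuotientGroup.mk' (Cfsg.pCore p G) x ∈ Subgroup.zpowers (QuotientGroup.mk' (Cfsg.pCore p G) d)
      have h2 := hDO x hx d hdD
      have h3 : QuotientGroup.mk' (Cfsg.pCore p G) (x * d) = 1 := (QuotientGroup.eq_one_iff _).mpr h2
      rw [map_mul] at h3
      rw [eq_inv_of_mul_eq_one_left h3]
      exact Subgroup.inv_mem _ (Subgroup.mem_zpowers _)
    exact h1 hg
  have hcomm : commutator G ≤ Cfsg.pCore p G := by
    rw [commutator_def, Subgroup.commutator_le]
    intro g _ h _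
    have h1 := hgenq g
    have h2 := hgenq h
    obtain ⟨i, hi⟩ := Subgroup.mem_zpowers_iff.mp h1
    obtain ⟨j, hj⟩ := Subgroup.mem_zpowers_iff.mp h2
    apply (QuotientGroup.eq_one_iff _).mp
    show QuotientGroup.mk' (Cfsg.pCore p G) (g * h * g⁻¹ * h⁻¹) = 1
    rw [map_mul, map_mul, map_mul, map_inv, map_inv, ← hi, ← hj]
    group
  have h1 : IsPGroup p (commutator G) := (CfsgLib.Core.pCore_isPGroup p G).to_le hcomm
  exact h1.isNilpotent

end Cfsg.Agent.S1618
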