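import Cfsg.Statements.S1635
import Cfsg.Agent.Lib.GolaySext

set_option autoImplicit false
open Cfsg

namespace Cfsg.Agent.S1635

section
open CfsgLib.Golay
theorem sub_eq_add' (v w : GolayPt → ZMod 2) : v - w = v + w := by
  funext p
  show v p - w p = v p + w p
  generalize v p = a
  generalize w p = b
  revert a b; decide
theorem sub_mem_iff (v w : GolayPt → ZMod 2) : w - v ∈ golayCode ↔ symmDiff (support₂ w) (support₂ v) ∈ supports (golayCode : Set (GolayPt → ZMod 2)) := by
  rw [sub_eq_add', mem_iff_supports, support₂_add]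
theorem covering (W : Finset GolayPt) : ∃ s : Finset GolayPt, s.card ≤ 4 ∧ symmDiff W s ∈ supports (golayCode : Set (GolayPt → ZMod 2)) := by
  have h0 : ∃ n, ∃ s : Finset GolayPt, s.card = n ∧ symmDiff W s ∈ supports (golayCode : Set (GolayPt → ZMod 2)) := by
    refine ⟨_, W, rfl, ?_⟩
    rw [symmDiff_self]
    have := InC_zero.2
    rwa [toFS_zero] at this
  classical
  obtain ⟨s, hs, hW⟩ := Nat.find_spec h0
  refine ⟨s, ?_, hW⟩
  by_contra hc
  push Not at hc
  obtain ⟨l, hl, hl5, hls⟩ := exists_list_of_le_card (s := s) (n := 5) (by omega)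
  obtain ⟨o, ho, h5⟩ := octad_through_list hl hl5
  have h1 : 5 ≤ (s ∩ o).card := by
    rw [← hl5, ← List.toFinset_card_of_nodup hl]
    apply Finset.card_le_card
    intro p hp
    rw [List.mem_toFinset] at hp
    exact Finset.mem_inter.mpr ⟨hls p hp, h5 p hp⟩
  have h2 := card_symmDiff' s o
  have h3 : o.card = 8 := ho.2
  have h4 := Nat.find_min h0 (m := (symmDiff s o).card) (by omega)
  apply h4
  refine ⟨_, rfl, ?_⟩
  rw [← symmDiff_assoc]
  exact symmDiff_mem hW ho.1
theorem small_unique {W s s' : Finset GolayPt} (h : s.card + s'.card < 8) (hs : symmDiff W s ∈ supports (golayCode : Set (GolayPt → ZMod 2)))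
    (hs' : symmDiff W s' ∈ supports (golayCode : Set (GolayPt → ZMod 2))) : s = s' := by
  have h1 := symmDiff_mem hs hs'
  have h2 : symmDiff (symmDiff W s) (symmDiff W s') = symmDiff s s' := by
    rw [symmDiff_symmDiff_symmDiff_comm, symmDiff_self, bot_symmDiff]
  rw [h2] at h1
  have h3 := supports_card h1
  have h4 := card_symmDiff' s s'
  have h5 : (symmDiff s s').card = 0 := by omega
  rw [Finset.card_eq_zero] at h5
  exact symmDiff_eq_bot.mp h5
theorem ncard_eq (w : GolayPt → ZMod 2) : {v : Cfsg.GolayPt → ZMod 2 | hammingNorm v ≤ 4 ∧ w - v ∈ Cfsg.golayCode}.ncard =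
    {s : Finset GolayPt | s.card ≤ 4 ∧ symmDiff (support₂ w) s ∈ supports (golayCode : Set (GolayPt → ZMod 2))}.ncard := by
  rw [← Set.ncard_image_of_injective {v : Cfsg.GolayPt → ZMod 2 | hammingNorm v ≤ 4 ∧ w - v ∈ Cfsg.golayCode} support₂_injective]
  congr 1
  ext s
  constructor
  · rintro ⟨v, ⟨h1, h2⟩, rfl⟩
    exact ⟨h1, (sub_mem_iff v w).mp h2⟩
  · rintro ⟨h1, h2⟩
    refine ⟨word s, ⟨?_, ?_⟩, support₂_word s⟩
    · rw [hammingNorm_eq, support₂_word]; exact h1
    · rw [sub_mem_iff, support₂_word]; exact h2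
theorem aux (w : Cfsg.GolayPt → ZMod 2) : ({v : Cfsg.GolayPt → ZMod 2 | hammingNorm v ≤ 4 ∧ w - v ∈ Cfsg.golayCode}.ncard = 1 ∧ ∃ v : Cfsg.GolayPt → ZMod 2, hammingNorm v ≤ 3 ∧ w - v ∈ Cfsg.golayCode) ∨ ({v : Cfsg.GolayPt → ZMod 2 | hammingNorm v ≤ 4 ∧ w - v ∈ Cfsg.golayCode}.ncard = 6 ∧ ∀ v : Cfsg.GolayPt → ZMod 2, w - v ∈ Cfsg.golayCode → hammingNorm v ≤ 4 → hammingNorm v = 4) := by
  rw [ncard_eq]
  obtain ⟨s, hs, hW⟩ := covering (support₂ w)
  by_cases h3 : s.card ≤ 3
  · left
    refine ⟨?_, word s, ?_, ?_⟩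
    · rw [Set.ncard_eq_one]
      refine ⟨s, ?_⟩
      ext s'
      rw [Set.mem_singleton_iff]
      constructor
      · rintro ⟨h1, h2⟩
        exact small_unique (by omega) h2 hW
      · rintro rfl; exact ⟨hs, hW⟩
    · rw [hammingNorm_eq, support₂_word]; exact h3
    · rw [sub_mem_iff, support₂_word]; exact hW
  · right
    have h4 : s.card = 4 := by omega
    refine ⟨?_, ?_⟩
    · have : {s' : Finset GolayPt | s'.card ≤ 4 ∧ symmDiff (support₂ w) s' ∈ supports (golayCode : Set (GolayPt → ZMod 2))} = (sext s : Set (Finset GolayPt)) := by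
        ext s'
        rw [Finset.mem_coe]
        constructor
        · rintro ⟨h1, h2⟩
          have h5 := symmDiff_mem hW h2
          have h6 : symmDiff (symmDiff (support₂ w) s) (symmDiff (support₂ w) s') = symmDiff s s' := by
            rw [symmDiff_symmDiff_symmDiff_comm, symmDiff_self, bot_symmDiff]
          rw [h6] at h5
          have h7 := supports_card h5
          have h8 := card_symmDiff' s s'
          by_cases h9 : (symmDiff s s').card = 0
          · rw [Finset.card_eq_zero] at h9
            rw [← symmDiff_eq_bot.mp h9]; exact self_mem_sext s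
          · have h10 : (symmDiff s s').card = 8 := by omega
            have h11 : (s ∩ s').card = 0 := by omega
            rw [mem_sext]
            right
            have hd : Disjoint s s' := by rw [Finset.disjoint_iff_inter_eq_empty, ← Finset.card_eq_zero]; exact h11
            have h12 : symmDiff s s' = s ∪ s' := by
              rw [hd.symmDiff_eq_sup]; rfl
            refine ⟨s ∪ s', ⟨by rw [← h12]; exact h5, by rw [← h12]; exact h10⟩, Finset.subset_union_left, ?_⟩
            rw [Finset.union_sdiff_left]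
            exact Finset.sdiff_eq_self_of_disjoint hd.symm
        · intro h
          refine ⟨(sext_card_four h4 h).le, ?_⟩
          by_cases h5 : s = s'
          · rw [← h5]; exact hW
          · have h6 := (sext_union h4 (self_mem_sext s) h h5).1
            have hd := sextet_disjoint (sext_mem h4) (self_mem_sext s) h h5
            have h12 : symmDiff s s' = s ∪ s' := by
              rw [hd.symmDiff_eq_sup]; rfl
            rw [← h12] at h6
            have h7 := symmDiff_mem hW h6
            rwa [symmDiff_assoc, symmDiff_symmDiff_cancel_left] at h7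
      rw [this, Set.ncard_coe_finset, card_sext h4]
    · intro v hv hv4
      by_contra hc
      rw [sub_mem_iff] at hv
      rw [hammingNorm_eq] at hv4 hc
      have := small_unique (by omega) hv hW
      rw [this] at hc; exact hc h4
end


/-- Coset leaders of the length-24 code: a coset contains a unique word of weight ≤ 3, or else exactly six words of weight 4 and none lighter. -/
theorem result (w : Cfsg.GolayPt → ZMod 2) : ({v : Cfsg.GolayPt → ZMod 2 | hammingNorm v ≤ 4 ∧ w - v ∈ Cfsg.golayCode}.ncard = 1 ∧ ∃ v : Cfsg.GolayPt → ZMod 2, hammingNorm v ≤ 3 ∧ w - v ∈ Cfsg.golayCode) ∨ ({v : Cfsg.GolayPt → ZMod 2 | hammingNorm v ≤ 4 ∧ w - v ∈ Cfsg.golayCode}.ncard = 6 ∧ ∀ v : Cfsg.GolayPt → ZMod 2, w - v ∈ Cfsg.golayCode → hammingNorm v ≤ 4 → hammingNorm v = 4) := by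
  exact aux w

end Cfsg.Agent.S1635
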