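import Cfsg.Statements.S1636
import Cfsg.Agent.Lib.GolaySext

set_option autoImplicit false
open Cfsg

namespace Cfsg.Agent.S1636

section
open CfsgLib.Golay
def fin (s : Finset GolayPt) : Finset GolayPt := s ∩ toFS 0x7fffff
theorem norm_eq (s : Finset GolayPt) : hammingNorm (fun x : ZMod 23 => word s (some x)) = pop (Nat.land (mask s) 0x7fffff) := by
  have h1 : Nat.land (mask s) 0x7fffff = mask (s ∩ toFS 0x7fffff) := by
    rw [mask_inter, mask_toFS (by norm_num)]; rfl
  rw [h1, ← card_eq_pop]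
  have h2 : s ∩ toFS 0x7fffff = (Finset.univ.filter (fun x : ZMod 23 => word s (some x) ≠ 0)).map ⟨some, Option.some_injective _⟩ := by
    ext p
    simp only [Finset.mem_inter, Finset.mem_map, Finset.mem_filter, Finset.mem_univ, true_and, Function.Embedding.coeFn_mk]
    constructor
    · rintro ⟨h3, h4⟩
      rcases p with _ | x
      · exact absurd (mem_toFS.mp h4) (by decide)
      · exact ⟨x, by rw [word, if_pos h3]; decide, rfl⟩
    · rintro ⟨x, h3, rfl⟩
      refine ⟨?_, ?_⟩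
      · by_contra hc
        rw [word, if_neg hc] at h3; exact h3 rfl
      · rw [mem_toFS]
        revert x; intro x _
        have : ∀ x : ZMod 23, (0x7fffff : ℕ).testBit (idx (some x)) = true := by decide
        exact this x
  rw [h2, Finset.card_map]; rfl
theorem count (f : ℕ → Bool) (n : ℕ) (h : cntC (fun m => f (pop (Nat.land m 0x7fffff))) rows 0 = n) :
    {u : ZMod 23 → ZMod 2 | (∃ w ∈ Cfsg.golayCode, ∀ x : ZMod 23, u x = w (some x)) ∧ f (hammingNorm u) = true}.ncard = n := by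
  rw [← h, ← ncard_code]
  have e : {u : ZMod 23 → ZMod 2 | (∃ w ∈ Cfsg.golayCode, ∀ x : ZMod 23, u x = w (some x)) ∧ f (hammingNorm u) = true} =
     (fun (s : Finset GolayPt) (x : ZMod 23) => word s (some x)) '' {s : Finset GolayPt | s ∈ supports (golayCode : Set (GolayPt → ZMod 2)) ∧ (fun m => f (pop (Nat.land m 0x7fffff))) (mask s) = true} := by
    ext u
    constructor
    · rintro ⟨⟨w, hw, h1⟩, h2⟩
      have h3 : (fun x : ZMod 23 => word (support₂ w) (some x)) = u := by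
        funext x; rw [word_support₂, h1]
      refine ⟨support₂ w, ⟨mem_iff_supports.mp hw, ?_⟩, h3⟩
      show f (pop (Nat.land (mask (support₂ w)) 0x7fffff)) = true
      rw [← norm_eq, h3]; exact h2
    · rintro ⟨s, ⟨hs, h1⟩, rfl⟩
      refine ⟨⟨word s, mem_supports.mp hs, fun _ => rfl⟩, ?_⟩
      show f (hammingNorm (fun x : ZMod 23 => word s (some x))) = true
      rw [norm_eq]; exact h1
  rw [e, Set.ncard_image_of_injOn]
  rintro s ⟨hs, _⟩ s' ⟨hs', _⟩ hss
  have h1 := supports_card (symmDiff_mem hs hs')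
  have h2 : symmDiff s s' ⊆ {none} := by
    intro p hp
    rw [Finset.mem_singleton]
    rcases p with _ | x
    · rfl
    · exfalso
      have h3 := congrFun hss x
      have h4 : (some x ∈ s ↔ some x ∈ s') := by
        simp only [word] at h3
        split_ifs at h3 with h5 h6 h6
        · exact ⟨fun _ => h6, fun _ => h5⟩
        · exact absurd h3 (by decide)
        · exact absurd h3 (by decide)
        · exact ⟨fun h => absurd h h5, fun h => absurd h h6⟩
      rw [Finset.mem_symmDiff] at hp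
      tauto
  have h3 := Finset.card_le_card h2
  rw [Finset.card_singleton] at h3
  have h4 : (symmDiff s s').card = 0 := by omega
  rw [Finset.card_eq_zero] at h4
  exact symmDiff_eq_bot.mp h4
theorem count' (k n : ℕ) (h : cntC (fun m => Nat.beq (pop (Nat.land m 0x7fffff)) k) rows 0 = n) :
    {u : ZMod 23 → ZMod 2 | u ∈ {u : ZMod 23 → ZMod 2 | ∃ w ∈ Cfsg.golayCode, ∀ x : ZMod 23, u x = w (some x)} ∧ hammingNorm u = k}.ncard = n := by
  rw [← count (fun j => Nat.beq j k) n h]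
  congr 1
  ext u
  simp only [Set.mem_setOf_eq, Nat.beq_eq]
theorem min (u : ZMod 23 → ZMod 2) (hu : ∃ w ∈ Cfsg.golayCode, ∀ x : ZMod 23, u x = w (some x)) (hu0 : u ≠ 0) : 7 ≤ hammingNorm u := by
  obtain ⟨w, hw, h1⟩ := hu
  have h3 : (fun x : ZMod 23 => word (support₂ w) (some x)) = u := by
    funext x; rw [word_support₂, h1]
  have key : allC (fun m => or (Nat.beq (pop (Nat.land m 0x7fffff)) 0) (Nat.ble 7 (pop (Nat.land m 0x7fffff)))) rows 0 = true := by
    decide +kernel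
  have h4 := forall_code _ key (mem_iff_supports.mp hw)
  rw [← norm_eq, h3, Bool.or_eq_true] at h4
  rcases h4 with h4 | h4
  · exact absurd (hammingNorm_eq_zero.mp (Nat.eq_of_beq_eq_true h4)) hu0
  · exact Nat.le_of_ble_eq_true h4
end


/-- The punctured length-23 code has weight distribution 0^1 7^253 8^506 11^1288 12^1288 15^506 16^253 23^1. -/
theorem result : {u : ZMod 23 → ZMod 2 | ∃ w ∈ Cfsg.golayCode, ∀ x : ZMod 23, u x = w (some x)}.ncard = 4096 ∧ {u : ZMod 23 → ZMod 2 | u ∈ {u : ZMod 23 → ZMod 2 | ∃ w ∈ Cfsg.golayCode, ∀ x : ZMod 23, u x = w (some x)} ∧ hammingNorm u = 7}.ncard = 253 ∧ {u : ZMod 23 → ZMod 2 | u ∈ {u : ZMod 23 → ZMod 2 | ∃ w ∈ Cfsg.golayCode, ∀ x : ZMod 23, u x = w (some x)} ∧ hammingNorm u = 8}.ncard = 506 ∧ {u : ZMod 23 → ZMod 2 | u ∈ {u : ZMod 23 → ZMod 2 | ∃ w ∈ Cfsg.golayCode, ∀ x : ZMod 23, u x = w (some x)} ∧ hammingNorm u = 11}.ncard = 1288 ∧ {u : ZMod 23 → ZMod 2 | u ∈ {u : ZMod 23 → ZMod 2 | ∃ w ∈ Cfsg.golayCode,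 ∀ x : ZMod 23, u x = w (some x)} ∧ hammingNorm u = 12}.ncard = 1288 ∧ {u : ZMod 23 → ZMod 2 | u ∈ {u : ZMod 23 → ZMod 2 | ∃ w ∈ Cfsg.golayCode, ∀ x : ZMod 23, u x = w (some x)} ∧ hammingNorm u = 15}.ncard = 506 ∧ {u : ZMod 23 → ZMod 2 | u ∈ {u : ZMod 23 → ZMod 2 | ∃ w ∈ Cfsg.golayCode, ∀ x : ZMod 23, u x = w (some x)} ∧ hammingNorm u = 16}.ncard = 253 ∧ ∀ u ∈ {u : ZMod 23 → ZMod 2 | ∃ w ∈ Cfsg.golayCode, ∀ x : ZMod 23, u x = w (some x)}, u ≠ 0 → 7 ≤ hammingNorm u := by
  refine ⟨?_, count' 7 253 (by decide +kernel), count' 8 506 (by decide +kernel), count' 11 1288 (by decide +kernel),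
    count' 12 1288 (by decide +kernel), count' 15 506 (by decide +kernel), count' 16 253 (by decide +kernel), fun u hu hu0 => min u hu hu0⟩
  rw [← count (fun _ => true) 4096 (by decide +kernel)]
  congr 1
  ext u
  simp only [Set.mem_setOf_eq, and_true]

end Cfsg.Agent.S1636
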