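import Cfsg.Statements.S1637
import Cfsg.Agent.Lib.GolaySext
import Cfsg.Agent.S1635
import Cfsg.Agent.S1636

set_option autoImplicit false
open Cfsg

namespace Cfsg.Agent.S1637

section
open CfsgLib.Golay
theorem hdn (x y : ZMod 23 → ZMod 2) : hammingDist x y = hammingNorm (x - y) := by
  rw [hammingDist, hammingNorm]; congr 1; ext i; simp [sub_ne_zero]
theorem aux (u : ZMod 23 → ZMod 2) : ∃! c : ZMod 23 → ZMod 2, c ∈ {u : ZMod 23 → ZMod 2 | ∃ w ∈ Cfsg.golayCode, ∀ x : ZMod 23, u x = w (some x)} ∧ hammingDist u c ≤ 3 := by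
  have huniq : ∀ c c' : ZMod 23 → ZMod 2, (∃ w ∈ Cfsg.golayCode, ∀ x : ZMod 23, c x = w (some x)) → (∃ w ∈ Cfsg.golayCode, ∀ x : ZMod 23, c' x = w (some x)) →
      hammingDist u c ≤ 3 → hammingDist u c' ≤ 3 → c = c' := by
    rintro c c' ⟨w, hw, h1⟩ ⟨w', hw', h2⟩ h3 h4
    by_contra hne
    have h5 := Cfsg.Agent.S1636.min (c - c') ⟨w - w', sub_mem hw hw', fun x => by rw [Pi.sub_apply, Pi.sub_apply, h1, h2]⟩ (sub_ne_zero.mpr hne)
    rw [← hdn] at h5
    have h6 := hammingDist_triangle c u c'
    rw [hammingDist_comm c u] at h6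
    omega
  -- extension of `u` by zero at infinity
  let w : GolayPt → ZMod 2 := fun p => match p with
    | none => 0
    | some x => u x
  have hex : ∃ v : GolayPt → ZMod 2, w - v ∈ golayCode ∧ (hammingNorm v ≤ 3 ∨ (hammingNorm v = 4 ∧ v none ≠ 0)) := by
    obtain ⟨s, hs, hW⟩ := Cfsg.Agent.S1635.covering (support₂ w)
    by_cases h3 : s.card ≤ 3
    · refine ⟨word s, ?_, Or.inl ?_⟩
      · rw [Cfsg.Agent.S1635.sub_mem_iff, support₂_word]; exact hW
      · rw [hammingNorm_eq, support₂_word]; exact h3
    · have h4 : s.card = 4 := by omega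
      obtain ⟨t, ht, hp⟩ := sextet_covers (sext_mem h4) none
      refine ⟨word t, ?_, Or.inr ⟨?_, ?_⟩⟩
      · rw [Cfsg.Agent.S1635.sub_mem_iff, support₂_word]
        by_cases h5 : s = t
        · rw [← h5]; exact hW
        · have h6 := (sext_union h4 (self_mem_sext s) ht h5).1
          have hd := sextet_disjoint (sext_mem h4) (self_mem_sext s) ht h5
          have h12 : symmDiff s t = s ∪ t := by
            rw [hd.symmDiff_eq_sup]; rfl
          rw [← h12] at h6
          have h7 := symmDiff_mem hW h6
          rwa [symmDiff_assoc, symmDiff_symmDiff_cancel_left] at h7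
      · rw [hammingNorm_eq, support₂_word]; exact sext_card_four h4 ht
      · rw [word, if_pos hp]; decide
  obtain ⟨v, hv, hv3⟩ := hex
  refine ⟨fun x => (w - v) (some x), ⟨⟨w - v, hv, fun _ => rfl⟩, ?_⟩, ?_⟩
  · rw [hdn]
    have h1 : u - (fun x => (w - v) (some x)) = fun x => v (some x) := by
      funext x
      show u x - (u x - v (some x)) = v (some x)
      ring
    rw [h1]
    have h2 : hammingNorm (fun x : ZMod 23 => v (some x)) = ((support₂ v).erase none).card := by
      have h3 : (support₂ v).erase none = (Finset.univ.filter (fun x : ZMod 23 => v (some x) ≠ 0)).map ⟨some, Option.some_injective _⟩ := by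
        ext p
        simp only [Finset.mem_erase, Finset.mem_map, Finset.mem_filter, Finset.mem_univ, true_and, Function.Embedding.coeFn_mk, mem_support₂]
        constructor
        · rintro ⟨h3, h4⟩
          rcases p with _ | x
          · exact absurd rfl h3
          · exact ⟨x, h4, rfl⟩
        · rintro ⟨x, h3, rfl⟩
          exact ⟨by simp, h3⟩
      rw [h3, Finset.card_map]; rfl
    rw [h2]
    rcases hv3 with h3 | ⟨h3, h4⟩
    · rw [hammingNorm_eq] at h3
      exact (Finset.card_le_card (Finset.erase_subset _ _)).trans h3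
    · rw [hammingNorm_eq] at h3
      rw [Finset.card_erase_of_mem (mem_support₂.mpr h4)]; omega
  · rintro c ⟨hc, hc3⟩
    refine huniq c _ hc ⟨w - v, hv, fun _ => rfl⟩ hc3 ?_
    rw [hdn]
    have h1 : u - (fun x => (w - v) (some x)) = fun x => v (some x) := by
      funext x
      show u x - (u x - v (some x)) = v (some x)
      ring
    rw [h1]
    have h2 : hammingNorm (fun x : ZMod 23 => v (some x)) = ((support₂ v).erase none).card := by
      have h3 : (support₂ v).erase none = (Finset.univ.filter (fun x : ZMod 23 => v (some x) ≠ 0)).map ⟨some, Option.some_injective _⟩ := by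
        ext p
        simp only [Finset.mem_erase, Finset.mem_map, Finset.mem_filter, Finset.mem_univ, true_and, Function.Embedding.coeFn_mk, mem_support₂]
        constructor
        · rintro ⟨h3, h4⟩
          rcases p with _ | x
          · exact absurd rfl h3
          · exact ⟨x, h4, rfl⟩
        · rintro ⟨x, h3, rfl⟩
          exact ⟨by simp, h3⟩
      rw [h3, Finset.card_map]; rfl
    rw [h2]
    rcases hv3 with h3 | ⟨h3, h4⟩
    · rw [hammingNorm_eq] at h3
      exact (Finset.card_le_card (Finset.erase_subset _ _)).trans h3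
    · rw [hammingNorm_eq] at h3
      rw [Finset.card_erase_of_mem (mem_support₂.mpr h4)]; omega
end


/-- The punctured length-23 code is a perfect 3-error-correcting code: each word of length 23 is within distance 3 of exactly one codeword. -/
theorem result (u : ZMod 23 → ZMod 2) : ∃! c : ZMod 23 → ZMod 2, c ∈ {u : ZMod 23 → ZMod 2 | ∃ w ∈ Cfsg.golayCode, ∀ x : ZMod 23, u x = w (some x)} ∧ hammingDist u c ≤ 3 := by
  exact aux u

end Cfsg.Agent.S1637
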