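import Cfsg.Statements.S1638
import Cfsg.Agent.Lib.GolayTriads

set_option autoImplicit false
open scoped Pointwise
open Cfsg

open scoped Pointwise
namespace Cfsg.Agent.S1638

section
open CfsgLib.Golay
theorem cnt1 (p q : Cfsg.GolayPt) (hpq : p ≠ q) (s : Finset Cfsg.GolayPt) (hs : (s.card = 2 ∧ p ∉ s ∧ q ∉ s)) :
    {t : Finset Cfsg.GolayPt | (t.card = 2 ∧ p ∉ t ∧ q ∉ t) ∧ Disjoint s t ∧ (∃ o ∈ Cfsg.octads, p ∈ o ∧ q ∈ o ∧ s ∪ t ⊆ o)}.ncard = 30 := by
  classical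
  set T : Finset GolayPt := insert p (insert q s) with hT
  have hTc : T.card = 4 := by
    rw [hT, Finset.card_insert_of_notMem, Finset.card_insert_of_notMem hs.2.2, hs.1]
    rw [Finset.mem_insert]; rintro (h | h)
    · exact hpq h
    · exact hs.2.1 h
  have hsT : s ⊆ T := fun x hx => Finset.mem_insert_of_mem (Finset.mem_insert_of_mem hx)
  have hpT : p ∈ T := Finset.mem_insert_self _ _
  have hqT : q ∈ T := Finset.mem_insert_of_mem (Finset.mem_insert_self _ _)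
  have h1 : {t : Finset Cfsg.GolayPt | (t.card = 2 ∧ p ∉ t ∧ q ∉ t) ∧ Disjoint s t ∧ (∃ o ∈ Cfsg.octads, p ∈ o ∧ q ∈ o ∧ s ∪ t ⊆ o)} =
      (((CfsgLib.Steiner.bl octads).filter fun o => T ⊆ o).biUnion fun o => Finset.powersetCard 2 (o \ T) :
        Finset (Finset GolayPt)) := by
    ext U
    simp only [Set.mem_setOf_eq, Finset.coe_biUnion, Set.mem_iUnion, Finset.mem_coe, Finset.mem_filter,
      CfsgLib.Steiner.mem_bl, Finset.mem_powersetCard, exists_prop]
    constructor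
    · rintro ⟨⟨hU, hpU, hqU⟩, hd, o, ho, hpo, hqo, hss⟩
      refine ⟨o, ⟨ho, ?_⟩, ?_, hU⟩
      · intro x hx
        rw [hT, Finset.mem_insert, Finset.mem_insert] at hx
        rcases hx with rfl | rfl | hx
        · exact hpo
        · exact hqo
        · exact hss (Finset.mem_union_left _ hx)
      · intro x hx
        rw [Finset.mem_sdiff]
        refine ⟨hss (Finset.mem_union_right _ hx), fun hc => ?_⟩
        rw [hT, Finset.mem_insert, Finset.mem_insert] at hc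
        rcases hc with rfl | rfl | hc
        · exact hpU hx
        · exact hqU hx
        · exact Finset.disjoint_left.mp hd hc hx
    · rintro ⟨o, ⟨ho, hTo⟩, hU, hUc⟩
      refine ⟨⟨hUc, fun hc => (Finset.mem_sdiff.mp (hU hc)).2 hpT, fun hc => (Finset.mem_sdiff.mp (hU hc)).2 hqT⟩, ?_, o, ho, hTo hpT, hTo hqT, ?_⟩
      · rw [Finset.disjoint_left]
        intro x hx hxU
        exact (Finset.mem_sdiff.mp (hU hxU)).2 (hsT hx)
      · intro x hx
        rw [Finset.mem_union] at hx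
        rcases hx with hx | hx
        · exact hTo (hsT hx)
        · exact (Finset.mem_sdiff.mp (hU hx)).1
  rw [h1, Set.ncard_coe_finset, Finset.card_biUnion]
  · rw [Finset.sum_congr rfl (g := fun _ => 6), Finset.sum_const, CfsgLib.Steiner.card_containing steiner T (by omega) (by norm_num), hTc]
    · decide
    · intro o ho
      rw [Finset.mem_filter, CfsgLib.Steiner.mem_bl] at ho
      rw [Finset.card_powersetCard, Finset.card_sdiff_of_subset ho.2, hTc, ho.1.2]; rfl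
  · intro o ho o' ho' hne
    rw [Finset.mem_coe, Finset.mem_filter, CfsgLib.Steiner.mem_bl] at ho ho'
    rw [Function.onFun, Finset.disjoint_left]
    intro U hU hU'
    rw [Finset.mem_powersetCard] at hU hU'
    apply hne
    apply eq_of_five ho.1 ho'.1
    have h2 : T ∪ U ⊆ o ∩ o' := by
      intro x hx
      rw [Finset.mem_union] at hx
      rw [Finset.mem_inter]
      rcases hx with hx | hx
      · exact ⟨ho.2 hx, ho'.2 hx⟩
      · exact ⟨(Finset.mem_sdiff.mp (hU.1 hx)).1, (Finset.mem_sdiff.mp (hU'.1 hx)).1⟩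
    have h3 : Disjoint T U := by
      rw [Finset.disjoint_left]
      intro x hx hxU
      exact (Finset.mem_sdiff.mp (hU.1 hxU)).2 hx
    have h4 := Finset.card_le_card h2
    rw [Finset.card_union_of_disjoint h3, hTc, hU.2] at h4
    omega
theorem cnt2 (p q : Cfsg.GolayPt) (hpq : p ≠ q) (s : Finset Cfsg.GolayPt) (hs : (s.card = 2 ∧ p ∉ s ∧ q ∉ s)) :
    {t : Finset Cfsg.GolayPt | (t.card = 2 ∧ p ∉ t ∧ q ∉ t) ∧ Disjoint s t ∧ ¬ (∃ o ∈ Cfsg.octads, p ∈ o ∧ q ∈ o ∧ s ∪ t ⊆ o)}.ncard = 160 := by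
  classical
  set T : Finset GolayPt := insert p (insert q s) with hT
  have hTc : T.card = 4 := by
    rw [hT, Finset.card_insert_of_notMem, Finset.card_insert_of_notMem hs.2.2, hs.1]
    rw [Finset.mem_insert]; rintro (h | h)
    · exact hpq h
    · exact hs.2.1 h
  have h1 := ncard_inter T 2 0 (by norm_num)
  have h2 : {y : Finset GolayPt | y.card = 2 ∧ (T ∩ y).card = 0} =
      {t : Finset Cfsg.GolayPt | (t.card = 2 ∧ p ∉ t ∧ q ∉ t) ∧ Disjoint s t ∧ (∃ o ∈ Cfsg.octads, p ∈ o ∧ q ∈ o ∧ s ∪ t ⊆ o)} ∪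
      {t : Finset Cfsg.GolayPt | (t.card = 2 ∧ p ∉ t ∧ q ∉ t) ∧ Disjoint s t ∧ ¬ (∃ o ∈ Cfsg.octads, p ∈ o ∧ q ∈ o ∧ s ∪ t ⊆ o)} := by
    ext U
    have e1 : (T ∩ U).card = 0 ↔ (p ∉ U ∧ q ∉ U) ∧ Disjoint s U := by
      rw [Finset.card_eq_zero, ← Finset.disjoint_iff_inter_eq_empty, hT, Finset.disjoint_insert_left, Finset.disjoint_insert_left, and_assoc]
    simp only [Set.mem_setOf_eq, Set.mem_union, e1]
    by_cases h : ∃ o ∈ Cfsg.octads, p ∈ o ∧ q ∈ o ∧ s ∪ U ⊆ o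
    · constructor
      · rintro ⟨h3, h4, h5⟩; exact Or.inl ⟨⟨h3, h4⟩, h5, h⟩
      · rintro (⟨⟨h3, h4⟩, h5, _⟩ | ⟨⟨h3, h4⟩, h5, _⟩) <;> exact ⟨h3, h4, h5⟩
    · constructor
      · rintro ⟨h3, h4, h5⟩; exact Or.inr ⟨⟨h3, h4⟩, h5, h⟩
      · rintro (⟨⟨h3, h4⟩, h5, _⟩ | ⟨⟨h3, h4⟩, h5, _⟩) <;> exact ⟨h3, h4, h5⟩
  rw [h2, Set.ncard_union_eq, cnt1 p q hpq s hs, hTc] at h1
  · have h3 : Nat.choose 4 0 * Nat.choose (24 - 4) (2 - 0) = 190 := by decide
    omega
  · rw [Set.disjoint_left]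
    rintro U ⟨_, _, h3⟩ ⟨_, _, h4⟩
    exact h4 h3
theorem tr (p q : Cfsg.GolayPt) (hpq : p ≠ q) (s : Finset Cfsg.GolayPt) (hs : (s.card = 2 ∧ p ∉ s ∧ q ∉ s)) (t t' : Finset Cfsg.GolayPt) (ht : (t.card = 2 ∧ p ∉ t ∧ q ∉ t)) (ht' : (t'.card = 2 ∧ p ∉ t' ∧ q ∉ t')) (hne : t ≠ s) (hne' : t' ≠ s) (h : (s ∩ t).card = (s ∩ t').card) (hiff : ((∃ o ∈ Cfsg.octads, p ∈ o ∧ q ∈ o ∧ s ∪ t ⊆ o) ↔ (∃ o ∈ Cfsg.octads, p ∈ o ∧ q ∈ o ∧ s ∪ t' ⊆ o))) : ∃ g : Equiv.Perm Cfsg.GolayPt, g ∈ Cfsg.M24 ∧ g p = p ∧ g q = q ∧ g • s = s ∧ g • t = t' := by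
  have hle : (s ∩ t).card ≤ 1 := by
    have h1 : (s ∩ t).card ≤ 2 := by rw [← hs.1]; exact Finset.card_le_card Finset.inter_subset_left
    have h2 : (s ∩ t).card ≠ 2 := by
      intro h3
      have e1 : s ∩ t = s := Finset.eq_of_subset_of_card_le Finset.inter_subset_left (by rw [h3, hs.1])
      have e2 : s ∩ t = t := Finset.eq_of_subset_of_card_le Finset.inter_subset_right (by rw [h3, ht.1])
      exact hne (by rw [← e2, e1])
    omega
  have k1 := Finset.card_sdiff_add_card_inter s t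
  have k2 := Finset.card_sdiff_add_card_inter t s
  have k3 := Finset.card_sdiff_add_card_inter s t'
  have k4 := Finset.card_sdiff_add_card_inter t' s
  rw [Finset.inter_comm] at k2 k4
  rw [hs.1] at k1 k3
  rw [ht.1] at k2
  rw [ht'.1] at k4
  rcases Nat.lt_or_ge (s ∩ t).card 1 with h0 | h0
  · have d1 : Disjoint s t := by rw [Finset.disjoint_iff_inter_eq_empty, ← Finset.card_eq_zero]; omega
    have d2 : Disjoint s t' := by rw [Finset.disjoint_iff_inter_eq_empty, ← Finset.card_eq_zero]; omega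
    obtain ⟨a, b, hab, hsab⟩ := Finset.card_eq_two.mp hs.1
    obtain ⟨c, d, hcd, htcd⟩ := Finset.card_eq_two.mp ht.1
    obtain ⟨c', d', hcd', htcd'⟩ := Finset.card_eq_two.mp ht'.1
    subst hsab htcd htcd'
    simp only [Finset.mem_insert, Finset.mem_singleton, not_or, Finset.disjoint_insert_left, Finset.disjoint_singleton_left] at hs ht ht' d1 d2
    have n1 : [p, q, a, b, c, d].Nodup := by simp; tauto
    have n2 : [p, q, a, b, c', d'].Nodup := by simp; tauto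
    have u1 : ∀ o : Finset GolayPt, (p ∈ o ∧ q ∈ o ∧ {a, b} ∪ {c, d} ⊆ o) ↔ ∀ x ∈ [p, q, a, b, c, d], x ∈ o := by
      intro o
      simp only [List.mem_cons, List.not_mem_nil, or_false, forall_eq_or_imp, forall_eq, Finset.union_subset_iff, Finset.insert_subset_iff, Finset.singleton_subset_iff, and_assoc]
    have u2 : ∀ o : Finset GolayPt, (p ∈ o ∧ q ∈ o ∧ {a, b} ∪ {c', d'} ⊆ o) ↔ ∀ x ∈ [p, q, a, b, c', d'], x ∈ o := by
      intro o
      simp only [List.mem_cons, List.not_mem_nil, or_false, forall_eq_or_imp, forall_eq, Finset.union_subset_iff, Finset.insert_subset_iff, Finset.singleton_subset_iff, and_assoc]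
    simp only [u1, u2] at hiff
    have fin : ∀ g : Equiv.Perm GolayPt, [p, q, a, b, c, d].map g = [p, q, a, b, c', d'] → g p = p ∧ g q = q ∧ g • ({a, b} : Finset GolayPt) = {a, b} ∧ g • ({c, d} : Finset GolayPt) = {c', d'} := by
      intro g hgl
      simp only [List.map_cons, List.map_nil, List.cons.injEq, and_true] at hgl
      obtain ⟨e1, e2, e3, e4, e5, e6⟩ := hgl
      refine ⟨e1, e2, ?_, ?_⟩
      · rw [Finset.smul_finset_insert, Finset.smul_finset_singleton, Equiv.Perm.smul_def, Equiv.Perm.smul_def, e3, e4]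
      · rw [Finset.smul_finset_insert, Finset.smul_finset_singleton, Equiv.Perm.smul_def, Equiv.Perm.smul_def, e5, e6]
    by_cases hin : ∃ o ∈ octads, ∀ x ∈ [p, q, a, b, c, d], x ∈ o
    · obtain ⟨o, ho, h1⟩ := hin
      obtain ⟨o', ho', h2⟩ := hiff.mp ⟨o, ho, h1⟩
      obtain ⟨g, hg, hgl, _⟩ := seven_trans_in n1 n2 rfl rfl ho ho' h1 h2
      exact ⟨g, hg, fin g hgl⟩
    · obtain ⟨g, hg, hgl⟩ := six_trans_out n1 n2 rfl rfl hin (fun h => hin (hiff.mpr h))
      exact ⟨g, hg, fin g hgl⟩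
  · have h1 : (s ∩ t).card = 1 := by omega
    obtain ⟨a, ha⟩ := Finset.card_eq_one.mp h1
    obtain ⟨a', ha'⟩ := Finset.card_eq_one.mp (h ▸ h1)
    obtain ⟨b, hb⟩ := Finset.card_eq_one.mp (show (s \ t).card = 1 by omega)
    obtain ⟨b', hb'⟩ := Finset.card_eq_one.mp (show (s \ t').card = 1 by omega)
    obtain ⟨c, hc⟩ := Finset.card_eq_one.mp (show (t \ s).card = 1 by omega)
    obtain ⟨c', hc'⟩ := Finset.card_eq_one.mp (show (t' \ s).card = 1 by omega)
    have s1 : s = {a, b} := by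
      rw [← Finset.sdiff_union_inter s t, ha, hb, Finset.union_comm]; rfl
    have s2 : s = {a', b'} := by
      rw [← Finset.sdiff_union_inter s t', ha', hb', Finset.union_comm]; rfl
    have t1 : t = {a, c} := by
      rw [← Finset.sdiff_union_inter t s, Finset.inter_comm, ha, hc, Finset.union_comm]; rfl
    have t2 : t' = {a', c'} := by
      rw [← Finset.sdiff_union_inter t' s, Finset.inter_comm, ha', hc', Finset.union_comm]; rfl
    have ma : a ∈ s ∧ a ∈ t := Finset.mem_inter.mp (by rw [ha]; simp)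
    have ma' : a' ∈ s ∧ a' ∈ t' := Finset.mem_inter.mp (by rw [ha']; simp)
    have mb : b ∈ s ∧ b ∉ t := Finset.mem_sdiff.mp (by rw [hb]; simp)
    have mb' : b' ∈ s ∧ b' ∉ t' := Finset.mem_sdiff.mp (by rw [hb']; simp)
    have mc : c ∈ t ∧ c ∉ s := Finset.mem_sdiff.mp (by rw [hc]; simp)
    have mc' : c' ∈ t' ∧ c' ∉ s := Finset.mem_sdiff.mp (by rw [hc']; simp)
    have n1 : [p, q, a, b, c].Nodup := by
      simp only [List.nodup_cons, List.mem_cons, List.not_mem_nil, or_false, not_or, List.nodup_nil, and_true, not_false_eq_true]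
      refine ⟨⟨hpq, ?_, ?_, ?_⟩, ⟨?_, ?_, ?_⟩, ⟨?_, ?_⟩, ?_⟩
      · rintro rfl; exact hs.2.1 ma.1
      · rintro rfl; exact hs.2.1 mb.1
      · rintro rfl; exact ht.2.1 mc.1
      · rintro rfl; exact hs.2.2 ma.1
      · rintro rfl; exact hs.2.2 mb.1
      · rintro rfl; exact ht.2.2 mc.1
      · rintro rfl; exact mb.2 ma.2
      · rintro rfl; exact mc.2 ma.1
      · rintro rfl; exact mc.2 mb.1
    have n2 : [p, q, a', b', c'].Nodup := by
      simp only [List.nodup_cons, List.mem_cons, List.not_mem_nil, or_false, not_or, List.nodup_nil, and_true, not_false_eq_true]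
      refine ⟨⟨hpq, ?_, ?_, ?_⟩, ⟨?_, ?_, ?_⟩, ⟨?_, ?_⟩, ?_⟩
      · rintro rfl; exact hs.2.1 ma'.1
      · rintro rfl; exact hs.2.1 mb'.1
      · rintro rfl; exact ht'.2.1 mc'.1
      · rintro rfl; exact hs.2.2 ma'.1
      · rintro rfl; exact hs.2.2 mb'.1
      · rintro rfl; exact ht'.2.2 mc'.1
      · rintro rfl; exact mb'.2 ma'.2
      · rintro rfl; exact mc'.2 ma'.1
      · rintro rfl; exact mc'.2 mb'.1
    obtain ⟨g, hg, hgl⟩ := trans_list n1 n2 rfl (by simp)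
    simp only [List.map_cons, List.map_nil, List.cons.injEq, and_true] at hgl
    obtain ⟨e1, e2, e3, e4, e5⟩ := hgl
    refine ⟨g, hg, e1, e2, ?_, ?_⟩
    · conv_rhs => rw [s2]
      rw [s1, Finset.smul_finset_insert, Finset.smul_finset_singleton, Equiv.Perm.smul_def, Equiv.Perm.smul_def, e3, e4]
    · rw [t1, t2, Finset.smul_finset_insert, Finset.smul_finset_singleton, Equiv.Perm.smul_def, Equiv.Perm.smul_def, e3, e5]
end


/-- Fix two points p ≠ q and a pair s of two further points. Among the pairs avoiding p, q and disjoint from s, exactly 30 lie in an octad together with p, q and s and exactly 160 do not; and any two pairs other than s that meet s in equally many points and agree on that octad property are carried to one another by an element of the group of the length-24 code fixing p, q and s. -/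
theorem result (p q : Cfsg.GolayPt) (hpq : p ≠ q) (s : Finset Cfsg.GolayPt) (hs : (s.card = 2 ∧ p ∉ s ∧ q ∉ s)) : {t : Finset Cfsg.GolayPt | (t.card = 2 ∧ p ∉ t ∧ q ∉ t) ∧ Disjoint s t ∧ (∃ o ∈ Cfsg.octads, p ∈ o ∧ q ∈ o ∧ s ∪ t ⊆ o)}.ncard = 30 ∧ {t : Finset Cfsg.GolayPt | (t.card = 2 ∧ p ∉ t ∧ q ∉ t) ∧ Disjoint s t ∧ ¬ (∃ o ∈ Cfsg.octads, p ∈ o ∧ q ∈ o ∧ s ∪ t ⊆ o)}.ncard = 160 ∧ ∀ t t' : Finset Cfsg.GolayPt, (t.card = 2 ∧ p ∉ t ∧ q ∉ t) → (t'.card = 2 ∧ p ∉ t' ∧ q ∉ t') → t ≠ s → t' ≠ s → (s ∩ t).card = (s ∩ t').card → ((∃ o ∈ Cfsg.octads, p ∈ o ∧ q ∈ o ∧ s ∪ t ⊆ o) ↔ (∃ o ∈ Cfsg.octads, p ∈ o ∧ q ∈ o ∧ s ∪ t' ⊆ o)) → ∃ g : Equiv.Perm Cfsg.GolayPt, g ∈ Cfsg.M24 ∧ g p = p ∧ g q = q ∧ g • s = s ∧ g • t = t' := by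
  exact ⟨cnt1 p q hpq s hs, cnt2 p q hpq s hs, fun t t' ht ht' hne hne' h hiff => tr p q hpq s hs t t' ht ht' hne hne' h hiff⟩

end Cfsg.Agent.S1638
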