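import Cfsg.Statements.S1639
import Cfsg.Agent.Lib.GolayPairs

set_option autoImplicit false
open scoped Pointwise
open Cfsg

open scoped Pointwise
namespace Cfsg.Agent.S1639

section
open CfsgLib.Golay
theorem cnt (p : Cfsg.GolayPt) (d : Finset Cfsg.GolayPt) (hd : d ∈ Cfsg.dodecads) (hp : p ∈ d) (k n : ℕ)
    (h : cntC (fun m => and (Nat.beq (pop m) 12) (and (Nat.testBit m 0) (Nat.beq (pop (Nat.land 0x7a0bf m)) k))) rows 0 = n) :
    {x : Finset Cfsg.GolayPt | x ∈ Cfsg.dodecads ∧ p ∈ x ∧ (d ∩ x).card = k}.ncard = n := by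
  obtain ⟨g, hg, hgd, hgl⟩ := dod_trans hd D0_mem (l := [p]) (l' := [pt 0]) (by simp) (by simp) (by simp [hp]) (by
    intro q hq; exact mem_D0_base q (by simp at hq ⊢; tauto)) rfl (by simp)
  simp only [List.map_cons, List.map_nil, List.cons.injEq, and_true] at hgl
  rw [ncard_transfer g _ (fun x => x ∈ Cfsg.dodecads ∧ pt 0 ∈ x ∧ (D0 ∩ x).card = k)]
  · apply count_code _ _ h
    intro s
    rw [dodecads_iff', Bool.and_eq_true, Bool.and_eq_true, and_assoc, D0, inter_card_eq (by norm_num), Nat.beq_eq, Nat.beq_eq,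
      mem_pt_iff (by norm_num)]
  · intro s
    rw [smul_mem_dodecads hg, ← hgd, ← smul_inter', card_smul', ← hgl, mem_smul_iff]
theorem aux (x : Cfsg.GolayPt) (d : Finset Cfsg.GolayPt) (hd : d ∈ Cfsg.dodecads) (hx : x ∈ d) (d' d'' : Finset Cfsg.GolayPt) (hd' : d' ∈ Cfsg.dodecads) (hd'' : d'' ∈ Cfsg.dodecads) (hx' : x ∈ d') (hx'' : x ∈ d'') (h : (d ∩ d').card = (d ∩ d'').card) :
    ∃ g : Equiv.Perm Cfsg.GolayPt, g ∈ Cfsg.M24 ∧ g x = x ∧ g • d = d ∧ g • d' = d'' := by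
  have h12 : d.card = 12 := hd.2
  have hx1 : x ∈ d ∩ d' := Finset.mem_inter.mpr ⟨hx, hx'⟩
  rcases dodecad_inter_dodecad hd hd' with h3 | h3 | h3 | h3 | h3
  · rw [Finset.card_eq_zero.mp h3] at hx1; simp at hx1
  · obtain ⟨g, hg, e1, e2, e3⟩ := dpair4 hd hd' h3 hx hx'
    obtain ⟨k, hk, f1, f2, f3⟩ := dpair4 hd hd'' (h ▸ h3) hx hx''
    obtain ⟨c1, c2, c3⟩ := combine hg hk e1 e2 f1 f2
    exact ⟨_, c1, combine_pt e3 f3, c2, c3⟩
  · obtain ⟨g, hg, e1, e2, e3⟩ := dpair6 hd hd' h3 hx hx'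
    obtain ⟨k, hk, f1, f2, f3⟩ := dpair6 hd hd'' (h ▸ h3) hx hx''
    obtain ⟨c1, c2, c3⟩ := combine hg hk e1 e2 f1 f2
    exact ⟨_, c1, combine_pt e3 f3, c2, c3⟩
  · obtain ⟨g, hg, e1, e2, e3⟩ := dpair8 hd hd' h3 hx hx'
    obtain ⟨k, hk, f1, f2, f3⟩ := dpair8 hd hd'' (h ▸ h3) hx hx''
    obtain ⟨c1, c2, c3⟩ := combine hg hk e1 e2 f1 f2
    exact ⟨_, c1, combine_pt e3 f3, c2, c3⟩
  · have e1 : d ∩ d' = d := Finset.eq_of_subset_of_card_le Finset.inter_subset_left (by rw [h3, h12])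
    have e2 : d ∩ d' = d' := Finset.eq_of_subset_of_card_le Finset.inter_subset_right (by rw [h3, hd'.2])
    have e3 : d ∩ d'' = d := Finset.eq_of_subset_of_card_le Finset.inter_subset_left (by rw [← h, h3, h12])
    have e4 : d ∩ d'' = d'' := Finset.eq_of_subset_of_card_le Finset.inter_subset_right (by rw [← h, h3, hd''.2])
    exact ⟨1, one_mem _, rfl, one_smul _ _, by rw [one_smul, ← e2, e1, ← e4, e3]⟩
end


/-- The point stabiliser acts on the 1288 dodecads through the point with rank 4 and subdegrees 1, 165, 330, 792, distinguished by intersection 4, 8, 6 with the fixed dodecad. -/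
theorem result (x : Cfsg.GolayPt) (d : Finset Cfsg.GolayPt) (hd : d ∈ Cfsg.dodecads) (hx : x ∈ d) : {d' : Finset Cfsg.GolayPt | d' ∈ Cfsg.dodecads ∧ x ∈ d' ∧ (d ∩ d').card = 4}.ncard = 165 ∧ {d' : Finset Cfsg.GolayPt | d' ∈ Cfsg.dodecads ∧ x ∈ d' ∧ (d ∩ d').card = 8}.ncard = 330 ∧ {d' : Finset Cfsg.GolayPt | d' ∈ Cfsg.dodecads ∧ x ∈ d' ∧ (d ∩ d').card = 6}.ncard = 792 ∧ ∀ d' d'' : Finset Cfsg.GolayPt, d' ∈ Cfsg.dodecads → d'' ∈ Cfsg.dodecads → x ∈ d' → x ∈ d'' → (d ∩ d').card = (d ∩ d'').card → ∃ g : Equiv.Perm Cfsg.GolayPt, g ∈ Cfsg.M24 ∧ g x = x ∧ g • d = d ∧ g • d' = d'' := by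
  exact ⟨cnt x d hd hx 4 165 (by decide +kernel), cnt x d hd hx 8 330 (by decide +kernel), cnt x d hd hx 6 792 (by decide +kernel),
    fun d' d'' hd' hd'' hx' hx'' h => aux x d hd hx d' d'' hd' hd'' hx' hx'' h⟩

end Cfsg.Agent.S1639
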