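import Cfsg.Statements.S1640
import Cfsg.Agent.Lib.Leech19

set_option autoImplicit false
open Cfsg

namespace Cfsg.Agent.S1640

section
end


/-- The stabiliser of a vector of customary norm 6 is transitive on the 11178 minimal vectors of customary inner product −2 with it. -/
theorem result (u : ↥Cfsg.leechLattice) (hu : Cfsg.sqNorm (u : Cfsg.GolayPt → ℤ) = 48) : {x : ↥Cfsg.leechLattice | Cfsg.sqNorm (x : Cfsg.GolayPt → ℤ) = 32 ∧ Cfsg.dotInt (u : Cfsg.GolayPt → ℤ) (x : Cfsg.GolayPt → ℤ) = -16}.ncard = 11178 ∧ ∀ x ∈ {x : ↥Cfsg.leechLattice | Cfsg.sqNorm (x : Cfsg.GolayPt → ℤ) = 32 ∧ Cfsg.dotInt (u : Cfsg.GolayPt → ℤ) (x : Cfsg.GolayPt → ℤ) = -16}, ∀ x' ∈ {x : ↥Cfsg.leechLattice | Cfsg.sqNorm (x : Cfsg.GolayPt → ℤ) = 32 ∧ Cfsg.dotInt (u : Cfsg.GolayPt → ℤ) (x : Cfsg.GolayPt → ℤ) = -16}, ∃ g : ↥Cfsg.Co0, g • u = u ∧ g • x = x' := by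
  constructor
  · rw [CfsgLib.Leech.ncard_nd', CfsgLib.Leech.nd_neg]
    exact (CfsgLib.Leech.census48 hu).2.1
  · intro x hx x' hx'
    obtain ⟨g, hg, hg'⟩ := CfsgLib.Leech.trans_T4 x u hx.1 hu (by rw [CfsgLib.Leech.dot_symm]; exact hx.2)
    obtain ⟨k, hk, hk'⟩ := CfsgLib.Leech.trans_T4 x' u hx'.1 hu (by rw [CfsgLib.Leech.dot_symm]; exact hx'.2)
    refine ⟨k⁻¹ * g, ?_, ?_⟩
    · rw [mul_smul, hg', ← hk', inv_smul_smul]
    · rw [mul_smul, hg, ← hk, inv_smul_smul]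

end Cfsg.Agent.S1640
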