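import Cfsg.Statements.S1642
import Cfsg.Agent.Lib.Leech31

set_option autoImplicit false
open Cfsg

open scoped Pointwise
namespace Cfsg.Agent.S1642

/-- Some involution of the Higman–Sims group acts without fixed points on its 100 points. -/
theorem result (v w : ↥Cfsg.leechLattice) (hv : Cfsg.sqNorm (v : Cfsg.GolayPt → ℤ) = 48) (hw : Cfsg.sqNorm (w : Cfsg.GolayPt → ℤ) = 48) (hvw : Cfsg.dotInt (v : Cfsg.GolayPt → ℤ) (w : Cfsg.GolayPt → ℤ) = -32) : ∃ g : ↥Cfsg.Co0, g • v = v ∧ g • w = w ∧ orderOf g = 2 ∧ ∀ x ∈ {x : ↥Cfsg.leechLattice | Cfsg.sqNorm (x : Cfsg.GolayPt → ℤ) = 32 ∧ Cfsg.dotInt (v : Cfsg.GolayPt → ℤ) (x : Cfsg.GolayPt → ℤ) = 24 ∧ Cfsg.dotInt (w : Cfsg.GolayPt → ℤ) (x : Cfsg.GolayPt → ℤ) = -24}, g • x ≠ x := by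
  obtain ⟨h1, h2, h3⟩ := CfsgLib.Leech.hs_conv hv hw hvw
  rw [h3]
  obtain ⟨u, y, g, hu, hy, huy, g1, g2, g3, g4⟩ := CfsgLib.Leech.hs_inv
  obtain ⟨a, a1, a2⟩ := CfsgLib.Leech.trans_T4 y u hy hu huy
  obtain ⟨b, b1, b2⟩ := CfsgLib.Leech.trans_T4 _ v h1 hv h2
  have c1 : (b⁻¹ * a) • u = v := by rw [mul_smul, a2, ← b2, inv_smul_smul]
  have c2 : (b⁻¹ * a) • y = -(v + w) := by rw [mul_smul, a1, ← b1, inv_smul_smul]
  generalize b⁻¹ * a = k at c1 c2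
  have d1 : (k * g * k⁻¹) • v = v := by rw [← c1, mul_smul, inv_smul_smul, mul_smul, g1]
  have d2 : (k * g * k⁻¹) • (-(v + w)) = -(v + w) := by rw [← c2, mul_smul, inv_smul_smul, mul_smul, g2]
  refine ⟨k * g * k⁻¹, d1, ?_, ?_, ?_⟩
  · rw [CfsgLib.Leech.co_neg, neg_inj, CfsgLib.Leech.co_add, d1] at d2
    exact add_left_cancel d2
  · rw [← MulAut.conj_apply, ← g3]
    exact orderOf_injective (MulAut.conj k).toMonoidHom (MulAut.conj k).injective g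
  · intro x hx hfix
    have h4 : k⁻¹ • x ∈ CfsgLib.Leech.hsPts u y := by
      rw [← CfsgLib.Leech.hs_mem_smul k, smul_inv_smul, c1, c2]; exact hx
    apply g4 _ h4
    rw [mul_smul, mul_smul] at hfix
    rw [eq_inv_smul_iff]
    exact hfix

end Cfsg.Agent.S1642
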