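import Cfsg.Statements.S1691
import Cfsg.Agent.Lib.H5TC6

set_option autoImplicit false
open Cfsg

namespace Cfsg.Agent.S1691

open Cfsg.Agent.H5TC Cfsg.Spor Cfsg.Spor.Fi24

theorem mem (x : Gen) : x ∈ coxNodes edges := by cases x <;> simp [coxNodes, edges]

theorem par : ∃ φ : Cfsg.Spor.Fi24 →* ℤˣ, ∀ x, φ (PresentedGroup.of x) = -1 := by
  apply cox_hom edges extra (fun _ => (-1 : ℤˣ))
  · intro x _ y _
    simp
  · intro r hr
    simp only [extra, List.mem_cons, List.not_mem_nil, or_false] at hr
    rcases hr with rfl | rfl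
    · simp only [map_mul, map_pow, map_inv, FreeGroup.lift_apply_of]
      decide
    · simp only [map_mul, map_pow, map_inv, FreeGroup.lift_apply_of]
      decide

/-- images of the generators in the abelianisation agree -/
theorem eqt (x y : Gen) (h : coxLabel edges x y = 3) :
    (QuotientGroup.mk (PresentedGroup.of x) : Cfsg.Spor.Fi24 ⧸ commutator Cfsg.Spor.Fi24) =
      QuotientGroup.mk (PresentedGroup.of y) := by
  have h1 := cox_pair edges extra x y (mem x) (mem y)
  rw [h] at h1
  have hx := cox_sq edges extra x (mem x)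
  have hy := cox_sq edges extra y (mem y)
  set a : Abelianization Cfsg.Spor.Fi24 := Abelianization.of (PresentedGroup.of x) with ha
  set b : Abelianization Cfsg.Spor.Fi24 := Abelianization.of (PresentedGroup.of y) with hb
  have e1 : (a * b) ^ 3 = 1 := by rw [ha, hb, ← map_mul, ← map_pow, h1, map_one]
  have e2 : a * a = 1 := by rw [ha, ← map_mul, hx, map_one]
  have e3 : b * b = 1 := by rw [hb, ← map_mul, hy, map_one]
  have e4 : a * b = 1 := by
    have : (a * b) ^ 3 = (a * a) * (b * b) * (a * b) := by
      rw [pow_succ, mul_pow, pow_two, pow_two]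
    rw [this, e2, e3, one_mul, one_mul] at e1
    exact e1
  have : a = b := by
    rw [mul_eq_one_iff_eq_inv] at e4
    rw [e4]
    exact inv_eq_of_mul_eq_one_left e3
  exact this

theorem eqa (x : Gen) :
    (QuotientGroup.mk (PresentedGroup.of x) : Cfsg.Spor.Fi24 ⧸ commutator Cfsg.Spor.Fi24) =
      QuotientGroup.mk (PresentedGroup.of Gen.d) := by
  have hc := eqt .c .d rfl
  have hb := (eqt .b .c rfl).trans hc
  have ha := (eqt .a .b rfl).trans hb
  have hk := (eqt .k .a rfl).trans ha
  have hl := (eqt .l .k rfl).trans hk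
  have he := (eqt .d .e rfl).symm
  have hf := (eqt .e .f rfl).symm.trans he
  have hg := (eqt .f .g rfl).symm.trans hf
  have hj := (eqt .g .j rfl).symm.trans hg
  have hh := (eqt .d .h rfl).symm
  have hi := (eqt .h .i rfl).symm.trans hh
  cases x <;> first | rfl | assumption

/-- The commutator subgroup of the presented group Fi₂₄ has index 2 (the presented group is Fi₂₄′:2 with Fi₂₄′ its derived subgroup). -/
theorem result : (commutator Cfsg.Spor.Fi24).index = 2 := by
  obtain ⟨φ, hφ⟩ := par
  have h1 : commutator Cfsg.Spor.Fi24 ≤ φ.ker := Abelianization.commutator_subset_ker φ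
  have h2 : φ.ker.index = 2 := by
    rw [Subgroup.index_ker]
    have : φ.range = ⊤ := by
      rw [eq_top_iff]
      rintro u -
      rcases Int.units_eq_one_or u with rfl | rfl
      · exact ⟨1, map_one φ⟩
      · exact ⟨PresentedGroup.of Gen.d, hφ _⟩
    rw [this, Subgroup.card_top, Nat.card_eq_fintype_card]
    rfl
  have h3 : 2 ∣ (commutator Cfsg.Spor.Fi24).index := h2 ▸ Subgroup.index_dvd_of_le h1
  have h4 : ∀ g : Cfsg.Spor.Fi24, (QuotientGroup.mk g : Cfsg.Spor.Fi24 ⧸ commutator Cfsg.Spor.Fi24) = 1 ∨
      (QuotientGroup.mk g : Cfsg.Spor.Fi24 ⧸ commutator Cfsg.Spor.Fi24) = QuotientGroup.mk (PresentedGroup.of Gen.d) := by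
    have ht : (QuotientGroup.mk (PresentedGroup.of Gen.d) : Cfsg.Spor.Fi24 ⧸ commutator Cfsg.Spor.Fi24) *
        QuotientGroup.mk (PresentedGroup.of Gen.d) = 1 := by
      rw [← QuotientGroup.mk_mul]
      have := cox_sq edges extra Gen.d (mem _)
      rw [this]
      rfl
    have hmul : ∀ x y : Cfsg.Spor.Fi24 ⧸ commutator Cfsg.Spor.Fi24,
        (x = 1 ∨ x = QuotientGroup.mk (PresentedGroup.of Gen.d)) →
        (y = 1 ∨ y = QuotientGroup.mk (PresentedGroup.of Gen.d)) →
        (x * y = 1 ∨ x * y = QuotientGroup.mk (PresentedGroup.of Gen.d)) := by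
      rintro x y (rfl | rfl) (rfl | rfl)
      · left; simp
      · right; simp
      · right; simp
      · left; exact ht
    intro g
    have hg : g ∈ Subgroup.closure (Set.range (PresentedGroup.of : Gen → Cfsg.Spor.Fi24)) := by
      rw [cox_gen]; trivial
    induction hg using Subgroup.closure_induction with
    | mem x hx =>
      obtain ⟨y, rfl⟩ := hx
      right
      exact eqa y
    | one => left; rfl
    | mul x y _ _ hx hy =>
      rw [QuotientGroup.mk_mul]
      exact hmul _ _ hx hy
    | inv x _ hx =>
      rw [QuotientGroup.mk_inv]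
      rcases hx with hx | hx
      · left; rw [hx, inv_one]
      · right; rw [hx]; exact inv_eq_of_mul_eq_one_left ht
  have h5 : (commutator Cfsg.Spor.Fi24).index ≤ 2 := by
    rw [Subgroup.index]
    have hs : Function.Surjective (fun b : Bool => if b then (1 : Cfsg.Spor.Fi24 ⧸ commutator Cfsg.Spor.Fi24)
        else QuotientGroup.mk (PresentedGroup.of Gen.d)) := by
      intro q
      obtain ⟨g, rfl⟩ := QuotientGroup.mk_surjective q
      rcases h4 g with h | h
      · exact ⟨true, by simp [h]⟩
      · exact ⟨false, by simp [h]⟩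
    have := Nat.card_le_card_of_surjective _ hs
    simpa using this
  have h6 : (commutator Cfsg.Spor.Fi24).index ≠ 0 := by
    intro h
    have hfin : Finite (Cfsg.Spor.Fi24 ⧸ commutator Cfsg.Spor.Fi24) := by
      have hs : Function.Surjective (fun b : Bool => if b then (1 : Cfsg.Spor.Fi24 ⧸ commutator Cfsg.Spor.Fi24)
          else QuotientGroup.mk (PresentedGroup.of Gen.d)) := by
        intro q
        obtain ⟨g, rfl⟩ := QuotientGroup.mk_surjective q
        rcases h4 g with h | h
        · exact ⟨true, by simp [h]⟩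
        · exact ⟨false, by simp [h]⟩
      exact Finite.of_surjective _ hs
    exact Subgroup.index_ne_zero_of_finite (hH := hfin) h
  obtain ⟨m, hm⟩ := h3
  have : m = 1 := by omega
  rw [hm, this]

end Cfsg.Agent.S1691
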