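import Cfsg.Statements.S1753
import Mathlib

set_option autoImplicit false
universe u
open Cfsg

namespace Cfsg.Agent.S1753

theorem card_section_lt {G : Type*} [Group G] [Finite G] (H : Subgroup G) (hH : H ≠ ⊤) (H' : Subgroup ↥H)
    (N : Subgroup ↥H') [N.Normal] : Nat.card (↥H' ⧸ N) < Nat.card G := by
  calc Nat.card (↥H' ⧸ N) ≤ Nat.card ↥H' := Nat.card_le_card_of_surjective _ (QuotientGroup.mk'_surjective N)
    _ ≤ Nat.card ↥H := Subgroup.card_le_card_group H'
    _ < Nat.card G := by
        have h1 := Subgroup.card_le_card_group H
        refine lt_of_le_of_ne h1 (fun h => hH ?_)
        exact Subgroup.eq_top_of_card_eq H h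


/-- Let K be any property of groups. (1) If G is a minimal counterexample relative to K — a finite non-abelian simple group not satisfying K such that every finite non-abelian simple group of smaller order satisfies K — then every proper subgroup of G is a K-group (all its non-abelian simple sections satisfy K), since such sections have smaller order than G. (2) Consequently (induction on the order), if every finite non-abelian simple group all of whose proper subgroups are K-groups satisfies K, then every finite non-abelian simple group satisfies K. -/
theorem result (K : ∀ (X : Type u) [Group X], Prop) :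
    (∀ (G : Type u) [Group G], Cfsg.IsMinCounterexampleWith K G → Cfsg.IsKProperWith K G) ∧
      ((∀ (X : Type u) [Group X] [Finite X], IsSimpleGroup X → ¬ IsMulCommutative X → Cfsg.IsKProperWith K X → K X) →
        ∀ (G : Type u) [Group G] [Finite G], IsSimpleGroup G → ¬ IsMulCommutative G → K G) := by
  constructor
  · intro G _ hG H hH H' N _ hs hc
    obtain ⟨hfin, _, _, _, hmin⟩ := hG
    exact hmin _ hs hc (card_section_lt H hH H' N)
  · intro hK
    have main : ∀ n : ℕ, ∀ (G : Type _) [Group G] [Finite G], Nat.card G = n → IsSimpleGroup G → ¬ IsMulCommutative G → K G := by
      intro n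
      induction n using Nat.strong_induction_on with
      | _ n ih =>
        intro G _ _ hn hs hc
        apply hK G hs hc
        intro H hH H' N _ hs' hc'
        exact ih _ (hn ▸ card_section_lt H hH H' N) _ rfl hs' hc'
    intro G _ _ hs hc
    exact main _ G rfl hs hc

end Cfsg.Agent.S1753
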