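import Cfsg.Statements.S1754
import Mathlib
import Cfsg.Agent.Lib.Comp2

set_option autoImplicit false
open Cfsg

namespace Cfsg.Agent.S1754

open CfsgLib.Comp Subgroup


/-- Let A be a standard subgroup of the finite group G (A quasisimple, C_G(A) tightly embedded of even order, A commuting elementwise with no other conjugate of itself, and N_G(A) = N_G(C_G(A))), and let t be an involution of G centralizing A. Then the centralizer of t lies in the normalizer of A; in particular A, viewed inside C_G(t), is a component of C_G(t). -/
theorem result {G : Type*} [Group G] [Finite G]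
    (A : Subgroup G) (hA : Cfsg.IsStandardSubgroup A) (t : G) (ht : orderOf t = 2) (htA : t ∈ Subgroup.centralizer (A : Set G)) :
    Subgroup.centralizer ({t} : Set G) ≤ Subgroup.normalizer (A : Set G) ∧
      Cfsg.IsComponent (A.subgroupOf (Subgroup.centralizer ({t} : Set G))) := by
  obtain ⟨h1, h2, h3, h4⟩ := hA
  have hle : Subgroup.centralizer ({t} : Set G) ≤ Subgroup.normalizer (A : Set G) := by
    intro g hg
    rw [h4]
    by_contra hn
    have h5 := h2.2 g hn
    have h6 : t ∈ Subgroup.centralizer (A : Set G) ⊓ (Subgroup.centralizer (A : Set G)).map (MulAut.conj g).toMonoidHom := by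
      refine Subgroup.mem_inf.2 ⟨htA, t, htA, ?_⟩
      change g * t * g⁻¹ = t
      rw [mem_centralizer_singleton_iff.1 hg, mul_inv_cancel_right]
    have h7 := Subgroup.orderOf_dvd_natCard _ h6
    rw [ht] at h7
    rw [← Nat.not_even_iff_odd] at h5
    exact h5 (even_iff_two_dvd.2 h7)
  refine ⟨hle, ?_, ?_⟩
  · have hAC : A ≤ Subgroup.centralizer ({t} : Set G) := by
      intro a ha
      rw [mem_centralizer_singleton_iff]
      exact mem_centralizer_iff.1 htA a ha
    have hn : (A.subgroupOf (Subgroup.centralizer ({t} : Set G))).Normal :=
      (Subgroup.normal_subgroupOf_iff_le_normalizer hAC).2 hle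
    exact hn.isSubnormal
  · have hAC : A ≤ Subgroup.centralizer ({t} : Set G) := by
      intro a ha
      rw [mem_centralizer_singleton_iff]
      exact mem_centralizer_iff.1 htA a ha
    exact qs_congr (Subgroup.subgroupOfEquivOfLe hAC).symm h1

end Cfsg.Agent.S1754
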