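import Cfsg.Statements.S1755
import Mathlib
import Cfsg.Agent.Lib.Comp2

set_option autoImplicit false
open Cfsg

set_option linter.style.haveILetI false
namespace Cfsg.Agent.S1755

open CfsgLib.Comp Subgroup

theorem uniq_invol {A : Type*} [Group A] [Finite A] [IsCyclic A] {x y : A} (hx : orderOf x = 2) (hy : orderOf y = 2) :
    x = y := by
  classical
  haveI := Fintype.ofFinite A
  by_contra hne
  have h1 := IsCyclic.card_pow_eq_one_le (α := A) (n := 2) (by norm_num)
  have hx1 : x ≠ 1 := by rintro rfl; rw [orderOf_one] at hx; norm_num at hx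
  have hy1 : y ≠ 1 := by rintro rfl; rw [orderOf_one] at hy; norm_num at hy
  have h2 : ({1, x, y} : Finset A) ⊆ Finset.univ.filter (fun a : A => a ^ 2 = 1) := by
    intro a ha
    rw [Finset.mem_insert, Finset.mem_insert, Finset.mem_singleton] at ha
    rw [Finset.mem_filter]
    refine ⟨Finset.mem_univ _, ?_⟩
    rcases ha with rfl | rfl | rfl
    · exact one_pow 2
    · rw [← hx, pow_orderOf_eq_one]
    · rw [← hy, pow_orderOf_eq_one]
  have h3 := Finset.card_le_card h2
  have h4 : ({1, x, y} : Finset A).card = 3 := Finset.card_eq_three.2 ⟨1, x, y, hx1.symm, hy1.symm, hne, rfl⟩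
  omega


/-- Let G be a finite group and let z be an involution of G such that Q, the generalized Fitting subgroup of the centralizer C of z, is a 2-group of symplectic type (every characteristic abelian subgroup of Q is cyclic). Let B be a characteristic abelian subgroup of Q, viewed as a subgroup of G. Then for every g in G, the conjugate of B by g either equals B or meets B trivially. -/
theorem result {G : Type*} [Group G] [Finite G] (z : G) (hz : orderOf z = 2) (hQ : Cfsg.IsOfSymplecticType ↥(Cfsg.generalizedFittingSubgroup ↥(Subgroup.centralizer ({z} : Set G))))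
    (B : Subgroup ↥(Cfsg.generalizedFittingSubgroup ↥(Subgroup.centralizer ({z} : Set G)))) (hBc : B.Characteristic) (hBa : IsMulCommutative ↥B) (g : G) :
    ((B.map (Cfsg.generalizedFittingSubgroup ↥(Subgroup.centralizer ({z} : Set G))).subtype).map (Subgroup.centralizer ({z} : Set G)).subtype).map (MulAut.conj g).toMonoidHom =
        (B.map (Cfsg.generalizedFittingSubgroup ↥(Subgroup.centralizer ({z} : Set G))).subtype).map (Subgroup.centralizer ({z} : Set G)).subtype ∨
      ((B.map (Cfsg.generalizedFittingSubgroup ↥(Subgroup.centralizer ({z} : Set G))).subtype).map (Subgroup.centralizer ({z} : Set G)).subtype).map (MulAut.conj g).toMonoidHom ⊓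
        (B.map (Cfsg.generalizedFittingSubgroup ↥(Subgroup.centralizer ({z} : Set G))).subtype).map (Subgroup.centralizer ({z} : Set G)).subtype = ⊥ := by
  haveI : Fact (Nat.Prime 2) := ⟨Nat.prime_two⟩
  obtain ⟨hQ2, hQs⟩ := hQ
  haveI hBcyc := hQs B hBc hBa
  haveI hF := gfs_characteristic (G := ↥(Subgroup.centralizer ({z} : Set G)))
  haveI hFn : (Cfsg.generalizedFittingSubgroup ↥(Subgroup.centralizer ({z} : Set G))).Normal := inferInstance
  haveI hBn : B.Normal := inferInstance
  have hDn : (B.map (Cfsg.generalizedFittingSubgroup ↥(Subgroup.centralizer ({z} : Set G))).subtype).Normal :=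
    ConjAct.normal_of_characteristic_of_normal
  -- the element `z`
  have hzC : z ∈ Subgroup.centralizer ({z} : Set G) := by rw [mem_centralizer_singleton_iff]
  have hzZ : ∀ c : ↥(Subgroup.centralizer ({z} : Set G)), c * ⟨z, hzC⟩ = ⟨z, hzC⟩ * c := by
    intro c
    exact Subtype.ext (mem_centralizer_singleton_iff.1 c.2)
  have hzF : (⟨z, hzC⟩ : ↥(Subgroup.centralizer ({z} : Set G))) ∈ Cfsg.generalizedFittingSubgroup ↥(Subgroup.centralizer ({z} : Set G)) := by
    apply centralizer_gfs_le
    rw [mem_centralizer_iff]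
    intro c _
    exact hzZ c
  have hzFc : (⟨⟨z, hzC⟩, hzF⟩ : ↥(Cfsg.generalizedFittingSubgroup ↥(Subgroup.centralizer ({z} : Set G)))) ∈ center _ := by
    rw [mem_center_iff]
    intro c
    exact Subtype.ext (hzZ c)
  haveI hZcyc : IsCyclic (center ↥(Cfsg.generalizedFittingSubgroup ↥(Subgroup.centralizer ({z} : Set G)))) :=
    hQs _ inferInstance inferInstance
  -- involutions of `B`
  have key : ∀ b : ↥(Cfsg.generalizedFittingSubgroup ↥(Subgroup.centralizer ({z} : Set G))), b ∈ B → orderOf b = 2 →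
      ((b : ↥(Subgroup.centralizer ({z} : Set G))) : G) = z := by
    intro b hb hb2
    have hbc : b ∈ center _ := by
      rw [mem_center_iff]
      intro f
      have h1 : f * b * f⁻¹ ∈ B := hBn.conj_mem b hb f
      have h2 : (⟨f * b * f⁻¹, h1⟩ : B) = ⟨b, hb⟩ := by
        apply uniq_invol
        · rw [← Subgroup.orderOf_coe]
          exact (orderOf_injective (MulAut.conj f).toMonoidHom (MulAut.conj f).injective b).trans hb2
        · rw [← Subgroup.orderOf_coe]; exact hb2
      exact mul_inv_eq_iff_eq_mul.1 (congrArg Subtype.val h2)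
    have h3 : (⟨b, hbc⟩ : center _) = ⟨_, hzFc⟩ := by
      apply uniq_invol
      · rw [← Subgroup.orderOf_coe]; exact hb2
      · rw [← Subgroup.orderOf_coe, ← Subgroup.orderOf_coe, ← Subgroup.orderOf_coe]; exact hz
    exact congrArg (fun w : center _ => (((w : ↥(Cfsg.generalizedFittingSubgroup ↥(Subgroup.centralizer ({z} : Set G)))) : ↥(Subgroup.centralizer ({z} : Set G))) : G)) h3
  obtain ⟨E, hE⟩ : ∃ E, E = (B.map (Cfsg.generalizedFittingSubgroup ↥(Subgroup.centralizer ({z} : Set G))).subtype).map (Subgroup.centralizer ({z} : Set G)).subtype := ⟨_, rfl⟩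
  rw [← hE]
  have keyE : ∀ e ∈ E, orderOf e = 2 → e = z := by
    intro e he he2
    rw [hE] at he
    obtain ⟨_, ⟨b, hb, rfl⟩, rfl⟩ := he
    exact key b hb (by rw [← Subgroup.orderOf_coe, ← Subgroup.orderOf_coe]; exact he2)
  have hE2 : IsPGroup 2 E := by
    rw [hE]
    exact ((hQ2.to_subgroup B).map _).map _
  by_cases hg : g ∈ Subgroup.centralizer ({z} : Set G)
  · left
    have hle : ∀ c ∈ Subgroup.centralizer ({z} : Set G), E.map (MulAut.conj c).toMonoidHom ≤ E := by
      intro c hc
      rw [hE]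
      rintro _ ⟨_, ⟨d, hd, rfl⟩, rfl⟩
      exact ⟨⟨c, hc⟩ * d * ⟨c, hc⟩⁻¹, hDn.conj_mem d hd ⟨c, hc⟩, rfl⟩
    apply le_antisymm (hle g hg)
    intro e he
    refine ⟨g⁻¹ * e * g, ?_, ?_⟩
    · have h1 := hle g⁻¹ (inv_mem hg) ⟨e, he, rfl⟩
      have h2 : (MulAut.conj g⁻¹).toMonoidHom e = g⁻¹ * e * g := by
        change g⁻¹ * e * g⁻¹⁻¹ = _
        rw [inv_inv]
      rwa [h2] at h1
    · change g * (g⁻¹ * e * g) * g⁻¹ = e
      group
  · right
    rw [Subgroup.eq_bot_iff_forall]
    intro x hx
    by_contra hx1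
    apply hg
    obtain ⟨⟨y, hy, hyx⟩, hxE⟩ := Subgroup.mem_inf.1 hx
    have hyx' : g * y * g⁻¹ = x := hyx
    obtain ⟨k, hk⟩ := (IsPGroup.iff_orderOf.1 hE2) ⟨x, hxE⟩
    rw [← Subgroup.orderOf_coe] at hk
    have hk' : orderOf x = 2 ^ k := hk
    have hk0 : k ≠ 0 := by
      rintro rfl
      rw [pow_zero, orderOf_eq_one_iff] at hk'
      exact hx1 hk'
    have h2 : orderOf (x ^ 2 ^ (k - 1)) = 2 := by
      rw [orderOf_pow_of_dvd (by positivity) (by rw [hk']; exact pow_dvd_pow 2 (by omega)), hk',
        Nat.pow_div (by omega) (by norm_num), show k - (k - 1) = 1 by omega, pow_one]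
    have h3 := keyE _ (pow_mem hxE _) h2
    have h4 : orderOf (y ^ 2 ^ (k - 1)) = 2 := by
      have h5 : x ^ 2 ^ (k - 1) = (MulAut.conj g).toMonoidHom (y ^ 2 ^ (k - 1)) := by
        rw [map_pow, ← hyx']; rfl
      rw [h5, orderOf_injective (MulAut.conj g).toMonoidHom (MulAut.conj g).injective] at h2
      exact h2
    have h5 := keyE _ (pow_mem hy _) h4
    have h6 : g * z * g⁻¹ = z := by
      rw [← h5, ← conj_pow, hyx', h3, h5]
    rw [mem_centralizer_singleton_iff]
    exact mul_inv_eq_iff_eq_mul.1 h6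

end Cfsg.Agent.S1755
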