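import Cfsg.Statements.S1756
import Mathlib
import Cfsg.Agent.Lib.H7Esp
import Cfsg.Agent.Lib.H7Npc
import Cfsg.Agent.Lib.PGrp

set_option autoImplicit false
open Cfsg

open scoped commutatorElement
set_option linter.style.haveILetI false
namespace Cfsg.Agent.S1756

open CfsgLib.H7Esp CfsgLib.H7Npc Subgroup
open scoped commutatorElement


/-- Let Q be an extraspecial 2-subgroup of the finite group G (special with centre of order 2) and t an involution of G normalizing Q such that the centralizer of t in Q has index at most 2 in Q. Then t lies in the product of Q with the centralizer of Q. -/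
theorem result {G : Type*} [Group G] [Finite G] (Q : Subgroup G)
    (hQ : Cfsg.IsExtraspecial 2 ↥Q) (t : G) (ht : orderOf t = 2) (htN : t ∈ Subgroup.normalizer (Q : Set G))
    (hi : (Subgroup.centralizer ({t} : Set G) ⊓ Q).relIndex Q ≤ 2) :
    t ∈ Q ⊔ Subgroup.centralizer (Q : Set G) := by
  classical
  haveI : Fact (Nat.Prime 2) := ⟨Nat.prime_two⟩
  refine mem_sup_of_trivial hQ ht htN ?_
  have htt : t * t = 1 := by rw [← sq, ← ht, pow_orderOf_eq_one]
  intro q hq
  obtain ⟨M, hM⟩ : ∃ M, M = Subgroup.centralizer ({t} : Set G) ⊓ Q := ⟨_, rfl⟩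
  rw [← hM] at hi
  have hMm : ∀ x, x ∈ M ↔ x ∈ Q ∧ t * x * t⁻¹ = x := by
    intro x
    rw [hM, Subgroup.mem_inf, mem_centralizer_singleton_iff, and_comm, mul_inv_eq_iff_eq_mul]
    exact and_congr_right (fun _ => eq_comm)
  by_cases hqM : q ∈ M
  · rw [((hMm q).1 hqM).2, inv_mul_cancel]; exact one_mem _
  have hMQ : M ≤ Q := by rw [hM]; exact inf_le_right
  have hidx : (M.subgroupOf Q).index = 2 := by
    have h0 : (M.subgroupOf Q).index ≠ 0 := Subgroup.index_ne_zero_of_finite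
    have h1 : (M.subgroupOf Q).index ≠ 1 := by
      intro h
      rw [Subgroup.index_eq_one, Subgroup.subgroupOf_eq_top] at h
      exact hqM (h hq)
    have h2 : (M.subgroupOf Q).index ≤ 2 := hi
    omega
  have hprop : ∀ x ∈ Q, ∀ y ∈ Q, x ∉ M → y ∉ M → x⁻¹ * y ∈ M := fun x hx y hy hxM hyM =>
    index_two_prop hidx ⟨x, hx⟩ ⟨y, hy⟩ hxM hyM
  have htqQ : ∀ x ∈ Q, t * x * t⁻¹ ∈ Q := fun x hx => (Subgroup.mem_normalizer_iff.1 htN x).1 hx
  have htq : t * q * t⁻¹ ∉ M := by
    intro h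
    apply hqM
    have h1 := ((hMm _).1 h).2
    have h2 : t * q * t⁻¹ = q := by
      have h3 : t * (t * q * t⁻¹) * t⁻¹ = (t * t) * q * (t * t)⁻¹ := by group
      rw [htt] at h3
      rw [h3] at h1
      rw [← h1]; group
    exact (hMm q).2 ⟨hq, h2⟩
  obtain ⟨c, hc⟩ : ∃ c, c = q⁻¹ * (t * q * t⁻¹) := ⟨_, rfl⟩
  rw [← hc]
  have hcM : c ∈ M := by rw [hc]; exact hprop q hq _ (htqQ q hq) hqM htq
  have hqc : t * q * t⁻¹ = q * c := by rw [hc]; group
  have htc : t * c * t⁻¹ = c := ((hMm c).1 hcM).2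
  -- `c` centralizes `M`
  have hcent : ∀ m ∈ M, c * m = m * c := by
    intro m hm
    have hqm : q * m * q⁻¹ ∈ M := by
      by_contra h
      have h1 := hprop q hq _ (mul_mem (mul_mem hq (hMQ hm)) (inv_mem hq)) hqM h
      have e : q⁻¹ * (q * m * q⁻¹) = m * q⁻¹ := by group
      rw [e] at h1
      exact hqM (by
        have := (Subgroup.mul_mem_cancel_left _ hm).1 h1
        rwa [inv_mem_iff] at this)
    have h1 := ((hMm _).1 hqm).2
    have h2 := ((hMm _).1 hm).2
    have h3 : t * (q * m * q⁻¹) * t⁻¹ = (t * q * t⁻¹) * (t * m * t⁻¹) * (t * q * t⁻¹)⁻¹ := by group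
    rw [h3, h2, hqc] at h1
    have h4 : q * (c * m * c⁻¹) * q⁻¹ = q * m * q⁻¹ := by rw [← h1]; group
    have h5 : c * m * c⁻¹ = m := mul_left_cancel (mul_right_cancel h4)
    exact mul_inv_eq_iff_eq_mul.1 h5
  have hcc : c * c = 1 := by
    have h1 : t * (t * q * t⁻¹) * t⁻¹ = q := by
      have h3 : t * (t * q * t⁻¹) * t⁻¹ = (t * t) * q * (t * t)⁻¹ := by group
      rw [h3, htt]; group
    rw [hqc] at h1
    have h3 : t * (q * c) * t⁻¹ = (t * q * t⁻¹) * (t * c * t⁻¹) := by group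
    rw [h3, hqc, htc, mul_assoc] at h1
    exact mul_eq_left.1 h1
  have hcQ : c ∈ Q := hMQ hcM
  -- the centre is fixed by `t`
  have hZ : ∀ z ∈ Q, (∀ y ∈ Q, z * y = y * z) → t * z * t⁻¹ = z := by
    intro z hz hzc
    by_cases hz1 : z = 1
    · rw [hz1]; group
    have hcard := hQ.2
    have h1 : (⟨z, hz⟩ : Q) ∈ center Q := mem_center_iff.2 (fun y => Subtype.ext (hzc y y.2).symm)
    have h2 : (⟨t * z * t⁻¹, htqQ z hz⟩ : Q) ∈ center Q := by
      refine mem_center_iff.2 (fun y => Subtype.ext ?_)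
      have hy : t⁻¹ * y * t ∈ Q := (Subgroup.mem_normalizer_iff''.1 htN y).1 y.2
      have h3 := hzc _ hy
      change (y : G) * (t * z * t⁻¹) = t * z * t⁻¹ * y
      calc (y : G) * (t * z * t⁻¹) = t * ((t⁻¹ * y * t) * z) * t⁻¹ := by group
        _ = t * (z * (t⁻¹ * y * t)) * t⁻¹ := by rw [h3]
        _ = t * z * t⁻¹ * y := by group
    by_contra hne
    have h3 : ({1, ⟨z, hz⟩, ⟨t * z * t⁻¹, htqQ z hz⟩} : Finset Q).card = 3 := by
      rw [Finset.card_eq_three]
      refine ⟨1, ⟨z, hz⟩, ⟨t * z * t⁻¹, htqQ z hz⟩, ?_, ?_, ?_, rfl⟩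
      · intro h; exact hz1 (congrArg Subtype.val h).symm
      · intro h
        have h4 : 1 = t * z * t⁻¹ := congrArg Subtype.val h
        apply hz1
        have h5 : z = t⁻¹ * (t * z * t⁻¹) * t := by group
        rw [h5, ← h4]; group
      · intro h
        exact hne (congrArg Subtype.val h).symm
    have h4 : (({1, ⟨z, hz⟩, ⟨t * z * t⁻¹, htqQ z hz⟩} : Finset Q) : Set Q) ⊆ (center Q : Set Q) := by
      intro x hx
      rw [Finset.mem_coe, Finset.mem_insert, Finset.mem_insert, Finset.mem_singleton] at hx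
      rcases hx with rfl | rfl | rfl
      · exact one_mem _
      · exact h1
      · exact h2
    have h5 := Set.ncard_le_ncard h4 (Set.toFinite _)
    rw [Set.ncard_coe_finset, h3, ← Nat.card_coe_set_eq] at h5
    have h6 : Nat.card (center Q : Set Q) = 2 := hcard
    omega
  have hcomm : ∀ x ∈ Q, ∀ y ∈ Q, ∀ w ∈ Q, (x⁻¹ * y * x * y⁻¹) * w = w * (x⁻¹ * y * x * y⁻¹) := by
    intro x hx y hy w hw
    have h1 : ⁅(⟨x, hx⟩ : Q)⁻¹, ⟨y, hy⟩⁆ ∈ center Q := by
      rw [← hQ.1.2.2, _root_.commutator_def]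
      exact Subgroup.commutator_mem_commutator (Subgroup.mem_top _) (Subgroup.mem_top _)
    have h2 := congrArg Subtype.val (mem_center_iff.1 h1 ⟨w, hw⟩)
    simp only [commutatorElement_def, Subgroup.coe_mul, Subgroup.coe_inv, inv_inv] at h2
    exact h2.symm
  have hqcc : q * c = c * q := by
    -- `ζ = q⁻¹ c q c⁻¹`
    obtain ⟨ζ, hζ⟩ : ∃ ζ, ζ = q⁻¹ * c * q * c⁻¹ := ⟨_, rfl⟩
    have hζc := hcomm q hq c hcQ
    rw [← hζ] at hζc
    have h1 : (q * c) * (q * c) = q * q * ζ := by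
      calc (q * c) * (q * c) = q * q * ((q⁻¹ * c * q * c⁻¹) * c) * c := by group
        _ = q * q * (ζ * c) * c := by rw [← hζ]
        _ = q * q * ζ * (c * c) := by group
        _ = q * q * ζ := by rw [hcc, mul_one]
    have hqq : t * (q * q) * t⁻¹ = q * q := by
      apply hZ _ (mul_mem hq hq)
      intro y hy
      have h2 := CfsgLib.PGrp.esp_pow_mem hQ (⟨q, hq⟩ : Q)
      have h3 := congrArg Subtype.val (mem_center_iff.1 h2 ⟨y, hy⟩)
      simp only [Subgroup.coe_mul, Subgroup.coe_pow, sq] at h3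
      exact h3.symm
    have h2 : (q * c) * (q * c) = q * q := by
      rw [← hqc, ← hqq]; group
    rw [h2] at h1
    have hζ1 : ζ = 1 := (left_eq_mul.1 h1)
    rw [hζ1] at hζ
    have : q⁻¹ * c * q = c := by
      have := mul_inv_eq_one.1 hζ.symm
      exact this
    calc q * c = q * (q⁻¹ * c * q) := by rw [this]
      _ = c * q := by group
  refine Subgroup.mem_inf.2 ⟨hcQ, ?_⟩
  rw [mem_centralizer_iff]
  intro y hy
  by_cases hyM : y ∈ M
  · exact (hcent y hyM).symm
  · have h1 := hprop q hq y hy hqM hyM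
    have h2 := hcent _ h1
    have e : y = q * (q⁻¹ * y) := by group
    calc y * c = q * ((q⁻¹ * y) * c) := by group
      _ = q * (c * (q⁻¹ * y)) := by rw [h2]
      _ = (q * c) * (q⁻¹ * y) := by group
      _ = (c * q) * (q⁻¹ * y) := by rw [hqcc]
      _ = c * y := by group

end Cfsg.Agent.S1756
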