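import Cfsg.Statements.S1757

set_option autoImplicit false
open Cfsg

namespace Cfsg.Agent.S1757

/-- Let p be a prime and A, B p-subgroups of the finite group G, each of which meets every conjugate of itself other than itself trivially. Suppose the order of A is at most that of B, A and B intersect trivially, and B normalizes A. Then A and B commute elementwise. -/
theorem result {G : Type*} [Group G] [Finite G] (p : ℕ) [Fact p.Prime] (A B : Subgroup G)
    (hA : IsPGroup p ↥A) (hB : IsPGroup p ↥B)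
    (hAti : ∀ g : G, A.map (MulAut.conj g).toMonoidHom = A ∨ A.map (MulAut.conj g).toMonoidHom ⊓ A = ⊥)
    (hBti : ∀ g : G, B.map (MulAut.conj g).toMonoidHom = B ∨ B.map (MulAut.conj g).toMonoidHom ⊓ B = ⊥)
    (hle : Nat.card ↥A ≤ Nat.card ↥B) (hAB : A ⊓ B = ⊥) (hN : B ≤ Subgroup.normalizer (A : Set G)) : ⁅A, B⁆ = ⊥ := by
  rw [Subgroup.commutator_eq_bot_iff_le_centralizer]
  -- every element a of A normalizes B
  have hBn : ∀ a ∈ A, B.map (MulAut.conj a).toMonoidHom = B := by
    intro a ha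
    rcases hBti a with h | h
    · exact h
    · -- injectivity of b ↦ b a⁻¹ b⁻¹
      have hconj : ∀ b ∈ B, ∀ x ∈ A, b * x * b⁻¹ ∈ A := by
        intro b hb x hx
        exact (Subgroup.mem_normalizer_iff.mp (hN hb) x).mp hx
      let f : B → A := fun b => ⟨(b : G) * a⁻¹ * (b : G)⁻¹, hconj b b.2 _ (A.inv_mem ha)⟩
      have hinj : Function.Injective f := by
        intro b b' hbb
        have h1 : (b : G) * a⁻¹ * (b : G)⁻¹ = (b' : G) * a⁻¹ * (b' : G)⁻¹ := congrArg Subtype.val hbb
        have h2 : a * ((b' : G)⁻¹ * b) * a⁻¹ = (b' : G)⁻¹ * b := by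
          calc a * ((b' : G)⁻¹ * b) * a⁻¹ = a * (b' : G)⁻¹ * ((b : G) * a⁻¹ * (b : G)⁻¹) * b := by group
            _ = a * (b' : G)⁻¹ * ((b' : G) * a⁻¹ * (b' : G)⁻¹) * b := by rw [h1]
            _ = (b' : G)⁻¹ * b := by group
        have h3 : (b' : G)⁻¹ * b ∈ B.map (MulAut.conj a).toMonoidHom ⊓ B := by
          refine ⟨⟨(b' : G)⁻¹ * b, B.mul_mem (B.inv_mem b'.2) b.2, ?_⟩, B.mul_mem (B.inv_mem b'.2) b.2⟩
          simpa using h2
        rw [h, Subgroup.mem_bot] at h3
        have := inv_mul_eq_one.mp h3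
        exact Subtype.ext this.symm
      have hcard : Nat.card B = Nat.card A := le_antisymm (Nat.card_le_card_of_injective f hinj) hle
      have hsurj : Function.Surjective f := by
        have : Function.Bijective f := (Nat.bijective_iff_injective_and_card f).mpr ⟨hinj, hcard⟩
        exact this.2
      obtain ⟨b, hb⟩ := hsurj 1
      have h4 : (b : G) * a⁻¹ * (b : G)⁻¹ = 1 := congrArg Subtype.val hb
      have h5 : a = 1 := by
        have : a⁻¹ = 1 := by
          calc a⁻¹ = (b : G)⁻¹ * ((b : G) * a⁻¹ * (b : G)⁻¹) * b := by group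
            _ = 1 := by rw [h4]; group
        simpa using this
      subst h5
      ext x
      simp
  intro a ha
  rw [Subgroup.mem_centralizer_iff]
  intro b hb
  have hb1 : a * b * a⁻¹ ∈ B := by
    rw [← hBn a ha]
    exact ⟨b, hb, by simp⟩
  have hb2 : a * b * a⁻¹ * b⁻¹ ∈ A ⊓ B := by
    refine ⟨?_, B.mul_mem hb1 (B.inv_mem hb)⟩
    have : b * a⁻¹ * b⁻¹ ∈ A := (Subgroup.mem_normalizer_iff.mp (hN hb) a⁻¹).mp (A.inv_mem ha)
    have h := A.mul_mem ha this
    have e : a * (b * a⁻¹ * b⁻¹) = a * b * a⁻¹ * b⁻¹ := by group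
    rwa [e] at h
  rw [hAB, Subgroup.mem_bot] at hb2
  have : a * b = b * a := by
    calc a * b = (a * b * a⁻¹ * b⁻¹) * (b * a) := by group
      _ = b * a := by rw [hb2, one_mul]
  exact this.symm

end Cfsg.Agent.S1757
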