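import Cfsg.Statements.S1780

set_option autoImplicit false
open Cfsg

namespace Cfsg.Agent.S1780

/-- Let A be a finite abelian 2-group and t an automorphism of A whose order is a power of 2. If every element of A fixed by t² is fixed by t, then t fixes every element of A. -/
theorem result {A : Type*} [CommGroup A] [Finite A]
    (hA : IsPGroup 2 A) (t : MulAut A) (ht : ∃ k : ℕ, orderOf t = 2 ^ k) (hC : ∀ a : A, t (t a) = a → t a = a) :
    ∀ a : A, t a = a := by
  have step : ∀ u : MulAut A, (∀ a : A, u a = a → t a = a) → (∀ a : A, u (t a) = t (u a)) →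
      ∀ a : A, u (u a) = a → t a = a := by
    intro u hu hcomm
    have key : ∀ a : A, u (u a) = a → (t a * a⁻¹) ^ 2 = 1 → t a = a := by
      intro a ha hb
      have h1 : t (a * u a) = a * u a := by
        apply hu
        rw [map_mul, ha, mul_comm]
      have h2 : u (t a * a⁻¹) = (t a * a⁻¹)⁻¹ := by
        rw [map_mul, map_inv, hcomm]
        rw [map_mul] at h1
        have : t (u a) = (t a)⁻¹ * (a * u a) := by rw [← h1]; group
        rw [this]
        have e : (t a)⁻¹ * (a * u a) * (u a)⁻¹ = (t a)⁻¹ * a := by group
        rw [e, mul_inv, inv_inv]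
      have h3 : (t a * a⁻¹)⁻¹ = t a * a⁻¹ := by
        rw [inv_eq_iff_mul_eq_one, ← pow_two]; exact hb
      rw [h3] at h2
      have h4 := hu _ h2
      rw [map_mul, map_inv] at h4
      apply hC
      have h5 : t (t a) = (t a * a⁻¹) * t a := by
        rw [← h4]; group
      rw [h5]
      have h6 : (t a * a⁻¹) * t a = (t a * a⁻¹) ^ 2 * a := by
        rw [pow_two]; group
      rw [h6, hb, one_mul]
    intro a ha
    obtain ⟨m, hm⟩ := hA (t a * a⁻¹)
    -- descend
    have desc : ∀ k : ℕ, (t a * a⁻¹) ^ (2 ^ k) = 1 → t a * a⁻¹ = 1 := by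
      intro k
      induction k with
      | zero => intro h; simpa using h
      | succ k ih =>
        intro h
        apply ih
        have h1 := key (a ^ (2 ^ k)) (by rw [map_pow, map_pow, ha]) (by
          rw [map_pow, ← inv_pow, ← mul_pow, ← pow_mul, ← pow_succ]; exact h)
        rw [map_pow] at h1
        rw [mul_pow, inv_pow, h1, mul_inv_cancel]
    have := desc m hm
    rwa [mul_inv_eq_one] at this
  have all : ∀ n : ℕ, ∀ a : A, (t ^ (2 ^ n)) a = a → t a = a := by
    intro n
    induction n with
    | zero => intro a h; simpa using h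
    | succ n ih =>
      intro a h
      apply step (t ^ (2 ^ n)) ih ?_ a
      · rw [pow_succ, pow_mul, pow_two] at h
        exact h
      · intro b
        rw [← MulAut.mul_apply, ← MulAut.mul_apply, ← pow_succ, ← pow_succ']
  obtain ⟨k, hk⟩ := ht
  intro a
  apply all k
  rw [← hk, pow_orderOf_eq_one]
  rfl

end Cfsg.Agent.S1780
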