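import Cfsg.Statements.S1781
import Mathlib
import Cfsg.Agent.S1780
import Cfsg.Agent.S1757

set_option autoImplicit false
open Cfsg

namespace Cfsg.Agent.S1781

/-- Let A be an abelian 2-subgroup of the finite group G such that every conjugate of A equals A or meets A trivially, and let g ∈ G with g A g⁻¹ ≠ A. Then either the subgroup of those elements of A that normalize g A g⁻¹ is an elementary abelian 2-group, or A and g A g⁻¹ commute elementwise. -/
theorem result {G : Type*} [Group G] [Finite G] (A : Subgroup G)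
    (hA2 : IsPGroup 2 ↥A) (hAa : IsMulCommutative ↥A)
    (hti : ∀ h : G, A.map (MulAut.conj h).toMonoidHom = A ∨ A.map (MulAut.conj h).toMonoidHom ⊓ A = ⊥)
    (g : G) (hg : A.map (MulAut.conj g).toMonoidHom ≠ A) :
    Cfsg.IsElementaryAbelian 2 (A ⊓ Subgroup.normalizer ((A.map (MulAut.conj g).toMonoidHom : Subgroup G) : Set G)) ∨
      ⁅A, A.map (MulAut.conj g).toMonoidHom⁆ = ⊥ := by
  classical
  set B : Subgroup G := A.map (MulAut.conj g).toMonoidHom with hBdef
  by_cases hel : ∀ a ∈ A, (a ∈ Subgroup.normalizer (B : Set G)) → a ^ 2 = 1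
  · left
    refine ⟨⟨⟨?_⟩⟩, ?_⟩
    · rintro ⟨a, ha⟩ ⟨b, hb⟩
      have := hAa.1.1 ⟨a, ha.1⟩ ⟨b, hb.1⟩
      ext
      simpa using congrArg (fun z : ↥A => (z : G)) this
    · rintro a ha
      exact hel a ha.1 ha.2
  right
  push Not at hel
  obtain ⟨n, hnA, hnB, hn2⟩ := hel
  have hAB : B ⊓ A = ⊥ := by
    rcases hti g with h | h
    · exact absurd h hg
    · exact h
  have hB2 : IsPGroup 2 ↥B := hA2.map _
  have hBcomm : ∀ x y : ↥B, x * y = y * x := by
    rintro ⟨_, ⟨a, ha, rfl⟩⟩ ⟨_, ⟨b, hb, rfl⟩⟩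
    have := hAa.1.1 ⟨a, ha⟩ ⟨b, hb⟩
    have h1 : a * b = b * a := by simpa using congrArg (fun z : ↥A => (z : G)) this
    ext
    show (MulAut.conj g).toMonoidHom a * (MulAut.conj g).toMonoidHom b = (MulAut.conj g).toMonoidHom b * (MulAut.conj g).toMonoidHom a
    rw [← map_mul, ← map_mul, h1]
  letI : CommGroup ↥B := { (inferInstance : Group ↥B) with mul_comm := hBcomm }
  -- elements of B fixing a nontrivial element of A normalize A
  have hnormA : ∀ x : G, ∀ a ∈ A, a ≠ 1 → x * a * x⁻¹ = a → A.map (MulAut.conj x).toMonoidHom = A := by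
    intro x a ha ha1 hxa
    rcases hti x with h | h
    · exact h
    · exfalso
      have : a ∈ A.map (MulAut.conj x).toMonoidHom ⊓ A := ⟨⟨a, ha, by simpa using hxa⟩, ha⟩
      rw [h, Subgroup.mem_bot] at this
      exact ha1 this
  have hn1 : n ≠ 1 := by rintro rfl; simp at hn2
  let nn : ↥(Subgroup.normalizer (B : Set G)) := ⟨n, hnB⟩
  let t : MulAut ↥B := B.normalizerMonoidHom nn
  have ht : ∀ b : ↥B, ((t b : ↥B) : G) = n * b * n⁻¹ := by
    intro b
    rfl
  have htriv : ∀ b : ↥B, t b = b := by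
    apply Cfsg.Agent.S1780.result hB2 t
    · obtain ⟨k, hk⟩ := hA2 ⟨n, hnA⟩
      have hk' : n ^ 2 ^ k = 1 := by simpa using congrArg (fun z : ↥A => (z : G)) hk
      have h1 : orderOf t ∣ 2 ^ k := by
        apply orderOf_dvd_of_pow_eq_one
        show (B.normalizerMonoidHom nn) ^ 2 ^ k = 1
        rw [← map_pow]
        have : nn ^ 2 ^ k = 1 := by ext; simpa [nn] using hk'
        rw [this, map_one]
      obtain ⟨j, _, hj⟩ := (Nat.dvd_prime_pow Nat.prime_two).mp h1
      exact ⟨j, hj⟩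
    · intro b hb
      have h1 : n * (n * (b : G) * n⁻¹) * n⁻¹ = b := by
        have := congrArg (fun z : ↥B => (z : G)) hb
        simpa [ht] using this
      have h2 : (b : G) * (n ^ 2) * (b : G)⁻¹ = n ^ 2 := by
        have : (b : G) * n ^ 2 * (b : G)⁻¹ = (b : G) * (n ^ 2 * (b : G)⁻¹ * (n ^ 2)⁻¹) * n ^ 2 := by group
        rw [this]
        have h3 : n ^ 2 * (b : G)⁻¹ * (n ^ 2)⁻¹ = (b : G)⁻¹ := by
          calc n ^ 2 * (b : G)⁻¹ * (n ^ 2)⁻¹ = (n * (n * (b : G) * n⁻¹) * n⁻¹)⁻¹ := by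
                simp only [pow_two, mul_inv_rev, inv_inv, mul_assoc]
            _ = (b : G)⁻¹ := by rw [h1]
        rw [h3]; group
      have h3 := hnormA b (n ^ 2) (A.pow_mem hnA 2) hn2 h2
      -- commutator in A ∩ B
      have h4 : n * b * n⁻¹ * (b : G)⁻¹ ∈ B ⊓ A := by
        refine ⟨B.mul_mem (by rw [← ht]; exact (t b).2) (B.inv_mem b.2), ?_⟩
        have : (b : G) * n⁻¹ * (b : G)⁻¹ ∈ A := by
          rw [← h3]; exact ⟨n⁻¹, A.inv_mem hnA, by simp⟩
        have h5 := A.mul_mem hnA this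
        have e : n * ((b : G) * n⁻¹ * (b : G)⁻¹) = n * b * n⁻¹ * (b : G)⁻¹ := by group
        rwa [e] at h5
      rw [hAB, Subgroup.mem_bot] at h4
      ext
      rw [ht]
      exact mul_inv_eq_one.mp h4
  have hBN : B ≤ Subgroup.normalizer (A : Set G) := by
    intro b hb
    have h1 : n * b * n⁻¹ = b := by
      have := congrArg (fun z : ↥B => (z : G)) (htriv ⟨b, hb⟩)
      simpa [ht] using this
    have h2 : b * n * b⁻¹ = n := by
      have : n * b = b * n := by rwa [mul_inv_eq_iff_eq_mul] at h1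
      rw [← this]; group
    have h3 := hnormA b n hnA hn1 h2
    rw [Subgroup.mem_normalizer_iff]
    intro a
    constructor
    · intro ha
      rw [← h3]; exact ⟨a, ha, by simp⟩
    · intro ha
      rw [← h3] at ha
      obtain ⟨a', ha', he⟩ := ha
      have : a' = a := (MulAut.conj b).injective (by simpa using he)
      rwa [← this]
  apply Cfsg.Agent.S1757.result 2 A B hA2 hB2 hti
  · intro h
    -- B = gAg⁻¹
    have e1 : B.map (MulAut.conj h).toMonoidHom = (A.map (MulAut.conj (g⁻¹ * h * g)).toMonoidHom).map (MulAut.conj g).toMonoidHom := by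
      rw [hBdef, Subgroup.map_map, Subgroup.map_map]
      congr 1
      ext a; simp [mul_assoc]
    rcases hti (g⁻¹ * h * g) with h' | h'
    · left
      rw [e1, h']
    · right
      rw [e1, hBdef, ← Subgroup.map_inf _ _ _ (MulAut.conj g).injective, h', Subgroup.map_bot]
  · have : Nat.card ↥B = Nat.card ↥A := Subgroup.card_map_of_injective (MulAut.conj g).injective
    rw [this]
  · rw [inf_comm]; exact hAB
  · exact hBN

end Cfsg.Agent.S1781
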