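import Cfsg.Statements.S1782
import Mathlib
import Cfsg.Agent.S1757

set_option autoImplicit false
open Cfsg

namespace Cfsg.Agent.S1782

theorem conj_mem_map {S : Type*} [Group S] (R : Subgroup S) (s x : S) :
    x ∈ R.map (MulAut.conj s).toMonoidHom ↔ s⁻¹ * x * s ∈ R := by
  constructor
  · rintro ⟨a, ha, rfl⟩
    have : s⁻¹ * (MulAut.conj s).toMonoidHom a * s = a := by simp [mul_assoc]
    rw [this]; exact ha
  · intro h
    exact ⟨_, h, by simp [mul_assoc]⟩

theorem frattini_eq_bot {R : Type*} [Group R] [Finite R] (h : ∀ x : R, x ^ 2 = 1) : frattini R = ⊥ := by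
  classical
  rw [eq_bot_iff]
  intro x hx
  rw [Subgroup.mem_bot]
  by_contra hx1
  have hinv : ∀ y : R, y⁻¹ = y := fun y => by
    rw [inv_eq_iff_mul_eq_one, ← pow_two]; exact h y
  have hcomm : ∀ a b : R, a * b = b * a := by
    intro a b
    have := hinv (a * b)
    rw [mul_inv_rev, hinv, hinv] at this
    exact this.symm
  have hfin : {M : Subgroup R | x ∉ M}.Finite := Set.toFinite _
  obtain ⟨M, hM⟩ := hfin.exists_maximal ⟨⊥, by simpa using hx1⟩
  have hxM : x ∉ M := hM.prop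
  apply hxM
  apply frattini_le_coatom _ hx
  constructor
  · rintro rfl; exact hxM (Subgroup.mem_top _)
  · intro K hK
    have hxK : x ∈ K := by
      by_contra hxK
      exact absurd (hM.le_of_ge hxK hK.le) (not_le_of_gt hK)
    -- every y ∉ M satisfies y ∈ M x
    have hcos : ∀ y, y ∉ M → ∃ m ∈ M, y = m * x := by
      intro y hy
      let K' : Subgroup R :=
        { carrier := {z | z ∈ M ∨ ∃ m ∈ M, z = m * y}
          mul_mem' := by
            rintro a b (ha | ⟨m, hm, rfl⟩) (hb | ⟨m', hm', rfl⟩)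
            · left; exact M.mul_mem ha hb
            · right; exact ⟨a * m', M.mul_mem ha hm', by group⟩
            · right; exact ⟨m * b, M.mul_mem hm hb, by rw [mul_assoc, hcomm y b]; group⟩
            · left
              have : m * y * (m' * y) = m * m' * (y ^ 2) := by
                rw [pow_two]
                calc m * y * (m' * y) = m * (y * m') * y := by group
                  _ = m * (m' * y) * y := by rw [hcomm y m']
                  _ = m * m' * (y * y) := by group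
              rw [this, h y, mul_one]; exact M.mul_mem hm hm'
          one_mem' := Or.inl M.one_mem
          inv_mem' := by
            intro a ha
            rw [hinv a]; exact ha }
      have hMK' : M < K' := by
        constructor
        · intro z hz; left; exact hz
        · intro hle
          exact hy (hle (Or.inr ⟨1, M.one_mem, by group⟩))
      have hxK' : x ∈ K' := by
        by_contra hxK'
        exact absurd (hM.le_of_ge hxK' hMK'.le) (not_le_of_gt hMK')
      rcases hxK' with h1 | ⟨m, hm, h1⟩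
      · exact absurd h1 hxM
      · exact ⟨m⁻¹, M.inv_mem hm, by rw [h1]; group⟩
    rw [eq_top_iff]
    intro y _
    by_cases hy : y ∈ M
    · exact hK.le hy
    · obtain ⟨m, hm, rfl⟩ := hcos y hy
      exact K.mul_mem (hK.le hm) hxK

theorem card_lt {S : Type*} [Group S] [Finite S] (hS : IsPGroup 2 S) (R T : Subgroup S) (hne : R ⊔ T ≠ R) (t : S) (ht : t ∈ T) :
    Nat.card ↥(R ⊔ R.map (MulAut.conj t).toMonoidHom) < Nat.card ↥(R ⊔ T) := by
  classical
  haveI : Fact (Nat.Prime 2) := ⟨Nat.prime_two⟩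
  set H := R ⊔ T with hH
  have hRH : R ≤ H := le_sup_left
  have hTH : T ≤ H := le_sup_right
  have hne' : R.subgroupOf H ≠ ⊤ := by
    intro h
    apply hne
    apply le_antisymm _ hRH
    exact Subgroup.subgroupOf_eq_top.mp h
  rcases IsCoatomic.eq_top_or_exists_le_coatom (R.subgroupOf H) with h | ⟨M, hM, hRM⟩
  · exact absurd h hne'
  haveI : Group.IsNilpotent ↥H := (hS.to_subgroup H).isNilpotent
  have hMn : M.Normal := Subgroup.NormalizerCondition.normal_of_coatom M Group.normalizerCondition_of_isNilpotent hM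
  have hle : R ⊔ R.map (MulAut.conj t).toMonoidHom ≤ M.map H.subtype := by
    apply sup_le
    · intro x hx
      exact ⟨⟨x, hRH hx⟩, hRM hx, rfl⟩
    · rintro _ ⟨x, hx, rfl⟩
      refine ⟨⟨t, hTH ht⟩ * ⟨x, hRH hx⟩ * ⟨t, hTH ht⟩⁻¹, hMn.conj_mem _ (hRM hx) _, ?_⟩
      simp
  calc Nat.card ↥(R ⊔ R.map (MulAut.conj t).toMonoidHom) ≤ Nat.card ↥(M.map H.subtype) :=
        Nat.card_le_card_of_injective _ (Subgroup.inclusion_injective hle)
    _ = Nat.card ↥M := Subgroup.card_map_of_injective (Subgroup.subtype_injective _)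
    _ < Nat.card ↥H := by
        refine lt_of_le_of_ne (Subgroup.card_le_card_group M) (fun h => hM.1 ?_)
        exact Subgroup.eq_top_of_card_eq M h

/-- core computation -/
theorem core {S : Type*} [Group S] [Finite S] (hS : IsPGroup 2 S) (R T : Subgroup S)
    (hR : ∀ s : S, R.map (MulAut.conj s).toMonoidHom = R ∨ R.map (MulAut.conj s).toMonoidHom ⊓ R = ⊥)
    (hT : ∀ s : S, T.map (MulAut.conj s).toMonoidHom = T ∨ T.map (MulAut.conj s).toMonoidHom ⊓ T = ⊥)
    (hRc : ∀ t ∈ T, R.map (MulAut.conj t).toMonoidHom = R ∨ ∀ x ∈ R, ∀ y ∈ R, x * (t * y * t⁻¹) = (t * y * t⁻¹) * x)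
    (hTc : ∀ r ∈ R, T.map (MulAut.conj r).toMonoidHom = T ∨ ∀ x ∈ T, ∀ y ∈ T, x * (r * y * r⁻¹) = (r * y * r⁻¹) * x)
    (hRT : R ⊓ T = ⊥) (hcard : Nat.card R = Nat.card T) (hsq : ∃ x ∈ R, x ^ 2 ≠ 1) : ⁅R, T⁆ = ⊥ := by
  classical
  have p2R : IsPGroup 2 ↥R := hS.to_subgroup R
  have p2T : IsPGroup 2 ↥T := hS.to_subgroup T
  -- case: T normalizes R
  have norm_of_map : ∀ (K : Subgroup S) (s : S), K.map (MulAut.conj s).toMonoidHom = K → s ∈ Subgroup.normalizer (K : Set S) := by
    intro K s hs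
    rw [Subgroup.mem_normalizer_iff]
    intro a
    constructor
    · intro ha; rw [← hs]; exact ⟨a, ha, by simp⟩
    · intro ha
      rw [← hs, conj_mem_map] at ha
      simpa [mul_assoc] using ha
  have map_of_norm : ∀ (K : Subgroup S) (s : S), s ∈ Subgroup.normalizer (K : Set S) → K.map (MulAut.conj s).toMonoidHom = K := by
    intro K s hs
    ext x
    rw [conj_mem_map]
    have := Subgroup.mem_normalizer_iff.mp (Subgroup.inv_mem _ hs) x
    simpa using this.symm
  by_cases hTN : T ≤ Subgroup.normalizer (R : Set S)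
  · exact Cfsg.Agent.S1757.result 2 R T p2R p2T hR hT hcard.le hRT hTN
  by_cases hRN : R ≤ Subgroup.normalizer (T : Set S)
  · rw [Subgroup.commutator_comm]
    exact Cfsg.Agent.S1757.result 2 T R p2T p2R hT hR hcard.ge (by rw [inf_comm]; exact hRT) hRN
  exfalso
  -- get t ∈ T not normalizing R with t² normalizing R
  obtain ⟨t, htT, htN, ht2⟩ : ∃ t ∈ T, t ∉ Subgroup.normalizer (R : Set S) ∧ t ^ 2 ∈ Subgroup.normalizer (R : Set S) := by
    obtain ⟨t0, ht0, ht0N⟩ := SetLike.not_le_iff_exists.mp hTN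
    obtain ⟨k, hk⟩ := hS t0
    have : ∃ k : ℕ, t0 ^ 2 ^ k ∈ Subgroup.normalizer (R : Set S) := ⟨k, by rw [hk]; exact Subgroup.one_mem _⟩
    let m := Nat.find this
    have hm : t0 ^ 2 ^ m ∈ Subgroup.normalizer (R : Set S) := Nat.find_spec this
    have hm0 : m ≠ 0 := by
      intro h0
      rw [h0] at hm
      simp at hm
      exact ht0N hm
    obtain ⟨j, hj⟩ := Nat.exists_eq_succ_of_ne_zero hm0
    refine ⟨t0 ^ 2 ^ j, T.pow_mem ht0 _, ?_, ?_⟩
    · exact Nat.find_min this (m := j) (by show j < m; omega)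
    · rw [← pow_mul, ← pow_succ]
      rw [hj] at hm
      exact hm
  -- commuting facts
  have hRt : ∀ x ∈ R, ∀ y ∈ R, x * (t * y * t⁻¹) = (t * y * t⁻¹) * x := by
    rcases hRc t htT with h | h
    · exact absurd (norm_of_map R t h) htN
    · exact h
  have hRtint : ∀ x ∈ R, t⁻¹ * x * t ∈ R → x = 1 := by
    intro x hx hx'
    rcases hR t with h | h
    · exact absurd (norm_of_map R t h) htN
    · have : x ∈ R.map (MulAut.conj t).toMonoidHom ⊓ R := ⟨(conj_mem_map R t x).mpr hx', hx⟩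
      rwa [h, Subgroup.mem_bot] at this
  -- every element of R not normalizing T is an involution
  have hinv : ∀ r ∈ R, r ∉ Subgroup.normalizer (T : Set S) → r ^ 2 = 1 := by
    intro r hr hrN
    have hTr : ∀ x ∈ T, ∀ y ∈ T, x * (r * y * r⁻¹) = (r * y * r⁻¹) * x := by
      rcases hTc r hr with h | h
      · exact absurd (norm_of_map T r h) hrN
      · exact h
    -- e = r * t r⁻¹ t⁻¹ = (r t r⁻¹) t⁻¹ commutes with t
    have he : t * (r * t * r⁻¹ * t⁻¹) = (r * t * r⁻¹ * t⁻¹) * t := by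
      have := hTr t htT t htT
      calc t * (r * t * r⁻¹ * t⁻¹) = (t * (r * t * r⁻¹)) * t⁻¹ := by group
        _ = ((r * t * r⁻¹) * t) * t⁻¹ := by rw [this]
        _ = (r * t * r⁻¹ * t⁻¹) * t := by group
    -- so r * (t r⁻¹ t⁻¹) = t (r * (t r⁻¹ t⁻¹)) t⁻¹ = (t r t⁻¹) * (t² r⁻¹ t⁻²)
    have he2 : r * (t * r⁻¹ * t⁻¹) = (t * r * t⁻¹) * (t ^ 2 * r⁻¹ * (t ^ 2)⁻¹) := by
      have : (t * r * t⁻¹) * (t ^ 2 * r⁻¹ * (t ^ 2)⁻¹) = (t * (r * t * r⁻¹ * t⁻¹)) * t⁻¹ := by
        simp only [pow_two]; group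
      rw [this, he]; group
    have hu : t ^ 2 * r⁻¹ * (t ^ 2)⁻¹ ∈ R := (Subgroup.mem_normalizer_iff.mp ht2 r⁻¹).mp (R.inv_mem hr)
    have hc1 := hRt _ hu r hr
    -- (t r t⁻¹)² = (u)⁻¹ r
    have h3 : (t * r * t⁻¹) * (t * r * t⁻¹) = (t ^ 2 * r⁻¹ * (t ^ 2)⁻¹)⁻¹ * r := by
      set u := t ^ 2 * r⁻¹ * (t ^ 2)⁻¹ with hudef
      set v := t * r * t⁻¹ with hv
      have hvinv : t * r⁻¹ * t⁻¹ = v⁻¹ := by rw [hv]; group
      rw [hvinv] at he2
      -- r * v⁻¹ = v * u ; u * v = v * u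
      have h4 : r = u * v * v := by
        rw [hc1, ← he2]; group
      rw [h4]; group
    have h5 : (t * r * t⁻¹) * (t * r * t⁻¹) = 1 := by
      apply hRtint
      · rw [h3]; exact R.mul_mem (R.inv_mem hu) hr
      · have : t⁻¹ * ((t * r * t⁻¹) * (t * r * t⁻¹)) * t = r * r := by group
        rw [this]; exact R.mul_mem hr hr
    have h6 : r * r = t⁻¹ * ((t * r * t⁻¹) * (t * r * t⁻¹)) * t := by group
    rw [pow_two, h6, h5]; group
  -- element of order 4 in R
  obtain ⟨n, hnR, hn2, hn4⟩ : ∃ n ∈ R, n ^ 2 ≠ 1 ∧ n ^ 4 = 1 := by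
    obtain ⟨x, hx, hx2⟩ := hsq
    obtain ⟨k, hk⟩ := hS x
    have hex : ∃ k : ℕ, x ^ 2 ^ k = 1 := ⟨k, hk⟩
    let m := Nat.find hex
    have hm : x ^ 2 ^ m = 1 := Nat.find_spec hex
    have hm2 : 2 ≤ m := by
      by_contra hlt
      have : m ∣ 1 ∨ m = 0 := by
        rcases Nat.lt_or_ge m 1 with h | h
        · right; omega
        · left
          have : m = 1 := by omega
          rw [this]
      apply hx2
      rcases this with h | h
      · have : m = 1 := Nat.dvd_one.mp h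
        rw [this] at hm; simpa using hm
      · rw [h] at hm
        simp at hm
        rw [hm]; simp
    obtain ⟨j, hj⟩ := Nat.exists_eq_add_of_le hm2
    refine ⟨x ^ 2 ^ j, R.pow_mem hx _, ?_, ?_⟩
    · rw [← pow_mul, ← pow_succ]
      exact Nat.find_min hex (m := j + 1) (by show j + 1 < m; omega)
    · rw [← pow_mul]
      have : 2 ^ j * 4 = 2 ^ m := by rw [hj, pow_add]; ring
      rw [this, hm]
  have hnN : n ∈ Subgroup.normalizer (T : Set S) := by
    by_contra h
    exact hn2 (hinv n hnR h)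
  obtain ⟨r, hrR, hrN⟩ := SetLike.not_le_iff_exists.mp hRN
  have hr2 := hinv r hrR hrN
  have hnr2 : (n * r) ^ 2 = 1 := by
    apply hinv _ (R.mul_mem hnR hrR)
    intro h
    apply hrN
    have := Subgroup.mul_mem _ (Subgroup.inv_mem _ hnN) h
    simpa [← mul_assoc] using this
  have hrinv : r⁻¹ = r := by
    rw [inv_eq_iff_mul_eq_one, ← pow_two]; exact hr2
  -- r n r⁻¹ = n⁻¹
  have hrn : r * n * r⁻¹ = n⁻¹ := by
    rw [pow_two] at hnr2
    rw [hrinv]
    have : n * (r * n * r) = 1 := by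
      calc n * (r * n * r) = n * r * (n * r) := by group
        _ = 1 := hnr2
    exact (inv_eq_of_mul_eq_one_right this).symm
  have hrn' : r * n⁻¹ * r⁻¹ = n := by
    calc r * n⁻¹ * r⁻¹ = (r * n * r⁻¹)⁻¹ := by group
      _ = n := by rw [hrn, inv_inv]
  -- e = n⁻¹ * (t n t⁻¹) ∈ T
  set w := t * n * t⁻¹ with hw
  have heT : n⁻¹ * w ∈ T := by
    have h1 : n⁻¹ * t * n ∈ T := by
      have := (Subgroup.mem_normalizer_iff.mp (Subgroup.inv_mem _ hnN) t).mp htT
      simpa using this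
    have := T.mul_mem h1 (T.inv_mem htT)
    have e : n⁻¹ * t * n * t⁻¹ = n⁻¹ * w := by rw [hw]; group
    rwa [e] at this
  -- r e r⁻¹ = n * w since w commutes with R
  have hwR : ∀ x ∈ R, x * w = w * x := fun x hx => hRt x hx n hnR
  have hre : r * (n⁻¹ * w) * r⁻¹ = n * w := by
    calc r * (n⁻¹ * w) * r⁻¹ = r * n⁻¹ * (w * r⁻¹) := by group
      _ = r * n⁻¹ * (r⁻¹ * w) := by rw [hwR r⁻¹ (R.inv_mem hrR)]
      _ = (r * n⁻¹ * r⁻¹) * w := by group
      _ = n * w := by rw [hrn']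
  have hsq1 : (n⁻¹ * w) ^ 2 = n⁻¹ ^ 2 * w ^ 2 := by
    exact (show Commute n⁻¹ w from hwR _ (R.inv_mem hnR)).mul_pow 2
  have hsq2 : (n * w) ^ 2 = n ^ 2 * w ^ 2 := by
    exact (show Commute n w from hwR _ hnR).mul_pow 2
  have hn22 : n⁻¹ ^ 2 = n ^ 2 := by
    rw [inv_pow, inv_eq_iff_mul_eq_one, ← pow_add]; exact hn4
  have hone : (n * w) ^ 2 = 1 := by
    have h1 : T.map (MulAut.conj r).toMonoidHom ⊓ T = ⊥ := by
      rcases hT r with h | h
      · exact absurd (norm_of_map T r h) hrN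
      · exact h
    have : (n * w) ^ 2 ∈ T.map (MulAut.conj r).toMonoidHom ⊓ T := by
      constructor
      · refine ⟨(n⁻¹ * w) ^ 2, T.pow_mem heT 2, ?_⟩
        show r * (n⁻¹ * w) ^ 2 * r⁻¹ = _
        rw [← hre, conj_pow]
      · rw [hsq2, ← hn22, ← hsq1]
        exact T.pow_mem heT 2
    rwa [h1, Subgroup.mem_bot] at this
  rw [hsq2] at hone
  have hwn : n ^ 2 = (w ^ 2)⁻¹ := eq_inv_of_mul_eq_one_left hone
  apply hn2
  apply hRtint _ (R.pow_mem hnR 2)
  rw [hwn, hw]
  have : t⁻¹ * ((t * n * t⁻¹) ^ 2)⁻¹ * t = (n ^ 2)⁻¹ := by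
    rw [conj_pow]; group
  rw [this]
  exact R.inv_mem (R.pow_mem hnR 2)


/-- Let S be a finite 2-group and Δ a set of subgroups of S closed under conjugation by S, all of the same order, each with nontrivial Frattini subgroup, and such that two distinct members of Δ meet trivially. Then any two distinct members of Δ commute elementwise. -/
theorem result {S : Type*} [Group S] [Finite S] (hS : IsPGroup 2 S)
    (Δ : Set (Subgroup S)) (hinv : ∀ s : S, ∀ R ∈ Δ, R.map (MulAut.conj s).toMonoidHom ∈ Δ)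
    (hΦ : ∀ R ∈ Δ, frattini ↥R ≠ ⊥) (hord : ∀ R ∈ Δ, ∀ T ∈ Δ, Nat.card ↥R = Nat.card ↥T)
    (hti : ∀ R ∈ Δ, ∀ T ∈ Δ, R = T ∨ R ⊓ T = ⊥) :
    ∀ R ∈ Δ, ∀ T ∈ Δ, R ≠ T → ⁅R, T⁆ = ⊥ := by
  classical
  -- if the Frattini subgroup is nontrivial then there is an element with nontrivial square
  have hsq : ∀ R ∈ Δ, ∃ x ∈ R, x ^ 2 ≠ 1 := by
    intro R hR
    by_contra hcon
    push Not at hcon
    apply hΦ R hR
    apply frattini_eq_bot
    rintro ⟨x, hx⟩
    ext
    simpa using hcon x hx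
  have hTI : ∀ R ∈ Δ, ∀ s : S, R.map (MulAut.conj s).toMonoidHom = R ∨ R.map (MulAut.conj s).toMonoidHom ⊓ R = ⊥ := by
    intro R hR s
    exact hti _ (hinv s R hR) R hR
  have main : ∀ n : ℕ, ∀ R ∈ Δ, ∀ T ∈ Δ, R ≠ T → Nat.card ↥(R ⊔ T) = n → ⁅R, T⁆ = ⊥ := by
    intro n
    induction n using Nat.strong_induction_on with
    | _ n ih =>
      intro R hR T hT hne hcard
      have hRT : R ⊓ T = ⊥ := by
        rcases hti R hR T hT with h | h
        · exact absurd h hne
        · exact h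
      -- key: conjugates of R under T commute
      have key : ∀ R ∈ Δ, ∀ T ∈ Δ, R ≠ T → Nat.card ↥(R ⊔ T) = n → ∀ t ∈ T, R.map (MulAut.conj t).toMonoidHom = R ∨
          ∀ x ∈ R, ∀ y ∈ R, x * (t * y * t⁻¹) = (t * y * t⁻¹) * x := by
        intro R hR T hT hne hcard t ht
        by_cases h : R.map (MulAut.conj t).toMonoidHom = R
        · left; exact h
        right
        have hlt : Nat.card ↥(R ⊔ R.map (MulAut.conj t).toMonoidHom) < n := by
          rw [← hcard]
          apply card_lt hS R T _ t ht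
          intro hsup
          have hTR : T ≤ R := by rw [← hsup]; exact le_sup_right
          apply hne
          symm
          exact Subgroup.eq_of_le_of_card_ge hTR (hord R hR T hT).le
        have h1 := ih _ hlt R hR _ (hinv t R hR) (Ne.symm h) rfl
        rw [Subgroup.commutator_eq_bot_iff_le_centralizer] at h1
        intro x hx y hy
        have := Subgroup.mem_centralizer_iff.mp (h1 hx) (t * y * t⁻¹) ⟨y, hy, by simp⟩
        exact this.symm
      apply core hS R T (hTI R hR) (hTI T hT) (key R hR T hT hne hcard) (key T hT R hR (Ne.symm hne) (by rw [sup_comm]; exact hcard)) hRT (hord R hR T hT) (hsq R hR)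
  intro R hR T hT hne
  exact main _ R hR T hT hne rfl

end Cfsg.Agent.S1782
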