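import Cfsg.Statements.S1966
import Cfsg.Agent.Lib.CFWell
import Cfsg.Agent.Lib.Core

set_option autoImplicit false
open Cfsg

namespace Cfsg.Agent.S1966

/-- Let p be a prime, G a finite group with Sylow p-subgroup S and 𝓕 a conjugation family for S in G. Then the members of 𝓕 containing O_p(G) still form a conjugation family for S in G. -/
theorem result {G : Type*} [Group G] [Finite G] {p : ℕ} [Fact p.Prime] (S : Sylow p G) (𝓕 : Set (Subgroup G)) (h : Cfsg.IsConjugationFamily 𝓕 (S : Subgroup G)) : Cfsg.IsConjugationFamily {T : Subgroup G | T ∈ 𝓕 ∧ Cfsg.pCore p G ≤ T} (S : Subgroup G) := by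
  have hS := CfsgLib.SylBridge.isSyl_top_iff.2 ⟨S, rfl⟩
  have h1 := (CfsgLib.CF.isConjugationFamily_iff h.1).1 h
  refine ⟨fun T hT => h.1 T hT.1, ?_⟩
  intro A g hne hA hAg
  have hcore : Cfsg.pCore p G ≤ (S : Subgroup G) := CfsgLib.Core.pCore_le_sylow S
  have hcn : (Cfsg.pCore p G).Normal := CfsgLib.Core.pCore_normal p G
  have h2 := h1 (A ∪ Cfsg.pCore p G) g (hne.mono Set.subset_union_left) (Set.union_subset hA hcore) (by
    rintro _ ⟨a, ha | ha, rfl⟩
    · exact hAg ⟨a, ha, rfl⟩
    · apply hcore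
      have := hcn.conj_mem a ha g⁻¹
      simpa using this)
  obtain ⟨n, T, x, e1, e2, e3, e4, e5⟩ := h2.exists_fin
  refine ⟨n, T, x, e1, ?_, e3, fun h => Set.subset_union_left.trans (e4 h), ?_⟩
  · intro i
    refine ⟨e2 i, ?_⟩
    obtain ⟨i, hi⟩ := i
    cases i with
    | zero => exact Set.subset_union_right.trans (e4 hi)
    | succ i =>
      intro c hc
      refine e5 ⟨i, by omega⟩ hi ?_
      refine ⟨(((List.ofFn x).take (i + 1)).prod) * c * (((List.ofFn x).take (i + 1)).prod)⁻¹,
        Or.inr (hcn.conj_mem c hc _), ?_⟩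
      simp only; group
  · intro i h
    refine Set.Subset.trans (Set.image_mono Set.subset_union_left) (e5 i h)

end Cfsg.Agent.S1966
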