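import Cfsg.Statements.S1967
import Cfsg.Agent.Lib.CFWell

set_option autoImplicit false
open Cfsg

namespace Cfsg.Agent.S1967

/-- Let p be a prime, G a finite group with Sylow p-subgroup S and W a conjugacy functor for p on G. Then W controls strong fusion in G if and only if, whenever T ≤ S and g ∈ G satisfy gTg⁻¹ ≤ S, one can write g = n c with n ∈ N_G(W(S)) and c ∈ C_G(T). -/
theorem result {G : Type*} [Group G] [Finite G] {p : ℕ} [Fact p.Prime] (S : Sylow p G) (W : Subgroup G → Subgroup G) (hW : Cfsg.IsConjugacyFunctor p W) : Cfsg.ControlsStrongFusionIn p W ⊤ ↔ ∀ (T : Subgroup G) (g : G), T ≤ (S : Subgroup G) → T.map (MulAut.conj g).toMonoidHom ≤ (S : Subgroup G) → ∃ n ∈ Subgroup.normalizer ((W (S : Subgroup G) : Subgroup G) : Set G), ∃ c ∈ Subgroup.centralizer (T : Set G), g = n * c := by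
  have hS := CfsgLib.SylBridge.isSyl_top_iff.2 ⟨S, rfl⟩
  rw [CfsgLib.CF.controlsStrongFusionIn_iff hW]
  constructor
  · intro h T g hT hg
    obtain ⟨x, hx, hxg⟩ := h _ hS (T : Set G) g trivial hT (fun a ha => hg (CfsgLib.CF.conj_mem_smul ha))
    refine ⟨x, hx.2, x⁻¹ * g, ?_, by group⟩
    rw [Subgroup.mem_centralizer_iff]
    intro a ha
    have := hxg a ha
    have e : a = x⁻¹ * (g * a * g⁻¹) * x := by rw [← this]; group
    calc a * (x⁻¹ * g) = (x⁻¹ * (g * a * g⁻¹) * x) * (x⁻¹ * g) := by rw [← e]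
      _ = x⁻¹ * g * a := by group
  · intro h Q hQ
    have hmain : CfsgLib.CF.SCtl W ⊤ (S : Subgroup G) := by
      intro A g _ hA hAg
      obtain ⟨n, hn, c, hc, hgc⟩ := h (Subgroup.closure A) g ((Subgroup.closure_le _).2 hA)
        (by
          rw [CfsgLib.CF.map_conj_eq, CfsgLib.CF.smul_le_iff]
          exact CfsgLib.CF.sub_closure_conj hAg)
      refine ⟨n, ⟨trivial, hn⟩, fun a ha => ?_⟩
      have := (Subgroup.mem_centralizer_iff.1 hc) a (Subgroup.subset_closure ha)
      rw [hgc]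
      have e : c * a * c⁻¹ = a := by rw [← this]; group
      calc n * a * n⁻¹ = n * (c * a * c⁻¹) * n⁻¹ := by rw [e]
        _ = _ := by group
    obtain ⟨k, -, hk⟩ := hS.exists_conj hQ
    have h2 := CfsgLib.CF.FCtl.smul (CfsgLib.CF.single_functor hW) hS.isPGroup (CfsgLib.CF.sctl_iff.1 hmain) k
    rw [CfsgLib.CF.smul_top, hk] at h2
    exact CfsgLib.CF.sctl_iff.2 h2

end Cfsg.Agent.S1967
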