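import Cfsg.Statements.S1968
import Cfsg.Agent.Lib.CFWell

set_option autoImplicit false
open Cfsg

namespace Cfsg.Agent.S1968

/-- Let p be a prime, G a finite group with Sylow p-subgroup S and W a conjugacy functor for p on G with Z(P) ≤ W(P) for every p-subgroup P. Let A be a subgroup of Z(S) normalized by N_G(W(S)) that is not weakly closed in S with respect to G. Then there is a subgroup T of S, well placed in S with respect to W, such that: A ≤ T; N_G(W(N_S(T))) normalizes A; N_S(T) is a Sylow p-subgroup of N_G(T); A ≤ Z(N_S(T)); and A is not weakly closed in N_S(T) with respect to N_G(T), that is, some N_G(T)-conjugate of A other than A lies in N_S(T). -/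
theorem result {G : Type*} [Group G] [Finite G] {p : ℕ} [Fact p.Prime] (S : Sylow p G) (W : Subgroup G → Subgroup G) (hW : Cfsg.IsConjugacyFunctor p W) (hWZ : ∀ P : Subgroup G, IsPGroup p ↥P → P ⊓ Subgroup.centralizer (P : Set G) ≤ W P) (A : Subgroup G) (hAZ : A ≤ (S : Subgroup G) ⊓ Subgroup.centralizer ((S : Subgroup G) : Set G)) (hAN : Subgroup.normalizer ((W (S : Subgroup G) : Subgroup G) : Set G) ≤ Subgroup.normalizer ((A : Subgroup G) : Set G)) (hnwc : ¬ Cfsg.IsWeaklyClosed A (S : Subgroup G)) : ∃ T : Subgroup G, Cfsg.IsWellPlaced p W (S : Subgroup G) T ∧ A ≤ T ∧ Subgroup.normalizer ((W ((S : Subgroup G) ⊓ Subgroup.normalizer ((T : Subgroup G) : Set G)) : Subgroup G) : Set G) ≤ Subgroup.normalizer ((A : Subgroup G) : Set G) ∧ ¬ p ∣ ((S : Subgroup G) ⊓ Subgroup.normalizer ((T : Subgroup G) : Set G)).relIndex (Subgroup.normalizer ((T : Subgroup G) : Set G)) ∧ A ≤ Subgroup.centralizer (((S : Subgroup G) ⊓ Subgroup.normalizer ((T : Subgroup G) : Set G) : Subgroup G) : Set G) ∧ ∃ g ∈ Subgroup.normalizer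 ((T : Subgroup G) : Set G), A.map (MulAut.conj g).toMonoidHom ≤ (S : Subgroup G) ⊓ Subgroup.normalizer ((T : Subgroup G) : Set G) ∧ A.map (MulAut.conj g).toMonoidHom ≠ A := by
  have hS := CfsgLib.SylBridge.isSyl_top_iff.2 ⟨S, rfl⟩
  have hAS : A ≤ (S : Subgroup G) := hAZ.trans inf_le_left
  have hAC : A ≤ Subgroup.centralizer ((S : Subgroup G) : Set G) := hAZ.trans inf_le_right
  -- a chain step which leaves `N(A)`
  have hstep : ∃ T : Subgroup G, Cfsg.IsWellPlaced p W (S : Subgroup G) T ∧ A ≤ T ∧
      ¬ Subgroup.normalizer (T : Set G) ≤ Subgroup.normalizer (A : Set G) := by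
    by_contra hcon
    push Not at hcon
    apply hnwc
    refine ⟨hAS, fun g hg => ?_⟩
    have hfam := (CfsgLib.CF.isConjugationFamily_iff (fun T hT => hT.1)).1 (CfsgLib.CF.wellPlaced_family hW hS)
      (A : Set G) g⁻¹ ⟨1, one_mem A⟩ hAS (by
        rintro _ ⟨a, ha, rfl⟩
        have h3 : g * a * g⁻¹ ∈ (S : Subgroup G) := hg (CfsgLib.CF.conj_mem_smul (g := g) ha)
        simp only [inv_inv]
        exact h3)
    have main : ∀ (B : Set G) (x : G), CfsgLib.CF.RC {T : Subgroup G | Cfsg.IsWellPlaced p W (S : Subgroup G) T} B x →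
        B = A → x ∈ Subgroup.normalizer (A : Set G) := by
      intro B x h
      induction h with
      | nil => intro _; exact one_mem _
      | @cons B T x g hT hBT hx _ ih =>
        intro hB
        subst hB
        have hxA := hcon T hT hBT hx
        refine mul_mem hxA (ih ?_)
        apply Set.Subset.antisymm
        · rintro _ ⟨a, ha, rfl⟩
          exact CfsgLib.CF.rconj_mem_of_mem_normalizer hxA ha
        · intro a ha
          refine ⟨x * a * x⁻¹, ((Subgroup.mem_normalizer_iff.1 hxA) a).1 ha, by group⟩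
    have := main _ _ hfam rfl
    exact CfsgLib.CF.smul_eq_of_mem_normalizer (by simpa using inv_mem this)
  obtain ⟨T, hT, hAT, hTn⟩ := hstep
  -- the last term of the tower whose normalizer does not normalize `A`
  have hex : ∃ i, Subgroup.normalizer ((Cfsg.functorTower W (S : Subgroup G) T (i+1) : Subgroup G) : Set G) ≤
      Subgroup.normalizer (A : Set G) := by
    refine ⟨Nat.card (S : Subgroup G), ?_⟩
    rw [CfsgLib.CF.tower_top hW hS T (Nat.lt_succ_self _)]
    exact hAN
  classical
  set j := Nat.find hex with hj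
  have hj1 := Nat.find_spec hex
  have hj2 : ¬ Subgroup.normalizer ((Cfsg.functorTower W (S : Subgroup G) T j : Subgroup G) : Set G) ≤
      Subgroup.normalizer (A : Set G) := by
    rcases Nat.eq_zero_or_pos j with h0 | h0
    · rw [h0]; exact hTn
    · have := Nat.find_min hex (m := j - 1) (by omega)
      have e : j - 1 + 1 = j := by omega
      rw [e] at this
      exact this
  have hAj : A ≤ (S : Subgroup G) ⊓ Subgroup.normalizer ((Cfsg.functorTower W (S : Subgroup G) T j : Subgroup G) : Set G) :=
    hAT.trans (CfsgLib.CF.le_tower_norm hW hS hT.1 j)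
  have hATj : A ≤ Cfsg.functorTower W (S : Subgroup G) T j := by
    clear_value j
    cases j with
    | zero => exact hAT
    | succ i =>
      refine le_trans ?_ (hWZ _ (S.isPGroup'.to_le inf_le_left))
      refine le_inf (hAT.trans (CfsgLib.CF.le_tower_norm hW hS hT.1 i)) ?_
      refine hAC.trans (Subgroup.centralizer_le ?_)
      exact inf_le_left
  refine ⟨Cfsg.functorTower W (S : Subgroup G) T j, CfsgLib.CF.wellPlaced_tower hW hS hT j, hATj, hj1,
    (CfsgLib.SylBridge.isSyl_iff.1 (((CfsgLib.CF.isWellPlaced_iff hW hS).1 hT).2 j)).2.2, ?_, ?_⟩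
  · refine hAC.trans (Subgroup.centralizer_le ?_)
    exact inf_le_left
  · obtain ⟨g, hg, hgA⟩ := SetLike.not_le_iff_exists.1 hj2
    refine ⟨g, hg, ?_, ?_⟩
    · rw [CfsgLib.CF.map_conj_eq]
      refine le_trans (CfsgLib.CF.smul_le_smul hATj) ?_
      rw [CfsgLib.CF.smul_eq_of_mem_normalizer hg]
      exact le_inf (CfsgLib.CF.tower_le hW hS hT.1 j) Subgroup.le_normalizer
    · intro h
      exact hgA (CfsgLib.CF.mem_normalizer_of_smul_eq h)

end Cfsg.Agent.S1968
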