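import Cfsg.Statements.S1985
import Cfsg.Agent.Lib.WCKInf

set_option autoImplicit false
universe u
open Cfsg

namespace Cfsg.Agent.S1985

/-- Let p be an odd prime and G a finite group. Then the lower K-infinity subgroup controls weak closure of elements in G: the lower K-infinity subgroup of every p-subgroup P of G contains Z(P), and for some (equivalently, every) Sylow p-subgroup S of G, with K the lower K-infinity subgroup of S, every element of S commuting with all of N_G(K) is weakly closed in S with respect to G (every G-conjugate of it lying in S equals it). -/
theorem result {G : Type u} [Group G] [Finite G] {p : ℕ} [Fact p.Prime] (hp : p ≠ 2) : Cfsg.ControlsWeakClosureOfElementsIn p (Cfsg.inducedFunctor (G := G) Cfsg.kInfLower) ⊤ := by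
  exact CfsgLib.WCFus.wce (CfsgLib.CF.induced_isConjugacyFunctor (CfsgLib.KInf.isCharPFunctor_lower p)) (fun P _ => CfsgLib.WCFus.kInf_center P) (CfsgLib.WCFus.kInf_loc' hp) ⊤

end Cfsg.Agent.S1985
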