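import Cfsg.Statements.S1988
import Cfsg.Agent.Lib.ClsStab3

set_option autoImplicit false
universe u
open Cfsg

namespace Cfsg.Agent.S1988

/-- Let p be an odd prime, G a finite group with Sylow p-subgroup S and K the lower K-infinity subgroup of S. If N_G(K) has a normal p-complement, or if N_G(K)/C_G(K) is a p-group (every element of N_G(K) of order prime to p centralizes K), then G has a normal p-complement. -/
theorem result {G : Type u} [Group G] [Finite G] {p : ℕ} [Fact p.Prime] (hp : p ≠ 2) (S : Sylow p G) (h : Cfsg.HasNormalPComplement p ↥(Subgroup.normalizer ((Cfsg.inducedFunctor Cfsg.kInfLower (S : Subgroup G) : Subgroup G) : Set G)) ∨ ∀ g ∈ Subgroup.normalizer ((Cfsg.inducedFunctor Cfsg.kInfLower (S : Subgroup G) : Subgroup G) : Set G), (orderOf g).Coprime p → g ∈ Subgroup.centralizer ((Cfsg.inducedFunctor Cfsg.kInfLower (S : Subgroup G) : Subgroup G) : Set G)) : Cfsg.HasNormalPComplement p G := by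
  have hW := CfsgLib.KInf.isCharPFunctor_lower p
  have hc := CfsgLib.CF.induced_isConjugacyFunctor hW (X := G)
  rw [CfsgLib.NPC.npc_iff]
  have hN : CfsgLib.NPC.NPC p (Subgroup.normalizer ((Cfsg.inducedFunctor (G := G) Cfsg.kInfLower (S : Subgroup G) : Subgroup G) : Set G)) := by
    rcases h with h | h
    · exact CfsgLib.NPC.npc_iff.1 h
    · refine CfsgLib.ClsStab.npc_normalizer S _ (CfsgLib.CF.functor_le hc S.isPGroup') (CfsgLib.CF.le_normalizer_functor hc S.isPGroup') ?_ h
      rintro x ⟨hx, hx'⟩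
      have h1 := CfsgLib.KInf.centralizer_kInfLower_le (P := ↥(S : Subgroup G)) S.isPGroup'
      refine ⟨⟨x, hx⟩, h1 ?_, rfl⟩
      rw [Subgroup.mem_centralizer_iff]
      intro y hy
      apply Subtype.ext
      exact Subgroup.mem_centralizer_iff.1 hx' y ⟨y, hy, rfl⟩
  refine CfsgLib.ClsStab.npc_main hp hW (CfsgLib.NPCFun.hypW_of_one hW S hN) ?_
  intro K R hR hst T
  exact CfsgLib.CF.controlsStrongFusion_of_fc hW (CfsgLib.PStabN.fc_lower hst _ (CfsgLib.CF.Sect.refl _)) T

end Cfsg.Agent.S1988
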