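import Cfsg.Statements.S1989
import Cfsg.Agent.Lib.H6Qd
import Cfsg.Agent.Lib.KInfCtl

set_option autoImplicit false
universe u
open Cfsg

namespace Cfsg.Agent.S1989

/-- Let p be an odd prime and G a finite group. Then Qd(p) (the natural semidirect product of an elementary abelian group of order p² by SL₂(p)) is not involved in G if and only if, in every section K/R of G and for every Sylow p-subgroup T of K/R, the lower K-infinity subgroup of T controls strong fusion in K/R. -/
theorem result {G : Type u} [Group G] [Finite G] {p : ℕ} [Fact p.Prime] (hp : p ≠ 2) : ¬ Cfsg.Involves ↥(Cfsg.qd p) G ↔ ∀ (K R : Subgroup G) [hR : (R.subgroupOf K).Normal], ∀ T : Sylow p (↥K ⧸ R.subgroupOf K), Cfsg.ControlsStrongFusion p (Cfsg.inducedFunctor (G := (↥K ⧸ R.subgroupOf K)) Cfsg.kInfLower (T : Subgroup (↥K ⧸ R.subgroupOf K))) := by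
  constructor
  · intro h K R hR T
    have hst := (CfsgLib.ThmA.s2795 (G := G) hp).1 h
    have hW := CfsgLib.KInf.isCharPFunctor_lower p
    refine CfsgLib.CF.controlsStrongFusion_of_fc hW (CfsgLib.PStabN.fc_lower (G := ↥K ⧸ R.subgroupOf K) ?_ _ (CfsgLib.CF.Sect.refl _)) T
    intro K' R' hR'
    have h2 : ¬ Cfsg.Involves ↥(Cfsg.qd p) (↥K ⧸ R.subgroupOf K) := fun h3 =>
      h (CfsgLib.Inv.of_section K (QuotientGroup.mk' (R.subgroupOf K)) (QuotientGroup.mk'_surjective _) h3)
    exact (CfsgLib.ThmA.s2795 hp).1 h2 K' R'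
  · rintro h ⟨K, R, hR, ⟨e⟩⟩
    exact CfsgLib.H6Qd.not_controls e.symm _ (CfsgLib.KInf.isCharPFunctor_lower p) (h K R (CfsgLib.H6Qd.TS e.symm))

end Cfsg.Agent.S1989
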