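import Cfsg.Statements.S1996
import Cfsg.Agent.Lib.CFMain

set_option autoImplicit false
universe u
open Cfsg

namespace Cfsg.Agent.S1996

/-- Let p be a prime, G a finite group and W₁, W₂ two isomorphism-invariant p-group functors (W assigns to every group Q a subgroup W(Q), nontrivial whenever Q is a nontrivial finite p-group, and every isomorphism from a finite p-group Q onto a group R carries W(Q) onto W(R)). Suppose that G* = N_{G*}(W₁(S*)) N_{G*}(W₂(S*)) whenever G* = K/R is a section of G with C_{G*}(O_p(G*)) ≤ O_p(G*) and S* is a Sylow p-subgroup of G*. Then the pair {W₁, W₂} controls strong fusion in G. -/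
theorem result {G : Type u} [Group G] [Finite G] {p : ℕ} [Fact p.Prime] (W₁ W₂ : ∀ (Q : Type u) [Group Q], Subgroup Q) (hW₁ : Cfsg.IsCharPFunctor.{u} p W₁) (hW₂ : Cfsg.IsCharPFunctor.{u} p W₂) (hfac : ∀ (K R : Subgroup G) [hR : (R.subgroupOf K).Normal], Subgroup.centralizer ((Cfsg.pCore p (↥K ⧸ R.subgroupOf K) : Subgroup (↥K ⧸ R.subgroupOf K)) : Set (↥K ⧸ R.subgroupOf K)) ≤ Cfsg.pCore p (↥K ⧸ R.subgroupOf K) → ∀ T : Sylow p (↥K ⧸ R.subgroupOf K), ∀ x : (↥K ⧸ R.subgroupOf K), ∃ a ∈ Subgroup.normalizer ((Cfsg.inducedFunctor (G := (↥K ⧸ R.subgroupOf K)) W₁ (T : Subgroup (↥K ⧸ R.subgroupOf K)) : Subgroup (↥K ⧸ R.subgroupOf K)) : Set (↥K ⧸ R.subgroupOf K)), ∃ b ∈ Subgroup.normalizer ((Cfsg.inducedFunctor (G := (↥K ⧸ R.subgroupOf K)) W₂ (T : Subgroup (↥K ⧸ R.subgroupOf K)) : Subgroup (↥K ⧸ R.subgroupOf K)) : Set (↥K ⧸ R.subgroupOf K)), x = a * b) : Cfsg.FamilyControlsStrongFusionIn p {Cfsg.inducedFunctor (G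 := G) W₁, Cfsg.inducedFunctor (G := G) W₂} ⊤ := by
  have h𝓦 : ∀ W ∈ ({W₁, W₂} : Set (∀ (Q : Type u) [Group Q], Subgroup Q)), Cfsg.IsCharPFunctor.{u} p W := by
    intro W hW
    rcases hW with rfl | hW
    · exact hW₁
    · rw [Set.mem_singleton_iff] at hW; rw [hW]; exact hW₂
  have himg : ∀ (Y : Type u) [Group Y], CfsgLib.CF.ind {W₁, W₂} Y =
      {Cfsg.inducedFunctor (G := Y) W₁, Cfsg.inducedFunctor (G := Y) W₂} := by
    intro Y _
    unfold CfsgLib.CF.ind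
    rw [Set.image_pair]
  have h1 : CfsgLib.CF.FC p {W₁, W₂} G := by
    refine CfsgLib.CF.fc_sections h𝓦 (G := G) ?_ G (CfsgLib.CF.Sect.refl G)
    intro Y _ _ hY hc
    obtain ⟨K', R', hR', ⟨e⟩⟩ := hY.exists_quot
    have hf : CfsgLib.CF.Fac p W₁ W₂ Y := by
      refine CfsgLib.CF.Fac.of_equiv hW₁ hW₂ e ?_
      intro S hS
      obtain ⟨P, rfl⟩ := CfsgLib.SylBridge.isSyl_top_iff.1 hS
      exact hfac K' R' (hc.of_equiv e.symm) P
    intro S hS
    rw [himg]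
    exact CfsgLib.CF.fctl_of_factor (Or.inl rfl) (Or.inr rfl) (CfsgLib.CF.induced_isConjugacyFunctor hW₁)
      (CfsgLib.CF.induced_isConjugacyFunctor hW₂) hS (hf S hS)
  rw [← CfsgLib.CF.fc_iff h𝓦, Set.image_pair] at h1
  exact h1

end Cfsg.Agent.S1996
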