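import Cfsg.Statements.S1998
import Cfsg.Agent.Lib.CFTrans

set_option autoImplicit false
universe u
open Cfsg

namespace Cfsg.Agent.S1998

/-- Let p be a prime, G a finite group with Sylow p-subgroup S, and 𝓦 a nonempty set of isomorphism-invariant p-group functors (W assigns to every group Q a subgroup W(Q), nontrivial whenever Q is a nontrivial finite p-group, and every isomorphism from a finite p-group Q onto a group R carries W(Q) onto W(R)). Suppose the induced conjugacy functors control transfer in every section of G other than G itself, but not in G. Let T be the subgroup generated by the S ∩ (N_G(W(S)))', W ∈ 𝓦, and M = N_G(T ∩ O_p(G)). Then: C_G(O_p(G)) ≤ O_p(G); M is a proper subgroup of G containing every proper subgroup of G that contains S (the unique maximal subgroup over S); [O_p(G), M] ≤ O_p(G) ∩ M' ≤ O_p(G) ∩ T; and every element u of S outside O_p(G) satisfies [X, u,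 …, u] ≰ Y with p − 1 entries u, for some chief factor X/Y of G with X ≤ O_p(G). -/
theorem result {G : Type u} [Group G] [Finite G] {p : ℕ} [Fact p.Prime] (S : Sylow p G) (𝓦 : Set (∀ (Q : Type u) [Group Q], Subgroup Q)) (h𝓦 : ∀ W ∈ 𝓦, Cfsg.IsCharPFunctor.{u} p W) (hne : 𝓦.Nonempty) (hsec : ∀ (K R : Subgroup G) [hR : (R.subgroupOf K).Normal], (K = ⊤ → R ≠ ⊥) → Cfsg.FamilyControlsTransferIn p ((fun W => Cfsg.inducedFunctor (G := (↥K ⧸ R.subgroupOf K)) W) '' 𝓦) ⊤) (hG : ¬ Cfsg.FamilyControlsTransferIn p ((fun W => Cfsg.inducedFunctor (G := G) W) '' 𝓦) ⊤) (T M : Subgroup G) (hT : T = (⨆ W ∈ 𝓦, (S : Subgroup G) ⊓ ⁅Subgroup.normalizer ((Cfsg.inducedFunctor (G := G) W (S : Subgroup G) : Subgroup G) : Set G), Subgroup.normalizer ((Cfsg.inducedFunctor (G := G) W (S : Subgroup G) : Subgroup G) : Set G)⁆)) (hM : M = Subgroup.normalizer ((T ⊓ Cfsg.pCore p G : Subgroup G) : Set G)) : Subgroup.centralizer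 ((Cfsg.pCore p G : Subgroup G) : Set G) ≤ Cfsg.pCore p G ∧ (M ≠ ⊤ ∧ ∀ H : Subgroup G, (S : Subgroup G) ≤ H → H ≠ ⊤ → H ≤ M) ∧ (⁅Cfsg.pCore p G, M⁆ ≤ Cfsg.pCore p G ⊓ ⁅M, M⁆ ∧ Cfsg.pCore p G ⊓ ⁅M, M⁆ ≤ Cfsg.pCore p G ⊓ T) ∧ ∀ u : G, u ∈ (S : Subgroup G) → u ∉ Cfsg.pCore p G → ∃ U V : Subgroup G, Cfsg.IsChiefFactor U V ∧ U ≤ Cfsg.pCore p G ∧ ¬ Cfsg.iterCommutator U (Subgroup.zpowers u) (p - 1) ≤ V := by
  have hS := CfsgLib.SylBridge.isSyl_top_iff.2 ⟨S, rfl⟩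
  have IH : ∀ (Y : Type u) [Group Y] [Finite Y], CfsgLib.CF.Sect G Y → Nat.card Y < Nat.card G →
      CfsgLib.CF.TC p 𝓦 Y := by
    intro Y _ _ hY hlt
    obtain ⟨K, R, hR, ⟨e⟩⟩ := hY.exists_quot
    refine CfsgLib.CF.TC.of_equiv h𝓦 e ?_
    rw [← CfsgLib.CF.tc_iff h𝓦]
    refine hsec K R ?_
    rintro rfl rfl
    have h1 : Nat.card (↥(⊤ : Subgroup G) ⧸ (⊥ : Subgroup G).subgroupOf ⊤) = Nat.card G := by
      rw [← Subgroup.index_eq_card]
      have : (⊥ : Subgroup G).subgroupOf ⊤ = ⊥ := by simp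
      rw [this, Subgroup.index_bot, Subgroup.card_top]
    rw [← Nat.card_congr e.toEquiv, h1] at hlt
    exact lt_irrefl _ hlt
  have IHs : ∀ H : Subgroup G, H ≠ ⊤ → CfsgLib.CF.TC p 𝓦 H := fun H hH =>
    IH H (CfsgLib.CF.Sect.subgroup H) (CfsgLib.CF.card_subgroup_lt hH)
  have IHq : ∀ N : Subgroup G, ∀ [N.Normal], N ≠ ⊥ → CfsgLib.CF.TC p 𝓦 (G ⧸ N) := fun N _ hN =>
    IH _ (CfsgLib.CF.Sect.quotient N) (CfsgLib.Hall.card_quotient_lt N hN)
  have hG' : ¬ CfsgLib.CF.TCtl (CfsgLib.CF.ind 𝓦 G) ⊤ (S : Subgroup G) := by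
    intro h
    apply hG
    rw [CfsgLib.CF.tc_iff h𝓦]
    exact CfsgLib.CF.tc_of_tctl h𝓦 hS h
  have hTF : T = CfsgLib.CF.FF (CfsgLib.CF.ind 𝓦 G) ⊤ (S : Subgroup G) := by
    rw [hT]
    unfold CfsgLib.CF.FF CfsgLib.CF.ind
    rw [iSup_image]
    simp only [top_inf_eq]
  have hMF : M = Subgroup.normalizer ((CfsgLib.CF.FF (CfsgLib.CF.ind 𝓦 G) ⊤ (S : Subgroup G) ⊓ Cfsg.pCore p G : Subgroup G) : Set G) := by
    rw [hM, hTF]
  have hMne : M ≠ ⊤ := by rw [hMF]; exact CfsgLib.CF.M_ne_top h𝓦 hne IHs IHq hG' hS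
  have hMax : ∀ H : Subgroup G, (S : Subgroup G) ≤ H → H ≠ ⊤ → H ≤ M := by
    intro H h1 h2
    rw [hMF]
    exact CfsgLib.CF.le_normalizer_FP h𝓦 IHs hS h1 h2
  have hSM : (S : Subgroup G) ≤ M := hMax _ le_rfl (CfsgLib.CF.syl_ne_top h𝓦 hne hS hG')
  have hPS := CfsgLib.CF.core_le_syl (X := G) hS
  have hPn := CfsgLib.Core.pCore_normal p G
  refine ⟨CfsgLib.CF.cons_of_min h𝓦 IHs IHq hG' hS, ⟨hMne, hMax⟩, ⟨?_, ?_⟩, ?_⟩
  · exact le_inf (Subgroup.commutator_le_left _ _) (Subgroup.commutator_mono (hPS.trans hSM) le_rfl)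
  · refine le_inf inf_le_left ?_
    rw [hTF]
    exact (inf_le_inf_right _ hPS).trans (CfsgLib.CF.inf_commutator_le_FF h𝓦 hS hSM (IHs M hMne))
  · intro u hu hup
    exact CfsgLib.CF.exists_bad_chief h𝓦 hne IHs IHq hG' hS u hu hup

end Cfsg.Agent.S1998
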