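import Cfsg.Statements.S2008

set_option autoImplicit false
open Cfsg

namespace Cfsg.Agent.S2008

/-- Let H be a finite group and z an involution such that every proper normal subgroup of H meets the centralizer of z trivially, and suppose z lies in a Klein four-subgroup E of H all three of whose involutions are conjugate to z in H. Then H has no non-trivial abelian normal subgroup. -/
theorem result {H : Type*} [Group H] [Finite H] (z : H) (hz : orderOf z = 2) (hN : ∀ N : Subgroup H, N.Normal → N ≠ ⊤ → N ⊓ Subgroup.centralizer ({z} : Set H) = ⊥) (E : Subgroup H) (hE : IsKleinFour ↥E) (hzE : z ∈ E) (hc : ∀ e ∈ E, e ≠ 1 → IsConj z e) (N : Subgroup H) [N.Normal] (hab : IsMulCommutative ↥N) : N = ⊥ := by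
  -- fixed points of involutions of E on N
  classical
  have hz2 : z * z = 1 := by rw [← sq, ← hz]; exact pow_orderOf_eq_one z
  have hEsq : ∀ e ∈ E, e * e = 1 := by
    intro e he
    have := IsKleinFour.mul_self (⟨e, he⟩ : E)
    exact congrArg Subtype.val this
  have hz1 : z ≠ 1 := by rintro rfl; simp at hz
  -- there is e in E, e ≠ 1, e ≠ z
  obtain ⟨e, he, he1, hez⟩ : ∃ e ∈ E, e ≠ 1 ∧ e ≠ z := by
    by_contra hc
    push Not at hc
    have h4 : Nat.card E = 4 := IsKleinFour.card_four
    have hsub : (E : Set H) ⊆ ({1, z} : Set H) := by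
      intro x hx
      by_cases h1 : x = 1
      · left; exact h1
      · right; exact hc x hx h1
    have h2 : (E : Set H).ncard ≤ ({1, z} : Set H).ncard := Set.ncard_le_ncard hsub (Set.toFinite _)
    have h3 : ({1, z} : Set H).ncard ≤ 2 := Set.ncard_insert_le _ _ |>.trans (by simp)
    have h5 : (E : Set H).ncard = Nat.card E := rfl
    omega
  have hcomm : ∀ x ∈ N, ∀ y ∈ N, x * y = y * x := by
    intro x hx y hy
    exact congrArg Subtype.val (hab.is_comm.comm (⟨x, hx⟩ : N) ⟨y, hy⟩)
  have hNtop : N ≠ ⊤ := by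
    rintro rfl
    obtain ⟨c, hc'⟩ := isConj_iff.mp (hc e he he1)
    apply hez
    rw [← hc', hcomm c (Subgroup.mem_top _) z (Subgroup.mem_top _)]; group
  have hfix : ∀ f ∈ E, f ≠ 1 → ∀ n ∈ N, f * n * f⁻¹ = n⁻¹ := by
    intro f hf hf1 n hn
    obtain ⟨c, hc'⟩ := isConj_iff.mp (hc f hf hf1)
    have hNn : N.Normal := inferInstance
    have h1 : n * (f * n * f⁻¹) ∈ N := N.mul_mem hn (hNn.conj_mem n hn f)
    have hff : f⁻¹ = f := inv_eq_of_mul_eq_one_left (hEsq f hf)
    have h2 : f * (n * (f * n * f⁻¹)) * f⁻¹ = n * (f * n * f⁻¹) := by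
      have e1 : f * (n * (f * n * f⁻¹)) * f⁻¹ = (f * n * f⁻¹) * ((f * f) * n * (f * f)⁻¹) := by group
      rw [e1, hEsq f hf, hcomm n hn _ (hNn.conj_mem n hn f)]; group
    have h3 : c⁻¹ * (n * (f * n * f⁻¹)) * c ∈ N ⊓ Subgroup.centralizer ({z} : Set H) := by
      refine Subgroup.mem_inf.mpr ⟨?_, ?_⟩
      · have := hNn.conj_mem _ h1 c⁻¹
        simpa using this
      · rw [Subgroup.mem_centralizer_singleton_iff]
        set w := n * (f * n * f⁻¹) with hw
        have h4 : f * w = w * f := by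
          calc f * w = (f * w * f⁻¹) * f := by group
            _ = w * f := by rw [h2]
        rw [← hc'] at h4
        calc c⁻¹ * w * c * z = c⁻¹ * (w * (c * z * c⁻¹)) * c := by group
          _ = c⁻¹ * ((c * z * c⁻¹) * w) * c := by rw [h4]
          _ = z * (c⁻¹ * w * c) := by group
    rw [hN N inferInstance hNtop, Subgroup.mem_bot] at h3
    have h5 : n * (f * n * f⁻¹) = 1 := by
      calc n * (f * n * f⁻¹) = c * (c⁻¹ * (n * (f * n * f⁻¹)) * c) * c⁻¹ := by group
        _ = 1 := by rw [h3]; group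
    exact (inv_eq_of_mul_eq_one_right h5).symm
  rw [eq_bot_iff]
  intro n hn
  have h1 := hfix z hzE hz1 n hn
  have h2 := hfix e he he1 n⁻¹ (N.inv_mem hn)
  rw [inv_inv] at h2
  have hez1 : e * z ≠ 1 := by
    intro h
    apply hez
    have := hEsq z hzE
    exact mul_right_cancel (h.trans this.symm)
  have h3 := hfix (e * z) (E.mul_mem he hzE) hez1 n hn
  have h4 : n = n⁻¹ := by
    rw [← h3]
    calc n = e * n⁻¹ * e⁻¹ := h2.symm
      _ = e * (z * n * z⁻¹) * e⁻¹ := by rw [h1]
      _ = e * z * n * (e * z)⁻¹ := by group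
  have h5 : n ∈ N ⊓ Subgroup.centralizer ({z} : Set H) := by
    refine Subgroup.mem_inf.mpr ⟨hn, ?_⟩
    rw [Subgroup.mem_centralizer_singleton_iff]
    calc n * z = (n⁻¹) * z := by rw [← h4]
      _ = (z * n * z⁻¹) * z := by rw [h1]
      _ = z * n := by group
  rw [hN N inferInstance hNtop] at h5
  exact h5

end Cfsg.Agent.S2008
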