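import Cfsg.Statements.S2009
import Cfsg.Agent.S2008

set_option autoImplicit false
open Cfsg

namespace Cfsg.Agent.S2009

/-- Let H be a finite group and z an involution such that every proper normal subgroup of H meets the centralizer of z trivially, and suppose z lies in a Klein four-subgroup E of H all three of whose involutions are conjugate to z in H. Then H is simple. -/
theorem result {H : Type*} [Group H] [Finite H] (z : H) (hz : orderOf z = 2) (hN : ∀ N : Subgroup H, N.Normal → N ≠ ⊤ → N ⊓ Subgroup.centralizer ({z} : Set H) = ⊥) (E : Subgroup H) (hE : IsKleinFour ↥E) (hzE : z ∈ E) (hc : ∀ e ∈ E, e ≠ 1 → IsConj z e) : IsSimpleGroup H := by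
  classical
  have hz1 : z ≠ 1 := by rintro rfl; simp at hz
  haveI : Nontrivial H := ⟨z, 1, hz1⟩
  constructor
  intro N hNn
  by_contra hcon
  push Not at hcon
  obtain ⟨hb, ht⟩ := hcon
  apply hb
  have hz2 : z * z = 1 := by rw [← sq, ← hz]; exact pow_orderOf_eq_one z
  have hzi : z⁻¹ = z := inv_eq_of_mul_eq_one_left hz2
  -- conjugation by z on N
  let φ : N →* N :=
    { toFun := fun n => ⟨z * n * z⁻¹, hNn.conj_mem n n.2 z⟩
      map_one' := by ext; simp
      map_mul' := fun a b => by ext; simp [mul_assoc] }
  have hφ : MonoidHom.FixedPointFree φ := by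
    intro n hn
    have h1 : z * n * z⁻¹ = (n : H) := congrArg Subtype.val hn
    have h2 : (n : H) ∈ N ⊓ Subgroup.centralizer ({z} : Set H) := by
      refine Subgroup.mem_inf.mpr ⟨n.2, ?_⟩
      rw [Subgroup.mem_centralizer_singleton_iff]
      calc (n : H) * z = z * n * z⁻¹ * z := by rw [h1]
        _ = z * n := by group
    rw [hN N hNn ht, Subgroup.mem_bot] at h2
    exact Subtype.ext h2
  have hinv : Function.Involutive φ := by
    intro n
    apply Subtype.ext
    show z * (z * n * z⁻¹) * z⁻¹ = n
    calc z * (z * n * z⁻¹) * z⁻¹ = (z * z) * n * (z * z)⁻¹ := by group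
      _ = n := by rw [hz2]; group
  have hcomm : IsMulCommutative N := ⟨⟨fun a b => hφ.commute_all_of_involutive hinv a b⟩⟩
  haveI := hNn
  exact Cfsg.Agent.S2008.result z hz hN E hE hzE hc N hcomm

end Cfsg.Agent.S2009
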