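import Cfsg.Statements.S2034
import Mathlib
import Cfsg.Agent.Lib.H7Mult2
import Cfsg.Agent.Lib.GolayDod
import Cfsg.Agent.S5620

set_option autoImplicit false
open Cfsg

set_option linter.style.haveILetI false
namespace Cfsg.Agent.S2034

open CfsgLib.H7Mult CfsgLib.Golay
open scoped Pointwise

theorem sqd : Cfsg.Spor.squareDodecad = toFS 0x5335f := by
  unfold Cfsg.Spor.squareDodecad
  rw [support₂_qrWord]
  rfl

/-- the map of a packed permutation -/
def fP (P : ℕ) : Cfsg.GolayPt → Cfsg.GolayPt := fun p => pt (img P (idx p))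

theorem get (P : ℕ) (h : good P = true) (h2 : fixes [0] [0x5335f] P = true) :
    ∃ g : Cfsg.Spor.M11, ∀ p, (g : Equiv.Perm Cfsg.GolayPt) p = fP P p := by
  obtain ⟨g, hg, hP⟩ := exists_of_good h
  refine ⟨⟨g, Cfsg.Agent.S5620.mem_M11.2 ⟨hg, ?_, ?_⟩⟩, fun p => hP.apply' p⟩
  · rw [sqd]
    exact fixes_mask h2 hP (by simp) (by norm_num)
  · exact fixes_pt (f := 0) h2 hP (by simp) (by norm_num)

theorem card_M11 : Nat.card Cfsg.Spor.M11 = 7920 := by
  have h1 := card_PSd_one Cfsg.Agent.S5620.sq_dod Cfsg.Agent.S5620.zero_mem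
  rw [← h1]
  have h2 : Cfsg.Spor.M11 = PSd Cfsg.Spor.squareDodecad [some 0] := by
    ext g
    rw [Cfsg.Agent.S5620.mem_M11, mem_PSd]
    simp
  rw [h2]

theorem eq_of {g h : Cfsg.Spor.M11} (H : ∀ p, (g : Equiv.Perm Cfsg.GolayPt) p = (h : Equiv.Perm Cfsg.GolayPt) p) :
    g = h := Subtype.ext (Equiv.ext H)


/-- The Schur multiplier of the Mathieu group M₁₁ (the stabiliser of a dodecad and one of its points in the automorphism group of the length-24 binary code) is trivial; here the Schur multiplier is described through stem extensions, as in the definitions: surjective homomorphisms onto the group from a finite group, whose kernel is central in that finite group and contained in that finite group's commutator subgroup. -/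
theorem result : Cfsg.HasCyclicSchurMultiplier ↥Cfsg.Spor.M11 1 := by
  refine trivial_of_prime ?_
  intro Γ _ _ σ hσ p hp hc
  haveI : Fact p.Prime := ⟨hp⟩
  haveI hfin : Finite Cfsg.Spor.M11 := inferInstance
  by_cases h2 : p = 2
  · subst h2
    obtain ⟨x, hx⟩ := get 0x2d0eab11c95dd90abe469b62810c20 (by decide +kernel) (by decide +kernel)
    obtain ⟨y, hy⟩ := get 0x8da6fac2f2a390c59ccd524a410c20 (by decide +kernel) (by decide +kernel)
    have e1 : y * y = 1 := by
      apply eq_of
      intro p
      change (y : Equiv.Perm Cfsg.GolayPt) ((y : Equiv.Perm Cfsg.GolayPt) p) = p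
      rw [hy, hy]
      revert p
      decide +kernel
    have e2 : y * x * y⁻¹ = x ^ 3 := by
      rw [mul_inv_eq_iff_eq_mul]
      apply eq_of
      intro p
      change (y : Equiv.Perm Cfsg.GolayPt) ((x : Equiv.Perm Cfsg.GolayPt) p) =
        (x : Equiv.Perm Cfsg.GolayPt) ((x : Equiv.Perm Cfsg.GolayPt) ((x : Equiv.Perm Cfsg.GolayPt) ((y : Equiv.Perm Cfsg.GolayPt) p)))
      simp only [hx, hy]
      revert p
      decide +kernel
    have e3 : x ^ 8 = 1 := by
      rw [show x ^ 8 = x * (x * (x * (x * (x * (x * (x * x)))))) by simp only [pow_succ, pow_zero, one_mul, mul_assoc]]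
      apply eq_of
      intro p
      change (x : Equiv.Perm Cfsg.GolayPt) ((x : Equiv.Perm Cfsg.GolayPt) ((x : Equiv.Perm Cfsg.GolayPt) ((x : Equiv.Perm Cfsg.GolayPt)
        ((x : Equiv.Perm Cfsg.GolayPt) ((x : Equiv.Perm Cfsg.GolayPt) ((x : Equiv.Perm Cfsg.GolayPt) ((x : Equiv.Perm Cfsg.GolayPt) p))))))) = p
      simp only [hx]
      revert p
      decide +kernel
    have e4 : x ^ 4 ≠ 1 := by
      intro h
      have h1 : ∀ p, (x : Equiv.Perm Cfsg.GolayPt) ((x : Equiv.Perm Cfsg.GolayPt) ((x : Equiv.Perm Cfsg.GolayPt) ((x : Equiv.Perm Cfsg.GolayPt) p))) = p := by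
        intro p
        have h2 : ((x ^ 4 : Cfsg.Spor.M11) : Equiv.Perm Cfsg.GolayPt) p = p := by rw [h]; rfl
        exact h2
      simp only [hx] at h1
      revert h1
      decide +kernel
    have hord : orderOf x = 8 := by
      have := orderOf_eq_prime_pow (x := x) (p := 2) (n := 2) (by simpa using e4) (by simpa using e3)
      simpa using this
    have hyn : y ∉ Subgroup.zpowers x := by
      rintro ⟨i, rfl⟩
      simp only at e2
      have hcm : Commute (x ^ i) x := (Commute.refl x).zpow_left i
      rw [hcm.eq, mul_inv_cancel_right] at e2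
      have h1 : x ^ 2 = 1 := by
        have h3 : x ^ 3 = x * x ^ 2 := pow_succ' x 2
        rw [h3] at e2
        exact (left_eq_mul.1 e2)
      have := orderOf_dvd_of_pow_eq_one h1
      rw [hord] at this
      omega
    exact sd16_case hσ hc hord e1 e2 (not_dvd_index_of (sd16_card hord e1 e2 hyn) (by
      rw [card_M11]; norm_num))
  by_cases h3 : p = 3
  · subst h3
    obtain ⟨a, ha⟩ := get 0x5de8e29a329d503b29a93c1ec20820 (by decide +kernel) (by decide +kernel)
    obtain ⟨b, hb⟩ := get 0x5deb478d4c2ba49b1e068926868820 (by decide +kernel) (by decide +kernel)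
    obtain ⟨g, hg⟩ := get 0x2ceb4b36295ba4c79e06522e418440 (by decide +kernel) (by decide +kernel)
    have e1 : a * b = b * a := by
      apply eq_of
      intro p
      change (a : Equiv.Perm Cfsg.GolayPt) ((b : Equiv.Perm Cfsg.GolayPt) p) = (b : Equiv.Perm Cfsg.GolayPt) ((a : Equiv.Perm Cfsg.GolayPt) p)
      simp only [ha, hb]
      revert p
      decide +kernel
    have e2 : g * a * g⁻¹ = a := by
      rw [mul_inv_eq_iff_eq_mul]
      apply eq_of
      intro p
      change (g : Equiv.Perm Cfsg.GolayPt) ((a : Equiv.Perm Cfsg.GolayPt) p) = (a : Equiv.Perm Cfsg.GolayPt) ((g : Equiv.Perm Cfsg.GolayPt) p)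
      simp only [ha, hg]
      revert p
      decide +kernel
    have e3 : g * b * g⁻¹ = b⁻¹ := by
      rw [mul_inv_eq_iff_eq_mul, eq_inv_mul_iff_mul_eq]
      apply eq_of
      intro p
      change (b : Equiv.Perm Cfsg.GolayPt) ((g : Equiv.Perm Cfsg.GolayPt) ((b : Equiv.Perm Cfsg.GolayPt) p)) = (g : Equiv.Perm Cfsg.GolayPt) p
      simp only [hb, hg]
      revert p
      decide +kernel
    have e4 : a ^ 3 = 1 := by
      rw [show a ^ 3 = a * (a * a) by simp only [pow_succ, pow_zero, one_mul, mul_assoc]]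
      apply eq_of
      intro p
      change (a : Equiv.Perm Cfsg.GolayPt) ((a : Equiv.Perm Cfsg.GolayPt) ((a : Equiv.Perm Cfsg.GolayPt) p)) = p
      simp only [ha]
      revert p
      decide +kernel
    have e5 : b ^ 3 = 1 := by
      rw [show b ^ 3 = b * (b * b) by simp only [pow_succ, pow_zero, one_mul, mul_assoc]]
      apply eq_of
      intro p
      change (b : Equiv.Perm Cfsg.GolayPt) ((b : Equiv.Perm Cfsg.GolayPt) ((b : Equiv.Perm Cfsg.GolayPt) p)) = p
      simp only [hb]
      revert p
      decide +kernel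
    have e6 : a ≠ 1 := by
      intro h
      have h1 : ∀ p, (a : Equiv.Perm Cfsg.GolayPt) p = p := by
        intro p; rw [h]; rfl
      simp only [ha] at h1
      revert h1
      decide +kernel
    have e7 : b ≠ 1 := by
      intro h
      have h1 : ∀ p, (b : Equiv.Perm Cfsg.GolayPt) p = p := by
        intro p; rw [h]; rfl
      simp only [hb] at h1
      revert h1
      decide +kernel
    have hord : orderOf a = 3 := orderOf_eq_prime e4 e6
    have hbn : b ∉ Subgroup.zpowers a := by
      rintro ⟨i, rfl⟩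
      simp only at e3 e5 e7
      rw [← conj_zpow, e2] at e3
      apply e7
      have h1 : (a ^ i) ^ 2 = 1 := by
        rw [sq]
        nth_rewrite 2 [e3]
        rw [mul_inv_cancel]
      have := pow_gcd_eq_one.2 ⟨h1, e5⟩
      simpa using this
    refine rank_two_case hσ hp (by norm_num) hc e1 e2 e3 (not_dvd_index_of (rank_two_card hord e5 e1 hbn) (by
      rw [card_M11]; norm_num))
  · refine cyclic_case hσ hp hc (fun P hP => cyclic_of_sq ?_ hP)
    rw [card_M11]
    intro hd
    have h5 : p ^ 2 ∣ 2 ^ 4 * 3 ^ 2 * (5 * 11) := by simpa using hd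
    have c2 : Nat.Coprime (p ^ 2) (2 ^ 4) := Nat.Coprime.pow _ _ ((Nat.coprime_primes hp Nat.prime_two).2 h2)
    have c3 : Nat.Coprime (p ^ 2) (3 ^ 2) := Nat.Coprime.pow _ _ ((Nat.coprime_primes hp Nat.prime_three).2 h3)
    have h6 := (Nat.Coprime.mul_right c2 c3).dvd_of_dvd_mul_left h5
    have h7 := Nat.le_of_dvd (by norm_num) h6
    have h8 : p ≤ 7 := by nlinarith
    have hp1 : p ≠ 1 := hp.one_lt.ne'
    have hp0 : p ≠ 0 := hp.ne_zero
    interval_cases p <;> omega

end Cfsg.Agent.S2034
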