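import Cfsg.Statements.S2037
import Mathlib
import Cfsg.Agent.Lib.H7Mat
import Cfsg.Agent.Lib.H7Mult6

set_option autoImplicit false
open Cfsg

set_option linter.style.haveILetI false
namespace Cfsg.Agent.S2037

open CfsgLib.H7Mult CfsgLib.Golay CfsgLib.H7Mat Subgroup
open scoped Pointwise commutatorElement

theorem get (P : ℕ) (h : good P = true) (h2 : fixes [23] [] P = true) :
    ∃ g : Cfsg.Spor.M23, Packs P (g : Equiv.Perm Cfsg.GolayPt) := by
  obtain ⟨g, hg, hP⟩ := exists_of_good h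
  exact ⟨⟨g, hg, fixes_pt (f := 23) h2 hP (by simp) (by norm_num)⟩, hP⟩

theorem card_M23 : Nat.card Cfsg.Spor.M23 = 10200960 := by
  have h2 : (Cfsg.Spor.M23 : Subgroup (Equiv.Perm Cfsg.GolayPt)) = PS [none] := by
    ext g
    rw [mem_PS]
    constructor
    · rintro ⟨h1, h2⟩
      refine ⟨h1, ?_⟩
      intro p hp
      rw [List.mem_singleton] at hp
      rw [hp]; exact h2
    · rintro ⟨h1, h2⟩
      exact ⟨h1, h2 none (by simp)⟩
  rw [← card_PS_one none, h2]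


/-- The Schur multiplier of the Mathieu group M₂₃ (the stabiliser of a point in the automorphism group of the length-24 binary code) is trivial; here the Schur multiplier is described through stem extensions, as in the definitions: surjective homomorphisms onto the group from a finite group, whose kernel is central in that finite group and contained in that finite group's commutator subgroup. -/
theorem result : Cfsg.HasCyclicSchurMultiplier ↥Cfsg.Spor.M23 1 := by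
  refine trivial_of_prime ?_
  intro Γ _ _ σ hσ p hp hc
  haveI : Fact p.Prime := ⟨hp⟩
  haveI hfin : Finite Cfsg.Spor.M23 := inferInstance
  by_cases h2 : p = 2
  · subst h2
    obtain ⟨v1, Hv1⟩ := get 0xb9173a38f06480fa8d28898b65082d (by decide +kernel) (by decide +kernel)
    obtain ⟨v2, Hv2⟩ := get 0xbb46e94d903d2d152d28798a0a8824 (by decide +kernel) (by decide +kernel)
    obtain ⟨v3, Hv3⟩ := get 0xbd1f620150ab5cb64528198b338832 (by decide +kernel) (by decide +kernel)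
    obtain ⟨v4, Hv4⟩ := get 0xbc64a1d6d002d8d75128218a79882f (by decide +kernel) (by decide +kernel)
    obtain ⟨t, Ht⟩ := get 0xbd0915ced0182af928c8704ad60927 (by decide +kernel) (by decide +kernel)
    obtain ⟨a, Ha⟩ := get 0xbb6959c88538ec05a92279a117202c (by decide +kernel) (by decide +kernel)
    obtain ⟨c, Hc⟩ := get 0xbd4ed5c888a3dd19a92218600b14cc (by decide +kernel) (by decide +kernel)
    obtain ⟨d, Hd⟩ := get 0xb9c6e9c8026d1e45a925b190cac031 (by decide +kernel) (by decide +kernel)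
    obtain ⟨k, Hk⟩ := get 0xbb2550888302db1299347a26772a16 (by decide +kernel) (by decide +kernel)
    obtain ⟨g12, Hg12⟩ := get 0xbb66e9563022d96a28c5388201a50f (by decide +kernel) (by decide +kernel)
    obtain ⟨g13, Hg13⟩ := get 0xbd1f13d6c292dae629262061319500 (by decide +kernel) (by decide +kernel)
    obtain ⟨g14, Hg14⟩ := get 0xbd1f13d6c292dae629262061319500 (by decide +kernel) (by decide +kernel)
    obtain ⟨g23, Hg23⟩ := get 0xb8dd68b0857b6a05aa0239933a0512 (by decide +kernel) (by decide +kernel)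
    obtain ⟨g24, Hg24⟩ := get 0xbc643a38e96d58f5a910b144499820 (by decide +kernel) (by decide +kernel)
    obtain ⟨g34, Hg34⟩ := get 0xb92b31ba287ad8092a09b1427a08cd (by decide +kernel) (by decide +kernel)
    have c12 : v1 * v2 = v2 * v1 := wrel (Word.m (wd Hv1) (wd Hv2)) (Word.m (wd Hv2) (wd Hv1)) (by decide +kernel)
    have c13 : v1 * v3 = v3 * v1 := wrel (Word.m (wd Hv1) (wd Hv3)) (Word.m (wd Hv3) (wd Hv1)) (by decide +kernel)
    have c14 : v1 * v4 = v4 * v1 := wrel (Word.m (wd Hv1) (wd Hv4)) (Word.m (wd Hv4) (wd Hv1)) (by decide +kernel)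
    have c23 : v2 * v3 = v3 * v2 := wrel (Word.m (wd Hv2) (wd Hv3)) (Word.m (wd Hv3) (wd Hv2)) (by decide +kernel)
    have c24 : v2 * v4 = v4 * v2 := wrel (Word.m (wd Hv2) (wd Hv4)) (Word.m (wd Hv4) (wd Hv2)) (by decide +kernel)
    have c34 : v3 * v4 = v4 * v3 := wrel (Word.m (wd Hv3) (wd Hv4)) (Word.m (wd Hv4) (wd Hv3)) (by decide +kernel)
    have q1 : v1 * v1 = 1 := wrel (Word.m (wd Hv1) (wd Hv1)) wone (by decide +kernel)
    have q2 : v2 * v2 = 1 := wrel (Word.m (wd Hv2) (wd Hv2)) wone (by decide +kernel)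
    have q3 : v3 * v3 = 1 := wrel (Word.m (wd Hv3) (wd Hv3)) wone (by decide +kernel)
    have q4 : v4 * v4 = 1 := wrel (Word.m (wd Hv4) (wd Hv4)) wone (by decide +kernel)
    have hS := mkS c12 c13 c14 c23 c24 c34
    have hq : ∀ x ∈ ({v1, v2, v3, v4} : Set Cfsg.Spor.M23), x * x = 1 := mk4 q1 q2 q3 q4
    have m1 : v1 ∈ closure ({v1, v2, v3, v4} : Set Cfsg.Spor.M23) := subset_closure (by simp)
    have m2 : v2 ∈ closure ({v1, v2, v3, v4} : Set Cfsg.Spor.M23) := subset_closure (by simp)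
    have m3 : v3 ∈ closure ({v1, v2, v3, v4} : Set Cfsg.Spor.M23) := subset_closure (by simp)
    have m4 : v4 ∈ closure ({v1, v2, v3, v4} : Set Cfsg.Spor.M23) := subset_closure (by simp)
    have r12 : g12 * v1 = v1 * g12 := wrel (Word.m (wd Hg12) (wd Hv1)) (Word.m (wd Hv1) (wd Hg12)) (by decide +kernel)
    have s12 : NN g12 v2 = 1 := NN_iff.2 (wrel (Word.m (Word.m (Word.m (Word.m (wd Hv2) (wd Hg12)) (wd Hv2)) (wd Hg12)) (wd Hv2)) (Word.m (wd Hg12) (wd Hg12)) (by decide +kernel))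
    have r13 : g13 * v1 = v1 * g13 := wrel (Word.m (wd Hg13) (wd Hv1)) (Word.m (wd Hv1) (wd Hg13)) (by decide +kernel)
    have s13 : NN g13 v3 = 1 := NN_iff.2 (wrel (Word.m (Word.m (Word.m (Word.m (wd Hv3) (wd Hg13)) (wd Hv3)) (wd Hg13)) (wd Hv3)) (Word.m (wd Hg13) (wd Hg13)) (by decide +kernel))
    have r14 : g14 * v1 = v1 * g14 := wrel (Word.m (wd Hg14) (wd Hv1)) (Word.m (wd Hv1) (wd Hg14)) (by decide +kernel)
    have s14 : NN g14 v4 = 1 := NN_iff.2 (wrel (Word.m (Word.m (Word.m (Word.m (wd Hv4) (wd Hg14)) (wd Hv4)) (wd Hg14)) (wd Hv4)) (Word.m (wd Hg14) (wd Hg14)) (by decide +kernel))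
    have r23 : g23 * v2 = v2 * g23 := wrel (Word.m (wd Hg23) (wd Hv2)) (Word.m (wd Hv2) (wd Hg23)) (by decide +kernel)
    have s23 : NN g23 v3 = 1 := NN_iff.2 (wrel (Word.m (Word.m (Word.m (Word.m (wd Hv3) (wd Hg23)) (wd Hv3)) (wd Hg23)) (wd Hv3)) (Word.m (wd Hg23) (wd Hg23)) (by decide +kernel))
    have r24 : g24 * v2 = v2 * g24 := wrel (Word.m (wd Hg24) (wd Hv2)) (Word.m (wd Hv2) (wd Hg24)) (by decide +kernel)
    have s24 : NN g24 v4 = 1 := NN_iff.2 (wrel (Word.m (Word.m (Word.m (Word.m (wd Hv4) (wd Hg24)) (wd Hv4)) (wd Hg24)) (wd Hv4)) (Word.m (wd Hg24) (wd Hg24)) (by decide +kernel))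
    have r34 : g34 * v3 = v3 * g34 := wrel (Word.m (wd Hg34) (wd Hv3)) (Word.m (wd Hv3) (wd Hg34)) (by decide +kernel)
    have s34 : NN g34 v4 = 1 := NN_iff.2 (wrel (Word.m (Word.m (Word.m (Word.m (wd Hv4) (wd Hg34)) (wd Hv4)) (wd Hg34)) (wd Hv4)) (Word.m (wd Hg34) (wd Hg34)) (by decide +kernel))
    have Nt1 : NN t v1 = 1 := NN_iff.2 (wrel (Word.m (Word.m (Word.m (Word.m (wd Hv1) (wd Ht)) (wd Hv1)) (wd Ht)) (wd Hv1)) (Word.m (wd Ht) (wd Ht)) (by decide +kernel))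
    have Nt2 : NN t v2 = 1 := NN_iff.2 (wrel (Word.m (Word.m (Word.m (Word.m (wd Hv2) (wd Ht)) (wd Hv2)) (wd Ht)) (wd Hv2)) (Word.m (wd Ht) (wd Ht)) (by decide +kernel))
    have Nt3 : NN t v3 = 1 := NN_iff.2 (wrel (Word.m (Word.m (Word.m (Word.m (wd Hv3) (wd Ht)) (wd Hv3)) (wd Ht)) (wd Hv3)) (Word.m (wd Ht) (wd Ht)) (by decide +kernel))
    have Nt4 : NN t v4 = 1 := NN_iff.2 (wrel (Word.m (Word.m (Word.m (Word.m (wd Hv4) (wd Ht)) (wd Hv4)) (wd Ht)) (wd Hv4)) (Word.m (wd Ht) (wd Ht)) (by decide +kernel))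
    have Nt : ∀ x ∈ ({v1, v2, v3, v4} : Set Cfsg.Spor.M23), NN t x = 1 := mk4 Nt1 Nt2 Nt3 Nt4
    have nt1 : t * v1 * t⁻¹ ∈ closure ({v1, v2, v3, v4} : Set Cfsg.Spor.M23) := conj_mem_of (w := v2 * v3) (wrel (Word.m (wd Ht) (wd Hv1)) (Word.m (Word.m (wd Hv2) (wd Hv3)) (wd Ht)) (by decide +kernel)) (mul_mem m2 m3)
    have nt2 : t * v2 * t⁻¹ ∈ closure ({v1, v2, v3, v4} : Set Cfsg.Spor.M23) := conj_mem_of (w := v1 * v2 * v4) (wrel (Word.m (wd Ht) (wd Hv2)) (Word.m (Word.m (Word.m (wd Hv1) (wd Hv2)) (wd Hv4)) (wd Ht)) (by decide +kernel)) (mul_mem (mul_mem m1 m2) m4)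
    have nt3 : t * v3 * t⁻¹ ∈ closure ({v1, v2, v3, v4} : Set Cfsg.Spor.M23) := conj_mem_of (w := v3 * v4) (wrel (Word.m (wd Ht) (wd Hv3)) (Word.m (Word.m (wd Hv3) (wd Hv4)) (wd Ht)) (by decide +kernel)) (mul_mem m3 m4)
    have nt4 : t * v4 * t⁻¹ ∈ closure ({v1, v2, v3, v4} : Set Cfsg.Spor.M23) := conj_mem_of (w := v3) (wrel (Word.m (wd Ht) (wd Hv4)) (Word.m (wd Hv3) (wd Ht)) (by decide +kernel)) m3
    have nt : ∀ x ∈ ({v1, v2, v3, v4} : Set Cfsg.Spor.M23), t * x * t⁻¹ ∈ closure ({v1, v2, v3, v4} : Set Cfsg.Spor.M23) := mk4 nt1 nt2 nt3 nt4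
    have na1 : a * v1 * a⁻¹ ∈ closure ({v1, v2, v3, v4} : Set Cfsg.Spor.M23) := conj_mem_of (w := v2 * v4) (wrel (Word.m (wd Ha) (wd Hv1)) (Word.m (Word.m (wd Hv2) (wd Hv4)) (wd Ha)) (by decide +kernel)) (mul_mem m2 m4)
    have na2 : a * v2 * a⁻¹ ∈ closure ({v1, v2, v3, v4} : Set Cfsg.Spor.M23) := conj_mem_of (w := v2) (wrel (Word.m (wd Ha) (wd Hv2)) (Word.m (wd Hv2) (wd Ha)) (by decide +kernel)) m2
    have na3 : a * v3 * a⁻¹ ∈ closure ({v1, v2, v3, v4} : Set Cfsg.Spor.M23) := conj_mem_of (w := v1 * v3 * v4) (wrel (Word.m (wd Ha) (wd Hv3)) (Word.m (Word.m (Word.m (wd Hv1) (wd Hv3)) (wd Hv4)) (wd Ha)) (by decide +kernel)) (mul_mem (mul_mem m1 m3) m4)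
    have na4 : a * v4 * a⁻¹ ∈ closure ({v1, v2, v3, v4} : Set Cfsg.Spor.M23) := conj_mem_of (w := v1 * v2) (wrel (Word.m (wd Ha) (wd Hv4)) (Word.m (Word.m (wd Hv1) (wd Hv2)) (wd Ha)) (by decide +kernel)) (mul_mem m1 m2)
    have na : ∀ x ∈ ({v1, v2, v3, v4} : Set Cfsg.Spor.M23), a * x * a⁻¹ ∈ closure ({v1, v2, v3, v4} : Set Cfsg.Spor.M23) := mk4 na1 na2 na3 na4
    have nc1 : c * v1 * c⁻¹ ∈ closure ({v1, v2, v3, v4} : Set Cfsg.Spor.M23) := conj_mem_of (w := v3 * v4) (wrel (Word.m (wd Hc) (wd Hv1)) (Word.m (Word.m (wd Hv3) (wd Hv4)) (wd Hc)) (by decide +kernel)) (mul_mem m3 m4)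
    have nc2 : c * v2 * c⁻¹ ∈ closure ({v1, v2, v3, v4} : Set Cfsg.Spor.M23) := conj_mem_of (w := v1 * v4) (wrel (Word.m (wd Hc) (wd Hv2)) (Word.m (Word.m (wd Hv1) (wd Hv4)) (wd Hc)) (by decide +kernel)) (mul_mem m1 m4)
    have nc3 : c * v3 * c⁻¹ ∈ closure ({v1, v2, v3, v4} : Set Cfsg.Spor.M23) := conj_mem_of (w := v1 * v3 * v4) (wrel (Word.m (wd Hc) (wd Hv3)) (Word.m (Word.m (Word.m (wd Hv1) (wd Hv3)) (wd Hv4)) (wd Hc)) (by decide +kernel)) (mul_mem (mul_mem m1 m3) m4)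
    have nc4 : c * v4 * c⁻¹ ∈ closure ({v1, v2, v3, v4} : Set Cfsg.Spor.M23) := conj_mem_of (w := v2 * v3 * v4) (wrel (Word.m (wd Hc) (wd Hv4)) (Word.m (Word.m (Word.m (wd Hv2) (wd Hv3)) (wd Hv4)) (wd Hc)) (by decide +kernel)) (mul_mem (mul_mem m2 m3) m4)
    have nc : ∀ x ∈ ({v1, v2, v3, v4} : Set Cfsg.Spor.M23), c * x * c⁻¹ ∈ closure ({v1, v2, v3, v4} : Set Cfsg.Spor.M23) := mk4 nc1 nc2 nc3 nc4
    have ia2 : a * a = 1 := wrel (Word.m (wd Ha) (wd Ha)) wone (by decide +kernel)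
    have ia : a⁻¹ = a := inv_eq_of_mul_eq_one_left ia2
    have ic2 : c * c * c * c = 1 := wrel (Word.m (Word.m (Word.m (wd Hc) (wd Hc)) (wd Hc)) (wd Hc)) wone (by decide +kernel)
    have ic : c⁻¹ = c * c * c := inv_eq_of_mul_eq_one_left ic2
    have ca : t * (a * t * a⁻¹) = (a * t * a⁻¹) * t := by
      rw [ia]
      exact wrel (Word.m (wd Ht) (Word.m (Word.m (wd Ha) (wd Ht)) (wd Ha))) (Word.m (Word.m (Word.m (wd Ha) (wd Ht)) (wd Ha)) (wd Ht)) (by decide +kernel)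
    have cc : t * (c * t * c⁻¹) = (c * t * c⁻¹) * t := by
      rw [ic]
      exact wrel (Word.m (wd Ht) (Word.m (Word.m (wd Hc) (wd Ht)) (Word.m (Word.m (wd Hc) (wd Hc)) (wd Hc)))) (Word.m (Word.m (Word.m (wd Hc) (wd Ht)) (Word.m (Word.m (wd Hc) (wd Hc)) (wd Hc))) (wd Ht)) (by decide +kernel)
    have hac : a * c * a⁻¹ = c⁻¹ := by
      rw [ia, ic]
      exact wrel (Word.m (Word.m (wd Ha) (wd Hc)) (wd Ha)) (Word.m (Word.m (wd Hc) (wd Hc)) (wd Hc)) (by decide +kernel)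
    have hd : c * c = d := wrel (Word.m (wd Hc) (wd Hc)) (wd Hd) (by decide +kernel)
    have L2 : ∃ h, h * (c * c) * h⁻¹ ∈ closure ({v1, v2, v3, v4} : Set Cfsg.Spor.M23) := ⟨k, conj_mem_of (w := v1) (wrel (Word.m (wd Hk) (Word.m (wd Hc) (wd Hc))) (Word.m (wd Hv1) (wd Hk)) (by decide +kernel)) m1⟩
    have hi : ¬ 2 ∣ (closure ({v1, v2, v3, v4} : Set Cfsg.Spor.M23) ⊔ closure {a, c}).index := by
      have hle : closure ({a, c} : Set Cfsg.Spor.M23) ≤ closure ({v1, v2, v3, v4} : Set Cfsg.Spor.M23) ⊔ closure {a, c} := le_sup_right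
      have hlV : closure ({v1, v2, v3, v4} : Set Cfsg.Spor.M23) ≤ closure ({v1, v2, v3, v4} : Set Cfsg.Spor.M23) ⊔ closure {a, c} := le_sup_left
      have ma : a ∈ closure ({a, c} : Set Cfsg.Spor.M23) := subset_closure (by simp)
      have mc : c ∈ closure ({a, c} : Set Cfsg.Spor.M23) := subset_closure (by simp)
      have md : d ∈ closure ({a, c} : Set Cfsg.Spor.M23) := by rw [← hd]; exact mul_mem mc mc
      refine odd_index (m23_pgroup hS hq na nc ia2 hac L2) (card_ge _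
        [(v1, 0xb9173a38f06480fa8d28898b65082d), (v2, 0xbb46e94d903d2d152d28798a0a8824), (v3, 0xbd1f620150ab5cb64528198b338832), (v4, 0xbc64a1d6d002d8d75128218a79882f), (d, 0xb9c6e9c8026d1e45a925b190cac031), (c, 0xbd4ed5c888a3dd19a92218600b14cc), (a, 0xbb6959c88538ec05a92279a117202c)] ?_ ?_ [0, 1, 2] ?_ ?_) ?_
      · rintro x hx
        simp only [List.mem_cons, List.not_mem_nil, or_false] at hx
        rcases hx with rfl | rfl | rfl | rfl | rfl | rfl | rfl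
        exacts [Hv1, Hv2, Hv3, Hv4, Hd, Hc, Ha]
      · rintro x hx
        simp only [List.mem_cons, List.not_mem_nil, or_false] at hx
        rcases hx with rfl | rfl | rfl | rfl | rfl | rfl | rfl
        exacts [hlV m1, hlV m2, hlV m3, hlV m4, hle md, hle mc, hle ma]
      · decide
      · change nodupB ((keysL [0xb9173a38f06480fa8d28898b65082d, 0xbb46e94d903d2d152d28798a0a8824, 0xbd1f620150ab5cb64528198b338832, 0xbc64a1d6d002d8d75128218a79882f, 0xb9c6e9c8026d1e45a925b190cac031, 0xbd4ed5c888a3dd19a92218600b14cc, 0xbb6959c88538ec05a92279a117202c] [0, 1, 2]).map enc5) 0 = true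
        decide +kernel
      · rw [card_M23]; norm_num
    have hUV : c * c ∉ closure ({v1, v2, v3, v4} : Set Cfsg.Spor.M23) := by
      intro h
      have hv : ∀ {P : ℕ} {v : Cfsg.Spor.M23}, Packs P (v : Equiv.Perm Cfsg.GolayPt) → img P 2 = 2 → (v : Equiv.Perm Cfsg.GolayPt) (pt 2) = pt 2 := by
        intro P v hP h
        apply idx_injective
        rw [hP (pt 2), idx_pt (by norm_num), h]
      have h1 := fix_closure (n := 2) (by norm_num) (mk4 (hv Hv1 (by decide +kernel)) (hv Hv2 (by decide +kernel)) (hv Hv3 (by decide +kernel))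
        (hv Hv4 (by decide +kernel))) _ h
      rw [hd] at h1
      have h2 := Hd (pt 2)
      rw [h1, idx_pt (by norm_num)] at h2
      revert h2
      decide +kernel
    exact m23_two' hσ hc hS hq ⟨g12, r12, s12⟩ ⟨g13, r13, s13⟩ ⟨g14, r14, s14⟩ ⟨g23, r23, s23⟩ ⟨g24, r24, s24⟩ ⟨g34, r34, s34⟩
      nt Nt na nc ca cc hac L2 hUV hi
  by_cases h3 : p = 3
  · subst h3
    obtain ⟨a, Ha⟩ := get 0xbda8e7a0ed2d4925c46c5267030820 (by decide +kernel) (by decide +kernel)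
    obtain ⟨b, Hb⟩ := get 0xbd8eaab0ada44885bd32999d018041 (by decide +kernel) (by decide +kernel)
    obtain ⟨g, Hg⟩ := get 0xbacea991c87c58db5130a98b218440 (by decide +kernel) (by decide +kernel)
    have e1 : a * b = b * a := wrel (Word.m (wd Ha) (wd Hb)) (Word.m (wd Hb) (wd Ha)) (by decide +kernel)
    have e2 : g * a * g⁻¹ = a := by
      rw [mul_inv_eq_iff_eq_mul]
      exact wrel (Word.m (wd Hg) (wd Ha)) (Word.m (wd Ha) (wd Hg)) (by decide +kernel)
    have e3 : g * b * g⁻¹ = b⁻¹ := by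
      rw [mul_inv_eq_iff_eq_mul, eq_inv_mul_iff_mul_eq]
      exact wrel (Word.m (wd Hb) (Word.m (wd Hg) (wd Hb))) (wd Hg) (by decide +kernel)
    have e4 : a ^ 3 = 1 := wrel (wpow Ha 3) wone (by decide +kernel)
    have e5 : b ^ 3 = 1 := wrel (wpow Hb 3) wone (by decide +kernel)
    have e6 : a ≠ 1 := ne_one_of (wd Ha) (by decide +kernel)
    have e7 : b ≠ 1 := ne_one_of (wd Hb) (by decide +kernel)
    have hord : orderOf a = 3 := orderOf_eq_prime e4 e6
    have hbn : b ∉ Subgroup.zpowers a := by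
      rintro ⟨i, rfl⟩
      simp only at e3 e5 e7
      rw [← conj_zpow, e2] at e3
      apply e7
      have h1 : (a ^ i) ^ 2 = 1 := by
        rw [sq]
        nth_rewrite 2 [e3]
        rw [mul_inv_cancel]
      have := pow_gcd_eq_one.2 ⟨h1, e5⟩
      simpa using this
    refine rank_two_case hσ hp (by norm_num) hc e1 e2 e3 (not_dvd_index_of (rank_two_card hord e5 e1 hbn) (by
      rw [card_M23]; norm_num))
  · refine cyclic_case hσ hp hc (fun P hP => cyclic_of_sq ?_ hP)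
    rw [card_M23, show (10200960 : ℕ) = 2 ^ 7 * 3 ^ 2 * 8855 by norm_num]
    refine not_sq_dvd hp h2 h3 ?_
    intro hd
    have h7 := Nat.le_of_dvd (by norm_num) hd
    have h8 : p ≤ 94 := by nlinarith
    have hp1 : p ≠ 1 := hp.one_lt.ne'
    have hp0 : p ≠ 0 := hp.ne_zero
    interval_cases p <;> omega

end Cfsg.Agent.S2037
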