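import Cfsg.Statements.S2038
import Mathlib
import Cfsg.Agent.Lib.H7Mat

set_option autoImplicit false
open Cfsg

open scoped commutatorElement
set_option linter.style.haveILetI false
namespace Cfsg.Agent.S2038

open CfsgLib.H7Mult CfsgLib.Golay CfsgLib.H7Mat Subgroup
open scoped Pointwise commutatorElement

theorem get (P : ℕ) (h : good P = true) : ∃ g : Cfsg.M24, Packs P (g : Equiv.Perm Cfsg.GolayPt) := by
  obtain ⟨g, hg, hP⟩ := exists_of_good h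
  exact ⟨⟨g, hg⟩, hP⟩

theorem card_M24 : Nat.card Cfsg.M24 = 244823040 := by
  have h2 : (Cfsg.M24 : Subgroup (Equiv.Perm Cfsg.GolayPt)) = PS [] := by
    ext g
    rw [mem_PS]
    simp
  rw [← card_PS_nil, h2]


/-- The Schur multiplier of the Mathieu group M₂₄ (the automorphism group of the length-24 binary code) is trivial; here the Schur multiplier is described through stem extensions, as in the definitions: surjective homomorphisms onto the group from a finite group, whose kernel is central in that finite group and contained in that finite group's commutator subgroup. -/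
theorem result : Cfsg.HasCyclicSchurMultiplier ↥Cfsg.M24 1 := by
  refine trivial_of_prime ?_
  intro Γ _ _ σ hσ p hp hc
  haveI : Fact p.Prime := ⟨hp⟩
  haveI hfin : Finite Cfsg.M24 := inferInstance
  by_cases h2 : p = 2
  · subst h2
    obtain ⟨v1, Hv1⟩ := get 0xb5de894d6da9a0c8a8b43b92418820 (by decide +kernel)
    obtain ⟨v2, Hv2⟩ := get 0xa20b75c6464b5cc9a9f63c2a418820 (by decide +kernel)
    obtain ⟨v3, Hv3⟩ := get 0x5c613a22d56a5ecba9d2394c418820 (by decide +kernel)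
    obtain ⟨v4, Hv4⟩ := get 0x33a70abd349590c2aa2d3dd6418820 (by decide +kernel)
    obtain ⟨g, Hg⟩ := get 0x5c6b3835d47d90c311320dca03886a (by decide +kernel)
    obtain ⟨g2, Hg2⟩ := get 0xa2170abe578bac399d2d098a413140 (by decide +kernel)
    obtain ⟨t, Ht⟩ := get 0x4de53346ae83d6042acd650a418827 (by decide +kernel)
    obtain ⟨t', Ht'⟩ := get 0xb2650746ab6a0cca12f33bca350820 (by decide +kernel)
    obtain ⟨a, Ha⟩ := get 0xbdab45c6467b5c4981281c0ac3844a (by decide +kernel)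
    obtain ⟨b, Hb⟩ := get 0xbda959c9d0445a03052f12ca321d4c (by decide +kernel)
    obtain ⟨c, Hc⟩ := get 0xb5ea894d707b9a488134098ac10cea (by decide +kernel)
    obtain ⟨x1, Hx1⟩ := get 0xbdab4835d37c64230d2802ca153087 (by decide +kernel)
    obtain ⟨x2, Hx2⟩ := get 0xbd9e89c970a99a788d34638a150082 (by decide +kernel)
    obtain ⟨x3, Hx3⟩ := get 0xbdab494d6d79a0089128138aa09c6c (by decide +kernel)
    obtain ⟨ka, Hka⟩ := get 0x8cec74e5555ec8324406bc9482e25 (by decide +kernel)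
    obtain ⟨kb, Hkb⟩ := get 0x125350a017b597a4475320e54b976 (by decide +kernel)
    obtain ⟨kc, Hkc⟩ := get 0x6c011450a2191464cd8bb9c2e7d6d2 (by decide +kernel)
    obtain ⟨kac, Hkac⟩ := get 0x49477899730b60273156a48807a2a7 (by decide +kernel)
    obtain ⟨k1, Hk1⟩ := get 0x5046035a6e3caf17b5844d45482d05 (by decide +kernel)
    obtain ⟨k2, Hk2⟩ := get 0x3aa2f20ae05c028b4875a35859992e (by decide +kernel)
    obtain ⟨k3, Hk3⟩ := get 0x1018471a953c5e944c616ad52b42e5 (by decide +kernel)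
    obtain ⟨kb1, Hkb1⟩ := get 0x191c68214dbb29113c16584f591669 (by decide +kernel)
    obtain ⟨kb2, Hkb2⟩ := get 0x1050e1b167355567a414844859de4d (by decide +kernel)
    obtain ⟨kb3, Hkb3⟩ := get 0x53253452307a5a02b83522c5630ee7 (by decide +kernel)
    obtain ⟨k12, Hk12⟩ := get 0x509d24d2253411768cf37ac8065436 (by decide +kernel)
    obtain ⟨k13, Hk13⟩ := get 0x3906073e95144d05d98a6a0329a6e5 (by decide +kernel)
    obtain ⟨k23, Hk23⟩ := get 0x20286bd870431a93d44e9282b895f3 (by decide +kernel)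
    have c12 : v1 * v2 = v2 * v1 := wrel (Word.m (wd Hv1) (wd Hv2)) (Word.m (wd Hv2) (wd Hv1)) (by decide +kernel)
    have c13 : v1 * v3 = v3 * v1 := wrel (Word.m (wd Hv1) (wd Hv3)) (Word.m (wd Hv3) (wd Hv1)) (by decide +kernel)
    have c14 : v1 * v4 = v4 * v1 := wrel (Word.m (wd Hv1) (wd Hv4)) (Word.m (wd Hv4) (wd Hv1)) (by decide +kernel)
    have c23 : v2 * v3 = v3 * v2 := wrel (Word.m (wd Hv2) (wd Hv3)) (Word.m (wd Hv3) (wd Hv2)) (by decide +kernel)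
    have c24 : v2 * v4 = v4 * v2 := wrel (Word.m (wd Hv2) (wd Hv4)) (Word.m (wd Hv4) (wd Hv2)) (by decide +kernel)
    have c34 : v3 * v4 = v4 * v3 := wrel (Word.m (wd Hv3) (wd Hv4)) (Word.m (wd Hv4) (wd Hv3)) (by decide +kernel)
    have q1 : v1 * v1 = 1 := wrel (Word.m (wd Hv1) (wd Hv1)) wone (by decide +kernel)
    have q2 : v2 * v2 = 1 := wrel (Word.m (wd Hv2) (wd Hv2)) wone (by decide +kernel)
    have q3 : v3 * v3 = 1 := wrel (Word.m (wd Hv3) (wd Hv3)) wone (by decide +kernel)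
    have q4 : v4 * v4 = 1 := wrel (Word.m (wd Hv4) (wd Hv4)) wone (by decide +kernel)
    have hS := mkS c12 c13 c14 c23 c24 c34
    have hq : ∀ x ∈ ({v1, v2, v3, v4} : Set Cfsg.M24), x * x = 1 := mk4 q1 q2 q3 q4
    have m1 : v1 ∈ closure ({v1, v2, v3, v4} : Set Cfsg.M24) := subset_closure (by simp)
    have m2 : v2 ∈ closure ({v1, v2, v3, v4} : Set Cfsg.M24) := subset_closure (by simp)
    have m3 : v3 ∈ closure ({v1, v2, v3, v4} : Set Cfsg.M24) := subset_closure (by simp)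
    have m4 : v4 ∈ closure ({v1, v2, v3, v4} : Set Cfsg.M24) := subset_closure (by simp)
    have hg1 : g * v1 = v1 * g := wrel (Word.m (wd Hg) (wd Hv1)) (Word.m (wd Hv1) (wd Hg)) (by decide +kernel)
    have hg2 : g * v2 = v2 * g := wrel (Word.m (wd Hg) (wd Hv2)) (Word.m (wd Hv2) (wd Hg)) (by decide +kernel)
    have hg3 : NN g v3 = 1 := NN_iff.2 (wrel (Word.m (Word.m (Word.m (Word.m (wd Hv3) (wd Hg)) (wd Hv3)) (wd Hg)) (wd Hv3)) (Word.m (wd Hg) (wd Hg)) (by decide +kernel))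
    have hg4 : NN g v4 = 1 := NN_iff.2 (wrel (Word.m (Word.m (Word.m (Word.m (wd Hv4) (wd Hg)) (wd Hv4)) (wd Hg)) (wd Hv4)) (Word.m (wd Hg) (wd Hg)) (by decide +kernel))
    have hk1 : g2 * v1 = v1 * g2 := wrel (Word.m (wd Hg2) (wd Hv1)) (Word.m (wd Hv1) (wd Hg2)) (by decide +kernel)
    have hk3 : g2 * v3 = v3 * g2 := wrel (Word.m (wd Hg2) (wd Hv3)) (Word.m (wd Hv3) (wd Hg2)) (by decide +kernel)
    have hk2 : NN g2 v2 = 1 := NN_iff.2 (wrel (Word.m (Word.m (Word.m (Word.m (wd Hv2) (wd Hg2)) (wd Hv2)) (wd Hg2)) (wd Hv2)) (Word.m (wd Hg2) (wd Hg2)) (by decide +kernel))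
    have hk4 : NN g2 v4 = 1 := NN_iff.2 (wrel (Word.m (Word.m (Word.m (Word.m (wd Hv4) (wd Hg2)) (wd Hv4)) (wd Hg2)) (wd Hv4)) (Word.m (wd Hg2) (wd Hg2)) (by decide +kernel))
    have Nt1 : NN t v1 = 1 := NN_iff.2 (wrel (Word.m (Word.m (Word.m (Word.m (wd Hv1) (wd Ht)) (wd Hv1)) (wd Ht)) (wd Hv1)) (Word.m (wd Ht) (wd Ht)) (by decide +kernel))
    have Nt2 : NN t v2 = 1 := NN_iff.2 (wrel (Word.m (Word.m (Word.m (Word.m (wd Hv2) (wd Ht)) (wd Hv2)) (wd Ht)) (wd Hv2)) (Word.m (wd Ht) (wd Ht)) (by decide +kernel))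
    have Nt3 : NN t v3 = 1 := NN_iff.2 (wrel (Word.m (Word.m (Word.m (Word.m (wd Hv3) (wd Ht)) (wd Hv3)) (wd Ht)) (wd Hv3)) (Word.m (wd Ht) (wd Ht)) (by decide +kernel))
    have Nt4 : NN t v4 = 1 := NN_iff.2 (wrel (Word.m (Word.m (Word.m (Word.m (wd Hv4) (wd Ht)) (wd Hv4)) (wd Ht)) (wd Hv4)) (Word.m (wd Ht) (wd Ht)) (by decide +kernel))
    have Nt : ∀ x ∈ ({v1, v2, v3, v4} : Set Cfsg.M24), NN t x = 1 := mk4 Nt1 Nt2 Nt3 Nt4
    have Nt'1 : NN t' v1 = 1 := NN_iff.2 (wrel (Word.m (Word.m (Word.m (Word.m (wd Hv1) (wd Ht')) (wd Hv1)) (wd Ht')) (wd Hv1)) (Word.m (wd Ht') (wd Ht')) (by decide +kernel))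
    have Nt'2 : NN t' v2 = 1 := NN_iff.2 (wrel (Word.m (Word.m (Word.m (Word.m (wd Hv2) (wd Ht')) (wd Hv2)) (wd Ht')) (wd Hv2)) (Word.m (wd Ht') (wd Ht')) (by decide +kernel))
    have Nt'3 : NN t' v3 = 1 := NN_iff.2 (wrel (Word.m (Word.m (Word.m (Word.m (wd Hv3) (wd Ht')) (wd Hv3)) (wd Ht')) (wd Hv3)) (Word.m (wd Ht') (wd Ht')) (by decide +kernel))
    have Nt'4 : NN t' v4 = 1 := NN_iff.2 (wrel (Word.m (Word.m (Word.m (Word.m (wd Hv4) (wd Ht')) (wd Hv4)) (wd Ht')) (wd Hv4)) (Word.m (wd Ht') (wd Ht')) (by decide +kernel))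
    have Nt' : ∀ x ∈ ({v1, v2, v3, v4} : Set Cfsg.M24), NN t' x = 1 := mk4 Nt'1 Nt'2 Nt'3 Nt'4
    have nt1 : t * v1 * t⁻¹ ∈ closure ({v1, v2, v3, v4} : Set Cfsg.M24) := conj_mem_of (w := v1 * v3 * v4) (wrel (Word.m (wd Ht) (wd Hv1)) (Word.m (Word.m (Word.m (wd Hv1) (wd Hv3)) (wd Hv4)) (wd Ht)) (by decide +kernel)) (mul_mem (mul_mem m1 m3) m4)
    have nt2 : t * v2 * t⁻¹ ∈ closure ({v1, v2, v3, v4} : Set Cfsg.M24) := conj_mem_of (w := v1 * v2 * v4) (wrel (Word.m (wd Ht) (wd Hv2)) (Word.m (Word.m (Word.m (wd Hv1) (wd Hv2)) (wd Hv4)) (wd Ht)) (by decide +kernel)) (mul_mem (mul_mem m1 m2) m4)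
    have nt3 : t * v3 * t⁻¹ ∈ closure ({v1, v2, v3, v4} : Set Cfsg.M24) := conj_mem_of (w := v2 * v3 * v4) (wrel (Word.m (wd Ht) (wd Hv3)) (Word.m (Word.m (Word.m (wd Hv2) (wd Hv3)) (wd Hv4)) (wd Ht)) (by decide +kernel)) (mul_mem (mul_mem m2 m3) m4)
    have nt4 : t * v4 * t⁻¹ ∈ closure ({v1, v2, v3, v4} : Set Cfsg.M24) := conj_mem_of (w := v1 * v2 * v3 * v4) (wrel (Word.m (wd Ht) (wd Hv4)) (Word.m (Word.m (Word.m (Word.m (wd Hv1) (wd Hv2)) (wd Hv3)) (wd Hv4)) (wd Ht)) (by decide +kernel)) (mul_mem (mul_mem (mul_mem m1 m2) m3) m4)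
    have nt : ∀ x ∈ ({v1, v2, v3, v4} : Set Cfsg.M24), t * x * t⁻¹ ∈ closure ({v1, v2, v3, v4} : Set Cfsg.M24) := mk4 nt1 nt2 nt3 nt4
    have nt'1 : t' * v1 * t'⁻¹ ∈ closure ({v1, v2, v3, v4} : Set Cfsg.M24) := conj_mem_of (w := v3 * v4) (wrel (Word.m (wd Ht') (wd Hv1)) (Word.m (Word.m (wd Hv3) (wd Hv4)) (wd Ht')) (by decide +kernel)) (mul_mem m3 m4)
    have nt'2 : t' * v2 * t'⁻¹ ∈ closure ({v1, v2, v3, v4} : Set Cfsg.M24) := conj_mem_of (w := v1 * v2 * v4) (wrel (Word.m (wd Ht') (wd Hv2)) (Word.m (Word.m (Word.m (wd Hv1) (wd Hv2)) (wd Hv4)) (wd Ht')) (by decide +kernel)) (mul_mem (mul_mem m1 m2) m4)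
    have nt'3 : t' * v3 * t'⁻¹ ∈ closure ({v1, v2, v3, v4} : Set Cfsg.M24) := conj_mem_of (w := v1 * v2) (wrel (Word.m (wd Ht') (wd Hv3)) (Word.m (Word.m (wd Hv1) (wd Hv2)) (wd Ht')) (by decide +kernel)) (mul_mem m1 m2)
    have nt'4 : t' * v4 * t'⁻¹ ∈ closure ({v1, v2, v3, v4} : Set Cfsg.M24) := conj_mem_of (w := v2 * v3 * v4) (wrel (Word.m (wd Ht') (wd Hv4)) (Word.m (Word.m (Word.m (wd Hv2) (wd Hv3)) (wd Hv4)) (wd Ht')) (by decide +kernel)) (mul_mem (mul_mem m2 m3) m4)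
    have nt' : ∀ x ∈ ({v1, v2, v3, v4} : Set Cfsg.M24), t' * x * t'⁻¹ ∈ closure ({v1, v2, v3, v4} : Set Cfsg.M24) := mk4 nt'1 nt'2 nt'3 nt'4
    have na1 : a * v1 * a⁻¹ ∈ closure ({v1, v2, v3, v4} : Set Cfsg.M24) := conj_mem_of (w := v1) (wrel (Word.m (wd Ha) (wd Hv1)) (Word.m (wd Hv1) (wd Ha)) (by decide +kernel)) m1
    have na2 : a * v2 * a⁻¹ ∈ closure ({v1, v2, v3, v4} : Set Cfsg.M24) := conj_mem_of (w := v2) (wrel (Word.m (wd Ha) (wd Hv2)) (Word.m (wd Hv2) (wd Ha)) (by decide +kernel)) m2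
    have na3 : a * v3 * a⁻¹ ∈ closure ({v1, v2, v3, v4} : Set Cfsg.M24) := conj_mem_of (w := v2 * v3) (wrel (Word.m (wd Ha) (wd Hv3)) (Word.m (Word.m (wd Hv2) (wd Hv3)) (wd Ha)) (by decide +kernel)) (mul_mem m2 m3)
    have na4 : a * v4 * a⁻¹ ∈ closure ({v1, v2, v3, v4} : Set Cfsg.M24) := conj_mem_of (w := v2 * v4) (wrel (Word.m (wd Ha) (wd Hv4)) (Word.m (Word.m (wd Hv2) (wd Hv4)) (wd Ha)) (by decide +kernel)) (mul_mem m2 m4)
    have na : ∀ x ∈ ({v1, v2, v3, v4} : Set Cfsg.M24), a * x * a⁻¹ ∈ closure ({v1, v2, v3, v4} : Set Cfsg.M24) := mk4 na1 na2 na3 na4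
    have nb1 : b * v1 * b⁻¹ ∈ closure ({v1, v2, v3, v4} : Set Cfsg.M24) := conj_mem_of (w := v1) (wrel (Word.m (wd Hb) (wd Hv1)) (Word.m (wd Hv1) (wd Hb)) (by decide +kernel)) m1
    have nb2 : b * v2 * b⁻¹ ∈ closure ({v1, v2, v3, v4} : Set Cfsg.M24) := conj_mem_of (w := v2 * v3 * v4) (wrel (Word.m (wd Hb) (wd Hv2)) (Word.m (Word.m (Word.m (wd Hv2) (wd Hv3)) (wd Hv4)) (wd Hb)) (by decide +kernel)) (mul_mem (mul_mem m2 m3) m4)
    have nb3 : b * v3 * b⁻¹ ∈ closure ({v1, v2, v3, v4} : Set Cfsg.M24) := conj_mem_of (w := v4) (wrel (Word.m (wd Hb) (wd Hv3)) (Word.m (wd Hv4) (wd Hb)) (by decide +kernel)) m4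
    have nb4 : b * v4 * b⁻¹ ∈ closure ({v1, v2, v3, v4} : Set Cfsg.M24) := conj_mem_of (w := v3) (wrel (Word.m (wd Hb) (wd Hv4)) (Word.m (wd Hv3) (wd Hb)) (by decide +kernel)) m3
    have nb : ∀ x ∈ ({v1, v2, v3, v4} : Set Cfsg.M24), b * x * b⁻¹ ∈ closure ({v1, v2, v3, v4} : Set Cfsg.M24) := mk4 nb1 nb2 nb3 nb4
    have nc1 : c * v1 * c⁻¹ ∈ closure ({v1, v2, v3, v4} : Set Cfsg.M24) := conj_mem_of (w := v1) (wrel (Word.m (wd Hc) (wd Hv1)) (Word.m (wd Hv1) (wd Hc)) (by decide +kernel)) m1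
    have nc2 : c * v2 * c⁻¹ ∈ closure ({v1, v2, v3, v4} : Set Cfsg.M24) := conj_mem_of (w := v2) (wrel (Word.m (wd Hc) (wd Hv2)) (Word.m (wd Hv2) (wd Hc)) (by decide +kernel)) m2
    have nc3 : c * v3 * c⁻¹ ∈ closure ({v1, v2, v3, v4} : Set Cfsg.M24) := conj_mem_of (w := v3) (wrel (Word.m (wd Hc) (wd Hv3)) (Word.m (wd Hv3) (wd Hc)) (by decide +kernel)) m3
    have nc4 : c * v4 * c⁻¹ ∈ closure ({v1, v2, v3, v4} : Set Cfsg.M24) := conj_mem_of (w := v1 * v4) (wrel (Word.m (wd Hc) (wd Hv4)) (Word.m (Word.m (wd Hv1) (wd Hv4)) (wd Hc)) (by decide +kernel)) (mul_mem m1 m4)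
    have nc : ∀ x ∈ ({v1, v2, v3, v4} : Set Cfsg.M24), c * x * c⁻¹ ∈ closure ({v1, v2, v3, v4} : Set Cfsg.M24) := mk4 nc1 nc2 nc3 nc4
    have ia2 : a * a = 1 := wrel (Word.m (wd Ha) (wd Ha)) wone (by decide +kernel)
    have ia : a⁻¹ = a := inv_eq_of_mul_eq_one_left ia2
    have ib2 : b * b = 1 := wrel (Word.m (wd Hb) (wd Hb)) wone (by decide +kernel)
    have ib : b⁻¹ = b := inv_eq_of_mul_eq_one_left ib2
    have ic2 : c * c = 1 := wrel (Word.m (wd Hc) (wd Hc)) wone (by decide +kernel)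
    have ic : c⁻¹ = c := inv_eq_of_mul_eq_one_left ic2
    have ca : t * (a * t * a⁻¹) = (a * t * a⁻¹) * t := by
      rw [ia]
      exact wrel (Word.m (wd Ht) (Word.m (Word.m (wd Ha) (wd Ht)) (wd Ha))) (Word.m (Word.m (Word.m (wd Ha) (wd Ht)) (wd Ha)) (wd Ht)) (by decide +kernel)
    have cc : t * (c * t * c⁻¹) = (c * t * c⁻¹) * t := by
      rw [ic]
      exact wrel (Word.m (wd Ht) (Word.m (Word.m (wd Hc) (wd Ht)) (wd Hc))) (Word.m (Word.m (Word.m (wd Hc) (wd Ht)) (wd Hc)) (wd Ht)) (by decide +kernel)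
    have ct' : t' * t = t * t' := wrel (Word.m (wd Ht') (wd Ht)) (Word.m (wd Ht) (wd Ht')) (by decide +kernel)
    have cb : t' * (b * t * b⁻¹) = (b * t * b⁻¹) * t' := by
      rw [ib]
      exact wrel (Word.m (wd Ht') (Word.m (Word.m (wd Hb) (wd Ht)) (wd Hb))) (Word.m (Word.m (Word.m (wd Hb) (wd Ht)) (wd Hb)) (wd Ht')) (by decide +kernel)
    have La : ∃ h, h * (a) * h⁻¹ ∈ closure ({v1, v2, v3, v4} : Set Cfsg.M24) := ⟨ka, conj_mem_of (w := v1) (wrel (Word.m (wd Hka) (wd Ha)) (Word.m (wd Hv1) (wd Hka)) (by decide +kernel)) m1⟩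
    have Lb : ∃ h, h * (b) * h⁻¹ ∈ closure ({v1, v2, v3, v4} : Set Cfsg.M24) := ⟨kb, conj_mem_of (w := v1) (wrel (Word.m (wd Hkb) (wd Hb)) (Word.m (wd Hv1) (wd Hkb)) (by decide +kernel)) m1⟩
    have Lc : ∃ h, h * (c) * h⁻¹ ∈ closure ({v1, v2, v3, v4} : Set Cfsg.M24) := ⟨kc, conj_mem_of (w := v1) (wrel (Word.m (wd Hkc) (wd Hc)) (Word.m (wd Hv1) (wd Hkc)) (by decide +kernel)) m1⟩
    have Lac : ∃ h, h * (a * c) * h⁻¹ ∈ closure ({v1, v2, v3, v4} : Set Cfsg.M24) := ⟨kac, conj_mem_of (w := v1) (wrel (Word.m (wd Hkac) (Word.m (wd Ha) (wd Hc))) (Word.m (wd Hv1) (wd Hkac)) (by decide +kernel)) m1⟩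
    have L1 : ∃ h, h * (x1) * h⁻¹ ∈ closure ({v1, v2, v3, v4} : Set Cfsg.M24) := ⟨k1, conj_mem_of (w := v1) (wrel (Word.m (wd Hk1) (wd Hx1)) (Word.m (wd Hv1) (wd Hk1)) (by decide +kernel)) m1⟩
    have L2 : ∃ h, h * (x2) * h⁻¹ ∈ closure ({v1, v2, v3, v4} : Set Cfsg.M24) := ⟨k2, conj_mem_of (w := v1) (wrel (Word.m (wd Hk2) (wd Hx2)) (Word.m (wd Hv1) (wd Hk2)) (by decide +kernel)) m1⟩
    have L3 : ∃ h, h * (x3) * h⁻¹ ∈ closure ({v1, v2, v3, v4} : Set Cfsg.M24) := ⟨k3, conj_mem_of (w := v1) (wrel (Word.m (wd Hk3) (wd Hx3)) (Word.m (wd Hv1) (wd Hk3)) (by decide +kernel)) m1⟩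
    have Lb1 : ∃ h, h * (b * x1) * h⁻¹ ∈ closure ({v1, v2, v3, v4} : Set Cfsg.M24) := ⟨kb1, conj_mem_of (w := v1) (wrel (Word.m (wd Hkb1) (Word.m (wd Hb) (wd Hx1))) (Word.m (wd Hv1) (wd Hkb1)) (by decide +kernel)) m1⟩
    have Lb2 : ∃ h, h * (b * x2) * h⁻¹ ∈ closure ({v1, v2, v3, v4} : Set Cfsg.M24) := ⟨kb2, conj_mem_of (w := v1) (wrel (Word.m (wd Hkb2) (Word.m (wd Hb) (wd Hx2))) (Word.m (wd Hv1) (wd Hkb2)) (by decide +kernel)) m1⟩
    have Lb3 : ∃ h, h * (b * x3) * h⁻¹ ∈ closure ({v1, v2, v3, v4} : Set Cfsg.M24) := ⟨kb3, conj_mem_of (w := v1) (wrel (Word.m (wd Hkb3) (Word.m (wd Hb) (wd Hx3))) (Word.m (wd Hv1) (wd Hkb3)) (by decide +kernel)) m1⟩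
    have L12 : ∃ h, h * (x1 * x2) * h⁻¹ ∈ closure ({v1, v2, v3, v4} : Set Cfsg.M24) := ⟨k12, conj_mem_of (w := v1) (wrel (Word.m (wd Hk12) (Word.m (wd Hx1) (wd Hx2))) (Word.m (wd Hv1) (wd Hk12)) (by decide +kernel)) m1⟩
    have L13 : ∃ h, h * (x1 * x3) * h⁻¹ ∈ closure ({v1, v2, v3, v4} : Set Cfsg.M24) := ⟨k13, conj_mem_of (w := v1) (wrel (Word.m (wd Hk13) (Word.m (wd Hx1) (wd Hx3))) (Word.m (wd Hv1) (wd Hk13)) (by decide +kernel)) m1⟩
    have L23 : ∃ h, h * (x2 * x3) * h⁻¹ ∈ closure ({v1, v2, v3, v4} : Set Cfsg.M24) := ⟨k23, conj_mem_of (w := v1) (wrel (Word.m (wd Hk23) (Word.m (wd Hx2) (wd Hx3))) (Word.m (wd Hv1) (wd Hk23)) (by decide +kernel)) m1⟩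
    have hx1 : x1 = ⁅a, b⁆ := by
      rw [commutatorElement_def, eq_mul_inv_iff_mul_eq, eq_mul_inv_iff_mul_eq]
      exact wrel (Word.m (Word.m (wd Hx1) (wd Hb)) (wd Ha)) (Word.m (wd Ha) (wd Hb)) (by decide +kernel)
    have hx2 : x2 = ⁅c, b⁆ := by
      rw [commutatorElement_def, eq_mul_inv_iff_mul_eq, eq_mul_inv_iff_mul_eq]
      exact wrel (Word.m (Word.m (wd Hx2) (wd Hb)) (wd Hc)) (Word.m (wd Hc) (wd Hb)) (by decide +kernel)
    have hx3 : x3 = ⁅a, x2⁆ := by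
      rw [commutatorElement_def, eq_mul_inv_iff_mul_eq, eq_mul_inv_iff_mul_eq]
      exact wrel (Word.m (Word.m (wd Hx3) (wd Hx2)) (wd Ha)) (Word.m (wd Ha) (wd Hx2)) (by decide +kernel)
    have hi : ¬ 2 ∣ (closure ({v1, v2, v3, v4} : Set Cfsg.M24) ⊔ closure {a, b, c}).index := by
      have hle : closure ({a, b, c} : Set Cfsg.M24) ≤ closure ({v1, v2, v3, v4} : Set Cfsg.M24) ⊔ closure {a, b, c} := le_sup_right
      have hlV : closure ({v1, v2, v3, v4} : Set Cfsg.M24) ≤ closure ({v1, v2, v3, v4} : Set Cfsg.M24) ⊔ closure {a, b, c} := le_sup_left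
      have ma : a ∈ closure ({a, b, c} : Set Cfsg.M24) := subset_closure (by simp)
      have mb : b ∈ closure ({a, b, c} : Set Cfsg.M24) := subset_closure (by simp)
      have mc : c ∈ closure ({a, b, c} : Set Cfsg.M24) := subset_closure (by simp)
      have mx1 : x1 ∈ closure ({a, b, c} : Set Cfsg.M24) := by
        rw [hx1, commutatorElement_def]; exact mul_mem (mul_mem (mul_mem ma mb) (inv_mem ma)) (inv_mem mb)
      have mx2 : x2 ∈ closure ({a, b, c} : Set Cfsg.M24) := by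
        rw [hx2, commutatorElement_def]; exact mul_mem (mul_mem (mul_mem mc mb) (inv_mem mc)) (inv_mem mb)
      have mx3 : x3 ∈ closure ({a, b, c} : Set Cfsg.M24) := by
        rw [hx3, commutatorElement_def]; exact mul_mem (mul_mem (mul_mem ma mx2) (inv_mem ma)) (inv_mem mx2)
      refine odd_index (m24_pgroup hS hq na nb nc La Lb Lc Lac hx1 hx2 hx3 L1 L2 L3 Lb1 Lb2 Lb3 L12 L13 L23) (card_ge _
        [(v1, 0xb5de894d6da9a0c8a8b43b92418820), (v2, 0xa20b75c6464b5cc9a9f63c2a418820), (v3, 0x5c613a22d56a5ecba9d2394c418820), (v4, 0x33a70abd349590c2aa2d3dd6418820), (b, 0xbda959c9d0445a03052f12ca321d4c), (x1, 0xbdab4835d37c64230d2802ca153087), (x2, 0xbd9e89c970a99a788d34638a150082), (x3, 0xbdab494d6d79a0089128138aa09c6c), (a, 0xbdab45c6467b5c4981281c0ac3844a), (c, 0xb5ea894d707b9a488134098ac10cea)] ?_ ?_ [5, 0, 1, 2] ?_ ?_) ?_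
      · rintro x hx
        simp only [List.mem_cons, List.not_mem_nil, or_false] at hx
        rcases hx with rfl | rfl | rfl | rfl | rfl | rfl | rfl | rfl | rfl | rfl
        exacts [Hv1, Hv2, Hv3, Hv4, Hb, Hx1, Hx2, Hx3, Ha, Hc]
      · rintro x hx
        simp only [List.mem_cons, List.not_mem_nil, or_false] at hx
        rcases hx with rfl | rfl | rfl | rfl | rfl | rfl | rfl | rfl | rfl | rfl
        exacts [hlV m1, hlV m2, hlV m3, hlV m4, hle mb, hle mx1, hle mx2, hle mx3, hle ma, hle mc]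
      · decide
      · change nodupB ((keysL [0xb5de894d6da9a0c8a8b43b92418820, 0xa20b75c6464b5cc9a9f63c2a418820, 0x5c613a22d56a5ecba9d2394c418820, 0x33a70abd349590c2aa2d3dd6418820, 0xbda959c9d0445a03052f12ca321d4c, 0xbdab4835d37c64230d2802ca153087, 0xbd9e89c970a99a788d34638a150082, 0xbdab494d6d79a0089128138aa09c6c, 0xbdab45c6467b5c4981281c0ac3844a, 0xb5ea894d707b9a488134098ac10cea] [5, 0, 1, 2]).map enc5) 0 = true
        decide +kernel
      · rw [card_M24]; norm_num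
    have hUV : ∀ i j k l : Fin 2, b ^ (i : ℕ) * (x1 ^ (j : ℕ) * (x2 ^ (k : ℕ) * x3 ^ (l : ℕ))) ∈ closure ({v1, v2, v3, v4} : Set Cfsg.M24) →
        i = 0 ∧ j = 0 ∧ k = 0 ∧ l = 0 := by
      intro i j k l h
      have hfx : ∀ n ∈ [0, 1, 2, 3, 4, 7, 10, 12], ∀ x ∈ closure ({v1, v2, v3, v4} : Set Cfsg.M24), (x : Equiv.Perm Cfsg.GolayPt) (pt n) = pt n := by
        intro n hn
        have hn24 : n < 24 := by revert n; decide
        have hv : ∀ {P : ℕ} {v : Cfsg.M24}, Packs P (v : Equiv.Perm Cfsg.GolayPt) → img P n = n → (v : Equiv.Perm Cfsg.GolayPt) (pt n) = pt n := by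
          intro P v hP h
          apply idx_injective
          rw [hP (pt n), idx_pt hn24, h]
        refine fix_closure hn24 (mk4 (hv Hv1 ?_) (hv Hv2 ?_) (hv Hv3 ?_) (hv Hv4 ?_)) <;> (clear hv hn24; revert n; decide +kernel)
      have hw := Word.m (wpow Hb (i : ℕ)) (Word.m (wpow Hx1 (j : ℕ)) (Word.m (wpow Hx2 (k : ℕ)) (wpow Hx3 (l : ℕ))))
      have hd : ([0, 1, 2, 3, 4, 7, 10, 12].all fun n => Nat.beq ((List.replicate (i : ℕ) 0xbda959c9d0445a03052f12ca321d4c ++ (List.replicate (j : ℕ) 0xbdab4835d37c64230d2802ca153087 ++ (List.replicate (k : ℕ) 0xbd9e89c970a99a788d34638a150082 ++ List.replicate (l : ℕ) 0xbdab494d6d79a0089128138aa09c6c))).foldr img n) n) = true := by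
        rw [List.all_eq_true]
        intro n hn
        have hn24 : n < 24 := by revert n; decide
        have e1 := hw (pt n)
        rw [hfx n hn _ h, idx_pt hn24] at e1
        rw [← e1]
        exact Nat.beq_refl n
      revert hd
      clear hw h
      revert i j k l
      decide +kernel
    exact m24_two hσ hc hS hq hg1 hg2 hg3 hg4 hk1 hk3 hk2 hk4 nt Nt nt' Nt' na nb nc ca cc ct' cb La Lb Lc Lac hx1 hx2 hx3 L1 L2 L3
      Lb1 Lb2 Lb3 L12 L13 L23 hUV hi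
  by_cases h3 : p = 3
  · subst h3
    obtain ⟨x, Hx⟩ := get 0xbd66eb02902c4c85bd223914d1b241 (by decide +kernel)
    obtain ⟨y, Hy⟩ := get 0x8cec5aa1433bc92a5e0c705624b406 (by decide +kernel)
    obtain ⟨w, Hw⟩ := get 0x5daae99a905450039521b89ec1c9a4 (by decide +kernel)
    obtain ⟨g, Hg⟩ := get 0xbda65ac95073c885c46c39a8d48801 (by decide +kernel)
    have hx : x ^ 3 = 1 := wrel (wpow Hx 3) wone (by decide +kernel)
    have hy : y ^ 3 = 1 := wrel (wpow Hy 3) wone (by decide +kernel)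
    have hw3 : w ^ 3 = 1 := wrel (wpow Hw 3) wone (by decide +kernel)
    have hw1 : w ≠ 1 := ne_one_of (wd Hw) (by decide +kernel)
    have hxw : x * w = w * x := wrel (Word.m (wd Hx) (wd Hw)) (Word.m (wd Hw) (wd Hx)) (by decide +kernel)
    have hyw : y * w = w * y := wrel (Word.m (wd Hy) (wd Hw)) (Word.m (wd Hw) (wd Hy)) (by decide +kernel)
    have hw : w = ⁅x, y⁆ := by
      rw [commutatorElement_def, eq_mul_inv_iff_mul_eq, eq_mul_inv_iff_mul_eq]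
      exact wrel (Word.m (Word.m (wd Hw) (wd Hy)) (wd Hx)) (Word.m (wd Hx) (wd Hy)) (by decide +kernel)
    have hgx : g * x * g⁻¹ = x⁻¹ := by
      rw [mul_inv_eq_iff_eq_mul, eq_inv_mul_iff_mul_eq]
      exact wrel (Word.m (wd Hx) (Word.m (wd Hg) (wd Hx))) (wd Hg) (by decide +kernel)
    have hgy : g * y * g⁻¹ = y⁻¹ := by
      rw [mul_inv_eq_iff_eq_mul, eq_inv_mul_iff_mul_eq]
      exact wrel (Word.m (wd Hy) (Word.m (wd Hg) (wd Hy))) (wd Hg) (by decide +kernel)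
    exact extraspecial_case hσ hp (by norm_num) hc hx hw hw1 hxw hyw hgx hgy
      (not_dvd_index_of (extraspecial_card hx hy hw hw1 hw3 hxw hyw) (by rw [card_M24]; norm_num))
  · refine cyclic_case hσ hp hc (fun P hP => cyclic_of_sq ?_ hP)
    rw [card_M24, show (244823040 : ℕ) = 2 ^ 10 * 3 ^ 3 * 8855 by norm_num]
    refine not_sq_dvd hp h2 h3 ?_
    intro hd
    have h7 := Nat.le_of_dvd (by norm_num) hd
    have h8 : p ≤ 94 := by nlinarith
    have hp1 : p ≠ 1 := hp.one_lt.ne'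
    have hp0 : p ≠ 0 := hp.ne_zero
    interval_cases p <;> omega

end Cfsg.Agent.S2038
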