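import Cfsg.Statements.S2100
import Cfsg.Agent.Lib.CSch1

set_option autoImplicit false
open Cfsg

namespace Cfsg.Agent.S2100

/-- Schur multipliers of the Chevalley groups of type G₂: over a field with q ≥ 5 elements the Schur multiplier of G₂(q) is trivial (here the Schur multiplier is described through stem extensions, as in the definitions); the cases q = 3 and q = 4 are exceptional and q = 2 gives a non-simple group. -/
theorem result {F : Type*} [Field F] [Fintype F] (hF : 5 ≤ Fintype.card F) : Cfsg.HasCyclicSchurMultiplier ↥(Cfsg.Lie.chevG2.group F) 1 := by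
  have hD : Cfsg.Lie.chevG2 ∈ [Cfsg.Lie.chevG2, Cfsg.Lie.chevB2, Cfsg.Lie.chevD4, Cfsg.Lie.chevF4, Cfsg.Lie.chevE6, Cfsg.Lie.chevE7, Cfsg.Lie.chevE8] := by simp
  obtain ⟨M⟩ := CfsgLib.Chev.exists_cg hD F
  have hok := CfsgLib.Chev.stOK_all hD
  have hK5 : ∃ s : Finset F, 4 < s.card := ⟨Finset.univ, by rw [Finset.card_univ]; omega⟩
  have h2 : ∃ a : F, a ≠ 0 ∧ a ≠ 1 := by
    obtain ⟨w, hw⟩ := CfsgLib.Chev.exists_pow_ne hK5 (e := 1) le_rfl (by norm_num)
    exact ⟨w, w.ne_zero, fun h => hw (by rw [pow_one]; exact Units.ext h)⟩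
  exact CfsgLib.Chev.hasSchur_one M hok (CfsgLib.Chev.perfG_all hD (fun _ => h2) (CfsgLib.Chev.stCov M hok))
    (fun _ _ S _ => CfsgLib.Chev.lifts_large hD hK5 S)
    (CfsgLib.Chev.center_bot_of_chk M hok (B := [[2, 3], [1, 2]]) (by decide +kernel))

end Cfsg.Agent.S2100
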