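import Cfsg.Statements.S2103
import Cfsg.Agent.Lib.CSch1

set_option autoImplicit false
open Cfsg

namespace Cfsg.Agent.S2103

/-- Schur multipliers of the Chevalley groups of type F₄: over a finite field with more than 2 elements the Schur multiplier of F₄(q) is trivial (here the Schur multiplier is described through stem extensions, as in the definitions); q = 2 is exceptional. -/
theorem result {F : Type*} [Field F] [Fintype F] (hF : 3 ≤ Fintype.card F) : Cfsg.HasCyclicSchurMultiplier ↥(Cfsg.Lie.chevF4.group F) 1 := by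
  have hD : Cfsg.Lie.chevF4 ∈ [Cfsg.Lie.chevG2, Cfsg.Lie.chevB2, Cfsg.Lie.chevD4, Cfsg.Lie.chevF4, Cfsg.Lie.chevE6, Cfsg.Lie.chevE7, Cfsg.Lie.chevE8] := by simp
  obtain ⟨M⟩ := CfsgLib.Chev.exists_cg hD F
  have hok := CfsgLib.Chev.stOK_all hD
  have hv : ∃ v : Fˣ, v ≠ 1 := by
    classical
    by_contra hc
    push Not at hc
    have h1 : Fintype.card Fˣ = 1 := Fintype.card_eq_one_iff.mpr ⟨1, hc⟩
    have h2 := Fintype.card_units F
    omega
  have h2 : ∃ a : F, a ≠ 0 ∧ a ≠ 1 := by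
    obtain ⟨w, hw⟩ := hv
    exact ⟨w, w.ne_zero, fun h => hw (Units.ext h)⟩
  exact CfsgLib.Chev.hasSchur_one M hok (CfsgLib.Chev.perfG_all hD (fun _ => h2) (CfsgLib.Chev.stCov M hok))
    (fun _ _ S _ => CfsgLib.Chev.lifts_F4 hv S)
    (CfsgLib.Chev.center_bot_of_chk M hok (B := [[2, 3, 4, 2], [3, 6, 8, 4], [2, 4, 6, 3], [1, 2, 3, 2]]) (by decide +kernel))

end Cfsg.Agent.S2103
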