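import Cfsg.Statements.S2107
import Cfsg.Agent.Lib.CSch2

set_option autoImplicit false
open Cfsg

namespace Cfsg.Agent.S2107

/-- Schur multipliers of the Chevalley groups of type E₈: over every finite field the Schur multiplier of E₈(q) is trivial (here the Schur multiplier is described through stem extensions, as in the definitions). -/
theorem result {F : Type*} [Field F] [Fintype F] : Cfsg.HasCyclicSchurMultiplier ↥(Cfsg.Lie.chevE8.group F) 1 := by
  have hE : Cfsg.Lie.chevE8 ∈ [Cfsg.Lie.chevE6, Cfsg.Lie.chevE7, Cfsg.Lie.chevE8] := by simp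
  have hD := CfsgLib.Chev.mem7 hE
  obtain ⟨M⟩ := CfsgLib.Chev.exists_cg hD F
  have hok := CfsgLib.Chev.stOK_all hD
  exact CfsgLib.Chev.hasSchur_one M hok (CfsgLib.Chev.perfG_all hD (fun h => absurd h (CfsgLib.Chev.ne_B2G2 hE)) (CfsgLib.Chev.stCov M hok))
    (fun _ _ S _ => CfsgLib.Chev.lifts_allE hE S)
    (CfsgLib.Chev.center_bot_of_chk M hok (B := [[4, 5, 7, 10, 8, 6, 4, 2], [5, 8, 10, 15, 12, 9, 6, 3], [7, 10, 14, 20, 16, 12, 8, 4], [10, 15, 20, 30, 24, 18, 12, 6], [8, 12, 16, 24, 20, 15, 10, 5], [6, 9, 12, 18, 15, 12, 8, 4], [4, 6, 8, 12, 10, 8, 6, 3], [2, 3, 4, 6, 5, 4, 3, 2]]) (by decide +kernel))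

end Cfsg.Agent.S2107
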