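import Cfsg.Statements.S2121
import Cfsg.Agent.Lib.ChevAut16
import Cfsg.Agent.Lib.CHO6
import Cfsg.Agent.S1099

set_option autoImplicit false
open Cfsg

namespace Cfsg.Agent.S2121

/-- Outer automorphisms of the Chevalley groups of type G₂: over a field with q = p^f (p prime) ≥ 3 elements, the outer automorphism group of G₂(q) has order f when p ≠ 3 and 2f when p = 3 (field automorphisms, and in characteristic 3 also the exceptional graph automorphism). -/
theorem result {F : Type*} [Field F] [Fintype F] (p f : ℕ) [Fact p.Prime] [CharP F p] (hF : Fintype.card F = p ^ f) (hq : 3 ≤ p ^ f) : Nat.card (Cfsg.Out ↥(Cfsg.Lie.chevG2.group F)) = (if p = 3 then 2 * f else f) := by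
  have hD := CfsgLib.Chev.chev_mem_G2
  obtain ⟨M⟩ := CfsgLib.Chev.exists_cg hD F
  have hne : ∃ a : F, a ≠ 0 ∧ a ≠ 1 := by
    by_contra hcon
    push Not at hcon
    classical
    have hsub : (Finset.univ : Finset F) ⊆ {0, 1} := by
      intro a _
      rw [Finset.mem_insert, Finset.mem_singleton]
      by_cases ha : a = 0
      · exact Or.inl ha
      · exact Or.inr (hcon a ha)
    have := Finset.card_le_card hsub
    rw [Finset.card_univ, hF] at this
    have h2 := Finset.card_le_two (a := (0 : F)) (b := 1)
    omega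
  have hs := CfsgLib.Chev.simple_all (F := F) hD (fun _ => hne)
  rw [M.card_out' hD hs (by decide) hF hF (CfsgLib.Chev.Ord.cardHG2 hF), mul_one]
  by_cases hp : p = 3
  · subst hp
    rw [if_pos rfl]
    have hperf : ∀ x : F, ∃ y : F, y ^ 3 = x := fun x => (frobeniusEquiv F 3).surjective x
    obtain ⟨α, hα⟩ := Cfsg.Agent.S1099.result hperf
    have e1 : Cfsg.Lie.chevG2.simple 0 = Cfsg.Lie.g2a := by decide +kernel
    have e2 : Cfsg.Lie.chevG2.simple 1 = Cfsg.Lie.g2b := by decide +kernel
    have e3 : Cfsg.Lie.chevG2.neg (Cfsg.Lie.chevG2.simple 0) = Cfsg.Lie.g2ma := by decide +kernel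
    have e4 : Cfsg.Lie.chevG2.neg (Cfsg.Lie.chevG2.simple 1) = Cfsg.Lie.g2mb := by decide +kernel
    have h := M.range_of hD (l := [1, 0]) (l' := [1, 0]) (h := by decide) (α := α)
      (f := fun i t => t ^ (if i = 0 then 3 else 1))
      (g := fun i t => t ^ (if i = 0 then 3 else 1)) (fun i hi t => by
        have hi2 : i < 2 := hi
        interval_cases i
        · refine ⟨?_, ?_⟩
          · apply Subtype.ext
            apply M.eq_xg.mp
            have := (hα (M.xG (Cfsg.Lie.chevG2.simple 0) t) t).1 (by rw [← e1]; exact M.coe_xg _ t)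
            rw [← e2] at this
            exact this
          · apply Subtype.ext
            apply M.eq_xg.mp
            have := (hα (M.xG (Cfsg.Lie.chevG2.neg (Cfsg.Lie.chevG2.simple 0)) t) t).2.2.1 (by rw [← e3]; exact M.coe_xg _ t)
            rw [← e4] at this
            exact this
        · refine ⟨?_, ?_⟩
          · apply Subtype.ext
            apply M.eq_xg.mp
            have := (hα (M.xG (Cfsg.Lie.chevG2.simple 1) t) t).2.1 (by rw [← e2]; exact M.coe_xg _ t)
            rw [← e1] at this
            rw [if_neg (by norm_num), pow_one]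
            exact this
          · apply Subtype.ext
            apply M.eq_xg.mp
            have := (hα (M.xG (Cfsg.Lie.chevG2.neg (Cfsg.Lie.chevG2.simple 1)) t) t).2.2.2 (by rw [← e4]; exact M.coe_xg _ t)
            rw [← e3] at this
            rw [if_neg (by norm_num), pow_one]
            exact this)
    rw [CfsgLib.Chev.card_two (CfsgLib.Chev.range_G2 M) h (CfsgLib.Chev.permL_ne (by decide) (by decide))]
  · rw [if_neg hp]
    have h1 : Nat.card M.toPerm.range = 1 := by
      have : M.toPerm.range = ⊥ := by
        rw [eq_bot_iff]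
        intro π hπ
        rcases CfsgLib.Chev.range_G2 M π hπ with h | hl
        · exact CfsgLib.Chev.perm_one h
        · exfalso
          obtain ⟨θ, f, g, h⟩ := M.range_frame hπ
          have p0 : ((π ⟨0, by decide⟩ : Fin Cfsg.Lie.chevG2.rank) : ℕ) = 1 := CfsgLib.Chev.perm_of_list hl ⟨0, by decide⟩
          have p1 : ((π ⟨1, by decide⟩ : Fin Cfsg.Lie.chevG2.rank) : ℕ) = 0 := CfsgLib.Chev.perm_of_list hl ⟨1, by decide⟩
          obtain ⟨σ, hσ⟩ := h.exists_field ⟨1, by decide⟩
          obtain ⟨τ, hτ⟩ := h.exists_field ⟨0, by decide⟩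
          have h1 : ∀ t, τ t = σ t ^ 3 := h.field_eq (i := ⟨1, by decide⟩) (j := ⟨0, by decide⟩) hσ hτ
            (show Cfsg.Lie.chevG2.cartan 1 (Cfsg.Lie.chevG2.simple 0) = -1 by decide +kernel) (n := 3)
            (by rw [p1, p0]; decide +kernel)
          rcases CfsgLib.Chev.CG.IsFrame.char_of3 h1 with hc | ⟨-, hx⟩
          · exact hp ((ringChar.eq F p).symm.trans hc)
          · obtain ⟨a, ha0, ha1⟩ := hne
            have := hx a
            rw [sq] at this
            exact ha1 (mul_right_cancel₀ ha0 (this.trans (one_mul a).symm))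
      rw [this]; exact Subgroup.card_bot
    rw [h1, one_mul]

end Cfsg.Agent.S2121
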