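import Cfsg.Statements.S2122
import Cfsg.Agent.Lib.ChevAut16
import Cfsg.Agent.Lib.CHO6
import Cfsg.Agent.S1098

set_option autoImplicit false
open Cfsg

namespace Cfsg.Agent.S2122

/-- Outer automorphisms of the Chevalley groups of type F₄: over a field with q = p^f (p prime) elements, the outer automorphism group of F₄(q) has order gcd(2, p) · f (field automorphisms, and in characteristic 2 also the exceptional graph automorphism). -/
theorem result {F : Type*} [Field F] [Fintype F] (p f : ℕ) [Fact p.Prime] [CharP F p] (hF : Fintype.card F = p ^ f) : Nat.card (Cfsg.Out ↥(Cfsg.Lie.chevF4.group F)) = Nat.gcd 2 p * f := by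
  have hD := CfsgLib.Chev.chev_mem_F4
  obtain ⟨M⟩ := CfsgLib.Chev.exists_cg hD F
  have hs := CfsgLib.Chev.simple_all (F := F) hD (fun h => by
    obtain ⟨-, -, h1, h2, -⟩ := CfsgLib.Chev.chev_ne
    rcases h with h | h
    · exact absurd h h1
    · exact absurd h h2)
  rw [M.card_out' hD hs (by decide) hF hF (CfsgLib.Chev.Ord.cardHF4 hF), mul_one]
  by_cases hp : p = 2
  · subst hp
    have hperf : ∀ x : F, ∃ y : F, y ^ 2 = x := fun x => (frobeniusEquiv F 2).surjective x
    obtain ⟨α, hα⟩ := Cfsg.Agent.S1098.result hperf (Cfsg.Lie.chevF4, [(3, 2), (2, 2), (1, 1), (0, 1)]) (by simp)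
    have hl : ∀ i < Cfsg.Lie.chevF4.rank, (([(3, 2), (2, 2), (1, 1), (0, 1)] : List (ℕ × ℕ)).getD i (0, 1)).1 = ([3, 2, 1, 0] : List ℕ).getD i 0 := by decide
    have h := M.range_of hD (l := [3, 2, 1, 0]) (l' := [3, 2, 1, 0]) (h := by decide) (α := α)
      (f := fun i t => t ^ (([(3, 2), (2, 2), (1, 1), (0, 1)] : List (ℕ × ℕ)).getD i (0, 1)).2)
      (g := fun i t => t ^ (([(3, 2), (2, 2), (1, 1), (0, 1)] : List (ℕ × ℕ)).getD i (0, 1)).2) (fun i hi t => by
        refine ⟨?_, ?_⟩
        · apply Subtype.ext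
          apply M.eq_xg.mp
          rw [← hl i hi]
          exact (hα _ i t hi).1 (M.coe_xg _ t)
        · apply Subtype.ext
          apply M.eq_xg.mp
          rw [← hl i hi]
          exact (hα _ i t hi).2 (M.coe_xg _ t))
    rw [CfsgLib.Chev.card_two (CfsgLib.Chev.range_F4 M) h (CfsgLib.Chev.permL_ne (by decide) (by decide))]
    norm_num
  · have h1 : Nat.card M.toPerm.range = 1 := by
      have : M.toPerm.range = ⊥ := by
        rw [eq_bot_iff]
        intro π hπ
        rcases CfsgLib.Chev.range_F4 M π hπ with h | h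
        · exact CfsgLib.Chev.perm_one h
        · exfalso
          obtain ⟨θ, f, g, h2⟩ := M.range_frame hπ
          have h3 := (CfsgLib.Chev.CG.shape_F4 h2 h).1
          exact hp ((ringChar.eq F p).symm.trans h3)
      rw [this]; exact Subgroup.card_bot
    rw [h1]
    have h2 : Nat.gcd 2 p = 1 := (Nat.coprime_primes Nat.prime_two Fact.out).mpr (Ne.symm hp)
    rw [h2]

end Cfsg.Agent.S2122
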