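import Cfsg.Statements.S2125
import Cfsg.Agent.Lib.ChevAut14
import Cfsg.Agent.Lib.CHO6

set_option autoImplicit false
open Cfsg

namespace Cfsg.Agent.S2125

/-- Outer automorphisms of the Chevalley groups of type E₈: over a field with p^f elements, p prime, the outer automorphism group of E₈(p^f) has order f (field automorphisms only). -/
theorem result {F : Type*} [Field F] [Fintype F] (p f : ℕ) [Fact p.Prime] [CharP F p] (hF : Fintype.card F = p ^ f) : Nat.card (Cfsg.Out ↥(Cfsg.Lie.chevE8.group F)) = f := by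
  have hD : Cfsg.Lie.chevE8 ∈ [Cfsg.Lie.chevG2, Cfsg.Lie.chevB2, Cfsg.Lie.chevD4, Cfsg.Lie.chevF4, Cfsg.Lie.chevE6, Cfsg.Lie.chevE7, Cfsg.Lie.chevE8] := by simp
  obtain ⟨M⟩ := CfsgLib.Chev.exists_cg hD F
  have hs := CfsgLib.Chev.simple_all (F := F) hD (fun h => by
    obtain ⟨-, -, -, -, -, -, -, -, h1, h2⟩ := CfsgLib.Chev.chev_ne
    rcases h with h | h
    · exact absurd h h1
    · exact absurd h h2)
  rw [M.card_out' hD hs (by decide) hF hF (CfsgLib.Chev.Ord.cardHE8 hF), CfsgLib.Chev.range_E8, one_mul, one_mul]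

end Cfsg.Agent.S2125
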