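import Cfsg.Statements.S2158
import Cfsg.Agent.Lib.ChevAut9

set_option autoImplicit false
open Cfsg

namespace Cfsg.Agent.S2158

/-- In a Chevalley group of type G₂, B₂, D₄, F₄, E₆, E₇ or E₈ over any field, an element of the group whose matrix is the diagonal matrix `ĥ(χ)` of a character `χ` of the root lattice already lies in the diagonal subgroup H (the non-trivial inclusion of the statement that the group meets the group of all such diagonal matrices in H). -/
theorem result {F : Type*} [Field F] (D : Cfsg.Lie.ChevalleyDatum) (hD : D ∈ [Cfsg.Lie.chevG2, Cfsg.Lie.chevB2, Cfsg.Lie.chevD4, Cfsg.Lie.chevF4, Cfsg.Lie.chevE6, Cfsg.Lie.chevE7, Cfsg.Lie.chevE8]) (χ : ℕ → Fˣ) (hχ : D.IsRootCharacter χ) (g : GL D.Idx F) (hg : g ∈ D.group F)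
    (hgχ : (g : Matrix D.Idx D.Idx F) = D.charDiag F χ) : g ∈ D.diagonalSubgroup F := by
  obtain ⟨M⟩ := CfsgLib.Chev.exists_cg hD F
  have e : g = CfsgLib.Chev.dgg D χ := by
    apply Units.ext
    rw [hgχ, CfsgLib.Chev.coe_dgg, CfsgLib.Chev.charDiag_eq]
  have hn := fun S => Subgroup.mem_normalizer_iff.mp (M.dgg_norm (M.N.isWt_char hχ) S)
  have h1 : g ∈ D.borelSubgroup F := by
    apply M.norm_U hg
    rw [e, M.U_eq]
    exact hn _
  have h2 : g ∈ D.negUnipotent F ⊔ D.diagonalSubgroup F := by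
    apply M.norm_V hg
    rw [e, M.V_eq]
    exact hn _
  rw [← M.B_inf_VH]
  exact ⟨h1, h2⟩

end Cfsg.Agent.S2158
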