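import Cfsg.Statements.S2159
import Cfsg.Agent.Lib.ChevAut16

set_option autoImplicit false
open Cfsg

namespace Cfsg.Agent.S2159

/-- Structure of the outer automorphism group of the Chevalley group `G` of type G₂, B₂, D₄, F₄, E₆, E₇ or E₈ over a finite field. Let `D̄` be the image in `Out(G)` of the subgroup generated by the diagonal automorphisms and `F̄` the image of the subgroup generated by the field automorphisms. Then `D̄` is a normal abelian subgroup of `Out(G)`, `F̄` is cyclic, `D̄F̄` is a normal subgroup, and the quotient of `Out(G)` by `D̄F̄` is trivial, of order 2, or non-abelian of order 6 (so isomorphic to the symmetric group on three letters): its index is 1 or 2, or it is 6 with the commutator subgroup of `Out(G)` not inside `D̄F̄`. -/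
theorem result {F : Type*} [Field F] [Finite F] (D : Cfsg.Lie.ChevalleyDatum) (hD : D ∈ [Cfsg.Lie.chevG2, Cfsg.Lie.chevB2, Cfsg.Lie.chevD4, Cfsg.Lie.chevF4, Cfsg.Lie.chevE6, Cfsg.Lie.chevE7, Cfsg.Lie.chevE8])
    (Dbar Fbar : Subgroup (Cfsg.Out ↥(D.group F)))
    (hDbar : Dbar = (Subgroup.closure {φ : MulAut ↥(D.group F) | D.IsDiagonalAut φ}).map (QuotientGroup.mk' (Cfsg.Inn ↥(D.group F))))
    (hFbar : Fbar = (Subgroup.closure {φ : MulAut ↥(D.group F) | D.IsFieldAut φ}).map (QuotientGroup.mk' (Cfsg.Inn ↥(D.group F)))) :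
    Dbar.Normal ∧ IsMulCommutative ↥Dbar ∧ IsCyclic ↥Fbar ∧ (Dbar ⊔ Fbar).Normal ∧
      ((Dbar ⊔ Fbar).index = 1 ∨ (Dbar ⊔ Fbar).index = 2 ∨
        ((Dbar ⊔ Fbar).index = 6 ∧ ¬ commutator (Cfsg.Out ↥(D.group F)) ≤ Dbar ⊔ Fbar)) := by
  obtain ⟨M⟩ := CfsgLib.Chev.exists_cg hD F
  obtain ⟨h1, h2, h3, h4, h5, h6⟩ := M.out_struct hD Dbar Fbar hDbar hFbar
  refine ⟨h1, h2, h3, h4, ?_⟩
  rw [h5]
  simp only [List.mem_cons, List.not_mem_nil, or_false] at hD
  rcases hD with rfl | rfl | rfl | rfl | rfl | rfl | rfl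
  · rcases CfsgLib.Chev.card_le_two (CfsgLib.Chev.range_G2 M) with h | h
    · exact Or.inl h
    · exact Or.inr (Or.inl h)
  · rcases CfsgLib.Chev.card_le_two (CfsgLib.Chev.range_B2 M) with h | h
    · exact Or.inl h
    · exact Or.inr (Or.inl h)
  · right; right
    obtain ⟨h7, a, ⟨α, rfl⟩, b, ⟨β, rfl⟩, hab⟩ := CfsgLib.Chev.card_range_D4 M
    refine ⟨h7, fun hcon => hab ?_⟩
    have h8 : QuotientGroup.mk' (Cfsg.Inn ↥(Cfsg.Lie.chevD4.group F)) (α * β * α⁻¹ * β⁻¹) ∈ Dbar ⊔ Fbar := by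
      apply hcon
      have := Subgroup.commutator_mem_commutator (Subgroup.mem_top (QuotientGroup.mk' (Cfsg.Inn ↥(Cfsg.Lie.chevD4.group F)) α))
        (Subgroup.mem_top (QuotientGroup.mk' (Cfsg.Inn ↥(Cfsg.Lie.chevD4.group F)) β))
      rw [commutatorElement_def, ← map_inv, ← map_inv, ← map_mul, ← map_mul, ← map_mul] at this
      exact this
    have h9 := h6 _ h8
    rw [map_mul, map_mul, map_mul, map_inv, map_inv, mul_inv_eq_one, mul_inv_eq_iff_eq_mul] at h9
    exact h9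
  · rcases CfsgLib.Chev.card_le_two (CfsgLib.Chev.range_F4 M) with h | h
    · exact Or.inl h
    · exact Or.inr (Or.inl h)
  · rcases CfsgLib.Chev.card_le_two (CfsgLib.Chev.range_E6 M) with h | h
    · exact Or.inl h
    · exact Or.inr (Or.inl h)
  · exact Or.inl (CfsgLib.Chev.range_E7 M)
  · exact Or.inl (CfsgLib.Chev.range_E8 M)

end Cfsg.Agent.S2159
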