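import Cfsg.Statements.S2160
import Cfsg.Agent.Lib.ChevAut9

set_option autoImplicit false
open Cfsg

namespace Cfsg.Agent.S2160

/-- In a Chevalley group of type G₂, B₂, D₄, F₄, E₆, E₇ or E₈ over a finite field, every field automorphism commutes with every graph automorphism. -/
theorem result {F : Type*} [Field F] [Finite F] (D : Cfsg.Lie.ChevalleyDatum) (hD : D ∈ [Cfsg.Lie.chevG2, Cfsg.Lie.chevB2, Cfsg.Lie.chevD4, Cfsg.Lie.chevF4, Cfsg.Lie.chevE6, Cfsg.Lie.chevE7, Cfsg.Lie.chevE8]) (f g : ↥(D.group F) ≃* ↥(D.group F))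
    (hf : D.IsFieldAut f) (hg : D.IsGraphAut g) (y : ↥(D.group F)) : f (g y) = g (f y) := by
  obtain ⟨M⟩ := CfsgLib.Chev.exists_cg hD F
  obtain ⟨σ, hσ⟩ := hf
  obtain ⟨π, hπ, hg⟩ := hg
  have f1 : ∀ r < D.nroots, ∀ t : F, f (M.xG r t) = M.xG r (σ t) := by
    intro r hr t
    apply Subtype.ext
    apply M.eq_xg.mp
    exact hσ _ r t hr (M.coe_xg r t)
  have g1 : ∀ (i : Fin D.rank) (t : F), g (M.xG (D.simple i) t) = M.xG (D.simple (π i)) (t ^ D.graphExp (ringChar F) i (π i)) := by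
    intro i t
    apply Subtype.ext
    apply M.eq_xg.mp
    exact (hg _ i t).1 (M.coe_xg _ t)
  have g2 : ∀ (i : Fin D.rank) (t : F), g (M.xG (D.neg (D.simple i)) t) = M.xG (D.neg (D.simple (π i))) (t ^ D.graphExp (ringChar F) i (π i)) := by
    intro i t
    apply Subtype.ext
    apply M.eq_xg.mp
    exact (hg _ i t).2 (M.coe_xg _ t)
  have key : g.trans f = f.trans g := by
    apply M.ext_simple
    · intro i hi t
      change f (g (M.xG (D.simple i) t)) = g (f (M.xG (D.simple i) t))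
      have e1 := g1 ⟨i, hi⟩
      simp only at e1
      rw [e1, f1 _ (M.N.simple_lt _ (π ⟨i, hi⟩).2), f1 _ (M.N.simple_lt i hi), e1, map_pow]
    · intro i hi t
      change f (g (M.xG (D.neg (D.simple i)) t)) = g (f (M.xG (D.neg (D.simple i)) t))
      have e1 := g2 ⟨i, hi⟩
      simp only at e1
      rw [e1, f1 _ (M.N.neg_lt (M.N.simple_lt _ (π ⟨i, hi⟩).2)), f1 _ (M.N.neg_lt (M.N.simple_lt i hi)), e1, map_pow]
  exact congrArg (fun φ : ↥(D.group F) ≃* ↥(D.group F) => φ y) key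

end Cfsg.Agent.S2160
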