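import Cfsg.Statements.S2298
import Cfsg.Agent.Lib.GLc7

set_option autoImplicit false
open Cfsg

namespace Cfsg.Agent.S2298

/-- Over a finite field F with q elements, every irreducible complex character of GL₂ has degree 1, q − 1, q or q + 1; and when q ≥ 3 (so that these four numbers are distinct) there are exactly q − 1 irreducible characters of degree 1, exactly q − 1 of degree q, exactly (q − 1)(q − 2)/2 of degree q + 1 and exactly q(q − 1)/2 of degree q − 1. -/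
theorem result {F : Type*} [Field F] [Fintype F] :
    (∀ χ : Matrix.GeneralLinearGroup (Fin 2) F → ℂ, Cfsg.IsIrrCharacter (Matrix.GeneralLinearGroup (Fin 2) F) χ →
      χ 1 = 1 ∨ χ 1 = (Fintype.card F : ℂ) - 1 ∨ χ 1 = (Fintype.card F : ℂ) ∨ χ 1 = (Fintype.card F : ℂ) + 1) ∧
    (3 ≤ Fintype.card F →
      Nat.card {χ : Cfsg.IrrCharacter (Matrix.GeneralLinearGroup (Fin 2) F) // (χ : Matrix.GeneralLinearGroup (Fin 2) F → ℂ) 1 = 1} = Fintype.card F - 1 ∧
      Nat.card {χ : Cfsg.IrrCharacter (Matrix.GeneralLinearGroup (Fin 2) F) // (χ : Matrix.GeneralLinearGroup (Fin 2) F → ℂ) 1 = (Fintype.card F : ℂ)} = Fintype.card F - 1 ∧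
      Nat.card {χ : Cfsg.IrrCharacter (Matrix.GeneralLinearGroup (Fin 2) F) // (χ : Matrix.GeneralLinearGroup (Fin 2) F → ℂ) 1 = (Fintype.card F : ℂ) + 1} = (Fintype.card F - 1) * (Fintype.card F - 2) / 2 ∧
      Nat.card {χ : Cfsg.IrrCharacter (Matrix.GeneralLinearGroup (Fin 2) F) // (χ : Matrix.GeneralLinearGroup (Fin 2) F → ℂ) 1 = (Fintype.card F : ℂ) - 1} = Fintype.card F * (Fintype.card F - 1) / 2) := by
  classical
  refine ⟨fun χ hχ => ?_, fun h3 => ⟨?_, ?_, ?_, ?_⟩⟩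
  · rcases CfsgLib.GL2a.classify (⟨χ, hχ⟩ : Cfsg.IrrCharacter (Matrix.GeneralLinearGroup (Fin 2) F)) with h | h | h | h
    · exact Or.inl (CfsgLib.GL2a.D_deg h)
    · exact Or.inr (Or.inr (Or.inl (CfsgLib.GL2a.S_deg h)))
    · exact Or.inr (Or.inr (Or.inr (CfsgLib.GL2a.P_deg h)))
    · exact Or.inr (Or.inl (CfsgLib.GL2a.cusp_one h))
  · rw [Nat.card_congr (Equiv.subtypeEquivRight (fun χ => CfsgLib.GL2a.deg_1 h3 (χ := χ))), Nat.card_eq_fintype_card, Fintype.card_coe, CfsgLib.GL2a.card_AD]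
  · rw [Nat.card_congr (Equiv.subtypeEquivRight (fun χ => CfsgLib.GL2a.deg_q (χ := χ))), Nat.card_eq_fintype_card, Fintype.card_coe, CfsgLib.GL2a.card_AS]
  · rw [Nat.card_congr (Equiv.subtypeEquivRight (fun χ => CfsgLib.GL2a.deg_q1 (χ := χ))), Nat.card_eq_fintype_card, Fintype.card_coe]
    have := CfsgLib.GL2a.card_AP (F := F)
    omega
  · rw [Nat.card_congr (Equiv.subtypeEquivRight (fun χ => CfsgLib.GL2a.deg_qm h3 (χ := χ)))]
    have := CfsgLib.GL2a.card_cusp (F := F)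
    omega

end Cfsg.Agent.S2298
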