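import Cfsg.Statements.S2299
import Cfsg.Agent.Lib.GLd4

set_option autoImplicit false
open Cfsg

namespace Cfsg.Agent.S2299

/-- Over a finite field F with q elements, q odd, every irreducible complex character of SL₂ has degree 1, q, q + 1, q − 1, (q + 1)/2 or (q − 1)/2; and when q ≥ 5 (so that these six numbers are distinct) there are exactly one irreducible character of degree 1, one of degree q, (q − 3)/2 of degree q + 1, (q − 1)/2 of degree q − 1, two of degree (q + 1)/2 and two of degree (q − 1)/2. -/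
theorem result {F : Type*} [Field F] [Fintype F] (hodd : Odd (Fintype.card F)) :
    (∀ χ : Matrix.SpecialLinearGroup (Fin 2) F → ℂ, Cfsg.IsIrrCharacter (Matrix.SpecialLinearGroup (Fin 2) F) χ →
      χ 1 = 1 ∨ χ 1 = (Fintype.card F : ℂ) ∨ χ 1 = (Fintype.card F : ℂ) + 1 ∨ χ 1 = (Fintype.card F : ℂ) - 1 ∨
        χ 1 = (((Fintype.card F + 1) / 2 : ℕ) : ℂ) ∨ χ 1 = (((Fintype.card F - 1) / 2 : ℕ) : ℂ)) ∧
    (5 ≤ Fintype.card F →
      Nat.card {χ : Cfsg.IrrCharacter (Matrix.SpecialLinearGroup (Fin 2) F) // (χ : Matrix.SpecialLinearGroup (Fin 2) F → ℂ) 1 = 1} = 1 ∧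
      Nat.card {χ : Cfsg.IrrCharacter (Matrix.SpecialLinearGroup (Fin 2) F) // (χ : Matrix.SpecialLinearGroup (Fin 2) F → ℂ) 1 = (Fintype.card F : ℂ)} = 1 ∧
      Nat.card {χ : Cfsg.IrrCharacter (Matrix.SpecialLinearGroup (Fin 2) F) // (χ : Matrix.SpecialLinearGroup (Fin 2) F → ℂ) 1 = (Fintype.card F : ℂ) + 1} = (Fintype.card F - 3) / 2 ∧
      Nat.card {χ : Cfsg.IrrCharacter (Matrix.SpecialLinearGroup (Fin 2) F) // (χ : Matrix.SpecialLinearGroup (Fin 2) F → ℂ) 1 = (Fintype.card F : ℂ) - 1} = (Fintype.card F - 1) / 2 ∧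
      Nat.card {χ : Cfsg.IrrCharacter (Matrix.SpecialLinearGroup (Fin 2) F) // (χ : Matrix.SpecialLinearGroup (Fin 2) F → ℂ) 1 = (((Fintype.card F + 1) / 2 : ℕ) : ℂ)} = 2 ∧
      Nat.card {χ : Cfsg.IrrCharacter (Matrix.SpecialLinearGroup (Fin 2) F) // (χ : Matrix.SpecialLinearGroup (Fin 2) F → ℂ) 1 = (((Fintype.card F - 1) / 2 : ℕ) : ℂ)} = 2) := by
  classical
  have h2 := CfsgLib.GL2a.two_ne_of_odd hodd
  refine ⟨fun χ hχ => ?_, fun h5 => ⟨?_, ?_, ?_, ?_, ?_, ?_⟩⟩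
  · rw [CfsgLib.GL2a.half_p h2, CfsgLib.GL2a.half_m h2]
    rcases CfsgLib.GL2a.kinds h2 (⟨χ, hχ⟩ : Cfsg.IrrCharacter (Matrix.SpecialLinearGroup (Fin 2) F)) with h | h | h | h | h | h | h
    · left; exact (congrFun (congrArg Subtype.val h) 1).trans (CfsgLib.GL2a.tS_apply 1)
    · right; left; exact (congrFun (congrArg Subtype.val h) 1).trans CfsgLib.GL2a.StS_one
    · right; right; left; exact CfsgLib.GL2a.AR_deg h
    · right; right; right; right; left; exact CfsgLib.GL2a.H_deg h2 h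
    · right; right; right; left; exact CfsgLib.GL2a.C2_deg h2 h
    · right; right; right; right; right; exact CfsgLib.GL2a.C1_deg h2 h
    · right; right; right; right; right; exact CfsgLib.GL2a.C1'_deg h2 h
  · rw [Nat.card_congr (Equiv.subtypeEquivRight (fun χ => CfsgLib.GL2a.deg_1_odd h2 h5 (χ := χ)))]; exact Nat.card_unique
  · rw [Nat.card_congr (Equiv.subtypeEquivRight (fun χ => CfsgLib.GL2a.deg_q_odd h2 (χ := χ)))]; exact Nat.card_unique
  · rw [Nat.card_congr (Equiv.subtypeEquivRight (fun χ => CfsgLib.GL2a.deg_q1_odd h2 (χ := χ))), Nat.card_eq_fintype_card, Fintype.card_coe]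
    have := CfsgLib.GL2a.card_AR_odd h2
    omega
  · rw [Nat.card_congr (Equiv.subtypeEquivRight (fun χ => CfsgLib.GL2a.deg_qm_odd h2 h5 (χ := χ)))]
    exact (CfsgLib.GL2a.card_cuspO h2).1
  · rw [Nat.card_congr (Equiv.subtypeEquivRight (fun χ => CfsgLib.GL2a.deg_hp_odd h2 h5 (χ := χ)))]
    have hne : CfsgLib.GL2a.H1 h2 ≠ CfsgLib.GL2a.H2 h2 := by
      intro e
      have := (CfsgLib.GL2a.H_spec h2).2.1.2.1
      rw [e, (CfsgLib.GL2a.H_spec h2).2.2.1.2.1] at this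
      omega
    have : Nat.card ({CfsgLib.GL2a.H1 h2, CfsgLib.GL2a.H2 h2} : Set (Cfsg.IrrCharacter (Matrix.SpecialLinearGroup (Fin 2) F))) = 2 := by
      rw [Nat.card_coe_set_eq, Set.ncard_pair hne]
    exact this
  · rw [Nat.card_congr (Equiv.subtypeEquivRight (fun χ => CfsgLib.GL2a.deg_hm_odd h2 h5 (χ := χ)))]
    have c := CfsgLib.GL2a.card_cuspO h2
    have key : ∀ p q : Cfsg.IrrCharacter (Matrix.SpecialLinearGroup (Fin 2) F) → Prop, (∀ x, p x → ¬ q x) → Nat.card {x // p x ∨ q x} = Nat.card {x // p x} + Nat.card {x // q x} := by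
      intro p q hpq
      rw [← Nat.card_sum]
      refine Nat.card_congr (Equiv.ofBijective (Sum.elim (fun x => ⟨x.1, Or.inl x.2⟩) (fun x => ⟨x.1, Or.inr x.2⟩)) ⟨?_, ?_⟩).symm
      · rintro (⟨a, ha⟩ | ⟨a, ha⟩) (⟨b, hb⟩ | ⟨b, hb⟩) h
        · simp at h; subst h; rfl
        · simp at h; subst h; exact absurd hb (hpq _ ha)
        · simp at h; subst h; exact absurd ha (hpq _ hb)
        · simp at h; subst h; rfl
      · rintro ⟨a, ha | ha⟩
        · exact ⟨Sum.inl ⟨a, ha⟩, rfl⟩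
        · exact ⟨Sum.inr ⟨a, ha⟩, rfl⟩
    rw [key _ _ (fun x hx hy => by have a := hx.2.1; have b := hy.2.1; omega), c.2.1, c.2.2]

end Cfsg.Agent.S2299
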