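import Cfsg.Statements.S2300
import Cfsg.Agent.Lib.GLd1

set_option autoImplicit false
open Cfsg

namespace Cfsg.Agent.S2300

theorem dR {F : Type*} [Field F] [Fintype F] [DecidableEq F] {χ : Cfsg.IrrCharacter (Matrix.SpecialLinearGroup (Fin 2) F)} (h : χ ∈ CfsgLib.GL2a.AR) :
    (χ : Matrix.SpecialLinearGroup (Fin 2) F → ℂ) 1 = (Fintype.card F : ℂ) + 1 := by
  obtain ⟨α, rfl⟩ := (CfsgLib.GL2a.mem_AR _).mp h
  exact CfsgLib.GL2a.Rc_one α


/-- Over a finite field F with q elements, q even, every irreducible complex character of SL₂ has degree 1, q − 1, q or q + 1; and when q ≥ 4 (so that these four numbers are distinct) there are exactly one irreducible character of degree 1, one of degree q, (q − 2)/2 of degree q + 1 and q/2 of degree q − 1. -/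
theorem result {F : Type*} [Field F] [Fintype F] [CharP F 2] :
    (∀ χ : Matrix.SpecialLinearGroup (Fin 2) F → ℂ, Cfsg.IsIrrCharacter (Matrix.SpecialLinearGroup (Fin 2) F) χ →
      χ 1 = 1 ∨ χ 1 = (Fintype.card F : ℂ) - 1 ∨ χ 1 = (Fintype.card F : ℂ) ∨ χ 1 = (Fintype.card F : ℂ) + 1) ∧
    (4 ≤ Fintype.card F →
      Nat.card {χ : Cfsg.IrrCharacter (Matrix.SpecialLinearGroup (Fin 2) F) // (χ : Matrix.SpecialLinearGroup (Fin 2) F → ℂ) 1 = 1} = 1 ∧
      Nat.card {χ : Cfsg.IrrCharacter (Matrix.SpecialLinearGroup (Fin 2) F) // (χ : Matrix.SpecialLinearGroup (Fin 2) F → ℂ) 1 = (Fintype.card F : ℂ)} = 1 ∧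
      Nat.card {χ : Cfsg.IrrCharacter (Matrix.SpecialLinearGroup (Fin 2) F) // (χ : Matrix.SpecialLinearGroup (Fin 2) F → ℂ) 1 = (Fintype.card F : ℂ) + 1} = (Fintype.card F - 2) / 2 ∧
      Nat.card {χ : Cfsg.IrrCharacter (Matrix.SpecialLinearGroup (Fin 2) F) // (χ : Matrix.SpecialLinearGroup (Fin 2) F → ℂ) 1 = (Fintype.card F : ℂ) - 1} = Fintype.card F / 2) := by
  classical
  have h2 : (2 : F) = 0 := CharTwo.two_eq_zero
  refine ⟨fun χ hχ => ?_, fun h4 => ?_⟩
  · rcases CfsgLib.GL2a.classify_even h2 (⟨χ, hχ⟩ : Cfsg.IrrCharacter (Matrix.SpecialLinearGroup (Fin 2) F)) with h | h | h | h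
    · left
      exact (congrFun (congrArg Subtype.val h) 1).trans (CfsgLib.GL2a.tS_apply 1)
    · right; right; left
      exact (congrFun (congrArg Subtype.val h) 1).trans CfsgLib.GL2a.StS_one
    · right; right; right
      exact dR h
    · right; left
      exact CfsgLib.GL2a.cuspE_one h2 h
  · have hq0 := CfsgLib.GL2a.cq0 (F := F)
    have hq1 := CfsgLib.GL2a.cq_ne_one (F := F)
    have hq2 := CfsgLib.GL2a.cq_ne_two (F := F) (by omega)
    have n1 : (1 : ℂ) ≠ 0 := one_ne_zero
    have n2 : (2 : ℂ) ≠ 0 := two_ne_zero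
    have c1 : ∀ χ : Cfsg.IrrCharacter (Matrix.SpecialLinearGroup (Fin 2) F), (χ : Matrix.SpecialLinearGroup (Fin 2) F → ℂ) 1 = 1 ↔ χ = CfsgLib.GL2a.tS := by
      intro χ
      constructor
      · intro hd
        rcases CfsgLib.GL2a.classify_even h2 χ with h | h | h | h
        · exact h
        · rw [h, CfsgLib.GL2a.StS_one] at hd; exact absurd hd hq1
        · rw [dR h] at hd; exact absurd (by linear_combination hd) hq0
        · rw [CfsgLib.GL2a.cuspE_one h2 h] at hd; exact absurd (by linear_combination hd) hq2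
      · rintro rfl; exact CfsgLib.GL2a.tS_apply 1
    have c2 : ∀ χ : Cfsg.IrrCharacter (Matrix.SpecialLinearGroup (Fin 2) F), (χ : Matrix.SpecialLinearGroup (Fin 2) F → ℂ) 1 = Fintype.card F ↔ χ = CfsgLib.GL2a.StS := by
      intro χ
      constructor
      · intro hd
        rcases CfsgLib.GL2a.classify_even h2 χ with h | h | h | h
        · rw [h, CfsgLib.GL2a.tS_apply] at hd; exact absurd hd.symm hq1
        · exact h
        · rw [dR h] at hd; exact absurd (by linear_combination hd) n1
        · rw [CfsgLib.GL2a.cuspE_one h2 h] at hd; exact absurd (by linear_combination -hd) n1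
      · rintro rfl; exact CfsgLib.GL2a.StS_one
    have c3 : ∀ χ : Cfsg.IrrCharacter (Matrix.SpecialLinearGroup (Fin 2) F), (χ : Matrix.SpecialLinearGroup (Fin 2) F → ℂ) 1 = Fintype.card F + 1 ↔ χ ∈ CfsgLib.GL2a.AR := by
      intro χ
      constructor
      · intro hd
        rcases CfsgLib.GL2a.classify_even h2 χ with h | h | h | h
        · rw [h, CfsgLib.GL2a.tS_apply] at hd; exact absurd (by linear_combination -hd) hq0
        · rw [h, CfsgLib.GL2a.StS_one] at hd; exact absurd (by linear_combination -hd) n1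
        · exact h
        · rw [CfsgLib.GL2a.cuspE_one h2 h] at hd; exact absurd (by linear_combination -hd) n2
      · exact dR
    have c4 : ∀ χ : Cfsg.IrrCharacter (Matrix.SpecialLinearGroup (Fin 2) F), (χ : Matrix.SpecialLinearGroup (Fin 2) F → ℂ) 1 = Fintype.card F - 1 ↔ (CfsgLib.GL2a.e0 h2 χ = 0 ∧ CfsgLib.GL2a.e1 h2 χ = 1) := by
      intro χ
      constructor
      · intro hd
        rcases CfsgLib.GL2a.classify_even h2 χ with h | h | h | h
        · rw [h, CfsgLib.GL2a.tS_apply] at hd; exact absurd (by linear_combination -hd) hq2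
        · rw [h, CfsgLib.GL2a.StS_one] at hd; exact absurd (by linear_combination hd) n1
        · rw [dR h] at hd; exact absurd (by linear_combination hd) n2
        · exact h
      · exact CfsgLib.GL2a.cuspE_one h2
    refine ⟨?_, ?_, ?_, ?_⟩
    · rw [Nat.card_congr (Equiv.subtypeEquivRight c1)]; exact Nat.card_unique
    · rw [Nat.card_congr (Equiv.subtypeEquivRight c2)]; exact Nat.card_unique
    · rw [Nat.card_congr (Equiv.subtypeEquivRight c3), Nat.card_eq_fintype_card, Fintype.card_coe]
      have := CfsgLib.GL2a.card_AR_even (F := F) h2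
      omega
    · rw [Nat.card_congr (Equiv.subtypeEquivRight c4)]
      exact (Nat.div_eq_of_eq_mul_right (by norm_num) (CfsgLib.GL2a.card_cuspE (F := F) h2).symm).symm

end Cfsg.Agent.S2300
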