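import Cfsg.Statements.S2301
import Cfsg.Agent.Lib.GLa4
import Cfsg.Agent.Lib.CharBasic2

set_option autoImplicit false
open Cfsg

namespace Cfsg.Agent.S2301

/-- Over a finite field with q elements of odd characteristic p, the elements of order p of SL₂ (the non-identity unipotent elements) fall into exactly two conjugacy classes, each of size (q² − 1)/2; two upper unitriangular matrices with non-zero off-diagonal entries b and b′ are conjugate exactly when bb′ is a square. -/
theorem result {F : Type*} [Field F] [Fintype F] (p : ℕ) [Fact p.Prime] [CharP F p] (hp : p ≠ 2) :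
    Nat.card {C : ConjClasses (Matrix.SpecialLinearGroup (Fin 2) F) // ∃ g : Matrix.SpecialLinearGroup (Fin 2) F, orderOf g = p ∧ ConjClasses.mk g = C} = 2 ∧
    (∀ g : Matrix.SpecialLinearGroup (Fin 2) F, orderOf g = p → Nat.card (ConjClasses.mk g).carrier = (Fintype.card F ^ 2 - 1) / 2) ∧
    ∀ g h : Matrix.SpecialLinearGroup (Fin 2) F, (g : Matrix (Fin 2) (Fin 2) F) 0 0 = 1 → (g : Matrix (Fin 2) (Fin 2) F) 1 1 = 1 → (g : Matrix (Fin 2) (Fin 2) F) 1 0 = 0 → (g : Matrix (Fin 2) (Fin 2) F) 0 1 ≠ 0 →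
      (h : Matrix (Fin 2) (Fin 2) F) 0 0 = 1 → (h : Matrix (Fin 2) (Fin 2) F) 1 1 = 1 → (h : Matrix (Fin 2) (Fin 2) F) 1 0 = 0 → (h : Matrix (Fin 2) (Fin 2) F) 0 1 ≠ 0 →
      (IsConj g h ↔ IsSquare ((g : Matrix (Fin 2) (Fin 2) F) 0 1 * (h : Matrix (Fin 2) (Fin 2) F) 0 1)) := by
  classical
  have h2 : (2 : F) ≠ 0 := by
    intro h2
    have hc2 : CharP F 2 := CharTwo.of_one_ne_zero_of_two_eq_zero one_ne_zero h2
    exact hp (CharP.eq F ‹_› hc2)
  obtain ⟨nu, hnu⟩ := CfsgLib.GL2a.exists_nonsq h2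
  have hn0 : nu ≠ 0 := by rintro rfl; exact hnu IsSquare.zero
  have key : ∀ g : Matrix.SpecialLinearGroup (Fin 2) F, orderOf g = p → (g : Matrix (Fin 2) (Fin 2) F).trace = 2 * 1 ∧ ¬ CfsgLib.GL2a.IsScal (g : Matrix (Fin 2) (Fin 2) F) := by
    intro g hg
    have := CfsgLib.GL2a.unip_data p (A := (g : Matrix (Fin 2) (Fin 2) F)) ?_ ?_
    · exact ⟨by rw [this.1, mul_one], this.2.2⟩
    · have : g ^ p = 1 := by rw [← hg]; exact pow_orderOf_eq_one g
      have := congrArg (fun x : Matrix.SpecialLinearGroup (Fin 2) F => (x : Matrix (Fin 2) (Fin 2) F)) this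
      simpa using this
    · intro e
      have : g = 1 := Subtype.ext e
      rw [this, orderOf_one] at hg
      exact (Fact.out : p.Prime).one_lt.ne hg
  have ord : ∀ b : F, b ≠ 0 → orderOf (CfsgLib.GL2a.parS 1 b (one_mul 1)) = p := by
    intro b hb
    apply orderOf_eq_prime
    · have hpow : ∀ n : ℕ, (CfsgLib.GL2a.parS 1 b (one_mul 1)) ^ n = CfsgLib.GL2a.parS 1 ((n : F) * b) (one_mul 1) := by
        intro n
        induction n with
        | zero =>
          apply Subtype.ext
          change (1 : Matrix (Fin 2) (Fin 2) F) = CfsgLib.GL2a.par 1 _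
          apply CfsgLib.GL2a.ext4 <;> simp [CfsgLib.GL2a.par]
        | succ n ih =>
          rw [pow_succ, ih]
          apply Subtype.ext
          change CfsgLib.GL2a.par 1 ((n : F) * b) * CfsgLib.GL2a.par 1 b = CfsgLib.GL2a.par 1 _
          apply CfsgLib.GL2a.ext4 <;> simp only [CfsgLib.GL2a.mul_e00, CfsgLib.GL2a.mul_e01, CfsgLib.GL2a.mul_e10, CfsgLib.GL2a.mul_e11] <;> simp [CfsgLib.GL2a.par]
          ring
      rw [hpow, CharP.cast_eq_zero]
      apply Subtype.ext
      change CfsgLib.GL2a.par 1 _ = (1 : Matrix (Fin 2) (Fin 2) F)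
      apply CfsgLib.GL2a.ext4 <;> simp [CfsgLib.GL2a.par]
    · intro e
      apply hb
      have := congrFun (congrFun (congrArg (fun x : Matrix.SpecialLinearGroup (Fin 2) F => (x : Matrix (Fin 2) (Fin 2) F)) e) 0) 1
      change CfsgLib.GL2a.par 1 b 0 1 = _ at this
      simpa [CfsgLib.GL2a.par] using this
  have rep : ∀ g : Matrix.SpecialLinearGroup (Fin 2) F, orderOf g = p → IsConj g (CfsgLib.GL2a.parS 1 1 (one_mul 1)) ∨ IsConj g (CfsgLib.GL2a.parS 1 nu (one_mul 1)) :=
    fun g hg => CfsgLib.GL2a.sl_par_rep h2 hnu g (key g hg).2 1 (one_mul 1) (key g hg).1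
  refine ⟨?_, ?_, ?_⟩
  · have e : Bool ≃ {C : ConjClasses (Matrix.SpecialLinearGroup (Fin 2) F) // ∃ g : Matrix.SpecialLinearGroup (Fin 2) F, orderOf g = p ∧ ConjClasses.mk g = C} := by
      refine Equiv.ofBijective (fun b => match b with
        | true => ⟨ConjClasses.mk (CfsgLib.GL2a.parS 1 1 (one_mul 1)), _, ord 1 one_ne_zero, rfl⟩
        | false => ⟨ConjClasses.mk (CfsgLib.GL2a.parS 1 nu (one_mul 1)), _, ord nu hn0, rfl⟩) ⟨?_, ?_⟩
      · rintro (_ | _) (_ | _) h
        · rfl
        · exfalso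
          have h' := ConjClasses.mk_eq_mk_iff_isConj.mp (congrArg Subtype.val h)
          have := (CfsgLib.GL2a.parS_isConj_iff h2 1 nu 1 (one_mul 1) hn0 one_ne_zero).mp h'
          rw [mul_one] at this; exact hnu this
        · exfalso
          have h' := ConjClasses.mk_eq_mk_iff_isConj.mp (congrArg Subtype.val h)
          have := (CfsgLib.GL2a.parS_isConj_iff h2 1 1 nu (one_mul 1) one_ne_zero hn0).mp h'
          rw [one_mul] at this; exact hnu this
        · rfl
      · rintro ⟨C, g, hg, rfl⟩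
        rcases rep g hg with h | h
        · exact ⟨true, Subtype.ext (ConjClasses.mk_eq_mk_iff_isConj.mpr h.symm)⟩
        · exact ⟨false, Subtype.ext (ConjClasses.mk_eq_mk_iff_isConj.mpr h.symm)⟩
    rw [← Nat.card_congr e, Nat.card_eq_fintype_card, Fintype.card_bool]
  · intro g hg
    have hcar : ∀ x : Matrix.SpecialLinearGroup (Fin 2) F, Nat.card (ConjClasses.mk x).carrier * Nat.card (Subgroup.centralizer ({x} : Set (Matrix.SpecialLinearGroup (Fin 2) F))) = Nat.card (Matrix.SpecialLinearGroup (Fin 2) F) := by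
      intro x
      have h1 := CfsgLib.CharBasic.card_isConj_mul_card_centralizer x
      have h3 : Nat.card (ConjClasses.mk x).carrier = Nat.card {y : Matrix.SpecialLinearGroup (Fin 2) F // IsConj x y} := by
        refine Nat.card_congr (Equiv.subtypeEquivRight fun y => ?_)
        rw [ConjClasses.mem_carrier_iff_mk_eq, ConjClasses.mk_eq_mk_iff_isConj, isConj_comm]
      rw [h3, h1]
    have hpar : ∀ b : F, b ≠ 0 → Nat.card (ConjClasses.mk (CfsgLib.GL2a.parS 1 b (one_mul 1))).carrier = (Fintype.card F ^ 2 - 1) / 2 := by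
      intro b hb
      have h1 := hcar (CfsgLib.GL2a.parS 1 b (one_mul 1))
      have hcc : Nat.card (CfsgLib.GL2a.CC (CfsgLib.GL2a.parS 1 b (one_mul 1) : Matrix (Fin 2) (Fin 2) F) 1) = 2 * Fintype.card F :=
        CfsgLib.GL2a.card_CC_par h2 (A := CfsgLib.GL2a.par 1 b) (by simp [CfsgLib.GL2a.par]) (by simpa [CfsgLib.GL2a.par] using hb) (by simp [CfsgLib.GL2a.par])
      rw [CfsgLib.GL2a.card_cent_SL, hcc, CfsgLib.SL2.card_SL2] at h1
      have hq : 0 < Fintype.card F := Fintype.card_pos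
      have h4 : Fintype.card F ^ 2 - 1 = (Fintype.card F - 1) * (Fintype.card F + 1) := by
        obtain ⟨k, hk⟩ := Nat.exists_eq_add_of_le (show 1 ≤ Fintype.card F from hq)
        rw [hk]
        have : (1 + k) ^ 2 = k * (1 + k + 1) + 1 := by ring
        rw [this]; simp
      have h5 : (Nat.card (ConjClasses.mk (CfsgLib.GL2a.parS 1 b (one_mul 1))).carrier * 2) * Fintype.card F = ((Fintype.card F - 1) * (Fintype.card F + 1)) * Fintype.card F := by
        rw [mul_assoc, h1]; ring
      have h6 := Nat.eq_of_mul_eq_mul_right hq h5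
      rw [h4, ← h6]; simp
    rcases rep g hg with h | h
    · rw [ConjClasses.mk_eq_mk_iff_isConj.mpr h]; exact hpar 1 one_ne_zero
    · rw [ConjClasses.mk_eq_mk_iff_isConj.mpr h]; exact hpar nu hn0
  · intro g h g00 g11 g10 g01 h00 h11 h10 h01
    have hg : g = CfsgLib.GL2a.parS 1 (g.1 0 1) (one_mul 1) := by
      apply Subtype.ext
      apply CfsgLib.GL2a.ext4
      · exact g00
      · rfl
      · exact g10
      · exact g11
    have hh : h = CfsgLib.GL2a.parS 1 (h.1 0 1) (one_mul 1) := by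
      apply Subtype.ext
      apply CfsgLib.GL2a.ext4
      · exact h00
      · rfl
      · exact h10
      · exact h11
    have := CfsgLib.GL2a.parS_isConj_iff h2 1 (g.1 0 1) (h.1 0 1) (one_mul 1) g01 h01
    rw [← hg, ← hh] at this
    exact this

end Cfsg.Agent.S2301
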