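import Cfsg.Statements.S2302

set_option autoImplicit false
open Cfsg

namespace Cfsg.Agent.S2302

open Matrix in
theorem shape {F : Type*} [Field F] [CharP F 2] (g : Matrix.SpecialLinearGroup (Fin 2) F) (hg : orderOf g = 2) :
    (g : Matrix (Fin 2) (Fin 2) F) 1 1 = (g : Matrix (Fin 2) (Fin 2) F) 0 0 ∧ ((g : Matrix (Fin 2) (Fin 2) F) 0 1 ≠ 0 ∨ (g : Matrix (Fin 2) (Fin 2) F) 1 0 ≠ 0) := by
  have hsq : g * g = 1 := by
    have := pow_orderOf_eq_one g
    rwa [hg, pow_two] at this
  have hne : g ≠ 1 := by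
    rintro rfl; simp at hg
  have hsq' : (g : Matrix (Fin 2) (Fin 2) F) * (g : Matrix (Fin 2) (Fin 2) F) = 1 := by
    rw [← Matrix.SpecialLinearGroup.coe_mul, hsq]; simp
  have h2 : (2 : F) = 0 := CharTwo.two_eq_zero
  have e00 : (g : Matrix (Fin 2) (Fin 2) F) 0 0 * (g : Matrix (Fin 2) (Fin 2) F) 0 0 + (g : Matrix (Fin 2) (Fin 2) F) 0 1 * (g : Matrix (Fin 2) (Fin 2) F) 1 0 = 1 := by
    have := congrFun (congrFun hsq' 0) 0
    simpa [Matrix.mul_apply, Fin.sum_univ_two] using this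
  have e11 : (g : Matrix (Fin 2) (Fin 2) F) 1 0 * (g : Matrix (Fin 2) (Fin 2) F) 0 1 + (g : Matrix (Fin 2) (Fin 2) F) 1 1 * (g : Matrix (Fin 2) (Fin 2) F) 1 1 = 1 := by
    have := congrFun (congrFun hsq' 1) 1
    simpa [Matrix.mul_apply, Fin.sum_univ_two] using this
  have had : (g : Matrix (Fin 2) (Fin 2) F) 1 1 = (g : Matrix (Fin 2) (Fin 2) F) 0 0 := by
    have h1 : ((g : Matrix (Fin 2) (Fin 2) F) 0 0 - (g : Matrix (Fin 2) (Fin 2) F) 1 1) * ((g : Matrix (Fin 2) (Fin 2) F) 0 0 - (g : Matrix (Fin 2) (Fin 2) F) 1 1) = 0 := by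
      linear_combination e00 - e11 + ((g : Matrix (Fin 2) (Fin 2) F) 1 1 * (g : Matrix (Fin 2) (Fin 2) F) 1 1 - (g : Matrix (Fin 2) (Fin 2) F) 0 0 * (g : Matrix (Fin 2) (Fin 2) F) 1 1) * h2
    have := mul_self_eq_zero.mp h1
    exact (sub_eq_zero.mp this).symm
  refine ⟨had, ?_⟩
  by_contra hcon
  push Not at hcon
  obtain ⟨hb, hc⟩ := hcon
  apply hne
  rw [hb, zero_mul, add_zero] at e00
  have ha1 : (g : Matrix (Fin 2) (Fin 2) F) 0 0 = 1 := by
    have h1 : ((g : Matrix (Fin 2) (Fin 2) F) 0 0 - 1) * ((g : Matrix (Fin 2) (Fin 2) F) 0 0 - 1) = 0 := by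
      linear_combination e00 + (1 - (g : Matrix (Fin 2) (Fin 2) F) 0 0) * h2
    exact sub_eq_zero.mp (mul_self_eq_zero.mp h1)
  ext i j
  fin_cases i <;> fin_cases j <;> simp [ha1, hb, hc, had]

theorem sqrt_exists {F : Type*} [Field F] [Fintype F] [CharP F 2] (a : F) : ∃ s : F, s * s = a := by
  have h : Function.Injective (fun x : F => x * x) := by
    intro x y hxy
    simp only at hxy
    have h2 : (2 : F) = 0 := CharTwo.two_eq_zero
    have h1 : (x - y) * (x - y) = 0 := by linear_combination hxy + (y * y - x * y) * h2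
    exact sub_eq_zero.mp (mul_self_eq_zero.mp h1)
  exact (Finite.injective_iff_surjective.mp h) a

/-- the standard transvection -/
def uu (F : Type*) [Field F] : Matrix.SpecialLinearGroup (Fin 2) F := ⟨!![1, 1; 0, 1], by simp [Matrix.det_fin_two]⟩

theorem conj_uu {F : Type*} [Field F] [Fintype F] [CharP F 2] (g : Matrix.SpecialLinearGroup (Fin 2) F) (hg : orderOf g = 2) :
    IsConj (uu F) g := by
  obtain ⟨had, hbc⟩ := shape g hg
  have h2 : (2 : F) = 0 := CharTwo.two_eq_zero
  have hdet := g.det_coe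
  rw [Matrix.det_fin_two, had] at hdet
  have key : ∀ a b c : F, (g : Matrix (Fin 2) (Fin 2) F) = !![a, b; c, a] → a * a - b * c = 1 → (b ≠ 0 ∨ c ≠ 0) → IsConj (uu F) g := by
    intro a b c hgm hd hbc
    by_cases hc : c = 0
    · have hb : b ≠ 0 := by tauto
      subst hc
      have ha : a = 1 := by
        have h1 : (a - 1) * (a - 1) = 0 := by linear_combination hd + (1 - a) * h2
        exact sub_eq_zero.mp (mul_self_eq_zero.mp h1)
      subst ha
      obtain ⟨s, hs⟩ := sqrt_exists (b⁻¹)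
      have hs' : s * s * b = 1 := by rw [hs, inv_mul_cancel₀ hb]
      let P : Matrix.SpecialLinearGroup (Fin 2) F := ⟨!![s * b, 0; 0, s], by rw [Matrix.det_fin_two_of]; linear_combination hs'⟩
      rw [isConj_iff]
      refine ⟨P, ?_⟩
      rw [mul_inv_eq_iff_eq_mul]
      apply Subtype.ext
      rw [Matrix.SpecialLinearGroup.coe_mul, Matrix.SpecialLinearGroup.coe_mul, hgm]
      ext i j
      fin_cases i <;> fin_cases j <;> simp [P, uu, Matrix.mul_apply, Fin.sum_univ_two] <;> ring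
    · obtain ⟨s, hs⟩ := sqrt_exists (c⁻¹)
      have hs' : s * s * c = 1 := by rw [hs, inv_mul_cancel₀ hc]
      let P : Matrix.SpecialLinearGroup (Fin 2) F := ⟨!![s * (a + 1), s; s * c, 0], by rw [Matrix.det_fin_two_of]; linear_combination hs' - (s * s * c) * h2⟩
      rw [isConj_iff]
      refine ⟨P, ?_⟩
      rw [mul_inv_eq_iff_eq_mul]
      apply Subtype.ext
      rw [Matrix.SpecialLinearGroup.coe_mul, Matrix.SpecialLinearGroup.coe_mul, hgm]
      ext i j
      fin_cases i <;> fin_cases j <;> simp [P, uu, Matrix.mul_apply, Fin.sum_univ_two]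
      all_goals first | ring1 | linear_combination (-s) * hd - (s * b * c) * h2 | linear_combination s * h2 | linear_combination (-s * a * c) * h2 | linear_combination (s * a * c) * h2 | linear_combination (s * b * c) * h2 + s * hd
  exact key _ _ _ (by ext i j; fin_cases i <;> fin_cases j <;> simp [had]) hdet hbc

theorem order_iff {F : Type*} [Field F] [CharP F 2] (g : Matrix.SpecialLinearGroup (Fin 2) F) :
    orderOf g = 2 ↔ (g : Matrix (Fin 2) (Fin 2) F) 1 1 = (g : Matrix (Fin 2) (Fin 2) F) 0 0 ∧ ((g : Matrix (Fin 2) (Fin 2) F) 0 1 ≠ 0 ∨ (g : Matrix (Fin 2) (Fin 2) F) 1 0 ≠ 0) := by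
  constructor
  · exact shape g
  · rintro ⟨had, hbc⟩
    have h2 : (2 : F) = 0 := CharTwo.two_eq_zero
    have hdet := g.det_coe
    rw [Matrix.det_fin_two, had] at hdet
    rw [orderOf_eq_prime_iff]
    constructor
    · rw [pow_two]
      apply Subtype.ext
      rw [Matrix.SpecialLinearGroup.coe_mul]
      ext i j
      fin_cases i <;> fin_cases j <;> simp [Matrix.mul_apply, Fin.sum_univ_two, had]
      · linear_combination hdet + ((g : Matrix (Fin 2) (Fin 2) F) 0 1 * (g : Matrix (Fin 2) (Fin 2) F) 1 0) * h2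
      · linear_combination ((g : Matrix (Fin 2) (Fin 2) F) 0 1 * (g : Matrix (Fin 2) (Fin 2) F) 0 0) * h2
      · linear_combination ((g : Matrix (Fin 2) (Fin 2) F) 1 0 * (g : Matrix (Fin 2) (Fin 2) F) 0 0) * h2
      · linear_combination hdet + ((g : Matrix (Fin 2) (Fin 2) F) 0 1 * (g : Matrix (Fin 2) (Fin 2) F) 1 0) * h2
    · rintro rfl
      simp at hbc

theorem count {F : Type*} [Field F] [Fintype F] [CharP F 2] :
    Nat.card {g : Matrix.SpecialLinearGroup (Fin 2) F // orderOf g = 2} = Fintype.card F ^ 2 - 1 := by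
  classical
  have h2 : (2 : F) = 0 := CharTwo.two_eq_zero
  have e : {g : Matrix.SpecialLinearGroup (Fin 2) F // orderOf g = 2} ≃ {p : F × F // p ≠ 0} := by
    refine Equiv.ofBijective (fun g => ⟨((g.1 : Matrix (Fin 2) (Fin 2) F) 0 1, (g.1 : Matrix (Fin 2) (Fin 2) F) 1 0), ?_⟩) ⟨?_, ?_⟩
    · have := ((order_iff g.1).1 g.2).2
      rw [Ne, Prod.ext_iff, not_and_or]
      exact this
    · rintro ⟨g, hg⟩ ⟨h, hh⟩ he
      simp only [Subtype.mk.injEq, Prod.mk.injEq] at he
      obtain ⟨hb, hc⟩ := he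
      obtain ⟨hg1, -⟩ := (order_iff g).1 hg
      obtain ⟨hh1, -⟩ := (order_iff h).1 hh
      have hdg := g.det_coe
      have hdh := h.det_coe
      rw [Matrix.det_fin_two, hg1] at hdg
      rw [Matrix.det_fin_two, hh1, ← hb, ← hc] at hdh
      have ha : (g : Matrix (Fin 2) (Fin 2) F) 0 0 = (h : Matrix (Fin 2) (Fin 2) F) 0 0 := by
        have h1 : ((g : Matrix (Fin 2) (Fin 2) F) 0 0 - (h : Matrix (Fin 2) (Fin 2) F) 0 0) * ((g : Matrix (Fin 2) (Fin 2) F) 0 0 - (h : Matrix (Fin 2) (Fin 2) F) 0 0) = 0 := by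
          linear_combination hdg - hdh + ((h : Matrix (Fin 2) (Fin 2) F) 0 0 * (h : Matrix (Fin 2) (Fin 2) F) 0 0 - (g : Matrix (Fin 2) (Fin 2) F) 0 0 * (h : Matrix (Fin 2) (Fin 2) F) 0 0) * h2
        exact sub_eq_zero.mp (mul_self_eq_zero.mp h1)
      apply Subtype.ext
      ext i j
      fin_cases i <;> fin_cases j <;> simp [hb, hc, ha, hg1, hh1]
    · rintro ⟨⟨b, c⟩, hbc⟩
      obtain ⟨a, ha⟩ := sqrt_exists (1 + b * c)
      refine ⟨⟨⟨!![a, b; c, a], by rw [Matrix.det_fin_two_of]; linear_combination ha⟩, ?_⟩, ?_⟩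
      · refine (order_iff _).2 ⟨by simp, ?_⟩
        rw [Ne, Prod.ext_iff, not_and_or] at hbc
        simpa using hbc
      · simp
  rw [Nat.card_congr e, Nat.card_eq_fintype_card, Fintype.card_subtype_compl, Fintype.card_prod]
  simp [pow_two]


/-- Over a finite field with q elements of characteristic 2, the involutions of SL₂ (the non-identity unipotent elements) form a single conjugacy class, of size q² − 1. -/
theorem result {F : Type*} [Field F] [Fintype F] [CharP F 2] (g h : Matrix.SpecialLinearGroup (Fin 2) F) (hg : orderOf g = 2) (hh : orderOf h = 2) :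
    IsConj g h ∧ Nat.card (ConjClasses.mk g).carrier = Fintype.card F ^ 2 - 1 := by
  refine ⟨(conj_uu g hg).symm.trans (conj_uu h hh), ?_⟩
  have : (ConjClasses.mk g).carrier = {x | orderOf x = 2} := by
    ext x
    rw [ConjClasses.mem_carrier_iff_mk_eq, ConjClasses.mk_eq_mk_iff_isConj]
    constructor
    · intro hx
      rw [isConj_iff] at hx
      obtain ⟨c, hc⟩ := hx
      have : x = c⁻¹ * g * c := by rw [← hc]; group
      show orderOf x = 2
      rw [this]
      have := orderOf_injective (MulAut.conj c⁻¹).toMonoidHom (MulAut.conj c⁻¹).injective g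
      simp at this
      exact this.trans hg
    · intro hx
      exact (conj_uu x hx).symm.trans (conj_uu g hg)
  rw [this]
  exact count

end Cfsg.Agent.S2302
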