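import Cfsg.Statements.S2306
import Cfsg.Agent.Lib.GLc5

set_option autoImplicit false
open Cfsg

namespace Cfsg.Agent.S2306

/-- Over a finite field F, for a multiplicative character α of F, the function induced to SL₂ from the linear character b ↦ α(b₁₁) of the upper triangular subgroup is an irreducible character if and only if α² ≠ 1. -/
theorem result {F : Type*} [Field F] [Fintype F] [DecidableEq F] (α : MulChar F ℂ) :
    Cfsg.IsIrrCharacter (Matrix.SpecialLinearGroup (Fin 2) F) (Cfsg.indFun ((Cfsg.upperTriangularGL 2 F).comap Matrix.SpecialLinearGroup.toGL) (fun b => α (((b : Matrix.SpecialLinearGroup (Fin 2) F) : Matrix (Fin 2) (Fin 2) F) 0 0))) ↔ α ^ 2 ≠ 1 := by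
  classical
  have h : Cfsg.IsIrrCharacter (Matrix.SpecialLinearGroup (Fin 2) F) (fun g : Matrix.SpecialLinearGroup (Fin 2) F => CfsgLib.GL2a.Rf α 1 (g : Matrix (Fin 2) (Fin 2) F)) ↔ α ^ 2 ≠ 1 := by
    rw [CfsgLib.CharBasic.isIrr_iff, CfsgLib.GL2a.mackey_SL]
    have e : α = α⁻¹ ↔ α ^ 2 = 1 := by
      rw [eq_inv_iff_mul_eq_one, sq]
    constructor
    · rintro ⟨-, h⟩ h2
      rw [if_pos rfl, if_pos (e.mpr h2)] at h
      norm_num at h
    · intro h2
      refine ⟨CfsgLib.GL2a.isChar_RS α, ?_⟩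
      rw [if_pos rfl, if_neg (fun h => h2 (e.mp h))]; norm_num
  rw [← CfsgLib.GL2a.RS_eq] at h
  exact h

end Cfsg.Agent.S2306
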