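import Cfsg.Statements.S2307
import Cfsg.Agent.Lib.GLd4

set_option autoImplicit false
open Cfsg

namespace Cfsg.Agent.S2307

/-- Over a finite field F with q elements, q odd, let α be the multiplicative character of F of order 2. The character of SL₂ induced from the linear character b ↦ α(b₁₁) of the upper triangular subgroup is the sum of two distinct irreducible characters, each of degree (q + 1)/2, which are conjugate under GL₂: some fixed element of GL₂ conjugates the one into the other. -/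
theorem result {F : Type*} [Field F] [Fintype F] [DecidableEq F] (hodd : Odd (Fintype.card F)) (α : MulChar F ℂ)
    (hα : α ^ 2 = 1) (hα1 : α ≠ 1) :
    ∃ χ₁ χ₂ : Matrix.SpecialLinearGroup (Fin 2) F → ℂ, Cfsg.IsIrrCharacter (Matrix.SpecialLinearGroup (Fin 2) F) χ₁ ∧ Cfsg.IsIrrCharacter (Matrix.SpecialLinearGroup (Fin 2) F) χ₂ ∧ χ₁ ≠ χ₂ ∧
      Cfsg.indFun ((Cfsg.upperTriangularGL 2 F).comap Matrix.SpecialLinearGroup.toGL) (fun b => α (((b : Matrix.SpecialLinearGroup (Fin 2) F) : Matrix (Fin 2) (Fin 2) F) 0 0)) = χ₁ + χ₂ ∧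
      χ₁ 1 = (((Fintype.card F + 1) / 2 : ℕ) : ℂ) ∧ χ₂ 1 = (((Fintype.card F + 1) / 2 : ℕ) : ℂ) ∧
      ∃ x : Matrix.GeneralLinearGroup (Fin 2) F, ∀ g h : Matrix.SpecialLinearGroup (Fin 2) F,
        Matrix.SpecialLinearGroup.toGL h = x * Matrix.SpecialLinearGroup.toGL g * x⁻¹ → χ₂ h = χ₁ g := by
  have h2 := CfsgLib.GL2a.two_ne_of_odd hodd
  obtain rfl := CfsgLib.GL2a.eq_eta h2 hα hα1
  have hs := CfsgLib.GL2a.H_spec h2
  have hne : CfsgLib.GL2a.H1 h2 ≠ CfsgLib.GL2a.H2 h2 := by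
    intro e
    have := hs.2.1.2.1
    rw [e, hs.2.2.1.2.1] at this
    omega
  refine ⟨CfsgLib.GL2a.H1 h2, CfsgLib.GL2a.H2 h2, (CfsgLib.GL2a.H1 h2).2, (CfsgLib.GL2a.H2 h2).2, fun e => hne (Subtype.ext e), ?_, ?_, ?_, ?_⟩
  · rw [← hs.1, ← CfsgLib.GL2a.RS_eq]; rfl
  · rw [CfsgLib.GL2a.half_p h2]; exact CfsgLib.GL2a.H1_deg h2
  · rw [CfsgLib.GL2a.half_p h2]; exact CfsgLib.GL2a.H2_deg h2
  · have hn := CfsgLib.GL2a.nu_ne h2
    refine ⟨(CfsgLib.GL2a.dg (Units.mk0 _ hn) 1)⁻¹, ?_⟩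
    intro g h e
    have e1 : CfsgLib.GL2a.tau h2 h = g := by
      apply CfsgLib.GL2a.sl_ext
      have e2 : Matrix.SpecialLinearGroup.toGL g * CfsgLib.GL2a.dg (Units.mk0 _ hn) 1 = CfsgLib.GL2a.dg (Units.mk0 _ hn) 1 * Matrix.SpecialLinearGroup.toGL h := by
        rw [e]; group
      have e3 := congrArg (fun x : Matrix.GeneralLinearGroup (Fin 2) F => (x : Matrix (Fin 2) (Fin 2) F)) e2
      have e4 : (g : Matrix (Fin 2) (Fin 2) F) * !![CfsgLib.GL2a.nu h2, 0; 0, 1] = !![CfsgLib.GL2a.nu h2, 0; 0, 1] * (h : Matrix (Fin 2) (Fin 2) F) := by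
        have e5 := e3
        simp only [Matrix.GeneralLinearGroup.coe_mul, CfsgLib.GL2a.dg_coe, Units.val_mk0, Units.val_one] at e5
        exact e5
      have f00 := congrFun (congrFun e4 0) 0
      have f01 := congrFun (congrFun e4 0) 1
      have f10 := congrFun (congrFun e4 1) 0
      have f11 := congrFun (congrFun e4 1) 1
      rw [CfsgLib.GL2a.mul_e00, CfsgLib.GL2a.mul_e00] at f00
      rw [CfsgLib.GL2a.mul_e01, CfsgLib.GL2a.mul_e01] at f01
      rw [CfsgLib.GL2a.mul_e10, CfsgLib.GL2a.mul_e10] at f10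
      rw [CfsgLib.GL2a.mul_e11, CfsgLib.GL2a.mul_e11] at f11
      simp at f00 f01 f10 f11
      rw [CfsgLib.GL2a.tau_coe]
      apply CfsgLib.GL2a.ext4
      · simp
        apply mul_left_cancel₀ hn
        linear_combination -f00
      · simpa using f01.symm
      · simp
        rw [← f10]; field_simp
      · simpa using f11.symm
    rw [hs.2.2.2, e1]

end Cfsg.Agent.S2307
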