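import Cfsg.Statements.S2308
import Cfsg.Agent.Lib.GLc6

set_option autoImplicit false
open Cfsg

namespace Cfsg.Agent.S2308

/-- Values of the permutation character of GL₂ over a finite field F with q elements on the cosets of its upper triangular subgroup (equivalently, the number of lines of F² that an element maps to themselves): q + 1 at a scalar matrix, 2 at a diagonal matrix with two different diagonal entries, 0 at an element with no eigenvector in F², and 1 at an upper triangular matrix with equal diagonal entries and non-zero upper right entry. -/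
theorem result {F : Type*} [Field F] [Fintype F] (g : Matrix.GeneralLinearGroup (Fin 2) F) :
    ((∃ a : F, (g : Matrix (Fin 2) (Fin 2) F) = a • (1 : Matrix (Fin 2) (Fin 2) F)) → Cfsg.fixedPointCharacter (Cfsg.upperTriangularGL 2 F) g = Fintype.card F + 1) ∧
    ((g : Matrix (Fin 2) (Fin 2) F) 0 1 = 0 → (g : Matrix (Fin 2) (Fin 2) F) 1 0 = 0 → (g : Matrix (Fin 2) (Fin 2) F) 0 0 ≠ (g : Matrix (Fin 2) (Fin 2) F) 1 1 →
      Cfsg.fixedPointCharacter (Cfsg.upperTriangularGL 2 F) g = 2) ∧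
    ((∀ (c : F) (v : Fin 2 → F), v ≠ 0 → (g : Matrix (Fin 2) (Fin 2) F).mulVec v ≠ c • v) → Cfsg.fixedPointCharacter (Cfsg.upperTriangularGL 2 F) g = 0) ∧
    ((g : Matrix (Fin 2) (Fin 2) F) 1 0 = 0 → (g : Matrix (Fin 2) (Fin 2) F) 0 0 = (g : Matrix (Fin 2) (Fin 2) F) 1 1 → (g : Matrix (Fin 2) (Fin 2) F) 0 1 ≠ 0 →
      Cfsg.fixedPointCharacter (Cfsg.upperTriangularGL 2 F) g = 1) := by
  classical
  have h := CfsgLib.GL2a.fixed_GL g
  have hd := CfsgLib.GL2a.gdet_ne g
  rw [CfsgLib.GL2a.det_e] at hd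
  have h1 : ∀ x : F, x ≠ 0 → (1 : MulChar F ℂ) x = 1 := fun x hx => MulChar.one_apply (isUnit_iff_ne_zero.mpr hx)
  refine ⟨?_, fun g01 g10 hne => ?_, fun hani => ?_, fun g10 gd g01 => ?_⟩
  · rintro ⟨a, ha⟩
    rw [h, ha, CfsgLib.GL2a.Rf_scalar]
    have ha0 : a ≠ 0 := by
      rintro rfl
      rw [ha] at hd; simp at hd
    rw [h1 a ha0]; ring
  · rw [h, CfsgLib.GL2a.Rf_up 1 1 g10 hne]
    rw [g01, zero_mul, sub_zero] at hd
    rw [h1 _ (left_ne_zero_of_mul hd), h1 _ (right_ne_zero_of_mul hd)]; norm_num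
  · rw [h, CfsgLib.GL2a.Rf_aniso 1 1 hani]
  · rw [h, CfsgLib.GL2a.Rf_par 1 1 g10 gd g01]
    rw [g10, mul_zero, sub_zero] at hd
    rw [h1 _ (left_ne_zero_of_mul hd)]; norm_num

end Cfsg.Agent.S2308
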