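import Cfsg.Statements.S2309
import Cfsg.Agent.Lib.GLc6

set_option autoImplicit false
open Cfsg

namespace Cfsg.Agent.S2309

/-- Over a finite field F with q elements: every irreducible complex character of GL₂ of degree q − 1 vanishes at every diagonal matrix with two distinct entries, and every irreducible complex character of degree q + 1 vanishes at every element with no eigenvector in F². -/
theorem result {F : Type*} [Field F] [Fintype F] (χ : Matrix.GeneralLinearGroup (Fin 2) F → ℂ) (hχ : Cfsg.IsIrrCharacter (Matrix.GeneralLinearGroup (Fin 2) F) χ) (g : Matrix.GeneralLinearGroup (Fin 2) F) :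
    (χ 1 = (Fintype.card F : ℂ) - 1 → (g : Matrix (Fin 2) (Fin 2) F) 0 1 = 0 → (g : Matrix (Fin 2) (Fin 2) F) 1 0 = 0 → (g : Matrix (Fin 2) (Fin 2) F) 0 0 ≠ (g : Matrix (Fin 2) (Fin 2) F) 1 1 → χ g = 0) ∧
    (χ 1 = (Fintype.card F : ℂ) + 1 → (∀ (c : F) (v : Fin 2 → F), v ≠ 0 → (g : Matrix (Fin 2) (Fin 2) F).mulVec v ≠ c • v) → χ g = 0) := by
  classical
  have hq0 := CfsgLib.GL2a.cq0 (F := F)
  have hcast : ∀ a b : ℕ, (a : ℂ) = b → a = b := fun a b h => Nat.cast_injective h
  have h2 : 2 ≤ Fintype.card F := CfsgLib.GL2a.two_le_card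
  refine ⟨fun hdeg g01 g10 hne => ?_, fun hdeg hani => ?_⟩
  · rcases CfsgLib.GL2a.irr_cases (⟨χ, hχ⟩ : Cfsg.IrrCharacter (Matrix.GeneralLinearGroup (Fin 2) F)) with ⟨γ, h⟩ | ⟨γ, h⟩ | ⟨p, h⟩ | h
    · exfalso
      have e := congrArg (fun x : Cfsg.IrrCharacter (Matrix.GeneralLinearGroup (Fin 2) F) => x.1 1) h
      have e2 := CfsgLib.GL2a.Dc_one γ
      have : (Fintype.card F : ℂ) = (2 : ℕ) := by
        have : χ 1 = 1 := e.trans e2
        rw [hdeg] at this; push_cast; linear_combination this
      have hF2 := hcast _ _ this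
      have hF : ∀ x : F, x = 0 ∨ x = 1 := by
        intro x
        by_contra hx
        push Not at hx
        have : ({0, 1, x} : Finset F).card ≤ Fintype.card F := Finset.card_le_univ _
        rw [Finset.card_insert_of_notMem, Finset.card_insert_of_notMem, Finset.card_singleton] at this
        · omega
        · simp; exact fun e => hx.2 e.symm
        · simp; exact fun e => hx.1 e.symm
      have hd := CfsgLib.GL2a.gdet_ne g
      rw [CfsgLib.GL2a.det_e, g01, zero_mul, sub_zero] at hd
      apply hne
      rcases hF ((g : Matrix (Fin 2) (Fin 2) F) 0 0) with h | h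
      · exact absurd h (left_ne_zero_of_mul hd)
      · rcases hF ((g : Matrix (Fin 2) (Fin 2) F) 1 1) with h' | h'
        · exact absurd h' (right_ne_zero_of_mul hd)
        · rw [h, h']
    · exfalso
      have e := congrArg (fun x : Cfsg.IrrCharacter (Matrix.GeneralLinearGroup (Fin 2) F) => x.1 1) h
      have e2 := CfsgLib.GL2a.Sc_one γ
      have : χ 1 = (Fintype.card F : ℂ) := e.trans e2
      rw [hdeg] at this
      have : (1 : ℂ) = 0 := by linear_combination -this
      exact one_ne_zero this
    · exfalso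
      have e := congrArg (fun x : Cfsg.IrrCharacter (Matrix.GeneralLinearGroup (Fin 2) F) => x.1 1) h
      have e2 := CfsgLib.GL2a.Pc_one p
      have : χ 1 = (Fintype.card F : ℂ) + 1 := e.trans e2
      rw [hdeg] at this
      have : (2 : ℂ) = 0 := by linear_combination -this
      norm_num at this
    · exact CfsgLib.GL2a.cusp_diag h g g01 g10 hne
  · rcases CfsgLib.GL2a.irr_cases (⟨χ, hχ⟩ : Cfsg.IrrCharacter (Matrix.GeneralLinearGroup (Fin 2) F)) with ⟨γ, h⟩ | ⟨γ, h⟩ | ⟨p, h⟩ | h
    · exfalso
      have e := congrArg (fun x : Cfsg.IrrCharacter (Matrix.GeneralLinearGroup (Fin 2) F) => x.1 1) h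
      have e2 := CfsgLib.GL2a.Dc_one γ
      have : χ 1 = 1 := e.trans e2
      rw [hdeg] at this
      apply hq0
      linear_combination this
    · exfalso
      have e := congrArg (fun x : Cfsg.IrrCharacter (Matrix.GeneralLinearGroup (Fin 2) F) => x.1 1) h
      have e2 := CfsgLib.GL2a.Sc_one γ
      have : χ 1 = (Fintype.card F : ℂ) := e.trans e2
      rw [hdeg] at this
      have : (1 : ℂ) = 0 := by linear_combination this
      exact one_ne_zero this
    · have e := congrArg (fun x : Cfsg.IrrCharacter (Matrix.GeneralLinearGroup (Fin 2) F) => x.1 g) h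
      have : χ g = _ := e.trans (CfsgLib.GL2a.Pc_apply p g)
      rw [this]
      exact CfsgLib.GL2a.Rf_aniso _ _ hani
    · exfalso
      have e2 : χ 1 = (Fintype.card F : ℂ) - 1 := CfsgLib.GL2a.cusp_one h
      rw [hdeg] at e2
      have : (2 : ℂ) = 0 := by linear_combination e2
      norm_num at this

end Cfsg.Agent.S2309
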