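import Cfsg.Statements.S2310
import Cfsg.Agent.Lib.GLc7

set_option autoImplicit false
open Cfsg

namespace Cfsg.Agent.S2310

/-- Over a finite field F with q ≥ 3 elements, let u be the upper unitriangular matrix of GL₂ with off-diagonal entry 1. An irreducible complex character χ of GL₂ takes at u the value 1 if χ has degree 1 or q + 1, the value −1 if χ has degree q − 1, and the value 0 if χ has degree q. -/
theorem result {F : Type*} [Field F] [Fintype F] (hq : 3 ≤ Fintype.card F) (χ : Matrix.GeneralLinearGroup (Fin 2) F → ℂ) (hχ : Cfsg.IsIrrCharacter (Matrix.GeneralLinearGroup (Fin 2) F) χ)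
    (u : Matrix.GeneralLinearGroup (Fin 2) F) (hu : (u : Matrix (Fin 2) (Fin 2) F) = !![1, 1; 0, 1]) :
    (χ 1 = 1 → χ u = 1) ∧ (χ 1 = (Fintype.card F : ℂ) + 1 → χ u = 1) ∧
    (χ 1 = (Fintype.card F : ℂ) - 1 → χ u = -1) ∧ (χ 1 = (Fintype.card F : ℂ) → χ u = 0) := by
  classical
  obtain rfl := CfsgLib.GL2a.u_eq u hu
  refine ⟨fun h => ?_, fun h => ?_, fun h => ?_, fun h => ?_⟩
  · have h1 := (CfsgLib.GL2a.deg_1 hq (χ := (⟨χ, hχ⟩ : Cfsg.IrrCharacter (Matrix.GeneralLinearGroup (Fin 2) F)))).mp h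
    obtain ⟨γ, h2⟩ := (CfsgLib.GL2a.mem_AD _).mp h1
    exact (congrFun (congrArg Subtype.val h2) CfsgLib.GL2a.uG).trans (CfsgLib.GL2a.Dc_u γ)
  · have h1 := (CfsgLib.GL2a.deg_q1 (χ := (⟨χ, hχ⟩ : Cfsg.IrrCharacter (Matrix.GeneralLinearGroup (Fin 2) F)))).mp h
    obtain ⟨γ, h2⟩ := (CfsgLib.GL2a.mem_AP _).mp h1
    exact (congrFun (congrArg Subtype.val h2) CfsgLib.GL2a.uG).trans (CfsgLib.GL2a.Pc_u γ)
  · exact CfsgLib.GL2a.cusp_u ((CfsgLib.GL2a.deg_qm hq (χ := (⟨χ, hχ⟩ : Cfsg.IrrCharacter (Matrix.GeneralLinearGroup (Fin 2) F)))).mp h)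
  · have h1 := (CfsgLib.GL2a.deg_q (χ := (⟨χ, hχ⟩ : Cfsg.IrrCharacter (Matrix.GeneralLinearGroup (Fin 2) F)))).mp h
    obtain ⟨γ, h2⟩ := (CfsgLib.GL2a.mem_AS _).mp h1
    exact (congrFun (congrArg Subtype.val h2) CfsgLib.GL2a.uG).trans (CfsgLib.GL2a.Sc_u γ)

end Cfsg.Agent.S2310
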