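import Cfsg.Statements.S2314
import Cfsg.Agent.Lib.H2St7
import Cfsg.Agent.S1027

set_option autoImplicit false
open Cfsg

set_option linter.style.haveILetI false
namespace Cfsg.Agent.S2314

/-- Steinberg's count of unipotent elements: in a Chevalley group of type G₂, B₂, D₄, F₄, E₆, E₇ or E₈ over a finite field of characteristic p with q elements, the number of elements of p-power order is q^(2N), N the number of positive roots — the square of the order of a Sylow p-subgroup. -/
theorem result {F : Type*} [Field F] [Fintype F] (p : ℕ) [Fact p.Prime] [CharP F p] (D : Cfsg.Lie.ChevalleyDatum) (hD : D ∈ [Cfsg.Lie.chevG2, Cfsg.Lie.chevB2, Cfsg.Lie.chevD4, Cfsg.Lie.chevF4, Cfsg.Lie.chevE6, Cfsg.Lie.chevE7, Cfsg.Lie.chevE8]) :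
    Nat.card {g : ↥(D.group F) // ∃ k : ℕ, orderOf g = p ^ k} = Fintype.card F ^ (2 * (D.nroots / 2)) := by
  classical
  obtain ⟨M⟩ := CfsgLib.Chev.exists_cg hD F
  haveI : Fintype ↥(D.group F) := Fintype.ofFinite _
  have h1 := M.card_unip p hD
  have h2 := Cfsg.Agent.S1027.result (F := F) D hD
  rw [Finset.sum_boole] at h1
  have h3 : Nat.card {g : ↥(D.group F) // ∃ k : ℕ, orderOf g = p ^ k} =
      (Finset.univ.filter (fun g : ↥(D.group F) => ∃ k : ℕ, orderOf g = p ^ k)).card := by
    rw [Nat.card_eq_fintype_card, Fintype.card_subtype]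
  rw [h3, pow_mul', ← h2]
  exact_mod_cast h1

end Cfsg.Agent.S2314
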