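import Cfsg.Statements.S2318
import Cfsg.Agent.Lib.H2St9
import Cfsg.Agent.Lib.BlockDefect

set_option autoImplicit false
open Cfsg

set_option linter.style.haveILetI false
namespace Cfsg.Agent.S2318

/-- In a Chevalley group of type G₂, B₂, D₄, F₄, E₆, E₇ or E₈ over a finite field of characteristic p (for types G₂ and B₂ the field is assumed to have at least 3 elements, so that the group is perfect), the Steinberg character is the only irreducible complex character whose degree is divisible by the full power of p dividing the group order (the only irreducible character of p-defect zero). -/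
theorem result {F : Type*} [Field F] [Fintype F] (p : ℕ) [Fact p.Prime] [CharP F p] (D : Cfsg.Lie.ChevalleyDatum) (hD : D ∈ [Cfsg.Lie.chevG2, Cfsg.Lie.chevB2, Cfsg.Lie.chevD4, Cfsg.Lie.chevF4, Cfsg.Lie.chevE6, Cfsg.Lie.chevE7, Cfsg.Lie.chevE8]) (hq : (D = Cfsg.Lie.chevG2 ∨ D = Cfsg.Lie.chevB2) → 3 ≤ Fintype.card F)
    (χ : ↥(D.group F) → ℂ) (hχ : Cfsg.IsIrrCharacter ↥(D.group F) χ)
    (hdeg : ∃ d : ℕ, χ 1 = (d : ℂ) ∧ p ^ (Nat.card ↥(D.group F)).factorization p ∣ d) :
    χ = D.steinbergCharacter F := by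
  classical
  obtain ⟨M⟩ := CfsgLib.Chev.exists_cg hD F
  haveI : Fintype ↥(D.group F) := Fintype.ofFinite _
  obtain ⟨Mi, hM⟩ := CfsgLib.Block.exists_isPModular (Fact.out : p.Prime)
  refine M.eq_steinberg p hD hχ (fun g hg => ?_)
  obtain ⟨d, hd, hdvd⟩ := hdeg
  have h1 := CfsgLib.Block.one_eq_charDegree (CfsgLib.CharBasic.IsIrrCharacter.isCharacter hχ)
  have h2 : d = Cfsg.charDegree χ := by
    rw [hd] at h1
    exact_mod_cast h1
  have hd0 : Cfsg.charDegree χ ≠ 0 := by
    intro h
    obtain ⟨n, hn, hn1⟩ := CfsgLib.CharBasic.IsIrrCharacter.exists_pos hχ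
    rw [h, hn1] at h1
    have : n = 0 := by exact_mod_cast h1
    omega
  refine CfsgLib.Block.vanish_of_inS_singleton hM ⟨_, hχ⟩ (CfsgLib.Block.inS_eB_singleton hM _ ?_) hg
  change _ ≤ (Cfsg.charDegree χ).factorization p
  rw [h2] at hdvd
  exact ((Fact.out : p.Prime).pow_dvd_iff_le_factorization hd0).1 hdvd

end Cfsg.Agent.S2318
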