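import Cfsg.Statements.S2320
import Cfsg.Agent.Lib.GLc7

set_option autoImplicit false
open Cfsg

namespace Cfsg.Agent.S2320

/-- Over a finite field F with q elements, every irreducible complex character of GL₂ of degree q takes a value of absolute value 1 at every diagonal matrix with two different diagonal entries and at every element with no eigenvector in F². -/
theorem result {F : Type*} [Field F] [Fintype F] (χ : Matrix.GeneralLinearGroup (Fin 2) F → ℂ) (hχ : Cfsg.IsIrrCharacter (Matrix.GeneralLinearGroup (Fin 2) F) χ) (hdeg : χ 1 = (Fintype.card F : ℂ)) (g : Matrix.GeneralLinearGroup (Fin 2) F) :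
    ((g : Matrix (Fin 2) (Fin 2) F) 0 1 = 0 → (g : Matrix (Fin 2) (Fin 2) F) 1 0 = 0 → (g : Matrix (Fin 2) (Fin 2) F) 0 0 ≠ (g : Matrix (Fin 2) (Fin 2) F) 1 1 → ‖χ g‖ = 1) ∧
    ((∀ (c : F) (v : Fin 2 → F), v ≠ 0 → (g : Matrix (Fin 2) (Fin 2) F).mulVec v ≠ c • v) → ‖χ g‖ = 1) := by
  classical
  have h1 := (CfsgLib.GL2a.deg_q (χ := (⟨χ, hχ⟩ : Cfsg.IrrCharacter (Matrix.GeneralLinearGroup (Fin 2) F)))).mp hdeg
  obtain ⟨γ, h2⟩ := (CfsgLib.GL2a.mem_AS _).mp h1
  have h3 : χ g = _ := (congrFun (congrArg Subtype.val h2) g).trans (CfsgLib.GL2a.Sc_apply γ g)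
  have hn : ‖γ (g : Matrix (Fin 2) (Fin 2) F).det‖ = 1 := by
    rw [← CfsgLib.GL2a.dhom_apply]
    exact CfsgLib.CharBasic.norm_linear _ g
  have hd := CfsgLib.GL2a.gdet_ne g
  have hone : ∀ x : F, x ≠ 0 → (1 : MulChar F ℂ) x = 1 := fun x hx => MulChar.one_apply (isUnit_iff_ne_zero.mpr hx)
  refine ⟨fun g01 g10 hne => ?_, fun hani => ?_⟩
  · rw [h3, norm_mul, hn, CfsgLib.GL2a.Rf_up 1 1 g10 hne]
    rw [CfsgLib.GL2a.det_e, g01, zero_mul, sub_zero] at hd
    rw [hone _ (left_ne_zero_of_mul hd), hone _ (right_ne_zero_of_mul hd)]; norm_num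
  · rw [h3, norm_mul, hn, CfsgLib.GL2a.Rf_aniso 1 1 hani]; norm_num

end Cfsg.Agent.S2320
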