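import Cfsg.Statements.S2321
import Cfsg.Agent.Lib.GLd4

set_option autoImplicit false
open Cfsg

namespace Cfsg.Agent.S2321

/-- Over a finite field F with q elements, an irreducible complex character of SL₂ of degree q (the Steinberg character) takes the value 1 at every diagonal matrix whose diagonal entry a has a² ≠ 1, the value −1 at every element with no eigenvector in F², and the value 0 at every upper triangular matrix with equal diagonal entries and non-zero upper right entry. -/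
theorem result {F : Type*} [Field F] [Fintype F] (χ : Matrix.SpecialLinearGroup (Fin 2) F → ℂ) (hχ : Cfsg.IsIrrCharacter (Matrix.SpecialLinearGroup (Fin 2) F) χ) (hdeg : χ 1 = (Fintype.card F : ℂ)) (g : Matrix.SpecialLinearGroup (Fin 2) F) :
    ((g : Matrix (Fin 2) (Fin 2) F) 0 1 = 0 → (g : Matrix (Fin 2) (Fin 2) F) 1 0 = 0 → (g : Matrix (Fin 2) (Fin 2) F) 0 0 ^ 2 ≠ 1 → χ g = 1) ∧
    ((∀ (c : F) (v : Fin 2 → F), v ≠ 0 → (g : Matrix (Fin 2) (Fin 2) F).mulVec v ≠ c • v) → χ g = -1) ∧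
    ((g : Matrix (Fin 2) (Fin 2) F) 1 0 = 0 → (g : Matrix (Fin 2) (Fin 2) F) 0 0 = (g : Matrix (Fin 2) (Fin 2) F) 1 1 → (g : Matrix (Fin 2) (Fin 2) F) 0 1 ≠ 0 → χ g = 0) := by
  classical
  have hSt : χ = ((CfsgLib.GL2a.StS : Cfsg.IrrCharacter (Matrix.SpecialLinearGroup (Fin 2) F)) : Matrix.SpecialLinearGroup (Fin 2) F → ℂ) := by
    by_cases h2 : (2 : F) = 0
    · have hq0 := CfsgLib.GL2a.cq0 (F := F)
      rcases CfsgLib.GL2a.classify_even h2 (⟨χ, hχ⟩ : Cfsg.IrrCharacter (Matrix.SpecialLinearGroup (Fin 2) F)) with h | h | h | h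
      · exfalso
        have : χ 1 = 1 := (congrFun (congrArg Subtype.val h) 1).trans (CfsgLib.GL2a.tS_apply 1)
        rw [hdeg] at this
        exact CfsgLib.GL2a.cq_ne_one this
      · exact congrArg Subtype.val h
      · exfalso
        have := CfsgLib.GL2a.AR_deg h
        change χ 1 = _ at this
        rw [hdeg] at this
        exact one_ne_zero (by linear_combination -this : (1 : ℂ) = 0)
      · exfalso
        have := CfsgLib.GL2a.cuspE_one h2 h
        change χ 1 = _ at this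
        rw [hdeg] at this
        exact one_ne_zero (by linear_combination this : (1 : ℂ) = 0)
    · exact congrArg Subtype.val ((CfsgLib.GL2a.deg_q_odd h2 (χ := (⟨χ, hχ⟩ : Cfsg.IrrCharacter (Matrix.SpecialLinearGroup (Fin 2) F)))).mp hdeg)
  have hd := CfsgLib.GL2a.sl_det g
  rw [CfsgLib.GL2a.det_e] at hd
  have hone : ∀ x : F, x ≠ 0 → (1 : MulChar F ℂ) x = 1 := fun x hx => MulChar.one_apply (isUnit_iff_ne_zero.mpr hx)
  have hv : χ g = CfsgLib.GL2a.Rf 1 1 (g : Matrix (Fin 2) (Fin 2) F) - 1 := by rw [hSt]; rfl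
  refine ⟨fun g01 g10 ha => ?_, fun hani => ?_, fun g10 gd g01 => ?_⟩
  · rw [g01, zero_mul, sub_zero] at hd
    have hne : (g : Matrix (Fin 2) (Fin 2) F) 0 0 ≠ (g : Matrix (Fin 2) (Fin 2) F) 1 1 := by
      intro e; apply ha; rw [sq]; nth_rewrite 2 [e]; exact hd
    rw [hv, CfsgLib.GL2a.Rf_up 1 1 g10 hne]
    have h0 : (g : Matrix (Fin 2) (Fin 2) F) 0 0 ≠ 0 := by intro h0; rw [h0, zero_mul] at hd; exact zero_ne_one hd
    have h3 : (g : Matrix (Fin 2) (Fin 2) F) 1 1 ≠ 0 := by intro h0; rw [h0, mul_zero] at hd; exact zero_ne_one hd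
    rw [hone _ h0, hone _ h3]; norm_num
  · rw [hv, CfsgLib.GL2a.Rf_aniso 1 1 hani]; norm_num
  · rw [g10, mul_zero, sub_zero] at hd
    have h0 : (g : Matrix (Fin 2) (Fin 2) F) 0 0 ≠ 0 := by intro h0; rw [h0, zero_mul] at hd; exact zero_ne_one hd
    rw [hv, CfsgLib.GL2a.Rf_par 1 1 g10 gd g01, hone _ h0]; norm_num

end Cfsg.Agent.S2321
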