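import Cfsg.Statements.S2322
import Cfsg.Agent.Lib.GLd4

set_option autoImplicit false
open Cfsg

namespace Cfsg.Agent.S2322

/-- Over a finite field F with q elements, q odd: every irreducible complex character of SL₂ of degree q − 1 or (q − 1)/2 vanishes at every diagonal matrix whose diagonal entry a has a² ≠ 1, and every irreducible complex character of degree q + 1 or (q + 1)/2 vanishes at every element with no eigenvector in F². -/
theorem result {F : Type*} [Field F] [Fintype F] (hodd : Odd (Fintype.card F)) (χ : Matrix.SpecialLinearGroup (Fin 2) F → ℂ) (hχ : Cfsg.IsIrrCharacter (Matrix.SpecialLinearGroup (Fin 2) F) χ) (g : Matrix.SpecialLinearGroup (Fin 2) F) :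
    ((χ 1 = (Fintype.card F : ℂ) - 1 ∨ χ 1 = (((Fintype.card F - 1) / 2 : ℕ) : ℂ)) →
      (g : Matrix (Fin 2) (Fin 2) F) 0 1 = 0 → (g : Matrix (Fin 2) (Fin 2) F) 1 0 = 0 → (g : Matrix (Fin 2) (Fin 2) F) 0 0 ^ 2 ≠ 1 → χ g = 0) ∧
    ((χ 1 = (Fintype.card F : ℂ) + 1 ∨ χ 1 = (((Fintype.card F + 1) / 2 : ℕ) : ℂ)) →
      (∀ (c : F) (v : Fin 2 → F), v ≠ 0 → (g : Matrix (Fin 2) (Fin 2) F).mulVec v ≠ c • v) → χ g = 0) := by
  classical
  have h2 := CfsgLib.GL2a.two_ne_of_odd hodd
  have h3 := CfsgLib.GL2a.card_q_ge h2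
  have hoc := CfsgLib.GL2a.odd_card h2
  refine ⟨fun hd g01 g10 ha => ?_, fun hd hani => ?_⟩
  · have h5 : 5 ≤ Fintype.card F := by
      by_contra hc
      have hc3 : Fintype.card F = 3 := by omega
      have hdet := CfsgLib.GL2a.sl_det g
      rw [CfsgLib.GL2a.det_e, g01, zero_mul, sub_zero] at hdet
      have ha0 : (g : Matrix (Fin 2) (Fin 2) F) 0 0 ≠ 0 := left_ne_zero_of_mul_eq_one hdet
      have h1 : ({0, 1, -1, (g : Matrix (Fin 2) (Fin 2) F) 0 0} : Finset F).card ≤ Fintype.card F := Finset.card_le_univ _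
      have hn1 : (1 : F) ≠ -1 := CfsgLib.GL2a.one_ne_neg h2
      rw [Finset.card_insert_of_notMem, Finset.card_insert_of_notMem, Finset.card_insert_of_notMem, Finset.card_singleton] at h1
      · omega
      · simp; rintro e; apply ha; rw [← e]; ring
      · simp; exact ⟨hn1, fun e => ha (by rw [← e]; ring)⟩
      · simp; exact fun e => ha0 e.symm
    have hz : CfsgLib.GL2a.o0 h2 (⟨χ, hχ⟩ : Cfsg.IrrCharacter (Matrix.SpecialLinearGroup (Fin 2) F)) = 0 := by
      rcases hd with hd | hd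
      · exact ((CfsgLib.GL2a.deg_qm_odd h2 h5 (χ := (⟨χ, hχ⟩ : Cfsg.IrrCharacter (Matrix.SpecialLinearGroup (Fin 2) F)))).mp hd).1
      · rcases (CfsgLib.GL2a.deg_hm_odd h2 h5 (χ := (⟨χ, hχ⟩ : Cfsg.IrrCharacter (Matrix.SpecialLinearGroup (Fin 2) F)))).mp hd with h | h
        · exact h.1
        · exact h.1
    refine CfsgLib.GL2a.cusp_split (CfsgLib.CharBasic.IsIrrCharacter.isCharacter hχ) ?_ g g01 g10 ha
    refine (CfsgLib.GL2a.sum_root h2 (⟨χ, hχ⟩ : Cfsg.IrrCharacter (Matrix.SpecialLinearGroup (Fin 2) F))).trans ?_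
    rw [hz]; simp
  · have htr := CfsgLib.GL2a.aniso_tr h2 hani
    have hHz : ∀ c : Cfsg.IrrCharacter (Matrix.SpecialLinearGroup (Fin 2) F), (c = CfsgLib.GL2a.H1 h2 ∨ c = CfsgLib.GL2a.H2 h2) → (c : Matrix.SpecialLinearGroup (Fin 2) F → ℂ) g = 0 := by
      intro c hc
      rw [CfsgLib.GL2a.H_val h2 hc g htr, CfsgLib.GL2a.Rf_aniso _ _ hani]; simp
    rcases hd with hd | hd
    · obtain ⟨α, h⟩ := (CfsgLib.GL2a.mem_AR _).mp ((CfsgLib.GL2a.deg_q1_odd h2 (χ := (⟨χ, hχ⟩ : Cfsg.IrrCharacter (Matrix.SpecialLinearGroup (Fin 2) F)))).mp hd)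
      have : χ g = _ := (congrFun (congrArg Subtype.val h) g).trans (CfsgLib.GL2a.Rc_apply α g)
      rw [this, CfsgLib.GL2a.Rf_aniso _ _ hani]
    · by_cases h5 : 5 ≤ Fintype.card F
      · exact hHz _ ((CfsgLib.GL2a.deg_hp_odd h2 h5 (χ := (⟨χ, hχ⟩ : Cfsg.IrrCharacter (Matrix.SpecialLinearGroup (Fin 2) F)))).mp hd)
      · have hc3 : Fintype.card F = 3 := by omega
        rw [CfsgLib.GL2a.half_p h2, hc3] at hd
        have cc := CfsgLib.GL2a.card_cuspO h2
        obtain ⟨c1, hc1⟩ := (Nat.card_eq_one_iff_unique.mp cc.2.1).2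
        obtain ⟨c2, hc2⟩ := (Nat.card_eq_one_iff_unique.mp cc.2.2).2
        have ot := CfsgLib.GL2a.o_t (F := F) h2
        have os := CfsgLib.GL2a.o_S (F := F) h2
        rcases CfsgLib.GL2a.kinds h2 (⟨χ, hχ⟩ : Cfsg.IrrCharacter (Matrix.SpecialLinearGroup (Fin 2) F)) with h | h | h | h | h | h | h
        · have e : χ 1 = 1 := (congrFun (congrArg Subtype.val h) 1).trans (CfsgLib.GL2a.tS_apply 1)
          rw [hd] at e; norm_num at e
        · have e : χ 1 = _ := (congrFun (congrArg Subtype.val h) 1).trans CfsgLib.GL2a.StS_one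
          rw [hd, hc3] at e; norm_num at e
        · have e : χ 1 = _ := CfsgLib.GL2a.AR_deg h
          rw [hd, hc3] at e; norm_num at e
        · exact hHz _ h
        · -- the cuspidal character of degree two
          have hsq := CfsgLib.CharAvg.sum_norm_sq g
          rw [CfsgLib.GL2a.card_cent_SL, CfsgLib.GL2a.card_CC_aniso hani (CfsgLib.GL2a.aniso_disc hani), hc3] at hsq
          have nlin : ∀ c : Cfsg.IrrCharacter (Matrix.SpecialLinearGroup (Fin 2) F), (c : Matrix.SpecialLinearGroup (Fin 2) F → ℂ) 1 = 1 → ‖(c : Matrix.SpecialLinearGroup (Fin 2) F → ℂ) g‖ = 1 := by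
            intro c hc
            obtain ⟨lam, hlam⟩ := CfsgLib.CharBasic.IsCharacter.exists_linear (CfsgLib.CharBasic.irr_isCharacter c) hc
            rw [hlam]; exact CfsgLib.CharBasic.norm_linear lam g
          have n1 : ‖(c1 : Matrix.SpecialLinearGroup (Fin 2) F → ℂ) g‖ = 1 := nlin c1 (by rw [CfsgLib.GL2a.C1_deg h2 hc1, hc3]; norm_num)
          have n2 : ‖(c2 : Matrix.SpecialLinearGroup (Fin 2) F → ℂ) g‖ = 1 := nlin c2 (by rw [CfsgLib.GL2a.C1'_deg h2 hc2, hc3]; norm_num)
          have n3 : ‖((CfsgLib.GL2a.tS : Cfsg.IrrCharacter (Matrix.SpecialLinearGroup (Fin 2) F)) : Matrix.SpecialLinearGroup (Fin 2) F → ℂ) g‖ = 1 := by rw [CfsgLib.GL2a.tS_apply]; simp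
          have n4 : ‖((CfsgLib.GL2a.StS : Cfsg.IrrCharacter (Matrix.SpecialLinearGroup (Fin 2) F)) : Matrix.SpecialLinearGroup (Fin 2) F → ℂ) g‖ = 1 := by
            rw [CfsgLib.GL2a.StS_apply, CfsgLib.GL2a.Rf_aniso _ _ hani]; simp
          have hle : ∑ c ∈ ({c1, c2, CfsgLib.GL2a.tS, CfsgLib.GL2a.StS, ⟨χ, hχ⟩} : Finset (Cfsg.IrrCharacter (Matrix.SpecialLinearGroup (Fin 2) F))), ‖(c : Matrix.SpecialLinearGroup (Fin 2) F → ℂ) g‖ ^ 2 ≤
              ∑ c : Cfsg.IrrCharacter (Matrix.SpecialLinearGroup (Fin 2) F), ‖(c : Matrix.SpecialLinearGroup (Fin 2) F → ℂ) g‖ ^ 2 :=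
            Finset.sum_le_sum_of_subset_of_nonneg (Finset.subset_univ _) (fun _ _ _ => by positivity)
          rw [hsq, Finset.sum_insert, Finset.sum_insert, Finset.sum_insert, Finset.sum_insert, Finset.sum_singleton, n1, n2, n3, n4] at hle
          · have : ‖χ g‖ ^ 2 ≤ 0 := by
              have e : ‖((⟨χ, hχ⟩ : Cfsg.IrrCharacter (Matrix.SpecialLinearGroup (Fin 2) F)) : Matrix.SpecialLinearGroup (Fin 2) F → ℂ) g‖ = ‖χ g‖ := rfl
              rw [e] at hle
              push_cast at hle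
              nlinarith [hle]
            have h0 : ‖χ g‖ = 0 := by nlinarith [norm_nonneg (χ g)]
            exact norm_eq_zero.mp h0
          · rw [Finset.mem_singleton]; intro e; have := os.1; rw [e, h.1] at this; omega
          · rw [Finset.mem_insert, Finset.mem_singleton]; rintro (e | e)
            · have := ot.2.1; rw [e, os.2.1] at this; omega
            · have := ot.1; rw [e, h.1] at this; omega
          · rw [Finset.mem_insert, Finset.mem_insert, Finset.mem_singleton]; rintro (e | e | e)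
            · have := hc2.1; rw [e, ot.1] at this; omega
            · have := hc2.1; rw [e, os.1] at this; omega
            · have := hc2.2.1; rw [e, h.2.1] at this; omega
          · rw [Finset.mem_insert, Finset.mem_insert, Finset.mem_insert, Finset.mem_singleton]; rintro (e | e | e | e)
            · have := hc1.2.1; rw [e, hc2.2.1] at this; omega
            · have := hc1.1; rw [e, ot.1] at this; omega
            · have := hc1.1; rw [e, os.1] at this; omega
            · have := hc1.2.2; rw [e, h.2.2] at this; omega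
        · have e : χ 1 = _ := CfsgLib.GL2a.C1_deg h2 h
          rw [hd, hc3] at e; norm_num at e
        · have e : χ 1 = _ := CfsgLib.GL2a.C1'_deg h2 h
          rw [hd, hc3] at e; norm_num at e

end Cfsg.Agent.S2322
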