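import Cfsg.Statements.S2323
import Cfsg.Agent.Lib.GLd4

set_option autoImplicit false
open Cfsg

namespace Cfsg.Agent.S2323

/-- Over a finite field F with q ≥ 4 elements, let u be the upper unitriangular matrix of SL₂ with off-diagonal entry 1. An irreducible complex character of SL₂ takes at u the value 1 if its degree is q + 1 and the value −1 if its degree is q − 1. -/
theorem result {F : Type*} [Field F] [Fintype F] (hq : 4 ≤ Fintype.card F) (χ : Matrix.SpecialLinearGroup (Fin 2) F → ℂ) (hχ : Cfsg.IsIrrCharacter (Matrix.SpecialLinearGroup (Fin 2) F) χ)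
    (u : Matrix.SpecialLinearGroup (Fin 2) F) (hu : (u : Matrix (Fin 2) (Fin 2) F) = !![1, 1; 0, 1]) :
    (χ 1 = (Fintype.card F : ℂ) + 1 → χ u = 1) ∧ (χ 1 = (Fintype.card F : ℂ) - 1 → χ u = -1) := by
  classical
  obtain rfl : u = CfsgLib.GL2a.uS := CfsgLib.GL2a.sl_ext (hu.trans CfsgLib.GL2a.uS_coe.symm)
  by_cases h2 : (2 : F) = 0
  · have hq0 := CfsgLib.GL2a.cq0 (F := F)
    have n1 := CfsgLib.GL2a.cq_ne (F := F) 1 (by omega)
    have n2 := CfsgLib.GL2a.cq_ne (F := F) 2 (by omega)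
    push_cast at n1 n2
    rcases CfsgLib.GL2a.classify_even h2 (⟨χ, hχ⟩ : Cfsg.IrrCharacter (Matrix.SpecialLinearGroup (Fin 2) F)) with h | h | h | h
    · have e : χ 1 = 1 := (congrFun (congrArg Subtype.val h) 1).trans (CfsgLib.GL2a.tS_apply 1)
      refine ⟨fun hd => ?_, fun hd => ?_⟩
      · rw [hd] at e; exact absurd (by linear_combination e) hq0
      · rw [hd] at e; exact absurd (by linear_combination e) n2
    · have e : χ 1 = _ := (congrFun (congrArg Subtype.val h) 1).trans CfsgLib.GL2a.StS_one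
      refine ⟨fun hd => ?_, fun hd => ?_⟩
      · rw [hd] at e; exact absurd (by linear_combination e : (1 : ℂ) = 0) one_ne_zero
      · rw [hd] at e; exact absurd (by linear_combination -e : (1 : ℂ) = 0) one_ne_zero
    · have e : χ 1 = _ := CfsgLib.GL2a.AR_deg h
      refine ⟨fun hd => CfsgLib.GL2a.AR_up h one_ne_zero, fun hd => ?_⟩
      rw [hd] at e; exact absurd (by linear_combination -e : (2 : ℂ) = 0) two_ne_zero
    · have e : χ 1 = _ := CfsgLib.GL2a.cuspE_one h2 h
      refine ⟨fun hd => ?_, fun hd => ?_⟩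
      · rw [hd] at e; exact absurd (by linear_combination e : (2 : ℂ) = 0) two_ne_zero
      · have := CfsgLib.GL2a.e_u h2 (⟨χ, hχ⟩ : Cfsg.IrrCharacter (Matrix.SpecialLinearGroup (Fin 2) F))
        rw [h.1, h.2] at this
        refine this.trans ?_
        norm_num
  · have h5 : 5 ≤ Fintype.card F := by
      have := CfsgLib.GL2a.odd_card h2
      omega
    refine ⟨fun hd => ?_, fun hd => ?_⟩
    · exact CfsgLib.GL2a.AR_up ((CfsgLib.GL2a.deg_q1_odd h2 (χ := (⟨χ, hχ⟩ : Cfsg.IrrCharacter (Matrix.SpecialLinearGroup (Fin 2) F)))).mp hd) one_ne_zero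
    · have h := (CfsgLib.GL2a.deg_qm_odd h2 h5 (χ := (⟨χ, hχ⟩ : Cfsg.IrrCharacter (Matrix.SpecialLinearGroup (Fin 2) F)))).mp hd
      have := CfsgLib.GL2a.o_u h2 (⟨χ, hχ⟩ : Cfsg.IrrCharacter (Matrix.SpecialLinearGroup (Fin 2) F))
      rw [h.1, h.2.1, h.2.2] at this
      refine this.trans ?_
      push_cast; ring

end Cfsg.Agent.S2323
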