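import Cfsg.Statements.S2324
import Cfsg.Agent.Lib.GLd4

set_option autoImplicit false
open Cfsg

namespace Cfsg.Agent.S2324

/-- Over a finite field F with q elements, q odd and q ≥ 5, let u be the upper unitriangular matrix of SL₂ with off-diagonal entry 1 and let δ = (−1)^((q−1)/2). Every irreducible complex character χ of SL₂ of degree (q + 1)/2 satisfies (2χ(u) − 1)² = δq, and every irreducible complex character χ of degree (q − 1)/2 satisfies (2χ(u) + 1)² = δq; that is, χ(u) = (1 ± √(δq))/2 in the first case and χ(u) = (−1 ± √(δq))/2 in the second. Moreover two different irreducible characters of degree (q + 1)/2 take the two different values (their values at u add up to 1), and likewise for degree (q − 1)/2 (values adding up to −1). -/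
theorem result {F : Type*} [Field F] [Fintype F] (hodd : Odd (Fintype.card F)) (hq : 5 ≤ Fintype.card F)
    (u : Matrix.SpecialLinearGroup (Fin 2) F) (hu : (u : Matrix (Fin 2) (Fin 2) F) = !![1, 1; 0, 1]) :
    (∀ χ : Matrix.SpecialLinearGroup (Fin 2) F → ℂ, Cfsg.IsIrrCharacter (Matrix.SpecialLinearGroup (Fin 2) F) χ → χ 1 = (((Fintype.card F + 1) / 2 : ℕ) : ℂ) → (2 * χ u - 1) ^ 2 = (-1 : ℂ) ^ ((Fintype.card F - 1) / 2) * (Fintype.card F : ℂ)) ∧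
    (∀ χ : Matrix.SpecialLinearGroup (Fin 2) F → ℂ, Cfsg.IsIrrCharacter (Matrix.SpecialLinearGroup (Fin 2) F) χ → χ 1 = (((Fintype.card F - 1) / 2 : ℕ) : ℂ) → (2 * χ u + 1) ^ 2 = (-1 : ℂ) ^ ((Fintype.card F - 1) / 2) * (Fintype.card F : ℂ)) ∧
    (∀ χ₁ χ₂ : Matrix.SpecialLinearGroup (Fin 2) F → ℂ, Cfsg.IsIrrCharacter (Matrix.SpecialLinearGroup (Fin 2) F) χ₁ → Cfsg.IsIrrCharacter (Matrix.SpecialLinearGroup (Fin 2) F) χ₂ → χ₁ ≠ χ₂ →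
      χ₁ 1 = (((Fintype.card F + 1) / 2 : ℕ) : ℂ) → χ₂ 1 = (((Fintype.card F + 1) / 2 : ℕ) : ℂ) → χ₁ u + χ₂ u = 1) ∧
    (∀ χ₁ χ₂ : Matrix.SpecialLinearGroup (Fin 2) F → ℂ, Cfsg.IsIrrCharacter (Matrix.SpecialLinearGroup (Fin 2) F) χ₁ → Cfsg.IsIrrCharacter (Matrix.SpecialLinearGroup (Fin 2) F) χ₂ → χ₁ ≠ χ₂ →
      χ₁ 1 = (((Fintype.card F - 1) / 2 : ℕ) : ℂ) → χ₂ 1 = (((Fintype.card F - 1) / 2 : ℕ) : ℂ) → χ₁ u + χ₂ u = -1) := by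
  classical
  have h2 := CfsgLib.GL2a.two_ne_of_odd hodd
  obtain rfl : u = CfsgLib.GL2a.uS := CfsgLib.GL2a.sl_ext (hu.trans CfsgLib.GL2a.uS_coe.symm)
  have hg := CfsgLib.GL2a.gs_sq (F := F) h2
  rw [CfsgLib.GL2a.eta_neg_one h2] at hg
  have hs := CfsgLib.GL2a.H_spec h2
  have u1 : (CfsgLib.GL2a.H1 h2 : Matrix.SpecialLinearGroup (Fin 2) F → ℂ) CfsgLib.GL2a.uS = 1 / 2 + CfsgLib.GL2a.gs F / 2 := by
    rw [CfsgLib.GL2a.o_u h2, hs.2.1.1, hs.2.1.2.1, hs.2.1.2.2]; push_cast; ring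
  have u2 : (CfsgLib.GL2a.H2 h2 : Matrix.SpecialLinearGroup (Fin 2) F → ℂ) CfsgLib.GL2a.uS = 1 / 2 - CfsgLib.GL2a.gs F / 2 := by
    rw [CfsgLib.GL2a.o_u h2, hs.2.2.1.1, hs.2.2.1.2.1, hs.2.2.1.2.2]; push_cast; ring
  have u3 : ∀ χ : Cfsg.IrrCharacter (Matrix.SpecialLinearGroup (Fin 2) F), (CfsgLib.GL2a.o0 h2 χ = 0 ∧ CfsgLib.GL2a.o1 h2 χ = 1 ∧ CfsgLib.GL2a.o2 h2 χ = 0) → (χ : Matrix.SpecialLinearGroup (Fin 2) F → ℂ) CfsgLib.GL2a.uS = -1 / 2 + CfsgLib.GL2a.gs F / 2 := by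
    intro χ h
    rw [CfsgLib.GL2a.o_u h2, h.1, h.2.1, h.2.2]; push_cast; ring
  have u4 : ∀ χ : Cfsg.IrrCharacter (Matrix.SpecialLinearGroup (Fin 2) F), (CfsgLib.GL2a.o0 h2 χ = 0 ∧ CfsgLib.GL2a.o1 h2 χ = 0 ∧ CfsgLib.GL2a.o2 h2 χ = 1) → (χ : Matrix.SpecialLinearGroup (Fin 2) F → ℂ) CfsgLib.GL2a.uS = -1 / 2 - CfsgLib.GL2a.gs F / 2 := by
    intro χ h
    rw [CfsgLib.GL2a.o_u h2, h.1, h.2.1, h.2.2]; push_cast; ring
  have c := CfsgLib.GL2a.card_cuspO h2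
  refine ⟨fun χ hχ hd => ?_, fun χ hχ hd => ?_, fun χ₁ χ₂ hχ₁ hχ₂ hne hd₁ hd₂ => ?_, fun χ₁ χ₂ hχ₁ hχ₂ hne hd₁ hd₂ => ?_⟩
  · rcases (CfsgLib.GL2a.deg_hp_odd h2 hq (χ := (⟨χ, hχ⟩ : Cfsg.IrrCharacter (Matrix.SpecialLinearGroup (Fin 2) F)))).mp hd with h | h
    · have e : χ CfsgLib.GL2a.uS = _ := (congrFun (congrArg Subtype.val h) CfsgLib.GL2a.uS).trans u1
      rw [e, ← hg]; ring
    · have e : χ CfsgLib.GL2a.uS = _ := (congrFun (congrArg Subtype.val h) CfsgLib.GL2a.uS).trans u2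
      rw [e, ← hg]; ring
  · rcases (CfsgLib.GL2a.deg_hm_odd h2 hq (χ := (⟨χ, hχ⟩ : Cfsg.IrrCharacter (Matrix.SpecialLinearGroup (Fin 2) F)))).mp hd with h | h
    · have e : χ CfsgLib.GL2a.uS = _ := u3 _ h
      rw [e, ← hg]; ring
    · have e : χ CfsgLib.GL2a.uS = _ := u4 _ h
      rw [e, ← hg]; ring
  · rcases (CfsgLib.GL2a.deg_hp_odd h2 hq (χ := (⟨χ₁, hχ₁⟩ : Cfsg.IrrCharacter (Matrix.SpecialLinearGroup (Fin 2) F)))).mp hd₁ with h | h <;>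
    rcases (CfsgLib.GL2a.deg_hp_odd h2 hq (χ := (⟨χ₂, hχ₂⟩ : Cfsg.IrrCharacter (Matrix.SpecialLinearGroup (Fin 2) F)))).mp hd₂ with h' | h'
    · exact absurd (congrArg Subtype.val (h.trans h'.symm)) hne
    · have e1 : χ₁ CfsgLib.GL2a.uS = _ := (congrFun (congrArg Subtype.val h) CfsgLib.GL2a.uS).trans u1
      have e2 : χ₂ CfsgLib.GL2a.uS = _ := (congrFun (congrArg Subtype.val h') CfsgLib.GL2a.uS).trans u2
      rw [e1, e2]; ring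
    · have e1 : χ₁ CfsgLib.GL2a.uS = _ := (congrFun (congrArg Subtype.val h) CfsgLib.GL2a.uS).trans u2
      have e2 : χ₂ CfsgLib.GL2a.uS = _ := (congrFun (congrArg Subtype.val h') CfsgLib.GL2a.uS).trans u1
      rw [e1, e2]; ring
    · exact absurd (congrArg Subtype.val (h.trans h'.symm)) hne
  · have un1 : ∀ a b : Cfsg.IrrCharacter (Matrix.SpecialLinearGroup (Fin 2) F), (CfsgLib.GL2a.o0 h2 a = 0 ∧ CfsgLib.GL2a.o1 h2 a = 1 ∧ CfsgLib.GL2a.o2 h2 a = 0) → (CfsgLib.GL2a.o0 h2 b = 0 ∧ CfsgLib.GL2a.o1 h2 b = 1 ∧ CfsgLib.GL2a.o2 h2 b = 0) → a = b := by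
      intro a b ha hb
      have := (Nat.card_eq_one_iff_unique.mp c.2.1).1
      exact congrArg Subtype.val (this.elim ⟨a, ha⟩ ⟨b, hb⟩)
    have un2 : ∀ a b : Cfsg.IrrCharacter (Matrix.SpecialLinearGroup (Fin 2) F), (CfsgLib.GL2a.o0 h2 a = 0 ∧ CfsgLib.GL2a.o1 h2 a = 0 ∧ CfsgLib.GL2a.o2 h2 a = 1) → (CfsgLib.GL2a.o0 h2 b = 0 ∧ CfsgLib.GL2a.o1 h2 b = 0 ∧ CfsgLib.GL2a.o2 h2 b = 1) → a = b := by
      intro a b ha hb
      have := (Nat.card_eq_one_iff_unique.mp c.2.2).1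
      exact congrArg Subtype.val (this.elim ⟨a, ha⟩ ⟨b, hb⟩)
    rcases (CfsgLib.GL2a.deg_hm_odd h2 hq (χ := (⟨χ₁, hχ₁⟩ : Cfsg.IrrCharacter (Matrix.SpecialLinearGroup (Fin 2) F)))).mp hd₁ with h | h <;>
    rcases (CfsgLib.GL2a.deg_hm_odd h2 hq (χ := (⟨χ₂, hχ₂⟩ : Cfsg.IrrCharacter (Matrix.SpecialLinearGroup (Fin 2) F)))).mp hd₂ with h' | h'
    · exact absurd (congrArg Subtype.val (un1 _ _ h h')) hne
    · have e1 : χ₁ CfsgLib.GL2a.uS = _ := u3 _ h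
      have e2 : χ₂ CfsgLib.GL2a.uS = _ := u4 _ h'
      rw [e1, e2]; ring
    · have e1 : χ₁ CfsgLib.GL2a.uS = _ := u4 _ h
      have e2 : χ₂ CfsgLib.GL2a.uS = _ := u3 _ h'
      rw [e1, e2]; ring
    · exact absurd (congrArg Subtype.val (un2 _ _ h h')) hne

end Cfsg.Agent.S2324
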