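import Cfsg.Statements.S2329
import Cfsg.Agent.Lib.GLa4

set_option autoImplicit false
open Cfsg

namespace Cfsg.Agent.S2329

/-- Over a finite field of characteristic p, any two elements of order p of GL₂ are conjugate: there is a single conjugacy class of non-identity unipotent elements. -/
theorem result {F : Type*} [Field F] [Fintype F] (p : ℕ) [Fact p.Prime] [CharP F p] (g h : Matrix.GeneralLinearGroup (Fin 2) F)
    (hg : orderOf g = p) (hh : orderOf h = p) : IsConj g h := by
  have key : ∀ g : Matrix.GeneralLinearGroup (Fin 2) F, orderOf g = p → (g : Matrix (Fin 2) (Fin 2) F).trace = 2 ∧ (g : Matrix (Fin 2) (Fin 2) F).det = 1 ∧ ¬ CfsgLib.GL2a.IsScal (g : Matrix (Fin 2) (Fin 2) F) := by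
    intro g hg
    refine CfsgLib.GL2a.unip_data p ?_ ?_
    · have : g ^ p = 1 := by rw [← hg]; exact pow_orderOf_eq_one g
      have := congrArg (fun x : Matrix.GeneralLinearGroup (Fin 2) F => (x : Matrix (Fin 2) (Fin 2) F)) this
      simpa using this
    · intro e
      have : g = 1 := Units.ext e
      rw [this, orderOf_one] at hg
      exact (Fact.out : p.Prime).one_lt.ne hg
  obtain ⟨t1, d1, s1⟩ := key g hg
  obtain ⟨t2, d2, s2⟩ := key h hh
  exact CfsgLib.GL2a.gl_isConj s1 s2 (t1.trans t2.symm) (d1.trans d2.symm)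

end Cfsg.Agent.S2329
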