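import Cfsg.Statements.S2363
import Cfsg.Agent.Lib.KF2
import Cfsg.Agent.S0243
import Cfsg.Agent.S0245
import Cfsg.Agent.S0246
import Cfsg.Agent.S0280
import Cfsg.Agent.S0292
import Cfsg.Agent.S0293
import Cfsg.Agent.S0294
import Cfsg.Agent.S1059
import Cfsg.Agent.S1062
import Cfsg.Agent.S1063
import Cfsg.Agent.S1064
import Cfsg.Agent.S1065
import Cfsg.Agent.S1066
import Cfsg.Agent.S1067
import Cfsg.Agent.S1068
import Cfsg.Agent.S1069
import Cfsg.Agent.S1163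

set_option autoImplicit false
open Cfsg

namespace Cfsg.Agent.S2363

open CfsgLib.KF

theorem charF {p : ℕ} (hp : p.Prime) (F : Type) [Field F] [Fintype F] [CharP F p] : ∃ a, 1 ≤ a ∧ Fintype.card F = p ^ a := by
  haveI : Fact p.Prime := ⟨hp⟩
  obtain ⟨n, -, h⟩ := FiniteField.card F p
  exact ⟨n, n.2, h⟩

theorem charQ {p : ℕ} (hp : p.Prime) (F : Type) [Field F] [Fintype F] [CharP F p] {q k : ℕ} (hk : k ≠ 0) (h : Fintype.card F = q ^ k) :
    ∃ a, 1 ≤ a ∧ q = p ^ a := by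
  obtain ⟨b, hb, h1⟩ := charF hp F
  have h2 : q ∣ p ^ b := by rw [← h1, h]; exact dvd_pow_self q hk
  obtain ⟨a, -, h3⟩ := (Nat.dvd_prime_pow hp).mp h2
  refine ⟨a, ?_, h3⟩
  by_contra h4
  have h5 : a = 0 := by omega
  rw [h5, pow_zero] at h3
  rw [h3, one_pow] at h
  have := Fintype.one_lt_card (α := F)
  omega

theorem two_le' {p a q : ℕ} (hp : p.Prime) (hq : q = p ^ a) (ha : 1 ≤ a) : 2 ≤ q := by
  rw [hq]
  exact hp.two_le.trans (Nat.le_self_pow (by omega) p)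

theorem nprime_of_eq {p a b : ℕ} (hp : p.Prime) (ha : 1 ≤ a) (h : p ^ a = 2 ^ b) : p = 2 := by
  have h1 : p ∣ 2 ^ b := by rw [← h]; exact dvd_pow_self p (by omega)
  exact (Nat.prime_dvd_prime_iff_eq hp Nat.prime_two).mp (hp.dvd_of_dvd_pow h1)

def Good (p g : ℕ) : Prop := g < p ^ (3 * g.factorization p) ∧ g ^ 3 < p ^ (8 * g.factorization p)

theorem good {p q a N M c R g : ℕ} (hp : p.Prime) (hq : q = p ^ a) (ha : 1 ≤ a) (h : c * g = q ^ N * R) (hg : 0 < g)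
    (hc : ¬ p ∣ c) (hR : ¬ p ∣ R) (hM : M ≠ 0) (hle : R ≤ c * q ^ M) (hNM : 3 * M ≤ 5 * N) : Good p g := by
  obtain ⟨h1, h2⟩ := bd hp hq ha h hg hc hR hM hle
  exact fin hp h1 h2 hNM

theorem nd_one {p : ℕ} (hp : p.Prime) : ¬ p ∣ 1 := fun h => hp.one_lt.ne' (Nat.dvd_one.mp h)

section
variable {p q a : ℕ} (hp : p.Prime) (hq : q = p ^ a) (ha : 1 ≤ a)
include hp hq ha

theorem ndm (i : ℕ) (hi : i ≠ 0) : ¬ p ∣ q ^ i - 1 :=
  nd_sub hp (dq hq ha hi) (pow_pos (by have := two_le' hp hq ha; omega) _)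
theorem ndp (i : ℕ) (hi : i ≠ 0) : ¬ p ∣ q ^ i + 1 := nd_add hp (dq hq ha hi)
theorem ndg (n : ℕ) : ¬ p ∣ Nat.gcd n (q - 1) := by
  refine nd_dvd (Nat.gcd_dvd_right _ _) ?_
  have := ndm hp hq ha 1 one_ne_zero
  rwa [pow_one] at this
theorem ndg' (n : ℕ) : ¬ p ∣ Nat.gcd n (q + 1) := by
  refine nd_dvd (Nat.gcd_dvd_right _ _) ?_
  have := ndp hp hq ha 1 one_ne_zero
  rwa [pow_one] at this
theorem cpos {c : ℕ} (hc : ¬ p ∣ c) : 1 ≤ c := Nat.one_le_iff_ne_zero.mpr fun h => hc (h ▸ dvd_zero _)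

theorem le_c {c R M : ℕ} (hc : ¬ p ∣ c) (h : R ≤ q ^ M) : R ≤ c * q ^ M :=
  h.trans (Nat.le_mul_of_pos_left _ (cpos hp hq ha hc))

theorem gPSL2 {g : ℕ} (hg : 0 < g) (h : Nat.gcd 2 (q - 1) * ((q - 1) * g) = ∏ i : Fin 2, (q ^ 2 - q ^ (i : ℕ))) :
    g.factorization p = a ∧ g < p ^ (3 * g.factorization p) := by
  have h2 := two_le' hp hq ha
  have e : ∏ i : Fin 2, (q ^ 2 - q ^ (i : ℕ)) = (q - 1) * (q ^ 1 * (q ^ 2 - 1)) := by
    rw [Fin.prod_univ_two]
    simp only [Fin.val_zero, Fin.val_one, pow_zero, pow_one]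
    rw [sq]
    have : q * q - q = q * (q - 1) := by rw [Nat.mul_sub, mul_one]
    rw [this]; ring
  rw [e, mul_left_comm] at h
  have h' := Nat.eq_of_mul_eq_mul_left (by omega : 0 < q - 1) h
  obtain ⟨h1, h3⟩ := bd hp hq ha h' hg (ndg hp hq ha 2) (ndm hp hq ha 2 two_ne_zero) two_ne_zero
    (le_c hp hq ha (ndg hp hq ha 2) (Nat.sub_le _ _))
  rw [mul_one] at h1
  refine ⟨h1, ?_⟩
  rw [h1]
  convert h3 using 2
  ring

theorem gPSL {g n : ℕ} (hg : 0 < g) (hn : 3 ≤ n) (h : Nat.gcd n (q - 1) * ((q - 1) * g) = ∏ i : Fin n, (q ^ n - q ^ (i : ℕ))) :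
    Good p g := by
  have h2 := two_le' hp hq ha
  have e : ∏ i : Fin n, (q ^ n - q ^ (i : ℕ)) = (q - 1) * (q ^ (n * (n - 1) / 2) * ∏ i ∈ Finset.range (n - 1), (q ^ (i + 2) - 1)) := by
    have e1 : ∏ i : Fin n, (q ^ n - q ^ (i : ℕ)) = ∏ i ∈ Finset.range n, (q ^ i * (q ^ (n - i) - 1)) := by
      rw [← Fin.prod_univ_eq_prod_range (fun i => q ^ i * (q ^ (n - i) - 1))]
      refine Finset.prod_congr rfl fun i _ => ?_
      rw [Nat.mul_sub, mul_one, ← pow_add]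
      congr 2
      omega
    rw [e1, Finset.prod_mul_distrib, Finset.prod_pow_eq_pow_sum, Finset.sum_range_id, mul_left_comm]
    congr 1
    have e2 : ∏ i ∈ Finset.range n, (q ^ (n - i) - 1) = ∏ i ∈ Finset.range n, (q ^ (i + 1) - 1) := by
      rw [← Finset.prod_range_reflect]
      refine Finset.prod_congr rfl fun i hi => ?_
      rw [Finset.mem_range] at hi
      congr 2
      omega
    rw [e2]
    obtain ⟨k, rfl⟩ : ∃ k, n = k + 1 := ⟨n - 1, by omega⟩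
    rw [Finset.prod_range_succ', mul_comm]
    simp only [zero_add, pow_one, Nat.add_sub_cancel]
  rw [e, mul_left_comm] at h
  have h' := Nat.eq_of_mul_eq_mul_left (by omega : 0 < q - 1) h
  refine good hp hq ha h' hg (ndg hp hq ha n) (nd_prod hp _ _ fun i _ => ndm hp hq ha _ (by omega)) (M := (n - 1) * (n - 1 + 3) / 2) ?_
    (le_c hp hq ha (ndg hp hq ha n) (prod1_le h2 _)) ?_
  · obtain ⟨k, rfl⟩ : ∃ k, n = k + 3 := ⟨n - 3, by omega⟩
    have : (k + 3 - 1) * (k + 3 - 1 + 3) = k * k + 7 * k + 10 := by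
      rw [show k + 3 - 1 = k + 2 by omega]; ring
    rw [this]; omega
  · obtain ⟨k, rfl⟩ : ∃ k, n = k + 3 := ⟨n - 3, by omega⟩
    rw [show k + 3 - 1 = k + 2 by omega]
    have e3 : (k + 2) * (k + 2 + 3) = k * k + 7 * k + 10 := by ring
    have e4 : (k + 3) * (k + 2) = k * k + 5 * k + 6 := by ring
    have e5 : 0 ≤ k * k := Nat.zero_le _
    rw [e3, e4]
    have e6 : (k * k + 5 * k) % 2 = 0 := by
      rcases Nat.even_or_odd' k with ⟨j, rfl | rfl⟩
      · have : 2 * j * (2 * j) + 5 * (2 * j) = 2 * (2 * j * j + 5 * j) := by ring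
        omega
      · have : (2 * j + 1) * (2 * j + 1) + 5 * (2 * j + 1) = 2 * (2 * j * j + 7 * j + 3) := by ring
        omega
    omega

theorem gPSU {g n : ℕ} (hg : 0 < g) (hn : 3 ≤ n) (h : Nat.gcd n (q + 1) * ((q + 1) * g) =
    q ^ (n * (n - 1) / 2) * ∏ i ∈ Finset.range n, (if Even i then q ^ (i + 1) + 1 else q ^ (i + 1) - 1)) : Good p g := by
  have h2 := two_le' hp hq ha
  have e : ∏ i ∈ Finset.range n, (if Even i then q ^ (i + 1) + 1 else q ^ (i + 1) - 1) =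
      (q + 1) * ∏ i ∈ Finset.range (n - 1), (if Even (i + 1) then q ^ (i + 2) + 1 else q ^ (i + 2) - 1) := by
    obtain ⟨k, rfl⟩ : ∃ k, n = k + 1 := ⟨n - 1, by omega⟩
    rw [Finset.prod_range_succ', mul_comm]
    simp only [zero_add, pow_one, Nat.add_sub_cancel, Even.zero, if_true]
  rw [e, mul_left_comm, mul_left_comm (q ^ _)] at h
  have h' := Nat.eq_of_mul_eq_mul_left (by omega : 0 < q + 1) h
  refine good hp hq ha h' hg (ndg' hp hq ha n) (nd_prod hp _ _ fun i _ => ?_) (M := (n - 1) * (n - 1 + 3) / 2) ?_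
    (le_c hp hq ha (ndg' hp hq ha n) (produ_le' h2 _)) ?_
  · split_ifs
    · exact ndp hp hq ha _ (by omega)
    · exact ndm hp hq ha _ (by omega)
  · obtain ⟨k, rfl⟩ : ∃ k, n = k + 3 := ⟨n - 3, by omega⟩
    have : (k + 3 - 1) * (k + 3 - 1 + 3) = k * k + 7 * k + 10 := by
      rw [show k + 3 - 1 = k + 2 by omega]; ring
    rw [this]; omega
  · obtain ⟨k, rfl⟩ : ∃ k, n = k + 3 := ⟨n - 3, by omega⟩
    rw [show k + 3 - 1 = k + 2 by omega]
    have e3 : (k + 2) * (k + 2 + 3) = k * k + 7 * k + 10 := by ring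
    have e4 : (k + 3) * (k + 2) = k * k + 5 * k + 6 := by ring
    rw [e3, e4]
    have e6 : (k * k + 5 * k) % 2 = 0 := by
      rcases Nat.even_or_odd' k with ⟨j, rfl | rfl⟩
      · have : 2 * j * (2 * j) + 5 * (2 * j) = 2 * (2 * j * j + 5 * j) := by ring
        omega
      · have : (2 * j + 1) * (2 * j + 1) + 5 * (2 * j + 1) = 2 * (2 * j * j + 7 * j + 3) := by ring
        omega
    omega

theorem gBC {g c m : ℕ} (hg : 0 < g) (hm : 2 ≤ m) (hc : ¬ p ∣ c) (h : c * g = q ^ (m ^ 2) * ∏ i ∈ Finset.range m, (q ^ (2 * (i + 1)) - 1)) :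
    Good p g := by
  have h2 := two_le' hp hq ha
  refine good hp hq ha h hg hc (nd_prod hp _ _ fun i _ => ndm hp hq ha _ (by omega)) (M := m * (m + 1)) (by positivity)
    (le_c hp hq ha hc (prod2_le h2 _)) (by nlinarith)

theorem gD {g c m : ℕ} (hg : 0 < g) (hm : 4 ≤ m) (hc : ¬ p ∣ c)
    (h : c * g = q ^ (m * (m - 1)) * (q ^ m - 1) * ∏ i ∈ Finset.range (m - 1), (q ^ (2 * (i + 1)) - 1)) : Good p g := by
  have h2 := two_le' hp hq ha
  obtain ⟨k, rfl⟩ : ∃ k, m = k + 1 := ⟨m - 1, by omega⟩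
  rw [Nat.add_sub_cancel, mul_assoc] at h
  refine good hp hq ha h hg hc (nd_mul hp (ndm hp hq ha _ (by omega)) (nd_prod hp _ _ fun i _ => ndm hp hq ha _ (by omega)))
    (M := (k + 1) + k * (k + 1)) (by positivity)
    (le_c hp hq ha hc ?_) (by nlinarith)
  rw [pow_add q (k + 1) (k * (k + 1))]
  exact Nat.mul_le_mul (Nat.sub_le _ _) (prod2_le h2 _)

theorem gD' {g c m : ℕ} (hg : 0 < g) (hm : 4 ≤ m) (hc : ¬ p ∣ c)
    (h : c * g = q ^ (m * (m - 1)) * (q ^ m + 1) * ∏ i ∈ Finset.range (m - 1), (q ^ (2 * (i + 1)) - 1)) : Good p g := by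
  have h2 := two_le' hp hq ha
  obtain ⟨k, rfl⟩ : ∃ k, m = k + 1 := ⟨m - 1, by omega⟩
  rw [Nat.add_sub_cancel, mul_assoc] at h
  refine good hp hq ha h hg hc (nd_mul hp (ndp hp hq ha _ (by omega)) (nd_prod hp _ _ fun i _ => ndm hp hq ha _ (by omega)))
    (M := (k + 2) + k * (k + 1)) (by positivity)
    (le_c hp hq ha hc ?_) (by nlinarith)
  rw [pow_add q (k + 2) (k * (k + 1))]
  refine Nat.mul_le_mul ?_ (prod2_le h2 _)
  have h3 : q ^ (k + 2) = q * q ^ (k + 1) := by ring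
  have h4 : 1 ≤ q ^ (k + 1) := Nat.one_le_pow _ _ (by omega)
  rw [h3]; nlinarith

end

theorem of_good {G : Type*} [Group G] {p : ℕ} (h : Good p (Nat.card G)) : Nat.card G < p ^ (3 * (Nat.card G).factorization p) ∧
      ((¬ ∃ (F : Type) (_ : Field F) (_ : Fintype F), Fintype.card F = p ^ (Nat.card G).factorization p ∧
          Nonempty (G ≃* Matrix.ProjectiveSpecialLinearGroup (Fin 2) F)) →
        Nat.card G ^ 3 < p ^ (8 * (Nat.card G).factorization p)) := ⟨h.1, fun _ => h.2⟩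

/-- Let G be a finite simple group of Lie type in characteristic p and let p^k be the exact power of p dividing the order of G. Then the order of G is less than p^(3k); and unless G is isomorphic to PSL(2, F) for the field F with p^k elements, the cube of the order of G is less than p^(8k) (that is, the order is below p^(8k/3)). -/
theorem result {G : Type*} [Group G] [Finite G] (p : ℕ) (hp : p.Prime) (hG : Cfsg.IsLieTypeChar p G) :
    Nat.card G < p ^ (3 * (Nat.card G).factorization p) ∧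
      ((¬ ∃ (F : Type) (_ : Field F) (_ : Fintype F), Fintype.card F = p ^ (Nat.card G).factorization p ∧
          Nonempty (G ≃* Matrix.ProjectiveSpecialLinearGroup (Fin 2) F)) →
        Nat.card G ^ 3 < p ^ (8 * (Nat.card G).factorization p)) := by
  have hg : 0 < Nat.card G := Nat.card_pos
  rcases hG with ⟨F, _, _, _, n, hn, h4, ⟨e⟩⟩ | ⟨F, _, _, _, m, hm, h3, ⟨e⟩⟩ | ⟨F, _, _, _, n, q, hF, hn, h3, ⟨e⟩⟩ |
    ⟨F, _, _, _, m, hm, hodd, ⟨e⟩⟩ | ⟨F, _, _, _, m, hm, ⟨e⟩⟩ | ⟨F, _, _, _, m, x, y, hm, hxy, ⟨e⟩⟩ |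
    ⟨F, _, _, _, h⟩ | ⟨K, _, _, _, q, hq, h⟩ | ⟨rfl, F, _, _, m, hm, hF, ⟨e⟩⟩ | ⟨rfl, F, _, _, m, hm, hF, ⟨e⟩⟩ | ⟨rfl, F, _, _, m, hm, hF, ⟨e⟩⟩
  · obtain ⟨a, ha, hq⟩ := charF hp F
    have hc := Cfsg.Agent.S0243.result (F := F) rfl n hn
    rw [← Nat.card_congr e.toEquiv] at hc
    rcases Nat.eq_or_lt_of_le hn with h2 | h2
    · subst h2
      obtain ⟨h5, h6⟩ := gPSL2 hp hq ha hg hc
      refine ⟨h6, fun h7 => absurd ⟨F, inferInstance, inferInstance, ?_, ⟨e⟩⟩ h7⟩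
      rw [h5, hq]
    · exact of_good (gPSL hp hq ha hg h2 hc)
  · obtain ⟨a, ha, hq⟩ := charF hp F
    have h1 := Cfsg.Agent.S0245.result (F := F) rfl m
    have h2 := Cfsg.Agent.S0246.result (F := F) rfl m (by omega)
    have h5 := Subgroup.card_eq_card_quotient_mul_card_subgroup (Subgroup.center (Matrix.symplecticGroup (Fin m) F))
    rw [h1, h2, mul_comm, ← Nat.card_congr e.toEquiv] at h5
    rw [mul_comm] at h5
    exact of_good (gBC hp hq ha hg hm (ndg hp hq ha 2) (by rw [mul_comm]; exact h5.symm))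
  · obtain ⟨a, ha, hq⟩ := charQ hp F two_ne_zero hF
    have hc := Cfsg.Agent.S0280.result (F := F) hF n (by omega)
    rw [← Nat.card_congr e.toEquiv] at hc
    exact of_good (gPSU hp hq ha hg hn hc)
  · obtain ⟨a, ha, hq⟩ := charF hp F
    have hc := Cfsg.Agent.S0292.result (F := F) rfl hodd m hm
    rw [← Nat.card_congr e.toEquiv] at hc
    refine of_good (gBC hp hq ha hg (by omega) ?_ hc)
    intro h2
    have h3 := (Nat.prime_dvd_prime_iff_eq hp Nat.prime_two).mp h2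
    subst h3
    rw [hq] at hodd
    exact (Nat.not_even_iff_odd.mpr hodd) ((Nat.even_pow.mpr ⟨even_two, by omega⟩))
  · obtain ⟨a, ha, hq⟩ := charF hp F
    have hc := Cfsg.Agent.S0293.result (F := F) rfl m hm
    rw [← Nat.card_congr e.toEquiv] at hc
    exact of_good (gD hp hq ha hg hm (nd_dvd (Nat.gcd_dvd_right _ _) (ndm hp hq ha _ (by omega))) hc)
  · obtain ⟨a, ha, hq⟩ := charF hp F
    have hc := Cfsg.Agent.S0294.result (F := F) rfl m hm x y hxy
    rw [← Nat.card_congr e.toEquiv] at hc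
    exact of_good (gD' hp hq ha hg hm (nd_dvd (Nat.gcd_dvd_right _ _) (ndp hp hq ha _ (by omega))) hc)
  · obtain ⟨a, ha, hq⟩ := charF hp F
    have m1 := ndm hp hq ha
    have s1 : ∀ i, Fintype.card F ^ i - 1 ≤ Fintype.card F ^ i := fun i => Nat.sub_le _ _
    rcases h with ⟨-, ⟨e⟩⟩ | ⟨⟨e⟩⟩ | ⟨⟨e⟩⟩ | ⟨⟨e⟩⟩ | ⟨⟨e⟩⟩
    · have hc := Cfsg.Agent.S1059.result (F := F) rfl
      rw [← Nat.card_congr e.toEquiv] at hc
      refine of_good (good hp hq ha (c := 1) (N := 6) (M := 2 + 6) (R := (Fintype.card F ^ 2 - 1) * (Fintype.card F ^ 6 - 1)) (by rw [hc]; ring) hg (nd_one hp) (nd_mul hp (m1 _ (by norm_num)) (m1 _ (by norm_num))) (by norm_num) ?_ (by norm_num))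
      rw [one_mul, pow_add]
      exact Nat.mul_le_mul (s1 _) (s1 _)
    · have hc := Cfsg.Agent.S1062.result (F := F) rfl
      rw [← Nat.card_congr e.toEquiv] at hc
      refine of_good (good hp hq ha (c := 1) (N := 24) (M := 2 + 6 + 8 + 12) (R := (Fintype.card F ^ 2 - 1) * (Fintype.card F ^ 6 - 1) * (Fintype.card F ^ 8 - 1) * (Fintype.card F ^ 12 - 1)) (by rw [hc]; ring) hg (nd_one hp)
        (nd_mul hp (nd_mul hp (nd_mul hp (m1 _ (by norm_num)) (m1 _ (by norm_num))) (m1 _ (by norm_num))) (m1 _ (by norm_num))) (by norm_num) ?_ (by norm_num))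
      rw [one_mul]
      simp only [pow_add]
      exact Nat.mul_le_mul (Nat.mul_le_mul (Nat.mul_le_mul (s1 _) (s1 _)) (s1 _)) (s1 _)
    · have hc := Cfsg.Agent.S1063.result (F := F) rfl
      rw [← Nat.card_congr e.toEquiv] at hc
      refine of_good (good hp hq ha (N := 36) (M := 2 + 5 + 6 + 8 + 9 + 12) (R := (Fintype.card F ^ 2 - 1) * (Fintype.card F ^ 5 - 1) * (Fintype.card F ^ 6 - 1) * (Fintype.card F ^ 8 - 1) * (Fintype.card F ^ 9 - 1) * (Fintype.card F ^ 12 - 1)) (hc.trans (by ring)) hg (ndg hp hq ha 3)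
        (nd_mul hp (nd_mul hp (nd_mul hp (nd_mul hp (nd_mul hp (m1 _ (by norm_num)) (m1 _ (by norm_num))) (m1 _ (by norm_num))) (m1 _ (by norm_num))) (m1 _ (by norm_num))) (m1 _ (by norm_num))) (by norm_num)
        (le_c hp hq ha (ndg hp hq ha 3) ?_) (by norm_num))
      simp only [pow_add]
      exact Nat.mul_le_mul (Nat.mul_le_mul (Nat.mul_le_mul (Nat.mul_le_mul (Nat.mul_le_mul (s1 _) (s1 _)) (s1 _)) (s1 _)) (s1 _)) (s1 _)
    · have hc := Cfsg.Agent.S1064.result (F := F) rfl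
      rw [← Nat.card_congr e.toEquiv] at hc
      refine of_good (good hp hq ha (N := 63) (M := 2 + 6 + 8 + 10 + 12 + 14 + 18) (R := (Fintype.card F ^ 2 - 1) * (Fintype.card F ^ 6 - 1) * (Fintype.card F ^ 8 - 1) * (Fintype.card F ^ 10 - 1) * (Fintype.card F ^ 12 - 1) * (Fintype.card F ^ 14 - 1) * (Fintype.card F ^ 18 - 1)) (hc.trans (by ring)) hg (ndg hp hq ha 2)
        (nd_mul hp (nd_mul hp (nd_mul hp (nd_mul hp (nd_mul hp (nd_mul hp (m1 _ (by norm_num)) (m1 _ (by norm_num))) (m1 _ (by norm_num))) (m1 _ (by norm_num))) (m1 _ (by norm_num))) (m1 _ (by norm_num))) (m1 _ (by norm_num))) (by norm_num)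
        (le_c hp hq ha (ndg hp hq ha 2) ?_) (by norm_num))
      simp only [pow_add]
      exact Nat.mul_le_mul (Nat.mul_le_mul (Nat.mul_le_mul (Nat.mul_le_mul (Nat.mul_le_mul (Nat.mul_le_mul (s1 _) (s1 _)) (s1 _)) (s1 _)) (s1 _)) (s1 _)) (s1 _)
    · have hc := Cfsg.Agent.S1065.result (F := F) rfl
      rw [← Nat.card_congr e.toEquiv] at hc
      refine of_good (good hp hq ha (c := 1) (N := 120) (M := 2 + 8 + 12 + 14 + 18 + 20 + 24 + 30) (R := (Fintype.card F ^ 2 - 1) * (Fintype.card F ^ 8 - 1) * (Fintype.card F ^ 12 - 1) * (Fintype.card F ^ 14 - 1) * (Fintype.card F ^ 18 - 1) * (Fintype.card F ^ 20 - 1) * (Fintype.card F ^ 24 - 1) * (Fintype.card F ^ 30 - 1)) (by rw [one_mul, hc]; ring) hg (nd_one hp)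
        (nd_mul hp (nd_mul hp (nd_mul hp (nd_mul hp (nd_mul hp (nd_mul hp (nd_mul hp (m1 _ (by norm_num)) (m1 _ (by norm_num))) (m1 _ (by norm_num))) (m1 _ (by norm_num))) (m1 _ (by norm_num))) (m1 _ (by norm_num))) (m1 _ (by norm_num))) (m1 _ (by norm_num))) (by norm_num) ?_ (by norm_num))
      rw [one_mul]
      simp only [pow_add]
      exact Nat.mul_le_mul (Nat.mul_le_mul (Nat.mul_le_mul (Nat.mul_le_mul (Nat.mul_le_mul (Nat.mul_le_mul (Nat.mul_le_mul (s1 _) (s1 _)) (s1 _)) (s1 _)) (s1 _)) (s1 _)) (s1 _)) (s1 _)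
  · have s1 : ∀ i, q ^ i - 1 ≤ q ^ i := fun i => Nat.sub_le _ _
    rcases h with ⟨hK, ⟨e⟩⟩ | ⟨hK, ⟨e⟩⟩
    · obtain ⟨a, ha, hqa⟩ := charQ hp K two_ne_zero hK
      have m1 := ndm hp hqa ha
      have p1 := ndp hp hqa ha
      have h2 := two_le' hp hqa ha
      have s2 : ∀ i, q ^ i + 1 ≤ q ^ (i + 1) := by
        intro i
        have h4 : 1 ≤ q ^ i := Nat.one_le_pow _ _ (by omega)
        rw [pow_succ]; nlinarith
      have hc := Cfsg.Agent.S1066.result (K := K) hq hK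
      rw [← Nat.card_congr e.toEquiv] at hc
      refine of_good (good hp hqa ha (N := 36) (M := 2 + (5 + 1) + 6 + 8 + (9 + 1) + 12) (R := (q ^ 2 - 1) * (q ^ 5 + 1) * (q ^ 6 - 1) * (q ^ 8 - 1) * (q ^ 9 + 1) * (q ^ 12 - 1)) (hc.trans (by ring)) hg (ndg' hp hqa ha 3)
        (nd_mul hp (nd_mul hp (nd_mul hp (nd_mul hp (nd_mul hp (m1 _ (by norm_num)) (p1 _ (by norm_num))) (m1 _ (by norm_num))) (m1 _ (by norm_num))) (p1 _ (by norm_num))) (m1 _ (by norm_num))) (by norm_num)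
        (le_c hp hqa ha (ndg' hp hqa ha 3) ?_) (by norm_num))
      have t5 := s2 5
      have t9 := s2 9
      rw [show 2 + (5 + 1) + 6 + 8 + (9 + 1) + 12 = 2 + (6 + (6 + (8 + (10 + 12)))) by norm_num]
      rw [pow_add, pow_add q 6, pow_add q 6, pow_add q 8, pow_add q 10]
      calc _ = (q ^ 2 - 1) * ((q ^ 5 + 1) * ((q ^ 6 - 1) * ((q ^ 8 - 1) * ((q ^ 9 + 1) * (q ^ 12 - 1))))) := by ring
        _ ≤ _ := Nat.mul_le_mul (s1 _) (Nat.mul_le_mul t5 (Nat.mul_le_mul (s1 _) (Nat.mul_le_mul (s1 _) (Nat.mul_le_mul t9 (s1 _)))))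
    · obtain ⟨a, ha, hqa⟩ := charQ hp K three_ne_zero hK
      have m1 := ndm hp hqa ha
      have h2 := two_le' hp hqa ha
      have hc := Cfsg.Agent.S1067.result (K := K) hq hK
      rw [← Nat.card_congr e.toEquiv] at hc
      refine of_good (good hp hqa ha (c := 1) (N := 12) (M := 2 + 6 + 9) (R := (q ^ 2 - 1) * (q ^ 6 - 1) * (q ^ 8 + q ^ 4 + 1)) (by rw [one_mul, hc]; ring) hg (nd_one hp)
        (nd_mul hp (nd_mul hp (m1 _ (by norm_num)) (m1 _ (by norm_num))) (nd_add hp ?_)) (by norm_num) ?_ (by norm_num))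
      · exact (Nat.dvd_add (dq hqa ha (by norm_num)) (dq hqa ha (by norm_num)))
      · rw [one_mul]
        simp only [pow_add]
        refine Nat.mul_le_mul (Nat.mul_le_mul (s1 _) (s1 _)) ?_
        have h4 : 2 * q ^ 8 ≤ q * q ^ 8 := Nat.mul_le_mul_right _ h2
        have h5 : q ^ 9 = q * q ^ 8 := by ring
        have h6 : q ^ 8 = q ^ 4 * q ^ 4 := by ring
        have h7 : 2 ≤ q ^ 4 := h2.trans (Nat.le_self_pow (by norm_num) q)
        rw [h5]
        nlinarith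
  · have hc := (Cfsg.Agent.S1163.result (F := F) hm hF).1
    rw [← Nat.card_congr e.toEquiv] at hc
    have hq : 2 ^ (2 * m + 1) = 2 ^ (2 * m + 1) := rfl
    have ha : 1 ≤ 2 * m + 1 := by omega
    have h2 := two_le' hp hq ha
    obtain ⟨q, hqd⟩ : ∃ q, q = 2 ^ (2 * m + 1) := ⟨_, rfl⟩
    rw [← hqd] at hc h2
    have m1 := ndm hp hqd ha
    have p1 := ndp hp hqd ha
    refine of_good (good hp hqd ha (c := 1) (N := 2) (M := 3) (R := (q ^ 1 - 1) * (q ^ 2 + 1)) (by rw [one_mul, hc, pow_one]; ring) hg (nd_one hp)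
        (nd_mul hp (m1 _ (by norm_num)) (p1 _ (by norm_num))) (by norm_num) ?_ (by norm_num))
    obtain ⟨x, hx⟩ := Nat.exists_eq_add_of_le' (show 1 ≤ q by omega)
    rw [pow_one, one_mul, hx, Nat.add_sub_cancel]
    nlinarith [Nat.zero_le (x * x), Nat.zero_le (x * x * x)]
  · have hc := Cfsg.Agent.S1068.result (K := F) hF
    rw [← Nat.card_congr e.toEquiv] at hc
    have ha : 1 ≤ 2 * m + 1 := by omega
    have h2 := two_le' hp rfl ha
    obtain ⟨q, hqd⟩ : ∃ q, q = 2 ^ (2 * m + 1) := ⟨_, rfl⟩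
    rw [← hqd] at hc h2
    have m1 := ndm hp hqd ha
    have p1 := ndp hp hqd ha
    have s1 : ∀ i, q ^ i - 1 ≤ q ^ i := fun i => Nat.sub_le _ _
    have s2 : ∀ i, q ^ i + 1 ≤ q ^ (i + 1) := by
      intro i
      have h4 : 1 ≤ q ^ i := Nat.one_le_pow _ _ (by omega)
      rw [pow_succ]; nlinarith
    refine of_good (good hp hqd ha (c := 1) (N := 12) (M := 1 + (3 + 1) + 4 + (6 + 1)) (R := (q ^ 1 - 1) * (q ^ 3 + 1) * (q ^ 4 - 1) * (q ^ 6 + 1)) (by rw [one_mul, hc, pow_one]; ring) hg (nd_one hp)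
        (nd_mul hp (nd_mul hp (nd_mul hp (m1 _ (by norm_num)) (p1 _ (by norm_num))) (m1 _ (by norm_num))) (p1 _ (by norm_num))) (by norm_num) ?_ (by norm_num))
    rw [one_mul]
    rw [pow_add, pow_add q (1 + (3 + 1)), pow_add q 1]
    exact Nat.mul_le_mul (Nat.mul_le_mul (Nat.mul_le_mul (s1 _) (s2 _)) (s1 _)) (s2 _)
  · have hc := Cfsg.Agent.S1069.result (K := F) hF
    rw [← Nat.card_congr e.toEquiv] at hc
    have ha : 1 ≤ 2 * m + 1 := by omega
    have h2 := two_le' hp rfl ha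
    obtain ⟨q, hqd⟩ : ∃ q, q = 3 ^ (2 * m + 1) := ⟨_, rfl⟩
    rw [← hqd] at hc h2
    have m1 := ndm hp hqd ha
    have p1 := ndp hp hqd ha
    refine of_good (good hp hqd ha (c := 1) (N := 3) (M := 4) (R := (q ^ 1 - 1) * (q ^ 3 + 1)) (by rw [one_mul, hc, pow_one]; ring) hg (nd_one hp)
        (nd_mul hp (m1 _ (by norm_num)) (p1 _ (by norm_num))) (by norm_num) ?_ (by norm_num))
    obtain ⟨x, hx⟩ := Nat.exists_eq_add_of_le' (show 1 ≤ q by omega)
    rw [pow_one, one_mul, hx, Nat.add_sub_cancel]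
    nlinarith [Nat.zero_le (x * x), Nat.zero_le (x * x * x), Nat.zero_le (x * x * x * x)]

end Cfsg.Agent.S2363
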