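import Cfsg.Statements.S2368
import Cfsg.Agent.Lib.Unip

set_option autoImplicit false
open Cfsg

namespace Cfsg.Agent.S2368


/-- Let F be a finite field of characteristic p and m ≥ 1. Every element of GL(m, F) of p-power order has order less than p·m, and GL(m, F) has an element of p-power order at least m; so the largest order of a p-element of GL(m, F) is the least power of p that is at least m. -/
theorem result {F : Type*} [Field F] [Fintype F] (p : ℕ) [Fact p.Prime] [CharP F p] (m : ℕ) (hm : 1 ≤ m) :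
    (∀ g : Matrix.GeneralLinearGroup (Fin m) F, (∃ j : ℕ, orderOf g = p ^ j) → orderOf g < p * m) ∧
      ∃ g : Matrix.GeneralLinearGroup (Fin m) F, (∃ j : ℕ, orderOf g = p ^ j) ∧ m ≤ orderOf g := by
  have hp : p.Prime := Fact.out
  constructor
  · rintro g ⟨j, hj⟩
    have hg : g ^ p ^ j = 1 := by rw [← hj, pow_orderOf_eq_one]
    have h1 := CfsgLib.Unip.orderOf_dvd p g (CfsgLib.Unip.isNilpotent_of_orderOf p g hg)
    rw [Fintype.card_fin] at h1
    have h2 := Nat.le_of_dvd (pow_pos hp.pos _) h1
    refine lt_of_le_of_lt h2 ?_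
    rcases Nat.lt_or_ge 1 m with hm1 | hm1
    · have h3 : p ^ (Nat.clog p m - 1) < m := by
        by_contra hcon
        push Not at hcon
        have h4 := Nat.clog_le_of_le_pow hcon
        have h5 : 0 < Nat.clog p m := Nat.clog_pos hp.one_lt hm1
        omega
      have h5 : 0 < Nat.clog p m := Nat.clog_pos hp.one_lt hm1
      calc p ^ Nat.clog p m = p * p ^ (Nat.clog p m - 1) := by
            rw [← pow_succ']; congr 1; omega
        _ < p * m := Nat.mul_lt_mul_of_pos_left h3 hp.pos
    · have : m = 1 := by omega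
      subst this
      simp [hp.one_lt]
  · obtain ⟨u, hu⟩ := CfsgLib.Unip.exists_jordan m F
    have hsub : (u : Matrix (Fin m) (Fin m) F) - 1 = CfsgLib.Unip.shift m F := by rw [hu]; simp
    refine ⟨u, ?_, ?_⟩
    · have h1 := CfsgLib.Unip.orderOf_dvd p u ⟨m, by rw [hsub, CfsgLib.Unip.shift_pow_self]⟩
      obtain ⟨k, -, hk⟩ := (Nat.dvd_prime_pow hp).1 h1
      exact ⟨k, hk⟩
    · have := CfsgLib.Unip.orderOf_eq p u ⟨m, by rw [hsub, CfsgLib.Unip.shift_pow_self]⟩
        (by rw [hsub, Fintype.card_fin]; exact CfsgLib.Unip.shift_pow_ne m hm F)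
      rw [this, Fintype.card_fin]
      exact Nat.le_pow_clog hp.one_lt m

end Cfsg.Agent.S2368
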