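import Cfsg.Statements.S2370
import Cfsg.Agent.Lib.KF1
import Cfsg.Agent.Lib.TWF5

set_option autoImplicit false
open Cfsg

namespace Cfsg.Agent.S2370

open Cfsg.Lie Matrix CfsgLib.Chev CfsgLib.Chev.GA

set_option maxRecDepth 1000000 in
theorem htF4 : ∀ s < chevF4.nroots, (∑ i ∈ Finset.range chevF4.rank, gdF4.a i s) ≤ 11 ∧ -11 ≤ (∑ i ∈ Finset.range chevF4.rank, gdF4.a i s) ∧
    (chevF4.nroots / 2 ≤ s → 1 ≤ (∑ i ∈ Finset.range chevF4.rank, gdF4.a i s)) := by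
  decide +kernel

/-- Let q = 2^(2m+1) with m ≥ 1. Every element of 2-power order of the large Ree group ²F₄(q) has order at most 32. -/
theorem result {K : Type*} [Field K] [Fintype K] (m : ℕ) (hm : 1 ≤ m) (hK : Fintype.card K = 2 ^ (2 * m + 1))
    (x : ↥(Cfsg.Lie.twistedF4 K (2 ^ m))) (hx : ∃ j : ℕ, orderOf x = 2 ^ j) : orderOf x ≤ 32 := by
  haveI := CfsgLib.Chev.TwF4.charP2 hK
  haveI : Fact (Nat.Prime 2) := ⟨Nat.prime_two⟩
  have hx' : ∃ j : ℕ, orderOf (x : GL chevF4.Idx K) = 2 ^ j := by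
    obtain ⟨j, hj⟩ := hx
    exact ⟨j, by rw [Subgroup.orderOf_coe]; exact hj⟩
  obtain ⟨θ, τ, hτ, hi, hi', hθ⟩ := CfsgLib.Chev.TwF4.setup hK
  have hmem : (x : GL chevF4.Idx K) ∈ chevF4.group K := by
    have h1 : (x : GL chevF4.Idx K) ∈ (TwF4.ta θ τ hτ).Gs (cgF4 K) :=
      (CfsgLib.Chev.TwF4.eq_Gs θ τ hτ hi hi' hθ hK) ▸ x.2
    exact (((TwF4.ta θ τ hτ).mem_Gs (cgF4 K)).mp h1).1
  have h1 := (cgF4 K).pow_of_ht (p := 2) (B := 11) (k := 5) (fun s hs hp => (htF4 s hs).2.2 hp)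
    (fun s hs => ⟨(htF4 s hs).1, (htF4 s hs).2.1⟩) (by norm_num) hmem hx'
  have h2 : x ^ 32 = 1 := Subtype.ext (by rw [Subgroup.coe_pow]; exact h1)
  exact Nat.le_of_dvd (by norm_num) (orderOf_dvd_of_pow_eq_one h2)

end Cfsg.Agent.S2370
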