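import Cfsg.Statements.S2387
import Cfsg.Agent.Lib.Semis2

set_option autoImplicit false
open scoped MatrixGroups
open Cfsg

namespace Cfsg.Agent.S2387

open Polynomial in
theorem card_monic (F : Type*) [Field F] [Fintype F] (m : ℕ) :
    Nat.card {f : F[X] // (f.Monic ∧ f.natDegree = m + 1) ∧ f.coeff 0 ≠ 0} = (Fintype.card F - 1) * Fintype.card F ^ m := by
  classical
  have e1 : {f : F[X] // (f.Monic ∧ f.natDegree = m + 1) ∧ f.coeff 0 ≠ 0} ≃
      {a : Fin (m + 1) → F // a 0 ≠ 0} := by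
    refine (Equiv.subtypeSubtypeEquivSubtypeInter (fun f : F[X] => f.Monic ∧ f.natDegree = m + 1) (fun f => f.coeff 0 ≠ 0)).symm.trans ?_
    refine Equiv.subtypeEquiv ((monicEquivDegreeLT (m + 1)).trans (degreeLTEquiv F (m + 1)).toEquiv) ?_
    rintro ⟨f, hf, hd⟩
    show f.coeff 0 ≠ 0 ↔ (f.eraseLead).coeff ((0 : Fin (m + 1)) : ℕ) ≠ 0
    rw [Fin.val_zero, eraseLead_coeff_of_ne]
    omega
  have e2 : {a : Fin (m + 1) → F // a 0 ≠ 0} ≃ {x : F // x ≠ 0} × (Fin m → F) :=
    { toFun := fun a => ⟨⟨a.1 0, a.2⟩, fun i => a.1 i.succ⟩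
      invFun := fun b => ⟨Fin.cons b.1.1 b.2, by simpa using b.1.2⟩
      left_inv := fun a => by
        ext i
        refine Fin.cases ?_ (fun i => ?_) i <;> simp
      right_inv := fun b => by ext <;> simp }
  rw [Nat.card_congr (e1.trans e2), Nat.card_prod, Nat.card_eq_fintype_card, Nat.card_eq_fintype_card]
  congr 1
  · rw [Fintype.card_subtype_compl, Fintype.card_subtype_eq]
  · simp


/-- In `GL_n(q)` with `n ≥ 1`, `q` a power of the prime `p`, the number of conjugacy classes of elements of order prime to `p` (diagonalisable over the algebraic closure; determined by the characteristic polynomial) is `(q - 1) q^(n-1)`. -/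
theorem result {F : Type*} [Field F] [Fintype F] {q : ℕ} (hq : Fintype.card F = q) (p : ℕ) [Fact p.Prime] [CharP F p] (n : ℕ) (hn : 1 ≤ n) :
    Nat.card {c : ConjClasses (GL (Fin n) F) // ∃ g : GL (Fin n) F, ConjClasses.mk g = c ∧ (orderOf g).Coprime p} = (q - 1) * q ^ (n - 1) := by
  classical
  obtain ⟨m, rfl⟩ : ∃ m, n = m + 1 := ⟨n - 1, by omega⟩
  have hdet : ∀ A : Matrix (Fin (m + 1)) (Fin (m + 1)) F, A.charpoly.coeff 0 ≠ 0 ↔ A.det ≠ 0 := by
    intro A
    rw [Matrix.det_eq_sign_charpoly_coeff A]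
    simp
  have hex : ∀ f : {f : Polynomial F // (f.Monic ∧ f.natDegree = m + 1) ∧ f.coeff 0 ≠ 0},
      ∃ g : GL (Fin (m + 1)) F, (g : Matrix (Fin (m + 1)) (Fin (m + 1)) F).charpoly = f.1 ∧ Module.End.IsSemisimple (Matrix.toLin' (g : Matrix (Fin (m + 1)) (Fin (m + 1)) F)) := by
    rintro ⟨f, ⟨hf, hd⟩, h0⟩
    obtain ⟨A, hA, hs⟩ := CfsgLib.Semis.exists_matrix f hf hd
    have h1 : A.det ≠ 0 := by rw [← hdet, hA]; exact h0
    exact ⟨Matrix.GeneralLinearGroup.mkOfDetNeZero A h1, hA, hs⟩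
  choose G hG hGs using hex
  let Ψ : {f : Polynomial F // (f.Monic ∧ f.natDegree = m + 1) ∧ f.coeff 0 ≠ 0} →
      {c : ConjClasses (GL (Fin (m + 1)) F) // ∃ g : GL (Fin (m + 1)) F, ConjClasses.mk g = c ∧ (orderOf g).Coprime p} :=
    fun f => ⟨ConjClasses.mk (G f), G f, rfl, CfsgLib.Semis.coprime_of_isSemisimple (p := p) (G f) (hGs f)⟩
  have hΨ : Function.Bijective Ψ := by
    constructor
    · intro f f' h
      have h1 : IsConj (G f) (G f') := ConjClasses.mk_eq_mk_iff_isConj.1 (Subtype.ext_iff.1 h)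
      rw [isConj_iff] at h1
      obtain ⟨c, hc⟩ := h1
      apply Subtype.ext
      rw [← hG f, ← hG f', ← hc]
      rw [Units.val_mul, Units.val_mul, Matrix.coe_units_inv]
      exact (Matrix.charpoly_units_conj c _).symm
    · rintro ⟨c, g, hg, hcop⟩
      have hs := CfsgLib.Semis.isSemisimple_of_coprime (p := p) g hcop
      have hd : (g : Matrix (Fin (m + 1)) (Fin (m + 1)) F).det ≠ 0 := by
        have := (Matrix.isUnit_iff_isUnit_det _).1 g.isUnit
        exact this.ne_zero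
      let f : {f : Polynomial F // (f.Monic ∧ f.natDegree = m + 1) ∧ f.coeff 0 ≠ 0} :=
        ⟨(g : Matrix _ _ F).charpoly, ⟨Matrix.charpoly_monic _,
          by rw [Matrix.charpoly_natDegree_eq_dim, Fintype.card_fin]⟩, (hdet _).2 hd⟩
      refine ⟨f, ?_⟩
      · apply Subtype.ext
        show ConjClasses.mk (G f) = c
        rw [← hg, ConjClasses.mk_eq_mk_iff_isConj]
        obtain ⟨P, hP⟩ := CfsgLib.Semis.matrix_conj _ _ (hGs f) hs (hG f)
        rw [isConj_iff]
        refine ⟨P, ?_⟩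
        rw [mul_inv_eq_iff_eq_mul]
        exact Units.ext hP
  rw [← Nat.card_congr (Equiv.ofBijective Ψ hΨ), card_monic, hq]
  rfl

end Cfsg.Agent.S2387
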