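import Cfsg.Statements.S2388
import Cfsg.Agent.Lib.Semis

set_option autoImplicit false
open Cfsg

namespace Cfsg.Agent.S2388

theorem orderOf_toGL {n : ℕ} {F : Type*} [Field F] (g : Matrix.SpecialLinearGroup (Fin n) F) :
    orderOf (Matrix.SpecialLinearGroup.toGL g) = orderOf g := by
  apply orderOf_injective
  intro a b h
  apply Subtype.ext
  exact congrArg Units.val h


/-- In `SL_n(q)`, `q` a power of the prime `p`, two elements of order prime to `p` with the same characteristic polynomial are conjugate in `SL_n(q)` (not merely in `GL_n`). -/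
theorem result {F : Type*} [Field F] [Fintype F] (p : ℕ) [Fact p.Prime] [CharP F p] (n : ℕ)
    (g h : Matrix.SpecialLinearGroup (Fin n) F) (hg : (orderOf g).Coprime p) (hh : (orderOf h).Coprime p)
    (hc : (g : Matrix (Fin n) (Fin n) F).charpoly = (h : Matrix (Fin n) (Fin n) F).charpoly) : IsConj g h := by
  classical
  rcases Nat.eq_zero_or_pos n with rfl | hn
  · have : g = h := Subtype.ext (Subsingleton.elim _ _)
    rw [this]
  have : Nonempty (Fin n) := ⟨⟨0, hn⟩⟩
  have hss := CfsgLib.Semis.isSemisimple_of_coprime (Matrix.SpecialLinearGroup.toGL g) (by rw [orderOf_toGL]; exact hg)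
  have hss' := CfsgLib.Semis.isSemisimple_of_coprime (Matrix.SpecialLinearGroup.toGL h) (by rw [orderOf_toGL]; exact hh)
  obtain ⟨P, hP⟩ := CfsgLib.Semis.matrix_conj (g : Matrix (Fin n) (Fin n) F) (h : Matrix (Fin n) (Fin n) F) hss hss' hc
  have hP0 : (P : Matrix (Fin n) (Fin n) F).det ≠ 0 := ((Matrix.isUnit_iff_isUnit_det _).1 P.isUnit).ne_zero
  obtain ⟨D, hD1, hD2⟩ := CfsgLib.Semis.matrix_commuting_det (g : Matrix (Fin n) (Fin n) F) hss (((P : Matrix (Fin n) (Fin n) F).det)⁻¹)
  let c : Matrix.SpecialLinearGroup (Fin n) F := ⟨(P : Matrix (Fin n) (Fin n) F) * D, by rw [Matrix.det_mul, hD2, mul_inv_cancel₀ hP0]⟩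
  rw [isConj_iff]
  refine ⟨c, ?_⟩
  rw [mul_inv_eq_iff_eq_mul]
  apply Subtype.ext
  rw [Matrix.SpecialLinearGroup.coe_mul, Matrix.SpecialLinearGroup.coe_mul]
  show (P : Matrix (Fin n) (Fin n) F) * D * (g : Matrix (Fin n) (Fin n) F) = (h : Matrix (Fin n) (Fin n) F) * ((P : Matrix (Fin n) (Fin n) F) * D)
  rw [Matrix.mul_assoc, hD1, ← Matrix.mul_assoc, hP, Matrix.mul_assoc]

end Cfsg.Agent.S2388
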