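import Cfsg.Statements.S2391

set_option autoImplicit false
open Cfsg

namespace Cfsg.Agent.S2391

/-- the next layer of fixed points -/
def nxt {F : Type*} [Field F] {n : ℕ} (U : Subgroup (Matrix.SpecialLinearGroup (Fin n) F)) (W : Submodule F (Fin n → F)) :
    Submodule F (Fin n → F) where
  carrier := {v | ∀ u ∈ U, (u : Matrix (Fin n) (Fin n) F).mulVec v - v ∈ W}
  add_mem' := by
    intro a b ha hb u hu
    have h1 := W.add_mem (ha u hu) (hb u hu)
    rw [Matrix.mulVec_add]
    convert h1 using 1
    abel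
  zero_mem' := by
    intro u _
    rw [Matrix.mulVec_zero, sub_zero]
    exact W.zero_mem
  smul_mem' := by
    intro c a ha u hu
    rw [Matrix.mulVec_smul, ← smul_sub]
    exact W.smul_mem c (ha u hu)

/-- stability under a group -/
def Stab {F : Type*} [Field F] {n : ℕ} (U : Subgroup (Matrix.SpecialLinearGroup (Fin n) F)) (W : Submodule F (Fin n → F)) : Prop :=
  ∀ u ∈ U, ∀ v ∈ W, (u : Matrix (Fin n) (Fin n) F).mulVec v ∈ W

theorem le_nxt {F : Type*} [Field F] {n : ℕ} {U : Subgroup (Matrix.SpecialLinearGroup (Fin n) F)} {W : Submodule F (Fin n → F)}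
    (h : Stab U W) : W ≤ nxt U W := fun v hv u hu => W.sub_mem (h u hu v hv) hv

theorem nxt_norm {F : Type*} [Field F] {n : ℕ} {U : Subgroup (Matrix.SpecialLinearGroup (Fin n) F)} {W : Submodule F (Fin n → F)}
    (h : Stab (Subgroup.normalizer (U : Set (Matrix.SpecialLinearGroup (Fin n) F))) W) :
    Stab (Subgroup.normalizer (U : Set (Matrix.SpecialLinearGroup (Fin n) F))) (nxt U W) := by
  intro g hg v hv u hu
  have hu' : g⁻¹ * u * g ∈ U := by
    have := (Subgroup.mem_normalizer_iff.1 (Subgroup.inv_mem _ hg) u).1 hu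
    rwa [inv_inv] at this
  have h1 := h g hg _ (hv _ hu')
  rw [Matrix.mulVec_sub, Matrix.mulVec_mulVec] at h1
  rw [Matrix.mulVec_mulVec]
  have h2 : (g : Matrix (Fin n) (Fin n) F) * ((g⁻¹ * u * g : Matrix.SpecialLinearGroup (Fin n) F) : Matrix (Fin n) (Fin n) F) =
      (u : Matrix (Fin n) (Fin n) F) * (g : Matrix (Fin n) (Fin n) F) := by
    rw [← Matrix.SpecialLinearGroup.coe_mul, ← Matrix.SpecialLinearGroup.coe_mul, mul_assoc g⁻¹, mul_inv_cancel_left]
  rw [h2] at h1
  exact h1

/-- strict growth -/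
theorem nxt_lt {F : Type*} [Field F] [Fintype F] (p : ℕ) [Fact p.Prime] [CharP F p] {n : ℕ}
    {U : Subgroup (Matrix.SpecialLinearGroup (Fin n) F)} (hU : IsPGroup p ↥U) {W : Submodule F (Fin n → F)}
    (h : Stab U W) (hW : W ≠ ⊤) : W < nxt U W := by
  classical
  refine lt_of_le_of_ne (le_nxt h) ?_
  intro heq
  -- action on the quotient
  letI : MulAction U ((Fin n → F) ⧸ W) :=
    { smul := fun u => W.mapQ W (Matrix.mulVecLin ((u : Matrix.SpecialLinearGroup (Fin n) F) : Matrix (Fin n) (Fin n) F)) (fun v hv => h u.1 u.2 v hv)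
      one_smul := by
        intro x
        obtain ⟨v, rfl⟩ := Submodule.Quotient.mk_surjective W x
        change Submodule.Quotient.mk ((1 : Matrix (Fin n) (Fin n) F).mulVec v) = _
        rw [Matrix.one_mulVec]
      mul_smul := by
        intro a b x
        obtain ⟨v, rfl⟩ := Submodule.Quotient.mk_surjective W x
        change Submodule.Quotient.mk (((a.1 * b.1 : Matrix.SpecialLinearGroup (Fin n) F) : Matrix (Fin n) (Fin n) F).mulVec v) =
          Submodule.Quotient.mk ((a.1 : Matrix (Fin n) (Fin n) F).mulVec ((b.1 : Matrix (Fin n) (Fin n) F).mulVec v))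
        rw [Matrix.mulVec_mulVec, Matrix.SpecialLinearGroup.coe_mul] }
  haveI : Finite ((Fin n → F) ⧸ W) := Finite.of_surjective _ (Submodule.Quotient.mk_surjective W)
  haveI : Nontrivial ((Fin n → F) ⧸ W) := Submodule.Quotient.nontrivial_iff.2 hW
  have hcard : p ∣ Nat.card ((Fin n → F) ⧸ W) := by
    have h1 := Module.natCard_eq_pow_finrank (K := F) (V := (Fin n → F) ⧸ W)
    rw [h1]
    apply dvd_pow
    · rw [Nat.card_eq_fintype_card]
      obtain ⟨m, hp', hm⟩ := FiniteField.card F p
      rw [hm]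
      exact dvd_pow_self p m.ne_zero
    · exact (Module.finrank_pos (R := F) (M := (Fin n → F) ⧸ W)).ne'
  have h0 : (0 : (Fin n → F) ⧸ W) ∈ MulAction.fixedPoints U ((Fin n → F) ⧸ W) := by
    intro u
    change W.mapQ W (Matrix.mulVecLin ((u : Matrix.SpecialLinearGroup (Fin n) F) : Matrix (Fin n) (Fin n) F)) _ 0 = 0
    rw [map_zero]
  obtain ⟨x, hx, hx0⟩ := hU.exists_fixed_point_of_prime_dvd_card_of_fixed_point ((Fin n → F) ⧸ W) hcard h0
  obtain ⟨v, rfl⟩ := Submodule.Quotient.mk_surjective W x
  have hv : v ∈ nxt U W := by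
    intro u hu
    have h2 := hx ⟨u, hu⟩
    change Submodule.Quotient.mk ((u : Matrix (Fin n) (Fin n) F).mulVec v) = Submodule.Quotient.mk v at h2
    exact (Submodule.Quotient.eq W).1 h2
  rw [← heq] at hv
  exact hx0 (((Submodule.Quotient.mk_eq_zero W).2 hv).symm)

/-- the chain -/
def ch {F : Type*} [Field F] {n : ℕ} (U : Subgroup (Matrix.SpecialLinearGroup (Fin n) F)) : ℕ → Submodule F (Fin n → F)
  | 0 => ⊥
  | (k + 1) => nxt U (ch U k)

/-- The Borel–Tits property of `SL_n(q)` in flag form: for a field `F` of characteristic `p` with finitely many elements and a non-trivial `p`-subgroup `U` of `SL_n(F)`, there is a flag `0 = V₀ < V₁ < ⋯ < V_{k+1} = F^n` with at least one proper non-zero member such that every element of the normaliser of `U` maps each `V_i` onto itself and every element of `U` acts trivially on each quotient `V_{i+1}/V_i` (so the normaliser lies in the parabolic subgroup of the flag and `U` in its unipotent radical). -/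
theorem result {F : Type*} [Field F] [Fintype F] (p : ℕ) [Fact p.Prime] [CharP F p] (n : ℕ)
    (U : Subgroup (Matrix.SpecialLinearGroup (Fin n) F)) (hU : IsPGroup p ↥U) (hne : U ≠ ⊥) :
    ∃ (k : ℕ) (V : Fin (k + 2) → Submodule F (Fin n → F)), 1 ≤ k ∧ StrictMono V ∧ V 0 = ⊥ ∧ V (Fin.last (k + 1)) = ⊤ ∧
      (∀ g ∈ Subgroup.normalizer (U : Set (Matrix.SpecialLinearGroup (Fin n) F)), ∀ i, (V i).map (Matrix.mulVecLin (g : Matrix (Fin n) (Fin n) F)) = V i) ∧
      (∀ u ∈ U, ∀ i : Fin (k + 1), ∀ v ∈ V i.succ, (u : Matrix (Fin n) (Fin n) F).mulVec v - v ∈ V (Fin.castSucc i)) := by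
  classical
  have hst : ∀ k, Stab (Subgroup.normalizer (U : Set (Matrix.SpecialLinearGroup (Fin n) F))) (ch U k) := by
    intro k
    induction k with
    | zero =>
      intro g _ v hv
      change v ∈ (⊥ : Submodule F (Fin n → F)) at hv
      rw [Submodule.mem_bot] at hv
      rw [hv, Matrix.mulVec_zero]
      exact Submodule.zero_mem _
    | succ k ih => exact nxt_norm ih
  have hUN : U ≤ Subgroup.normalizer (U : Set (Matrix.SpecialLinearGroup (Fin n) F)) := Subgroup.le_normalizer
  have hst' : ∀ k, Stab U (ch U k) := fun k u hu v hv => hst k u (hUN hu) v hv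
  have hlt : ∀ k, ch U k ≠ ⊤ → ch U k < ch U (k + 1) := fun k hk => nxt_lt p hU (hst' k) hk
  have hex : ∃ k, ch U k = ⊤ := by
    by_contra hcon
    push Not at hcon
    have h1 : ∀ k, k ≤ Module.finrank F (ch U k) := by
      intro k
      induction k with
      | zero => exact Nat.zero_le _
      | succ k ih => exact lt_of_le_of_lt ih (Submodule.finrank_lt_finrank_of_lt (hlt k (hcon k)))
    have h2 := h1 (n + 1)
    have h3 := Submodule.finrank_le (ch U (n + 1))
    rw [Module.finrank_fin_fun] at h3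
    omega
  set K := Nat.find hex with hK
  have hKt : ch U K = ⊤ := Nat.find_spec hex
  have hKn : ∀ m < K, ch U m ≠ ⊤ := fun m hm => Nat.find_min hex hm
  have hbot : (⊥ : Submodule F (Fin n → F)) ≠ ⊤ := by
    intro h
    apply hne
    rw [eq_bot_iff]
    intro u _
    rw [Subgroup.mem_bot]
    apply Subtype.ext
    apply Matrix.toLin'.injective
    apply LinearMap.ext
    intro v
    have hv : v = 0 := by
      have h1 : v ∈ (⊤ : Submodule F (Fin n → F)) := trivial
      rw [← h] at h1
      exact (Submodule.mem_bot F).1 h1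
    rw [hv, map_zero]
    exact (map_zero _).symm
  have hK2 : 2 ≤ K := by
    by_contra hcon
    push Not at hcon
    have h1 : ch U 1 = ⊤ := by
      interval_cases hh : K
      · exact absurd hKt hbot
      · exact hKt
    apply hne
    rw [eq_bot_iff]
    intro u hu
    rw [Subgroup.mem_bot]
    apply Subtype.ext
    apply Matrix.toLin'.injective
    apply LinearMap.ext
    intro v
    have h2 : v ∈ ch U 1 := by rw [h1]; trivial
    have h3 := h2 u hu
    change _ ∈ (⊥ : Submodule F (Fin n → F)) at h3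
    rw [Submodule.mem_bot, sub_eq_zero] at h3
    rw [Matrix.toLin'_apply, Matrix.toLin'_apply]
    change _ = (1 : Matrix (Fin n) (Fin n) F).mulVec v
    rw [Matrix.one_mulVec]
    exact h3
  have hmono : ∀ i : ℕ, ∀ d : ℕ, i + (d + 1) ≤ K → ch U i < ch U (i + (d + 1)) := by
    intro i d
    induction d with
    | zero => intro h; exact hlt i (hKn i (by omega))
    | succ d ih =>
      intro h
      exact (ih (by omega)).trans (hlt (i + (d + 1)) (hKn _ (by omega)))
  refine ⟨K - 1, fun i => ch U i.val, by omega, ?_, rfl, ?_, ?_, ?_⟩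
  · intro i j hij
    have h1 : (i : ℕ) < j := hij
    have h2 := j.isLt
    have h3 := hmono i (j - i - 1) (by omega)
    rw [show (i : ℕ) + ((j : ℕ) - i - 1 + 1) = j from by omega] at h3
    exact h3
  · change ch U (K - 1 + 1) = ⊤
    rw [show K - 1 + 1 = K from by omega]
    exact hKt
  · intro g hg i
    apply le_antisymm
    · rintro _ ⟨v, hv, rfl⟩
      exact hst i g hg v hv
    · intro v hv
      refine ⟨((g⁻¹ : Matrix.SpecialLinearGroup (Fin n) F) : Matrix (Fin n) (Fin n) F).mulVec v, hst i _ (Subgroup.inv_mem _ hg) v hv, ?_⟩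
      rw [Matrix.mulVecLin_apply, Matrix.mulVec_mulVec, ← Matrix.SpecialLinearGroup.coe_mul, mul_inv_cancel,
        Matrix.SpecialLinearGroup.coe_one, Matrix.one_mulVec]
  · intro u hu i v hv
    change v ∈ ch U ((i : ℕ) + 1) at hv
    exact hv u hu

end Cfsg.Agent.S2391
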