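import Cfsg.Statements.S2394
import Cfsg.Agent.Lib.H9Zs
import Cfsg.Agent.Lib.Symp2

set_option autoImplicit false
open scoped MatrixGroups
open Cfsg

namespace Cfsg.Agent.S2394


/-- The smallest degree of a faithful representation of the symplectic group `Sp_{2n}(q)` over its own field `F_q` is `2n`: every injective homomorphism from `Sp_{2n}(F)` to `GL_d(F)`, `F` the field with `q` elements, has `d ≥ 2n`. -/
theorem result {F : Type*} [Field F] [Fintype F] (n : ℕ) {d : ℕ}
    (ρ : ↥(Matrix.symplecticGroup (Fin n) F) →* GL (Fin d) F) (hρ : Function.Injective ρ) : 2 * n ≤ d := by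
  classical
  by_contra hcon
  push Not at hcon
  have hn : 1 ≤ n := by omega
  have hdvd := Subgroup.card_dvd_of_injective ρ hρ
  rw [CfsgLib.Symp.card_symplecticGroup, Matrix.card_GL_field, Nat.card_eq_fintype_card] at hdvd
  have hq : 1 < Fintype.card F := Fintype.one_lt_card
  generalize Fintype.card F = q at hdvd hq
  by_cases h6 : q = 2 ∧ 2 * n = 6
  · obtain ⟨rfl, h6⟩ := h6
    obtain rfl : n = 3 := by omega
    have h81 : 81 ∣ ∏ i : Fin d, (2 ^ d - 2 ^ (i : ℕ)) := Nat.dvd_trans (by simp only [Finset.prod_range_succ]; norm_num) hdvd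
    have hd6 : d < 6 := hcon
    interval_cases d <;> revert h81 <;> decide
  · by_cases h2 : 2 * n = 2 ∧ ∃ m : ℕ, q + 1 = 2 ^ m
    · obtain ⟨h2, -⟩ := h2
      obtain rfl : n = 1 := by omega
      have hd : d < 2 := hcon
      have h3 : q ^ (1 ^ 2) * ∏ i ∈ Finset.range 1, (q ^ (2 * (i + 1)) - 1) = q * (q ^ 2 - 1) := by
        simp
      rw [h3] at hdvd
      have h4 : ∏ i : Fin d, (q ^ d - q ^ (i : ℕ)) ≤ q - 1 ∧ 0 < ∏ i : Fin d, (q ^ d - q ^ (i : ℕ)) := by
        interval_cases d
        · simp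
          omega
        · simp
          omega
      have h5 := Nat.le_of_dvd h4.2 hdvd
      have h6 : q * 1 ≤ q * (q ^ 2 - 1) := by
        apply Nat.mul_le_mul_left
        have : 2 ^ 2 ≤ q ^ 2 := Nat.pow_le_pow_left hq 2
        omega
      omega
    · obtain ⟨r, hr, hr1, hr2⟩ := CfsgLib.H9Zs.zsigmondy q (2 * n) hq (by omega) h6 h2
      have hrq : ¬ r ∣ q := by
        intro h
        have h1 : r ∣ q ^ (2 * n) := dvd_pow h (by omega)
        have h3 : 1 ≤ q ^ (2 * n) := Nat.one_le_pow _ _ (by omega)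
        have h2 : r ∣ 1 := by
          have := (Nat.dvd_sub h1 hr1)
          rwa [Nat.sub_sub_self h3] at this
        exact hr.one_lt.ne' (Nat.dvd_one.1 h2)
      have h3 : r ∣ ∏ i : Fin d, (q ^ d - q ^ (i : ℕ)) := by
        refine dvd_trans ?_ hdvd
        apply dvd_mul_of_dvd_right
        have h4 : q ^ (2 * n) - 1 ∣ ∏ i ∈ Finset.range n, (q ^ (2 * (i + 1)) - 1) := by
          have h5 := Finset.dvd_prod_of_mem (fun i => q ^ (2 * (i + 1)) - 1) (Finset.mem_range.2 (by omega : n - 1 < n))
          have h7 : n - 1 + 1 = n := by omega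
          simp only [h7] at h5
          exact h5
        exact hr1.trans h4
      rw [hr.prime.dvd_finset_prod_iff] at h3
      obtain ⟨i, -, hi⟩ := h3
      have h8 : q ^ d - q ^ (i : ℕ) = q ^ (i : ℕ) * (q ^ (d - i) - 1) := by
        rw [Nat.mul_sub, ← pow_add, mul_one]
        congr 2
        omega
      rw [h8, hr.dvd_mul] at hi
      rcases hi with hi | hi
      · exact hrq (hr.dvd_of_dvd_pow hi)
      · exact hr2 (d - i) (by omega) (by omega) hi

end Cfsg.Agent.S2394
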