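import Cfsg.Statements.S2398
import Cfsg.Agent.Lib.CExt5

set_option autoImplicit false
open Cfsg

namespace Cfsg.Agent.S2398

/-- Universality of the group Δ presented by Steinberg's generators with relators (R1), (R2), over a field with more than four elements (types G₂, B₂, D₄, F₄, E₆, E₇, E₈): for every central extension `π₁ : E → G₁` (surjective, central kernel) and every homomorphism `σ : Δ → G₁` there is exactly one homomorphism `τ : Δ → E` with `π₁ ∘ τ = σ`. In particular every central extension of Δ splits; together with the fact that Δ maps onto the Chevalley group with central kernel, this makes Δ the universal central extension of the Chevalley group. -/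
theorem result {K : Type*} [Field K] (hK5 : ∃ s : Finset K, 4 < s.card) (D : Cfsg.Lie.ChevalleyDatum) (hD : D ∈ [Cfsg.Lie.chevG2, Cfsg.Lie.chevB2, Cfsg.Lie.chevD4, Cfsg.Lie.chevF4, Cfsg.Lie.chevE6, Cfsg.Lie.chevE7, Cfsg.Lie.chevE8])
    {G₁ E : Type*} [Group G₁] [Group E] (π₁ : E →* G₁) (hπ : Function.Surjective π₁) (hc : π₁.ker ≤ Subgroup.center E)
    (σ : D.SteinbergCover K →* G₁) : ∃! τ : D.SteinbergCover K →* E, π₁.comp τ = σ := by
  obtain ⟨M⟩ := CfsgLib.Chev.exists_cg hD K
  have hok := CfsgLib.Chev.stOK_all hD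
  have h2 : ∃ a : K, a ≠ 0 ∧ a ≠ 1 := by
    obtain ⟨v, h1, h2, h3⟩ := CfsgLib.Chev.exists_vv hK5
    obtain ⟨w, hw⟩ := CfsgLib.Chev.exists_pow_ne hK5 (e := 1) le_rfl (by norm_num)
    exact ⟨w, w.ne_zero, fun h => hw (by rw [pow_one]; exact Units.ext h)⟩
  have hp : commutator (D.SteinbergCover K) = ⊤ := CfsgLib.Chev.perfG_all hD (fun _ => h2) (CfsgLib.Chev.stCov M hok)
  exact CfsgLib.Chev.univ_of_lifts M hok hp (fun _ _ S => CfsgLib.Chev.lifts_large hD hK5 S) π₁ hπ hc σ

end Cfsg.Agent.S2398
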