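import Cfsg.Statements.S2402
import Cfsg.Agent.Lib.OMG16

set_option autoImplicit false
open Cfsg

namespace Cfsg.Agent.S2402

open Matrix Matrix.SpecialLinearGroup in
theorem T_mul {K : Type*} [Field K] {n : ℕ} {a b : Fin (n + 1)} (hab : a ≠ b) (c d : K) :
    (Matrix.SpecialLinearGroup.transvection hab c) * Matrix.SpecialLinearGroup.transvection hab d =
      Matrix.SpecialLinearGroup.transvection hab (c + d) := by
  apply Subtype.ext
  change (transvection hab c : Matrix (Fin (n + 1)) (Fin (n + 1)) K) * (transvection hab d : Matrix (Fin (n + 1)) (Fin (n + 1)) K) = _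
  rw [transvection_coe, transvection_coe, transvection_coe, mul_add, mul_one, add_mul, one_mul,
    Matrix.single_mul_single_of_ne _ _ _ _ hab.symm, add_zero, Matrix.single_add, add_assoc]

open Matrix Matrix.SpecialLinearGroup in
theorem T_zero {K : Type*} [Field K] {n : ℕ} {a b : Fin (n + 1)} (hab : a ≠ b) :
    (Matrix.SpecialLinearGroup.transvection hab (0 : K)) = 1 := by
  apply Subtype.ext
  rw [Matrix.SpecialLinearGroup.transvection_coe]
  simp

open Matrix Matrix.SpecialLinearGroup in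
theorem diag_conj {K : Type*} [Field K] {n : ℕ} {h : Matrix.SpecialLinearGroup (Fin (n + 1)) K} {δ : Fin (n + 1) → K}
    (hh : (h : Matrix (Fin (n + 1)) (Fin (n + 1)) K) = Matrix.diagonal δ) {a b : Fin (n + 1)} (hab : a ≠ b) {c c' : K}
    (hc : δ a * c = c' * δ b) :
    h * Matrix.SpecialLinearGroup.transvection hab c = Matrix.SpecialLinearGroup.transvection hab c' * h := by
  apply Subtype.ext
  change (h : Matrix (Fin (n + 1)) (Fin (n + 1)) K) * (transvection hab c : Matrix (Fin (n + 1)) (Fin (n + 1)) K) =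
    (transvection hab c' : Matrix (Fin (n + 1)) (Fin (n + 1)) K) * (h : Matrix (Fin (n + 1)) (Fin (n + 1)) K)
  rw [transvection_coe, transvection_coe, mul_add, add_mul, mul_one, one_mul, hh]
  congr 1
  ext k l
  rw [Matrix.diagonal_mul, Matrix.mul_diagonal, Matrix.single_apply, Matrix.single_apply]
  by_cases hk : a = k ∧ b = l
  · obtain ⟨rfl, rfl⟩ := hk
    rw [if_pos ⟨rfl, rfl⟩, if_pos ⟨rfl, rfl⟩, hc]
  · rw [if_neg hk, if_neg hk, mul_zero, zero_mul]

/-- Explicit two-element generation of `PSL_{n+1}(K)` for a finite field `K` with more than three elements: let `k` generate the multiplicative group of `K`, `h = diag(k, k⁻¹, 1, …, 1)`, `x = 1 + E₁₂` (the elementary transvection) and `w` the monomial matrix with entries `1` in positions `(i, i+1)` and `(−1)^n` in position `(n+1, 1)`. Then `h` and `x·w` generate `SL_{n+1}(K)` modulo its centre: the subgroup they generate together with the centre is everything. -/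
theorem result {K : Type*} [Field K] [Fintype K] (hK : 3 < Fintype.card K) (n : ℕ) (hn : 1 ≤ n)
    (k : Kˣ) (hk : ∀ u : Kˣ, u ∈ Subgroup.zpowers k)
    (h x w : Matrix.SpecialLinearGroup (Fin (n + 1)) K)
    (hh : (h : Matrix (Fin (n + 1)) (Fin (n + 1)) K) =
      Matrix.diagonal (fun i => if i.val = 0 then (k : K) else if i.val = 1 then ((k⁻¹ : Kˣ) : K) else 1))
    (hx : (x : Matrix (Fin (n + 1)) (Fin (n + 1)) K) = Matrix.transvection (0 : Fin (n + 1)) (1 : Fin (n + 1)) 1)
    (hw : (w : Matrix (Fin (n + 1)) (Fin (n + 1)) K) =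
      Matrix.of (fun i j => if j.val = i.val + 1 then 1 else if i.val = n ∧ j.val = 0 then (-1) ^ n else 0)) :
    Subgroup.closure ({h, x * w} : Set (Matrix.SpecialLinearGroup (Fin (n + 1)) K)) ⊔
      Subgroup.center (Matrix.SpecialLinearGroup (Fin (n + 1)) K) = ⊤ := by
  classical
  set N : Subgroup (Matrix.SpecialLinearGroup (Fin (n + 1)) K) := Subgroup.closure ({h, x * w} : Set (Matrix.SpecialLinearGroup (Fin (n + 1)) K)) with hN
  have hhN : h ∈ N := Subgroup.subset_closure (Or.inl rfl)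
  have hgN : x * w ∈ N := Subgroup.subset_closure (Or.inr rfl)
  have hwe := CfsgLib.SLg.w_entry hw
  haveI : Nontrivial (Fin (n + 1)) := Fin.nontrivial_iff_two_le.2 (by omega)
  have v1 : ((1 : Fin (n + 1)) : ℕ) = 1 := by
    rw [Fin.val_one', Nat.mod_eq_of_lt (by omega)]
  have h01 : (0 : Fin (n + 1)) ≠ 1 := by
    intro h
    have h5 : ((0 : Fin (n + 1)) : ℕ) = 0 := rfl
    rw [h, v1] at h5
    omega
  have hxe : x = Matrix.SpecialLinearGroup.transvection h01 (1 : K) := by
    apply Subtype.ext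
    rw [Matrix.SpecialLinearGroup.transvection_coe]
    exact hx
  set δ : Fin (n + 1) → K := fun i => if i.val = 0 then (k : K) else if i.val = 1 then ((k⁻¹ : Kˣ) : K) else 1 with hδ
  have d0 : δ 0 = k := by simp [hδ]
  have d1 : δ 1 = ((k⁻¹ : Kˣ) : K) := by
    rw [hδ]
    change (if ((1 : Fin (n + 1)) : ℕ) = 0 then (k : K) else if ((1 : Fin (n + 1)) : ℕ) = 1 then ((k⁻¹ : Kˣ) : K) else 1) = _
    rw [v1, if_neg one_ne_zero, if_pos rfl]
  have dne : ∀ i, δ i ≠ 0 := by
    intro i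
    change (if i.val = 0 then (k : K) else if i.val = 1 then ((k⁻¹ : Kˣ) : K) else 1) ≠ 0
    split_ifs
    · exact k.ne_zero
    · exact (k⁻¹).ne_zero
    · exact one_ne_zero
  have hk2 : (k : K) ^ 2 ≠ 1 := by
    intro hcon
    have h1 : k ^ 2 = 1 := Units.ext (by push_cast; exact hcon)
    have h2 : orderOf k ≤ 2 := orderOf_le_of_pow_eq_one two_pos h1
    have h3 := orderOf_eq_card_of_forall_mem_zpowers hk
    rw [Nat.card_units, Nat.card_eq_fintype_card] at h3
    omega
  have h12 : (1 : Fin (n + 1)) ≠ 1 + 1 := by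
    intro hcon
    exact h01.symm (by rw [left_eq_add] at hcon; exact hcon)
  obtain ⟨μ, hμ, hμ1, hμ2⟩ : ∃ μ : Kˣ, (μ : K) * δ (1 + 1) = δ 1 ∧ μ ≠ 1 ∧ ∀ u : Kˣ, ∃ z : ℤ, u ^ 2 = μ ^ z := by
    rcases Nat.eq_or_lt_of_le hn with hn1 | hn2
    · have e : (1 + 1 : Fin (n + 1)) = 0 := by
        apply Fin.ext
        have h5 : ((0 : Fin (n + 1)) : ℕ) = 0 := rfl
        rw [Fin.val_add, v1, h5, ← hn1]
      refine ⟨k⁻¹ ^ 2, ?_, ?_, ?_⟩
      · rw [e, d0, d1, pow_two, Units.val_mul, mul_assoc, Units.inv_mul, mul_one]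
      · intro hcon
        apply hk2
        rw [inv_pow, inv_eq_one] at hcon
        rw [← Units.val_pow_eq_pow_val, hcon, Units.val_one]
      · intro u
        obtain ⟨z, hz⟩ := Subgroup.mem_zpowers_iff.1 (hk u)
        refine ⟨-z, ?_⟩
        rw [← hz, inv_pow, zpow_neg, inv_zpow, inv_inv, ← zpow_natCast, ← zpow_natCast, ← zpow_mul, ← zpow_mul, mul_comm]
    · have e : ((1 + 1 : Fin (n + 1)) : ℕ) = 2 := by
        rw [Fin.val_add, v1, Nat.mod_eq_of_lt (by omega)]
      have e' : δ (1 + 1) = 1 := by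
        change (if ((1 + 1 : Fin (n + 1)) : ℕ) = 0 then (k : K) else if ((1 + 1 : Fin (n + 1)) : ℕ) = 1 then ((k⁻¹ : Kˣ) : K) else 1) = 1
        rw [e, if_neg (by omega), if_neg (by omega)]
      refine ⟨k⁻¹, ?_, ?_, ?_⟩
      · rw [e', mul_one, d1]
      · intro hcon
        apply hk2
        rw [inv_eq_one.1 hcon, Units.val_one, one_pow]
      · intro u
        obtain ⟨z, hz⟩ := Subgroup.mem_zpowers_iff.1 (hk u)
        refine ⟨-(z * 2), ?_⟩
        rw [← hz, inv_zpow, zpow_neg, inv_inv, zpow_mul, zpow_ofNat]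
  -- the diagonal matrix h'
  have hh' : ((w⁻¹ * h * w : Matrix.SpecialLinearGroup (Fin (n + 1)) K) : Matrix (Fin (n + 1)) (Fin (n + 1)) K) =
      Matrix.diagonal (fun j => δ (j - 1)) := by
    have h1 : w * (w⁻¹ * h * w) = h * w := by group
    have h2 : (w : Matrix (Fin (n + 1)) (Fin (n + 1)) K) * ((w⁻¹ * h * w : Matrix.SpecialLinearGroup (Fin (n + 1)) K) : Matrix (Fin (n + 1)) (Fin (n + 1)) K) =
        (h : Matrix (Fin (n + 1)) (Fin (n + 1)) K) * (w : Matrix (Fin (n + 1)) (Fin (n + 1)) K) := congrArg Subtype.val h1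
    ext j l
    have h3 := congrFun (congrFun h2 (j - 1)) l
    rw [Matrix.mul_apply, Finset.sum_eq_single j, hh, Matrix.diagonal_mul, hwe, hwe, if_pos (sub_add_cancel j 1).symm, sub_add_cancel] at h3
    · rw [Matrix.diagonal_apply]
      by_cases hjl : l = j
      · subst hjl
        rw [if_pos rfl] at h3 ⊢
        rw [mul_comm] at h3
        exact mul_right_cancel₀ (CfsgLib.SLg.sE_ne _) h3
      · rw [if_neg hjl, mul_zero] at h3
        rw [if_neg (fun h => hjl h.symm)]
        exact (mul_eq_zero.1 h3).resolve_left (CfsgLib.SLg.sE_ne _)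
    · intro m _ hm
      rw [hwe, if_neg, zero_mul]
      rw [sub_add_cancel]
      exact hm
    · intro h
      exact absurd (Finset.mem_univ _) h
  have hcomm : Commute h (w⁻¹ * h * w) := by
    apply Subtype.ext
    change (h : Matrix (Fin (n + 1)) (Fin (n + 1)) K) * ((w⁻¹ * h * w : Matrix.SpecialLinearGroup (Fin (n + 1)) K) : Matrix (Fin (n + 1)) (Fin (n + 1)) K) =
      ((w⁻¹ * h * w : Matrix.SpecialLinearGroup (Fin (n + 1)) K) : Matrix (Fin (n + 1)) (Fin (n + 1)) K) * (h : Matrix (Fin (n + 1)) (Fin (n + 1)) K)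
    rw [hh', hh, Matrix.diagonal_mul_diagonal, Matrix.diagonal_mul_diagonal]
    congr 1
    ext i
    exact mul_comm _ _
  set T : K → Matrix.SpecialLinearGroup (Fin (n + 1)) K := fun c => Matrix.SpecialLinearGroup.transvection h12 c with hT
  have Tinv : ∀ c, (T c)⁻¹ = T (-c) := fun c => Matrix.SpecialLinearGroup.transvection_inv _ _
  have Tadd : ∀ c d, T c * T d = T (c + d) := fun c d => T_mul _ _ _
  have hconj : ∀ c, h * T c * h⁻¹ = T (c * μ) := by
    intro c
    rw [mul_inv_eq_iff_eq_mul]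
    apply diag_conj hh h12
    rw [mul_assoc, hμ, mul_comm]
  have h01' : (0 : Fin (n + 1)) + 1 ≠ 1 + 1 := by rw [zero_add]; exact h12
  have hsh : ∀ c c' : K, c * CfsgLib.SLg.sE K n 1 = c' * CfsgLib.SLg.sE K n (1 + 1) →
      w * T c = Matrix.SpecialLinearGroup.transvection h01 c' * w := by
    intro c c' hcc
    have h1 := CfsgLib.SLg.shift hwe h01 h01' (c := c) (c' := c') (by rw [zero_add]; exact hcc)
    rw [← h1]
    congr 1
    have h5 : ∀ (a : Fin (n + 1)) (ha : a ≠ 1 + 1), a = 1 → Matrix.SpecialLinearGroup.transvection h12 c = Matrix.SpecialLinearGroup.transvection ha c := by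
      rintro a ha rfl
      rfl
    exact h5 _ h01' (zero_add 1)
  -- the element y
  have hy : (x * w)⁻¹ * h * (x * w) ∈ N := N.mul_mem (N.mul_mem (N.inv_mem hgN) hhN) hgN
  set b : K := ((k : K) ^ 2 - 1) * CfsgLib.SLg.sE K n (1 + 1) * (CfsgLib.SLg.sE K n 1)⁻¹ with hb
  have hb0 : b ≠ 0 := mul_ne_zero (mul_ne_zero (sub_ne_zero.2 hk2) (CfsgLib.SLg.sE_ne _)) (inv_ne_zero (CfsgLib.SLg.sE_ne _))
  have hwb : w * T b = Matrix.SpecialLinearGroup.transvection h01 ((k : K) ^ 2 - 1) * w := by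
    apply hsh
    rw [hb, mul_assoc, inv_mul_cancel₀ (CfsgLib.SLg.sE_ne _), mul_one]
  have hhx : h * x = Matrix.SpecialLinearGroup.transvection h01 ((k : K) ^ 2) * h := by
    rw [hxe]
    apply diag_conj hh
    change δ 0 * 1 = _ * δ 1
    rw [d0, d1, mul_one, pow_two, mul_assoc, Units.mul_inv, mul_one]
  have hyT : (x * w)⁻¹ * h * (x * w) = T b * (w⁻¹ * h * w) := by
    have h1 : x⁻¹ * (h * x) = Matrix.SpecialLinearGroup.transvection h01 ((k : K) ^ 2 - 1) * h := by
      rw [hhx, ← mul_assoc, hxe, Matrix.SpecialLinearGroup.transvection_inv, T_mul]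
      congr 2
      ring
    have h2 : T b = w⁻¹ * Matrix.SpecialLinearGroup.transvection h01 ((k : K) ^ 2 - 1) * w := by
      rw [mul_assoc, ← hwb]
      group
    calc (x * w)⁻¹ * h * (x * w) = w⁻¹ * (x⁻¹ * (h * x)) * w := by group
      _ = _ := by rw [h1, h2]; group
  have he : T (b * μ + -b) ∈ N := by
    have h1 : h * ((x * w)⁻¹ * h * (x * w)) * h⁻¹ * ((x * w)⁻¹ * h * (x * w))⁻¹ ∈ N :=
      N.mul_mem (N.mul_mem (N.mul_mem hhN hy) (N.inv_mem hhN)) (N.inv_mem hy)
    rw [hyT] at h1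
    have h2 : h * (T b * (w⁻¹ * h * w)) * h⁻¹ * (T b * (w⁻¹ * h * w))⁻¹ = (h * T b * h⁻¹) * (T b)⁻¹ := by
      have h3 : h * (w⁻¹ * h * w) = (w⁻¹ * h * w) * h := hcomm
      calc h * (T b * (w⁻¹ * h * w)) * h⁻¹ * (T b * (w⁻¹ * h * w))⁻¹ = (h * T b * h⁻¹) * ((h * (w⁻¹ * h * w)) * h⁻¹) * (w⁻¹ * h * w)⁻¹ * (T b)⁻¹ := by group
        _ = _ := by rw [h3]; group
    rw [h2, hconj, Tinv, Tadd] at h1
    exact h1
  set e : K := b * μ + -b with hedef
  have he0 : e ≠ 0 := by
    have : e = b * ((μ : K) - 1) := by rw [hedef]; ring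
    rw [this]
    apply mul_ne_zero hb0
    rw [sub_ne_zero]
    intro h1
    exact hμ1 (Units.ext h1)
  have hup : ∀ c, T c ∈ N → T (c * μ) ∈ N := by
    intro c hc
    rw [← hconj]
    exact N.mul_mem (N.mul_mem hhN hc) (N.inv_mem hhN)
  have hdown : ∀ c, T c ∈ N → T (c * (μ⁻¹ : Kˣ)) ∈ N := by
    intro c hc
    have h1 := hconj (c * (μ⁻¹ : Kˣ))
    rw [mul_assoc c, Units.inv_mul, mul_one] at h1
    have h2 : T (c * (μ⁻¹ : Kˣ)) = h⁻¹ * T c * h := by
      rw [← h1]
      group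
    rw [h2]
    exact N.mul_mem (N.mul_mem (N.inv_mem hhN) hc) hhN
  have hz : ∀ z : ℤ, T (e * ((μ ^ z : Kˣ) : K)) ∈ N := by
    intro z
    induction z using Int.induction_on with
    | zero => rw [zpow_zero, Units.val_one, mul_one]; exact he
    | succ i ih =>
      rw [zpow_add_one, Units.val_mul, ← mul_assoc]
      exact hup _ ih
    | pred i ih =>
      rw [zpow_sub_one, Units.val_mul, ← mul_assoc]
      exact hdown _ ih
  have hsq : ∀ u : K, T (e * (u * u)) ∈ N := by
    intro u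
    by_cases hu : u = 0
    · rw [hu, mul_zero, mul_zero]
      have : T 0 = 1 := T_zero _
      rw [this]
      exact N.one_mem
    · obtain ⟨z, hz'⟩ := hμ2 (Units.mk0 u hu)
      have h1 := hz z
      rw [← hz', pow_two, Units.val_mul] at h1
      exact h1
  have hall : ∀ c : K, T c ∈ N := by
    intro c
    by_cases h2 : (2 : K) = 0
    · haveI : CharP K 2 := CharTwo.of_one_ne_zero_of_two_eq_zero one_ne_zero h2
      obtain ⟨u, hu⟩ := FiniteField.isSquare_of_char_two (ringChar.eq K 2) (e⁻¹ * c)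
      have h1 := hsq u
      rw [← hu, mul_inv_cancel_left₀ he0] at h1
      exact h1
    · set t := e⁻¹ * c with ht
      have h1 := hsq ((t + 1) / 2)
      have h3 := N.inv_mem (hsq ((t - 1) / 2))
      rw [Tinv] at h3
      have h4 := N.mul_mem h1 h3
      rw [Tadd] at h4
      have h5 : e * ((t + 1) / 2 * ((t + 1) / 2)) + -(e * ((t - 1) / 2 * ((t - 1) / 2))) = c := by
        have h6 : c = e * t := by rw [ht, mul_inv_cancel_left₀ he0]
        rw [h6]
        field_simp
        ring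
      rw [h5] at h4
      exact h4
  have hP : CfsgLib.SLg.P N 0 1 := by
    intro h01'' c
    have h1 := hsh (c * CfsgLib.SLg.sE K n (1 + 1) * (CfsgLib.SLg.sE K n 1)⁻¹) c (by
      rw [mul_assoc, inv_mul_cancel₀ (CfsgLib.SLg.sE_ne _), mul_one])
    have h2 := N.mul_mem (N.mul_mem hgN (hall (c * CfsgLib.SLg.sE K n (1 + 1) * (CfsgLib.SLg.sE K n 1)⁻¹))) (N.inv_mem hgN)
    have h3 : x * w * T (c * CfsgLib.SLg.sE K n (1 + 1) * (CfsgLib.SLg.sE K n 1)⁻¹) * (x * w)⁻¹ =
        Matrix.SpecialLinearGroup.transvection h01 c := by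
      calc x * w * T (c * CfsgLib.SLg.sE K n (1 + 1) * (CfsgLib.SLg.sE K n 1)⁻¹) * (x * w)⁻¹ =
          x * (w * T (c * CfsgLib.SLg.sE K n (1 + 1) * (CfsgLib.SLg.sE K n 1)⁻¹)) * w⁻¹ * x⁻¹ := by group
        _ = x * Matrix.SpecialLinearGroup.transvection h01 c * x⁻¹ := by rw [h1]; group
        _ = _ := by
          rw [hxe, T_mul, add_comm (1 : K) c, ← T_mul, mul_inv_cancel_right]
    rw [h3] at h2
    exact h2
  have hxN' : x ∈ N := by
    rw [hxe]
    exact hP _ _
  have hwN : w ∈ N := by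
    have := N.mul_mem (N.inv_mem hxN') hgN
    rwa [inv_mul_cancel_left] at this
  rw [CfsgLib.SLg.gen hn hwe hwN hP, top_sup_eq]

end Cfsg.Agent.S2402
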