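import Cfsg.Statements.S2403
import Cfsg.Agent.Lib.OMG16

set_option autoImplicit false
open Cfsg

namespace Cfsg.Agent.S2403


/-- Explicit two-element generation of `PSL_{n+1}(K)` over the fields with two or three elements: with `x = 1 + E₁₂` and `w` the monomial matrix with entries `1` in positions `(i, i+1)` and `(−1)^n` in position `(n+1, 1)`, the elements `x` and `w` generate `SL_{n+1}(K)` modulo its centre. -/
theorem result {K : Type*} [Field K] [Fintype K] (hK : Fintype.card K ≤ 3) (n : ℕ) (hn : 1 ≤ n)
    (x w : Matrix.SpecialLinearGroup (Fin (n + 1)) K)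
    (hx : (x : Matrix (Fin (n + 1)) (Fin (n + 1)) K) = Matrix.transvection (0 : Fin (n + 1)) (1 : Fin (n + 1)) 1)
    (hw : (w : Matrix (Fin (n + 1)) (Fin (n + 1)) K) =
      Matrix.of (fun i j => if j.val = i.val + 1 then 1 else if i.val = n ∧ j.val = 0 then (-1) ^ n else 0)) :
    Subgroup.closure ({x, w} : Set (Matrix.SpecialLinearGroup (Fin (n + 1)) K)) ⊔
      Subgroup.center (Matrix.SpecialLinearGroup (Fin (n + 1)) K) = ⊤ := by
  classical
  have hx1 : x ∈ Subgroup.closure ({x, w} : Set (Matrix.SpecialLinearGroup (Fin (n + 1)) K)) := Subgroup.subset_closure (Or.inl rfl)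
  have hw1 : w ∈ Subgroup.closure ({x, w} : Set (Matrix.SpecialLinearGroup (Fin (n + 1)) K)) := Subgroup.subset_closure (Or.inr rfl)
  have key : Subgroup.closure ({x, w} : Set (Matrix.SpecialLinearGroup (Fin (n + 1)) K)) = ⊤ := by
    apply CfsgLib.SLg.gen hn (CfsgLib.SLg.w_entry hw) hw1
    intro h01 c
    have hxe : x = Matrix.SpecialLinearGroup.transvection h01 (1 : K) := by
      apply Subtype.ext
      rw [Matrix.SpecialLinearGroup.transvection_coe]
      exact hx
    have hc : c = 0 ∨ c = 1 ∨ c = -1 := by
      by_contra hcon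
      push Not at hcon
      obtain ⟨h0, h1, h2⟩ := hcon
      have h4 : ({0, 1, c, c + 1} : Finset K).card = 4 := by
        have h01' : (0 : K) ≠ 1 := zero_ne_one
        have e1 : (0 : K) ≠ c + 1 := fun h => h2 (eq_neg_of_add_eq_zero_left h.symm)
        have e2 : (1 : K) ≠ c + 1 := fun h => h0 (by rw [eq_comm, add_eq_right] at h; exact h)
        have e3 : c ≠ c + 1 := fun h => one_ne_zero (by rw [eq_comm, add_eq_left] at h; exact h)
        rw [Finset.card_insert_of_notMem, Finset.card_insert_of_notMem, Finset.card_insert_of_notMem, Finset.card_singleton]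
        · simp [e3]
        · simp [Ne.symm h1, e2]
        · simp [h01', Ne.symm h0, e1]
      have h5 := Finset.card_le_univ ({0, 1, c, c + 1} : Finset K)
      omega
    rcases hc with rfl | rfl | rfl
    · have : Matrix.SpecialLinearGroup.transvection h01 (0 : K) = 1 := by
        apply Subtype.ext
        rw [Matrix.SpecialLinearGroup.transvection_coe]
        simp
      rw [this]
      exact Subgroup.one_mem _
    · rw [← hxe]
      exact hx1
    · rw [← Matrix.SpecialLinearGroup.transvection_inv, ← hxe]
      exact Subgroup.inv_mem _ hx1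
  rw [key, top_sup_eq]

end Cfsg.Agent.S2403
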