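import Cfsg.Statements.S2410
import Mathlib
import Cfsg.Agent.Lib.H7SS

set_option autoImplicit false
open Cfsg

set_option linter.style.haveILetI false
namespace Cfsg.Agent.S2410

open CfsgLib.H7S MulAction


/-- The Suzuki group over the field with `2^(2m+1)` elements, `m ≥ 1` (realised as the stabiliser in `SL₄` of the Suzuki–Tits ovoid), is generated by two of its elements. -/
theorem result {F : Type*} [Field F] [Fintype F] {m : ℕ} (hm : 1 ≤ m) (hF : Fintype.card F = 2 ^ (2 * m + 1)) :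
    ∃ a b : ↥(Cfsg.Sz F m), Subgroup.closure ({a, b} : Set ↥(Cfsg.Sz F m)) = ⊤ := by
  obtain ⟨D⟩ := exists_SD hF
  haveI := isSimple (F := F) (m := m) hm hF
  obtain ⟨g1, g2, hg1, hg2, hc1, hc2, hcov⟩ := tori (F := F) hm hF
  have hcyc := cent_FP_cyclic hm hF hg1
  obtain ⟨⟨a, ha⟩, hgen⟩ := hcyc.exists_generator
  have hmem : ∀ y ∈ CC g1, y ∈ Subgroup.zpowers a := by
    intro y hy
    obtain ⟨n, hn⟩ := hgen ⟨y, hy⟩
    exact ⟨n, congrArg Subtype.val hn⟩
  have hord : orderOf a = Fintype.card F + 2 ^ (m + 1) + 1 := by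
    rw [← hc1, ← Nat.card_zpowers]
    have : Subgroup.zpowers a = CC g1 := le_antisymm (Subgroup.zpowers_le.mpr ha) hmem
    rw [this]
  have h8 := SD.card_ge (F := F) hm hF
  have hodd : Odd (orderOf a) := by
    rw [hord, hF, pow_succ, pow_succ]
    exact ⟨2 ^ (2 * m) + 2 ^ m, by ring⟩
  have ha4 : a ^ 4 ≠ 1 := by
    intro h
    have h1 := orderOf_dvd_of_pow_eq_one h
    have h2 : orderOf a ∣ 1 := (coprime_four hodd).dvd_of_dvd_mul_left (by simpa using h1)
    rw [Nat.dvd_one, hord] at h2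
    have : 0 < 2 ^ (m + 1) := Nat.two_pow_pos _
    omega
  have ha1 : a ≠ 1 := by
    rintro rfl
    exact ha4 (one_pow 4)
  obtain ⟨b, hb⟩ : ∃ b, b ∉ Subgroup.normalizer (CC g1 : Set (Cfsg.Sz F m)) := by
    by_contra hne
    push Not at hne
    have hn : (CC g1).Normal := by
      constructor
      intro y hy g
      exact (Subgroup.mem_normalizer_iff.mp (hne g) y).mp hy
    rcases hn.eq_bot_or_eq_top with h | h
    · have ha' : a ∈ CC g1 := ha
      rw [h] at ha'
      exact ha1 (Subgroup.mem_bot.mp ha')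
    · have h1 : D.T 1 0 ∈ CC g1 := by rw [h]; trivial
      have h2 := fp_of_comm hm hF hg1 (D.T_ne_one (a := 1) (b := 0) (fun h => one_ne_zero h.1)) (mem_CC.mp h1).symm
      exact h2 _ (D.T_inf 1 0)
  refine ⟨a, b, ?_⟩
  obtain ⟨M, hM⟩ : ∃ M, M = Subgroup.closure ({a, b} : Set (Cfsg.Sz F m)) := ⟨_, rfl⟩
  have haM : a ∈ M := by rw [hM]; exact Subgroup.subset_closure (by simp)
  have hbM : b ∈ M := by rw [hM]; exact Subgroup.subset_closure (by simp)
  rw [← hM]
  rcases classify hm hF M with ⟨c, hc⟩ | ⟨x, hx1, hx, hg⟩ | ⟨d, φ, k, hd, hdvd, hφ, hk⟩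
  · exfalso
    exact cent_FP_mem hm hF hg1 ha ha1 c (hc haM)
  · exfalso
    have h1 := torus_pow_four hm hF hx1 hx (hg a haM)
    rw [Subgroup.mem_centralizer_singleton_iff] at h1
    have h2 : a ^ 4 ∈ CC g1 := Subgroup.pow_mem _ ha 4
    have h3 := cent_FP_cent hm hF hg1 h2 ha4
    have h4 : x ∈ Subgroup.centralizer ({a ^ 4} : Set (Cfsg.Sz F m)) := Subgroup.mem_centralizer_singleton_iff.mpr h1.symm
    rw [h3] at h4
    have h5 := cent_FP_cent hm hF hg1 h4 hx1
    have h6 := torus_normalizer hm hF hx1 hx (hg b hbM)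
    rw [h5] at h6
    exact hb h6
  · obtain ⟨j, hj1, rfl, hdiv⟩ := dvd_of_pow_sub hF hd hdvd
    haveI : Fact (Nat.Prime 2) := ⟨Nat.prime_two⟩
    haveI := Fintype.ofFinite (GaloisField 2 (2 * j + 1))
    have hKc : Fintype.card (GaloisField 2 (2 * j + 1)) = 2 ^ (2 * j + 1) := by
      rw [← Nat.card_eq_fintype_card, GaloisField.card 2 (2 * j + 1) (by omega)]
    by_cases hjm : j = m
    · subst hjm
      rw [eq_top_iff]
      intro g _
      rw [hk, fixSz_top hF hφ]
      trivial
    · exfalso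
      have h1 := Nat.le_of_dvd (by omega) hdiv
      obtain ⟨e1⟩ := equiv_of_conj hk
      obtain ⟨e2⟩ := fix_iso' (K := GaloisField 2 (2 * j + 1)) hj1 hKc hF hdiv hφ
      obtain ⟨DG⟩ := exists_SD hKc
      have h2 : Nat.card M = ((2 ^ (2 * j + 1)) ^ 2 + 1) * (2 ^ (2 * j + 1)) ^ 2 * (2 ^ (2 * j + 1) - 1) := by
        rw [Nat.card_congr (e1.trans e2).toEquiv, DG.card_Sz hj1 hKc, hKc]
      have h3 : Fintype.card F + 2 ^ (m + 1) + 1 ∣ Nat.card M := by
        rw [← hord]
        exact Subgroup.orderOf_dvd_natCard _ haM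
      have hcop : Nat.Coprime (Fintype.card F + 2 ^ (m + 1) + 1) ((2 ^ (2 * j + 1)) ^ 2 * (2 ^ (2 * j + 1) - 1)) := by
        rw [Nat.coprime_iff_gcd_eq_one]
        by_contra hne
        obtain ⟨p, hp, hpd⟩ := Nat.exists_prime_and_dvd hne
        have h4 := hpd.trans (Nat.gcd_dvd_left _ _)
        have h5 := hpd.trans (Nat.gcd_dvd_right _ _)
        have h6 : p ≠ 2 := by
          rintro rfl
          rw [← hord] at h4
          exact (Nat.not_even_iff_odd.mpr hodd) (even_iff_two_dvd.mpr h4)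
        have h7 : p ∣ Fintype.card F ^ 2 + 1 := by
          rw [← mul_orders (F := F) hm hF]
          exact h4.mul_right _
        apply coprime_q hm hF hp h6 h7
        rcases (Nat.Prime.dvd_mul hp).mp h5 with h9 | h9
        · exfalso
          have := hp.dvd_of_dvd_pow (hp.dvd_of_dvd_pow h9)
          exact h6 ((Nat.prime_dvd_prime_iff_eq hp Nat.prime_two).mp this)
        · exact (h9.trans hdvd).mul_left _
      rw [h2, mul_assoc] at h3
      have h4 := hcop.dvd_of_dvd_mul_right h3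
      have h5 := Nat.le_of_dvd (by positivity) h4
      have h6 : (2 ^ (2 * j + 1)) ^ 2 ≤ Fintype.card F := by
        rw [hF, ← pow_mul]
        apply Nat.pow_le_pow_right (by norm_num)
        obtain ⟨e, he⟩ := hdiv
        have he1 : e ≠ 1 := by rintro rfl; omega
        have he0 : e ≠ 0 := by rintro rfl; omega
        have : 2 ≤ e := by omega
        rw [he]
        exact Nat.mul_le_mul_left _ this
      have : 0 < 2 ^ (m + 1) := Nat.two_pow_pos _
      omega

end Cfsg.Agent.S2410
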