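import Cfsg.Statements.S2418
import Cfsg.Agent.Lib.COX7
import Cfsg.Agent.Lib.COX9

set_option autoImplicit false
open Cfsg

namespace Cfsg.Agent.S2418

open CfsgLib.BNP CfsgLib.BNP.Data

theorem two {W : Type*} [Group W] {n : ℕ} {σ : Fin n → W} {A : Matrix (Fin n) (Fin n) ℤ} (K : Cox σ A)
    {rows : List (List ℤ)} (hA : ∀ i j : Fin n, A i j = (rows.getD i []).getD j 0)
    (hr : ∀ i : Fin n, (rows.getD i []).length = n) {k : ℕ} (h : chkNeg n rows k = true)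
    {r : Fin n → ℕ} {j0 : Fin n} (hc : ∀ j, j = j0 ∨ ∃ i, r i < r j ∧ A i j ≠ 0) :
    Nat.card (Subgroup.center W) = 2 ∧ Subgroup.center W ≤ Subgroup.zpowers ((List.finRange n).map σ).prod := by
  obtain ⟨h1, h2⟩ := K.center_of_neg hc (K.neg_of_chk hA hr h)
  refine ⟨h1, h2.trans ?_⟩
  rw [Subgroup.zpowers_le]
  exact Subgroup.pow_mem _ (Subgroup.mem_zpowers _) _

theorem negB2 : chkNeg 2 rowsB2 2 = true := by decide +kernel
theorem negG2 : chkNeg 2 rowsG2 3 = true := by decide +kernel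
theorem negD4 : chkNeg 4 rowsD4 3 = true := by decide +kernel
theorem negF4 : chkNeg 4 rowsF4 6 = true := by decide +kernel
theorem negE7 : chkNeg 7 rowsE7 9 = true := by decide +kernel
theorem negE8 : chkNeg 8 rowsE8 15 = true := by decide +kernel

theorem conB2 : ∀ j : Fin 2, j = 0 ∨ ∃ i : Fin 2, (fun i : Fin 2 => [0, 1].getD i 0) i < (fun i : Fin 2 => [0, 1].getD i 0) j ∧ AB2 i j ≠ 0 := by decide +kernel
theorem conG2 : ∀ j : Fin 2, j = 0 ∨ ∃ i : Fin 2, (fun i : Fin 2 => [0, 1].getD i 0) i < (fun i : Fin 2 => [0, 1].getD i 0) j ∧ AG2 i j ≠ 0 := by decide +kernel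
theorem conD4 : ∀ j : Fin 4, j = 0 ∨ ∃ i : Fin 4, (fun i : Fin 4 => [0, 1, 2, 2].getD i 0) i < (fun i : Fin 4 => [0, 1, 2, 2].getD i 0) j ∧ AD4 i j ≠ 0 := by decide +kernel
theorem conF4 : ∀ j : Fin 4, j = 0 ∨ ∃ i : Fin 4, (fun i : Fin 4 => [0, 1, 2, 3].getD i 0) i < (fun i : Fin 4 => [0, 1, 2, 3].getD i 0) j ∧ AF4 i j ≠ 0 := by decide +kernel
theorem conE6 : ∀ j : Fin 6, j = 0 ∨ ∃ i : Fin 6, (fun i : Fin 6 => [0, 3, 1, 2, 3, 4].getD i 0) i < (fun i : Fin 6 => [0, 3, 1, 2, 3, 4].getD i 0) j ∧ AE6 i j ≠ 0 := by decide +kernel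
theorem conE7 : ∀ j : Fin 7, j = 0 ∨ ∃ i : Fin 7, (fun i : Fin 7 => [0, 3, 1, 2, 3, 4, 5].getD i 0) i < (fun i : Fin 7 => [0, 3, 1, 2, 3, 4, 5].getD i 0) j ∧ AE7 i j ≠ 0 := by decide +kernel
theorem conE8 : ∀ j : Fin 8, j = 0 ∨ ∃ i : Fin 8, (fun i : Fin 8 => [0, 3, 1, 2, 3, 4, 5, 6].getD i 0) i < (fun i : Fin 8 => [0, 3, 1, 2, 3, 4, 5, 6].getD i 0) j ∧ AE8 i j ≠ 0 := by decide +kernel

theorem cB2 : Nat.card (Subgroup.center (CoxeterMatrix.B 2).Group) = 2 ∧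
    Subgroup.center (CoxeterMatrix.B 2).Group ≤ Subgroup.zpowers ((List.finRange 2).map (CoxeterMatrix.B 2).simple).prod :=
  two coxB2 (fun _ _ => rfl) lenB2 negB2 conB2
theorem cG2 : Nat.card (Subgroup.center (CoxeterMatrix.G₂).Group) = 2 ∧
    Subgroup.center (CoxeterMatrix.G₂).Group ≤ Subgroup.zpowers ((List.finRange 2).map (CoxeterMatrix.G₂).simple).prod :=
  two coxG2 (fun _ _ => rfl) lenG2 negG2 conG2
theorem cD4 : Nat.card (Subgroup.center (Cfsg.Lie.coxeterD4).Group) = 2 ∧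
    Subgroup.center (Cfsg.Lie.coxeterD4).Group ≤ Subgroup.zpowers ((List.finRange 4).map (Cfsg.Lie.coxeterD4).simple).prod :=
  two coxD4 (fun _ _ => rfl) lenD4 negD4 conD4
theorem cF4 : Nat.card (Subgroup.center (CoxeterMatrix.F₄).Group) = 2 ∧
    Subgroup.center (CoxeterMatrix.F₄).Group ≤ Subgroup.zpowers ((List.finRange 4).map (CoxeterMatrix.F₄).simple).prod :=
  two coxF4 (fun _ _ => rfl) lenF4 negF4 conF4
theorem cE7 : Nat.card (Subgroup.center (CoxeterMatrix.E₇).Group) = 2 ∧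
    Subgroup.center (CoxeterMatrix.E₇).Group ≤ Subgroup.zpowers ((List.finRange 7).map (CoxeterMatrix.E₇).simple).prod :=
  two coxE7 (fun _ _ => rfl) lenE7 negE7 conE7
theorem cE8 : Nat.card (Subgroup.center (CoxeterMatrix.E₈).Group) = 2 ∧
    Subgroup.center (CoxeterMatrix.E₈).Group ≤ Subgroup.zpowers ((List.finRange 8).map (CoxeterMatrix.E₈).simple).prod :=
  two coxE8 (fun _ _ => rfl) lenE8 negE8 conE8

theorem modE6 : ∀ i : Fin 6, (∑ j, AE6 i j * (fun k : Fin 6 => [1, 0, 2, 0, 1, 2].getD k 0) j) % 3 = 0 := by decide +kernel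

theorem cE6 : Nat.card (Subgroup.center (CoxeterMatrix.E₆).Group) = 1 ∧
    Subgroup.center (CoxeterMatrix.E₆).Group ≤ Subgroup.zpowers ((List.finRange 6).map (CoxeterMatrix.E₆).simple).prod := by
  have h1 : Subgroup.center (CoxeterMatrix.E₆).Group = ⊥ := by
    refine coxE6.center_of_mod conE6 (f := fun k : Fin 6 => [1, 0, 2, 0, 1, 2].getD k 0) (m := 3) ?_ ?_
    · intro i
      rw [cof_apply]
      exact Int.dvd_of_emod_eq_zero (modE6 i)
    · decide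
  rw [h1]
  exact ⟨Nat.card_unique, bot_le⟩

/-- For the Coxeter groups of types B₂, G₂, D₄, F₄, E₇, E₈ the centre has order 2 (the element acting as −1 on the root system) and is generated by a power of the Coxeter element `s₁ s₂ ⋯ s_l`; the Coxeter group of type E₆ has trivial centre. -/
theorem result (c : (Σ n : ℕ, CoxeterMatrix (Fin n)) × ℕ)
    (hc : c ∈ [(⟨2, CoxeterMatrix.B 2⟩, 2), (⟨2, CoxeterMatrix.G₂⟩, 2), (⟨4, Cfsg.Lie.coxeterD4⟩, 2), (⟨4, CoxeterMatrix.F₄⟩, 2),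
      (⟨6, CoxeterMatrix.E₆⟩, 1), (⟨7, CoxeterMatrix.E₇⟩, 2), (⟨8, CoxeterMatrix.E₈⟩, 2)]) :
    Nat.card (Subgroup.center c.1.2.Group) = c.2 ∧
      Subgroup.center c.1.2.Group ≤ Subgroup.zpowers ((List.finRange c.1.1).map c.1.2.simple).prod := by
  simp only [List.mem_cons, List.not_mem_nil, or_false] at hc
  rcases hc with rfl | rfl | rfl | rfl | rfl | rfl | rfl
  · exact cB2
  · exact cG2
  · exact cD4
  · exact cF4
  · exact cE6
  · exact cE7
  · exact cE8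

end Cfsg.Agent.S2418
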