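import Cfsg.Statements.S2419
import Cfsg.Agent.Lib.COX7
import Cfsg.Agent.Lib.COX9

set_option autoImplicit false
open Cfsg

namespace Cfsg.Agent.S2419

open CfsgLib.BNP CfsgLib.BNP.Data

theorem gen {n : ℕ} (M : CoxeterMatrix (Fin n)) {A : Matrix (Fin n) (Fin n) ℤ}
    (K : Cox M.toCoxeterSystem.simple A) {rows : List (List ℤ)}
    (hA : ∀ i j : Fin n, A i j = (rows.getD i []).getD j 0)
    (hr : ∀ i : Fin n, (rows.getD i []).length = n) (a b : Fin n) (WD : List (List ℕ))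
    (h : ((List.finRange n).all fun j => chkWd n rows a b j (WD.getD j [])) = true)
    (T : Finset M.Group) (hT : ∀ t, t ∈ T ↔ t = M.simple a ∨ t = M.simple b) :
    (∀ t ∈ T, ∃ (g : M.Group) (i : Fin n), t = g * M.simple i * g⁻¹) ∧
      Subgroup.closure (({((List.finRange n).map M.simple).prod} : Set M.Group) ∪ ↑T) = ⊤ := by
  constructor
  · intro t ht
    rcases (hT t).1 ht with rfl | rfl
    · exact ⟨1, a, by simp⟩
    · exact ⟨1, b, by simp⟩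
  · rw [eq_top_iff, ← M.toCoxeterSystem.subgroup_closure_range_simple, Subgroup.closure_le]
    rintro _ ⟨j, rfl⟩
    rw [List.all_eq_true] at h
    refine K.mem_of_chk hA hr (h j (List.mem_finRange j)) _ ?_ ?_ ?_
    · exact Subgroup.subset_closure (Or.inl rfl)
    · exact Subgroup.subset_closure (Or.inr (Finset.mem_coe.2 ((hT _).2 (Or.inl rfl))))
    · exact Subgroup.subset_closure (Or.inr (Finset.mem_coe.2 ((hT _).2 (Or.inr rfl))))

theorem gen1 {n : ℕ} (M : CoxeterMatrix (Fin n)) {A : Matrix (Fin n) (Fin n) ℤ}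
    (K : Cox M.toCoxeterSystem.simple A) {rows : List (List ℤ)}
    (hA : ∀ i j : Fin n, A i j = (rows.getD i []).getD j 0)
    (hr : ∀ i : Fin n, (rows.getD i []).length = n) (a : Fin n) (WD : List (List ℕ))
    (h : ((List.finRange n).all fun j => chkWd n rows a a j (WD.getD j [])) = true) :
    ∃ T : Finset M.Group, T.card = 1 ∧ (∀ t ∈ T, ∃ (g : M.Group) (i : Fin n), t = g * M.simple i * g⁻¹) ∧
      Subgroup.closure (({((List.finRange n).map M.simple).prod} : Set M.Group) ∪ ↑T) = ⊤ := by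
  classical
  exact ⟨{M.simple a}, Finset.card_singleton _, gen M K hA hr a a WD h _ (by simp)⟩

theorem gen2 {n : ℕ} (M : CoxeterMatrix (Fin n)) {A : Matrix (Fin n) (Fin n) ℤ}
    (K : Cox M.toCoxeterSystem.simple A) {rows : List (List ℤ)}
    (hA : ∀ i j : Fin n, A i j = (rows.getD i []).getD j 0)
    (hr : ∀ i : Fin n, (rows.getD i []).length = n) (a b : Fin n) (hab : a ≠ b) (WD : List (List ℕ))
    (h : ((List.finRange n).all fun j => chkWd n rows a b j (WD.getD j [])) = true) :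
    ∃ T : Finset M.Group, T.card = 2 ∧ (∀ t ∈ T, ∃ (g : M.Group) (i : Fin n), t = g * M.simple i * g⁻¹) ∧
      Subgroup.closure (({((List.finRange n).map M.simple).prod} : Set M.Group) ∪ ↑T) = ⊤ := by
  classical
  refine ⟨{M.simple a, M.simple b}, Finset.card_pair ?_, gen M K hA hr a b WD h _ (by simp)⟩
  intro he
  have h1 := K.ρ_σ a
  have h2 := K.ρ_σ b
  have he' : M.toCoxeterSystem.simple a = M.toCoxeterSystem.simple b := he
  rw [he', h2] at h1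
  have h3 := congrFun (congrArg (fun f : Module.End ℤ (Fin n → ℤ) => f (sr a)) h1) a
  simp only [rf_apply, cof_sr, Pi.sub_apply, Pi.smul_apply, smul_eq_mul, K.diag] at h3
  have h4 : (sr a : Fin n → ℤ) a = 1 := by simp [sr]
  have h5 : (sr b : Fin n → ℤ) a = 0 := by simp [sr, hab]
  rw [h4, h5] at h3
  norm_num at h3

def wdB2 : List (List ℕ) := [[2], [2, 0]]

theorem ckB2 : ((List.finRange 2).all fun j => chkWd 2 rowsB2 0 0 j (wdB2.getD j [])) = true := by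
  decide +kernel

def wdG2 : List (List ℕ) := [[2], [2, 0]]

theorem ckG2 : ((List.finRange 2).all fun j => chkWd 2 rowsG2 0 0 j (wdG2.getD j [])) = true := by
  decide +kernel

def wdD4 : List (List ℕ) := [[2], [0, 2, 1], [3], [1, 2, 1, 3, 0, 2, 0]]

theorem ckD4 : ((List.finRange 4).all fun j => chkWd 4 rowsD4 0 2 j (wdD4.getD j [])) = true := by
  decide +kernel

def wdF4 : List (List ℕ) := [[2], [0, 2, 1], [3], [0, 3, 1]]

theorem ckF4 : ((List.finRange 4).all fun j => chkWd 4 rowsF4 0 2 j (wdF4.getD j [])) = true := by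
  decide +kernel

def wdE6 : List (List ℕ) := [[2], [1, 2, 1, 1, 1, 2, 0, 0, 0, 2, 0], [0, 2, 1], [0, 0, 0, 0, 0, 2, 1, 1, 1, 1, 1], [1, 1, 1, 1, 1, 1, 2, 0, 0, 0, 0, 0, 0], [1, 1, 1, 1, 1, 2, 0, 0, 0, 0, 0]]

theorem ckE6 : ((List.finRange 6).all fun j => chkWd 6 rowsE6 0 0 j (wdE6.getD j [])) = true := by
  decide +kernel

def wdE7 : List (List ℕ) := [[0, 0, 0, 2, 0, 0, 2, 1, 1, 2, 1, 1, 1], [2], [1, 1, 1, 2, 1, 1, 2, 0, 0, 2, 0, 0, 0], [2, 1, 1, 2, 1, 1, 2, 0, 0, 2, 0, 0, 2], [0, 2, 1, 1, 2, 1, 1, 2, 0, 0, 2, 0, 0, 2, 1], [1, 1, 2, 0, 0, 2, 0, 0, 2, 1, 1, 2, 1, 1, 2, 0, 0], [1, 2, 0, 0, 2, 0, 0, 2, 1, 1, 2, 1, 1, 2, 0]]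

theorem ckE7 : ((List.finRange 7).all fun j => chkWd 7 rowsE7 1 1 j (wdE7.getD j [])) = true := by
  decide +kernel

def wdE8 : List (List ℕ) := [[2], [1, 2, 1, 1, 2, 1, 1, 1, 2, 0, 0, 0, 2, 0, 0, 2, 0], [0, 2, 1], [0, 0, 0, 0, 2, 0, 0, 0, 2, 1, 1, 1, 2, 1, 1, 1, 1], [0, 0, 0, 0, 0, 2, 0, 0, 0, 2, 1, 1, 1, 2, 1, 1, 1, 1, 1], [1, 1, 1, 1, 1, 1, 2, 1, 1, 1, 2, 0, 0, 0, 2, 0, 0, 0, 0, 0, 0], [1, 1, 1, 1, 1, 2, 1, 1, 1, 2, 0, 0, 0, 2, 0, 0, 0, 0, 0], [1, 1, 1, 1, 2, 1, 1, 1, 2, 0, 0, 0, 2, 0, 0, 0, 0]]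

theorem ckE8 : ((List.finRange 8).all fun j => chkWd 8 rowsE8 0 0 j (wdE8.getD j [])) = true := by
  decide +kernel


/-- The Coxeter groups of types B₂, G₂, E₆, E₇, E₈ are generated by the Coxeter element `s₁ s₂ ⋯ s_l` together with one suitable reflection (a conjugate of a simple reflection); for types D₄ and F₄ the Coxeter element together with two suitable reflections suffices. -/
theorem result (c : (Σ n : ℕ, CoxeterMatrix (Fin n)) × ℕ)
    (hc : c ∈ [(⟨2, CoxeterMatrix.B 2⟩, 1), (⟨2, CoxeterMatrix.G₂⟩, 1), (⟨4, Cfsg.Lie.coxeterD4⟩, 2), (⟨4, CoxeterMatrix.F₄⟩, 2),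
      (⟨6, CoxeterMatrix.E₆⟩, 1), (⟨7, CoxeterMatrix.E₇⟩, 1), (⟨8, CoxeterMatrix.E₈⟩, 1)]) :
    ∃ T : Finset c.1.2.Group, T.card = c.2 ∧ (∀ t ∈ T, ∃ (g : c.1.2.Group) (i : Fin c.1.1), t = g * c.1.2.simple i * g⁻¹) ∧
      Subgroup.closure (({((List.finRange c.1.1).map c.1.2.simple).prod} : Set c.1.2.Group) ∪ ↑T) = ⊤ := by
  simp only [List.mem_cons, List.not_mem_nil, or_false] at hc
  rcases hc with rfl | rfl | rfl | rfl | rfl | rfl | rfl
  · exact gen1 (CoxeterMatrix.B 2) coxB2 (fun _ _ => rfl) lenB2 0 wdB2 ckB2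
  · exact gen1 (CoxeterMatrix.G₂) coxG2 (fun _ _ => rfl) lenG2 0 wdG2 ckG2
  · exact gen2 (Cfsg.Lie.coxeterD4) coxD4 (fun _ _ => rfl) lenD4 0 2 (by decide) wdD4 ckD4
  · exact gen2 (CoxeterMatrix.F₄) coxF4 (fun _ _ => rfl) lenF4 0 2 (by decide) wdF4 ckF4
  · exact gen1 (CoxeterMatrix.E₆) coxE6 (fun _ _ => rfl) lenE6 0 wdE6 ckE6
  · exact gen1 (CoxeterMatrix.E₇) coxE7 (fun _ _ => rfl) lenE7 1 wdE7 ckE7
  · exact gen1 (CoxeterMatrix.E₈) coxE8 (fun _ _ => rfl) lenE8 0 wdE8 ckE8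

end Cfsg.Agent.S2419
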