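import Cfsg.Statements.S2428
import Cfsg.Agent.Lib.GLe3

set_option autoImplicit false
open Cfsg

namespace Cfsg.Agent.S2428
open CfsgLib.GL2a

/-- Let F be a finite field with q elements, q odd, and let d be a diagonal element of SL₂ over F whose diagonal entry a has a² ≠ 1 (such d exist exactly when q > 3). Then the centraliser of d is precisely the diagonal subgroup T; the normaliser of T has order 2(q − 1) and exactly (q + 5)/2 conjugacy classes; and every element of that normaliser outside T has square equal to −1. -/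
theorem result {F : Type*} [Field F] [Fintype F] (hodd : Odd (Fintype.card F))
    (d : Matrix.SpecialLinearGroup (Fin 2) F) (hd01 : (d : Matrix (Fin 2) (Fin 2) F) 0 1 = 0) (hd10 : (d : Matrix (Fin 2) (Fin 2) F) 1 0 = 0) (hda : (d : Matrix (Fin 2) (Fin 2) F) 0 0 ^ 2 ≠ 1) :
    (∀ g : Matrix.SpecialLinearGroup (Fin 2) F, g ∈ Subgroup.centralizer ({d} : Set (Matrix.SpecialLinearGroup (Fin 2) F)) ↔ ((g : Matrix (Fin 2) (Fin 2) F) 0 1 = 0 ∧ (g : Matrix (Fin 2) (Fin 2) F) 1 0 = 0)) ∧
    Nat.card (Subgroup.normalizer ((Subgroup.centralizer ({d} : Set (Matrix.SpecialLinearGroup (Fin 2) F))) : Set (Matrix.SpecialLinearGroup (Fin 2) F))) = 2 * (Fintype.card F - 1) ∧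
    Nat.card (ConjClasses (Subgroup.normalizer ((Subgroup.centralizer ({d} : Set (Matrix.SpecialLinearGroup (Fin 2) F))) : Set (Matrix.SpecialLinearGroup (Fin 2) F)))) = (Fintype.card F + 5) / 2 ∧
    ∀ g : Matrix.SpecialLinearGroup (Fin 2) F, g ∈ Subgroup.normalizer ((Subgroup.centralizer ({d} : Set (Matrix.SpecialLinearGroup (Fin 2) F))) : Set (Matrix.SpecialLinearGroup (Fin 2) F)) →
      g ∉ Subgroup.centralizer ({d} : Set (Matrix.SpecialLinearGroup (Fin 2) F)) → ((g * g) : Matrix (Fin 2) (Fin 2) F) = -1 := by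
  classical
  have h2 := two_ne_of_odd hodd
  have hd : ¬ IsScal (d : M2 F) := by
    rintro ⟨-, -, h⟩
    apply hda
    have := sl_det d
    rw [det_e, hd01, ← h] at this
    rw [sq]; linear_combination this
  have hda' : (d : M2 F) 0 0 * (d : M2 F) 1 1 = 1 := by
    have := sl_det d
    rw [det_e, hd01] at this
    linear_combination this
  have ht : (d : M2 F).trace ^ 2 ≠ 4 := by
    intro h
    rw [tr_eq] at h
    apply hd
    refine ⟨hd01, hd10, ?_⟩
    have : ((d : M2 F) 0 0 - (d : M2 F) 1 1) ^ 2 = 0 := by linear_combination h - 4 * hda'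
    exact sub_eq_zero.mp (pow_eq_zero_iff (two_ne_zero)|>.mp this)
  have hn : ¬ Aniso (d : M2 F) := by
    rw [not_aniso_iff]
    refine ⟨(d : M2 F) 0 0, ?_⟩
    rw [sl_det, tr_eq]; linear_combination -hda'
  have hcard : Nat.card (TT d) = Fintype.card F - 1 := card_TT_split hd ht hn
  obtain ⟨m, hm⟩ := hodd
  have hcard' : Nat.card (TT d) = 2 * m := by rw [hcard, hm]; omega
  obtain ⟨hc1, hc2⟩ := cases_norm hd ht h2 hcard'
  refine ⟨?_, ?_, ?_, ?_⟩
  · intro g
    change g ∈ TT d ↔ _
    constructor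
    · intro hg
      obtain ⟨a, b, hab⟩ := (mem_TT hd).mp hg
      rw [hab]; simp [hd01, hd10]
    · rintro ⟨h01, h10⟩
      rw [mem_TT_comm]
      apply sl_ext
      rw [Matrix.SpecialLinearGroup.coe_mul, Matrix.SpecialLinearGroup.coe_mul]
      apply ext4 <;> simp only [mul_e00, mul_e01, mul_e10, mul_e11, hd01, hd10, h01, h10] <;> ring
  · rw [hc1, hcard]
  · rw [hc2, hm]; omega
  · intro g hg hgT
    rcases (mem_norm hd ht h2).mp hg with h | h
    · exact absurd h hgT
    · have := w_sq hd h2 h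
      have := congrArg (fun y : S2 F => (y : M2 F)) this
      simpa using this

end Cfsg.Agent.S2428
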