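import Cfsg.Statements.S2429
import Cfsg.Agent.Lib.GLe3

set_option autoImplicit false
open Cfsg

open scoped Pointwise
namespace Cfsg.Agent.S2429
open CfsgLib.GL2a

/-- Let F be a finite field with q elements, q odd. Then SL₂ over F contains a cyclic subgroup T′ of order q + 1 (a non-split torus) with the following properties: T′ is its own centraliser, and indeed the centraliser of each element of T′ other than 1 and −1 is exactly T′; every element of SL₂ having no eigenvector in F² is conjugate to an element of T′; the normaliser of T′ has order 2(q + 1) and exactly (q + 7)/2 conjugacy classes; and every element of that normaliser outside T′ has square −1. -/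
theorem result {F : Type*} [Field F] [Fintype F] (hodd : Odd (Fintype.card F)) :
    ∃ T' : Subgroup (Matrix.SpecialLinearGroup (Fin 2) F), IsCyclic T' ∧ Nat.card T' = Fintype.card F + 1 ∧
      Subgroup.centralizer ((T' : Set (Matrix.SpecialLinearGroup (Fin 2) F))) = T' ∧
      (∀ g : Matrix.SpecialLinearGroup (Fin 2) F, g ∈ T' → (g : Matrix (Fin 2) (Fin 2) F) ≠ 1 → (g : Matrix (Fin 2) (Fin 2) F) ≠ -1 → Subgroup.centralizer ({g} : Set (Matrix.SpecialLinearGroup (Fin 2) F)) = T') ∧
      (∀ g : Matrix.SpecialLinearGroup (Fin 2) F, (∀ (c : F) (v : Fin 2 → F), v ≠ 0 → (g : Matrix (Fin 2) (Fin 2) F).mulVec v ≠ c • v) → ∃ h : Matrix.SpecialLinearGroup (Fin 2) F, h * g * h⁻¹ ∈ T') ∧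
      Nat.card (Subgroup.normalizer (T' : Set (Matrix.SpecialLinearGroup (Fin 2) F))) = 2 * (Fintype.card F + 1) ∧
      Nat.card (ConjClasses (Subgroup.normalizer (T' : Set (Matrix.SpecialLinearGroup (Fin 2) F)))) = (Fintype.card F + 7) / 2 ∧
      ∀ g : Matrix.SpecialLinearGroup (Fin 2) F, g ∈ Subgroup.normalizer (T' : Set (Matrix.SpecialLinearGroup (Fin 2) F)) → g ∉ T' → ((g * g) : Matrix (Fin 2) (Fin 2) F) = -1 := by
  classical
  have h2 := two_ne_of_odd hodd
  obtain ⟨g0, hg0⟩ := exists_aniso h2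
  have hs0 := aniso_not_isScal hg0
  have hsq0 := (aniso_disc_sq h2).mp hg0
  have ht0 : (g0 : M2 F).trace ^ 2 ≠ 4 := by
    intro h; apply hsq0; rw [h]; exact ⟨0, by simp⟩
  have hcard := card_TT_aniso hg0
  obtain ⟨m, hm⟩ := hodd
  have hcard' : Nat.card (TT g0) = 2 * (m + 1) := by rw [hcard, hm]; omega
  obtain ⟨hc1, hc2⟩ := cases_norm hs0 ht0 h2 hcard'
  refine ⟨TT g0, tor_cyclic g0 hs0 ht0, hcard, (sub_torus hs0 ht0 h2 _ le_rfl (TT_self g0)).1, ?_, ?_, ?_, ?_, ?_⟩
  · intro g hg h1 hm1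
    apply TT_eq hs0 hg
    intro hs
    rcases scal_sl' hs with h | h
    · exact h1 (by rw [h]; simp)
    · exact hm1 (by rw [h]; simp)
  · intro g hg
    have hga : Aniso (g : M2 F) := hg
    have hgs := aniso_not_isScal hga
    have hsq := (aniso_disc_sq h2).mp hga
    have h4 : (4 : F) ≠ 0 := by
      have : (4 : F) = 2 * 2 := by norm_num
      rw [this]; exact mul_ne_zero h2 h2
    -- ratio is a square
    obtain ⟨y, hy⟩ : ∃ y : F, y ^ 2 * ((g0 : M2 F).trace ^ 2 - 4) = (g : M2 F).trace ^ 2 - 4 := by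
      rcases sq_or_nonsq h2 hsq0 ((g : M2 F).trace ^ 2 - 4) with h | h
      · exact absurd h hsq
      · obtain ⟨s, hs⟩ := h
        have hne : (g0 : M2 F).trace ^ 2 - 4 ≠ 0 := sub_ne_zero.mpr ht0
        refine ⟨s / ((g0 : M2 F).trace ^ 2 - 4), ?_⟩
        field_simp
        linear_combination -hs
    have ht : (g : M2 F).trace ^ 2 ≠ 4 := by
      intro h; apply hsq; rw [h]; exact ⟨0, by simp⟩
    have hy0 : y ≠ 0 := by
      rintro rfl
      apply ht; linear_combination -hy
    have hdet : ((((g : M2 F).trace - y * (g0 : M2 F).trace) / 2) • (1 : M2 F) + y • (g0 : M2 F)).det = 1 := by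
      rw [det_lin, sl_det]
      field_simp
      linear_combination -hy
    let X : S2 F := ⟨(((g : M2 F).trace - y * (g0 : M2 F).trace) / 2) • (1 : M2 F) + y • (g0 : M2 F), hdet⟩
    have hXT : X ∈ TT g0 := (mem_TT hs0).mpr ⟨_, _, rfl⟩
    have hXtr : (X : M2 F).trace = (g : M2 F).trace := by
      change ((((g : M2 F).trace - y * (g0 : M2 F).trace) / 2) • (1 : M2 F) + y • (g0 : M2 F)).trace = _
      rw [Matrix.trace_add, Matrix.trace_smul, Matrix.trace_smul, Matrix.trace_one]
      simp only [smul_eq_mul, Fintype.card_fin]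
      push_cast
      field_simp
      ring
    have hXs : ¬ IsScal (X : M2 F) := by
      intro h
      apply hs0
      have e1 := h.1; have e2 := h.2.1; have e3 := h.2.2
      change ((((g : M2 F).trace - y * (g0 : M2 F).trace) / 2) • (1 : M2 F) + y • (g0 : M2 F)) 0 1 = 0 at e1
      change ((((g : M2 F).trace - y * (g0 : M2 F).trace) / 2) • (1 : M2 F) + y • (g0 : M2 F)) 1 0 = 0 at e2
      change ((((g : M2 F).trace - y * (g0 : M2 F).trace) / 2) • (1 : M2 F) + y • (g0 : M2 F)) 0 0 = ((((g : M2 F).trace - y * (g0 : M2 F).trace) / 2) • (1 : M2 F) + y • (g0 : M2 F)) 1 1 at e3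
      simp [hy0] at e1 e2 e3
      exact ⟨e1, e2, e3⟩
    obtain ⟨c, hc⟩ := isConj_iff.mp (sl_isConj hgs hXs hXtr.symm (Or.inl ht))
    exact ⟨c, hc ▸ hXT⟩
  · rw [hc1, hcard]
  · rw [hc2, hm]; omega
  · intro g hg hgT
    rcases (mem_norm hs0 ht0 h2).mp hg with h | h
    · exact absurd h hgT
    · have := w_sq hs0 h2 h
      have := congrArg (fun y : S2 F => (y : M2 F)) this
      simpa using this

end Cfsg.Agent.S2429
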