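import Cfsg.Statements.S2430
import Cfsg.Agent.Lib.GLe4

set_option autoImplicit false
open Cfsg CfsgLib.GL2a

namespace Cfsg.Agent.S2430

/-- Let F be a finite field with q elements, q odd, ℓ an odd prime, and P a Sylow ℓ-subgroup of SL₂ over F. If ℓ divides q − 1, the centraliser of P is cyclic of order q − 1 (a split torus) and the normaliser of P has order 2(q − 1); if ℓ divides q + 1, the centraliser of P is cyclic of order q + 1 (a non-split torus) and the normaliser of P has order 2(q + 1). -/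
theorem result {F : Type*} [Field F] [Fintype F] (hodd : Odd (Fintype.card F)) (ℓ : ℕ) [Fact ℓ.Prime] (hℓ : ℓ ≠ 2)
    (P : Sylow ℓ (Matrix.SpecialLinearGroup (Fin 2) F)) :
    (ℓ ∣ Fintype.card F - 1 →
      Nat.card (Subgroup.centralizer ((P : Subgroup (Matrix.SpecialLinearGroup (Fin 2) F)) : Set (Matrix.SpecialLinearGroup (Fin 2) F))) = Fintype.card F - 1 ∧
      IsCyclic (Subgroup.centralizer ((P : Subgroup (Matrix.SpecialLinearGroup (Fin 2) F)) : Set (Matrix.SpecialLinearGroup (Fin 2) F))) ∧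
      Nat.card (Subgroup.normalizer ((P : Subgroup (Matrix.SpecialLinearGroup (Fin 2) F)) : Set (Matrix.SpecialLinearGroup (Fin 2) F))) = 2 * (Fintype.card F - 1)) ∧
    (ℓ ∣ Fintype.card F + 1 →
      Nat.card (Subgroup.centralizer ((P : Subgroup (Matrix.SpecialLinearGroup (Fin 2) F)) : Set (Matrix.SpecialLinearGroup (Fin 2) F))) = Fintype.card F + 1 ∧
      IsCyclic (Subgroup.centralizer ((P : Subgroup (Matrix.SpecialLinearGroup (Fin 2) F)) : Set (Matrix.SpecialLinearGroup (Fin 2) F))) ∧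
      Nat.card (Subgroup.normalizer ((P : Subgroup (Matrix.SpecialLinearGroup (Fin 2) F)) : Set (Matrix.SpecialLinearGroup (Fin 2) F))) = 2 * (Fintype.card F + 1)) := by
  classical
  have h2 := two_ne_of_odd hodd
  have hlp := (Fact.out : ℓ.Prime)
  have hlP : ℓ ∣ (Fintype.card F - 1) * (Fintype.card F + 1) → ℓ ∣ Nat.card P := fun hd =>
    P.dvd_card_of_dvd_card (by rw [card_S2', mul_assoc]; exact Dvd.dvd.mul_left hd _)
  have hnot : ¬ (ℓ ∣ Fintype.card F - 1 ∧ ℓ ∣ Fintype.card F + 1) := by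
    rintro ⟨h1, h3⟩
    have := Nat.dvd_sub h3 h1
    have e : Fintype.card F + 1 - (Fintype.card F - 1) = 2 := by
      have := two_le_card (F := F); omega
    rw [e] at this
    exact hℓ ((Nat.prime_dvd_prime_iff_eq hlp Nat.prime_two).mp this)
  constructor
  · intro hd
    obtain ⟨g, hs, ht, hgP, hPT⟩ := sylow_torus hodd ℓ hℓ P (Dvd.dvd.mul_right hd _)
    obtain ⟨hC, hN⟩ := sub_torus hs ht h2 _ hPT hgP
    have hT : Nat.card (TT g) = Fintype.card F - 1 := by
      apply card_TT_split hs ht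
      intro ha
      have := (hlP (Dvd.dvd.mul_right hd _)).trans (Subgroup.card_dvd_of_le hPT)
      rw [card_TT_aniso ha] at this
      exact hnot ⟨hd, this⟩
    obtain ⟨m, hm⟩ := hodd
    have hT' : Nat.card (TT g) = 2 * m := by rw [hT, hm]; omega
    rw [hC, hN, (cases_norm hs ht h2 hT').1, hT]
    exact ⟨rfl, tor_cyclic g hs ht, rfl⟩
  · intro hd
    obtain ⟨g, hs, ht, hgP, hPT⟩ := sylow_torus hodd ℓ hℓ P (Dvd.dvd.mul_left hd _)
    obtain ⟨hC, hN⟩ := sub_torus hs ht h2 _ hPT hgP
    have hT : Nat.card (TT g) = Fintype.card F + 1 := by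
      apply card_TT_aniso
      by_contra ha
      have := (hlP (Dvd.dvd.mul_left hd _)).trans (Subgroup.card_dvd_of_le hPT)
      rw [card_TT_split hs ht ha] at this
      exact hnot ⟨this, hd⟩
    obtain ⟨m, hm⟩ := hodd
    have hT' : Nat.card (TT g) = 2 * (m + 1) := by rw [hT, hm]; omega
    rw [hC, hN, (cases_norm hs ht h2 hT').1, hT]
    exact ⟨rfl, tor_cyclic g hs ht, rfl⟩

end Cfsg.Agent.S2430
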