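import Cfsg.Statements.S2431
import Cfsg.Agent.Lib.GLf7

set_option autoImplicit false
open Cfsg CfsgLib.GL2a

namespace Cfsg.Agent.S2431

/-- Let F be a finite field with q elements, q odd, and S a Sylow 2-subgroup of SL₂ over F. The centraliser of S is the centre of SL₂ (of order 2); S is its own normaliser when q ≡ ±1 mod 8, and has index 3 in its normaliser when q ≡ ±3 mod 8. -/
theorem result {F : Type*} [Field F] [Fintype F] (hodd : Odd (Fintype.card F)) (S : Sylow 2 (Matrix.SpecialLinearGroup (Fin 2) F)) :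
    Subgroup.centralizer ((S : Subgroup (Matrix.SpecialLinearGroup (Fin 2) F)) : Set (Matrix.SpecialLinearGroup (Fin 2) F)) = Subgroup.center (Matrix.SpecialLinearGroup (Fin 2) F) ∧
    ((Fintype.card F % 8 = 1 ∨ Fintype.card F % 8 = 7) →
      Subgroup.normalizer ((S : Subgroup (Matrix.SpecialLinearGroup (Fin 2) F)) : Set (Matrix.SpecialLinearGroup (Fin 2) F)) = (S : Subgroup (Matrix.SpecialLinearGroup (Fin 2) F))) ∧
    ((Fintype.card F % 8 = 3 ∨ Fintype.card F % 8 = 5) →
      Nat.card (Subgroup.normalizer ((S : Subgroup (Matrix.SpecialLinearGroup (Fin 2) F)) : Set (Matrix.SpecialLinearGroup (Fin 2) F))) = 3 * Nat.card S) := by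
  classical
  have h2 := two_ne_of_odd hodd
  obtain ⟨i, h⟩ := exists_S2D h2 S
  obtain ⟨hT3, hT1, hT4, -, -⟩ := card_TT_zero h2 h.sq
  rw [Nat.odd_iff] at hodd
  refine ⟨h.cent, fun hq => h.norm_big ?_, fun hq => h.card_small ?_⟩
  · rcases hq with hq | hq
    · rw [hT1 (by omega)]; omega
    · rw [hT3 (by omega)]; omega
  · rcases hq with hq | hq
    · rw [hT3 (by omega)]; omega
    · rw [hT1 (by omega)]; omega

end Cfsg.Agent.S2431
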