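import Cfsg.Statements.S2433
import Cfsg.Agent.Lib.GLc5

set_option autoImplicit false
open Cfsg

namespace Cfsg.Agent.S2433

/-- Let F be a finite field with q elements, q odd, α a multiplicative character of F, and R(α) the function on SL₂ induced from the linear character b ↦ α(b₁₁) of the upper triangular subgroup. Then R(α) takes the value α(a) + α(a⁻¹) at a diagonal element with entries a, a⁻¹, a² ≠ 1; the value 0 at every element with no eigenvector in F²; the value α(ε) at an upper triangular element with both diagonal entries ε and non-zero upper right entry; and the value (q + 1)α(ε) at the scalar element ε (ε = ±1). -/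
theorem result {F : Type*} [Field F] [Fintype F] [DecidableEq F] (hodd : Odd (Fintype.card F)) (α : MulChar F ℂ) (g : Matrix.SpecialLinearGroup (Fin 2) F) :
    ((g : Matrix (Fin 2) (Fin 2) F) 0 1 = 0 → (g : Matrix (Fin 2) (Fin 2) F) 1 0 = 0 → (g : Matrix (Fin 2) (Fin 2) F) 0 0 ^ 2 ≠ 1 →
      (Cfsg.indFun ((Cfsg.upperTriangularGL 2 F).comap Matrix.SpecialLinearGroup.toGL) (fun b => α (((b : Matrix.SpecialLinearGroup (Fin 2) F) : Matrix (Fin 2) (Fin 2) F) 0 0))) g = α ((g : Matrix (Fin 2) (Fin 2) F) 0 0) + α ((g : Matrix (Fin 2) (Fin 2) F) 1 1)) ∧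
    ((∀ (c : F) (v : Fin 2 → F), v ≠ 0 → (g : Matrix (Fin 2) (Fin 2) F).mulVec v ≠ c • v) → (Cfsg.indFun ((Cfsg.upperTriangularGL 2 F).comap Matrix.SpecialLinearGroup.toGL) (fun b => α (((b : Matrix.SpecialLinearGroup (Fin 2) F) : Matrix (Fin 2) (Fin 2) F) 0 0))) g = 0) ∧
    ((g : Matrix (Fin 2) (Fin 2) F) 1 0 = 0 → (g : Matrix (Fin 2) (Fin 2) F) 0 0 = (g : Matrix (Fin 2) (Fin 2) F) 1 1 → (g : Matrix (Fin 2) (Fin 2) F) 0 1 ≠ 0 →
      (Cfsg.indFun ((Cfsg.upperTriangularGL 2 F).comap Matrix.SpecialLinearGroup.toGL) (fun b => α (((b : Matrix.SpecialLinearGroup (Fin 2) F) : Matrix (Fin 2) (Fin 2) F) 0 0))) g = α ((g : Matrix (Fin 2) (Fin 2) F) 0 0)) ∧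
    ((g : Matrix (Fin 2) (Fin 2) F) 0 1 = 0 → (g : Matrix (Fin 2) (Fin 2) F) 1 0 = 0 → (g : Matrix (Fin 2) (Fin 2) F) 0 0 = (g : Matrix (Fin 2) (Fin 2) F) 1 1 →
      (Cfsg.indFun ((Cfsg.upperTriangularGL 2 F).comap Matrix.SpecialLinearGroup.toGL) (fun b => α (((b : Matrix.SpecialLinearGroup (Fin 2) F) : Matrix (Fin 2) (Fin 2) F) 0 0))) g = ((Fintype.card F : ℂ) + 1) * α ((g : Matrix (Fin 2) (Fin 2) F) 0 0)) := by
  have h := CfsgLib.GL2a.RS_apply α g
  have hd := CfsgLib.GL2a.sl_det g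
  rw [CfsgLib.GL2a.det_e] at hd
  have h1 : ∀ x : F, x ≠ 0 → (1 : MulChar F ℂ) x = 1 := fun x hx => MulChar.one_apply (isUnit_iff_ne_zero.mpr hx)
  refine ⟨fun g01 g10 ha => ?_, fun hani => ?_, fun g10 gd g01 => ?_, fun g01 g10 gd => ?_⟩
  · refine h.trans ?_
    rw [g01, zero_mul, sub_zero] at hd
    have h0 : (g : Matrix (Fin 2) (Fin 2) F) 0 0 ≠ 0 := by intro h0; rw [h0, zero_mul] at hd; exact zero_ne_one hd
    have h3 : (g : Matrix (Fin 2) (Fin 2) F) 1 1 ≠ 0 := by intro h0; rw [h0, mul_zero] at hd; exact zero_ne_one hd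
    rw [CfsgLib.GL2a.Rf_up α 1 g10, h1 _ h0, h1 _ h3, mul_one, mul_one]
    intro e
    apply ha
    rw [sq]; nth_rewrite 2 [e]; exact hd
  · exact h.trans (CfsgLib.GL2a.Rf_aniso α 1 hani)
  · refine h.trans ?_
    rw [g10, mul_zero, sub_zero] at hd
    have h0 : (g : Matrix (Fin 2) (Fin 2) F) 0 0 ≠ 0 := by intro h0; rw [h0, zero_mul] at hd; exact zero_ne_one hd
    rw [CfsgLib.GL2a.Rf_par α 1 g10 gd g01, h1 _ h0, mul_one]
  · refine h.trans ?_
    rw [g10, mul_zero, sub_zero] at hd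
    have h0 : (g : Matrix (Fin 2) (Fin 2) F) 0 0 ≠ 0 := by intro h0; rw [h0, zero_mul] at hd; exact zero_ne_one hd
    rw [CfsgLib.GL2a.Rf_scal α 1 g10 gd g01, h1 _ h0, mul_one]

end Cfsg.Agent.S2433
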