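import Cfsg.Statements.S2434
import Cfsg.Agent.Lib.GLh3

set_option autoImplicit false
open Cfsg CfsgLib.GL2a

set_option linter.style.haveILetI false
namespace Cfsg.Agent.S2434

theorem conv3 {F : Type*} [Field F] [Fintype F] [DecidableEq F] {C : Subgroup (S2 F)} (h : CD C) (hq : Fintype.card F = 3) (χ : IrrCharacter (S2 F))
    (hχ : χ = H1 h.h2 ∨ χ = H2 h.h2) (θ : C →* ℂˣ) (hθ : θ ^ 2 ≠ 1) (c : C) (hs : ¬ IsScal ((c : S2 F) : M2 F)) :
    (χ : S2 F → ℂ) (c : S2 F) = -((θ c : ℂ) + ((θ c)⁻¹ : ℂˣ)) := by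
  obtain ⟨-, ha⟩ := h.TT c.2 hs
  rw [H_val h.h2 hχ _ (aniso_tr h.h2 ha), Rf_aniso _ _ ha, zero_div]
  have hcc : ∀ c : C, ¬ IsScal ((c : S2 F) : M2 F) → c * c = ⟨-1, h.neg_mem⟩ := by
    intro c hs
    have h4 : (c : S2 F) ^ 4 = 1 := by
      have : c ^ Nat.card C = 1 := pow_card_eq_one'
      rw [h.card, hq] at this
      exact congrArg Subtype.val this
    have h5 : ((c : S2 F) * c) * ((c : S2 F) * c) = 1 := by
      rw [← h4]; simp only [pow_succ, pow_zero, one_mul, mul_assoc]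
    apply Subtype.ext
    rcases sl_sq_one h.h2 h5 with h6 | h6
    · exfalso
      rcases sl_sq_one h.h2 h6 with h7 | h7
      · apply hs; rw [h7]; exact isScal_one
      · apply hs; rw [h7]; exact isScal_neg_one
    · exact h6
  have hz : θ ⟨-1, h.neg_mem⟩ = -1 := by
    have hne : θ ⟨-1, h.neg_mem⟩ ≠ 1 := by
      intro h1
      apply hθ
      apply MonoidHom.ext
      intro x
      change θ x ^ 2 = 1
      by_cases hx : IsScal ((x : S2 F) : M2 F)
      · have : x ^ 2 = 1 := by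
          apply Subtype.ext
          rcases scal_sl' hx with h | h
          · change (x : S2 F) ^ 2 = 1; rw [h]; simp
          · change (x : S2 F) ^ 2 = 1; rw [h]; simp
        rw [← map_pow, this, map_one]
      · rw [pow_two, ← map_mul, hcc x hx, h1]
    have h1 : θ ⟨-1, h.neg_mem⟩ * θ ⟨-1, h.neg_mem⟩ = 1 := by
      rw [← map_mul]
      have e : (⟨-1, h.neg_mem⟩ : C) * ⟨-1, h.neg_mem⟩ = 1 := Subtype.ext (by simp)
      rw [e, map_one]
    have h' : ((θ ⟨-1, h.neg_mem⟩ : ℂˣ) : ℂ) * ((θ ⟨-1, h.neg_mem⟩ : ℂˣ) : ℂ) = 1 := by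
      have := congrArg Units.val h1
      simpa using this
    rcases mul_self_eq_one_iff.mp h' with h1 | h1
    · exact absurd (Units.ext (by simpa using h1)) hne
    · exact Units.ext (by simpa using h1)
  have h1 : θ c * θ c = -1 := by rw [← map_mul, hcc c hs, hz]
  have h3 : ((θ c : ℂˣ) : ℂ) * ((θ c : ℂˣ) : ℂ) = -1 := by
    have := congrArg Units.val h1
    simpa using this
  have h4 : (((θ c)⁻¹ : ℂˣ) : ℂ) = -(θ c : ℂ) := by
    rw [inv_val]
    apply inv_eq_of_mul_eq_one_right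
    linear_combination -h3
  rw [h4]; simp

theorem main {F : Type*} [Field F] [Fintype F] [DecidableEq F] {C : Subgroup (S2 F)} (h : CD C) :
    (∀ θ : C →* ℂˣ, (∃ c : C, θ c ^ 2 ≠ 1) →
      ∃ χ : S2 F → ℂ, Cfsg.IsIrrCharacter (S2 F) χ ∧ χ 1 = (Fintype.card F : ℂ) - 1 ∧
        (∀ c : C, (c : S2 F) ∉ Subgroup.center (S2 F) → χ c = -((θ c).val + (θ c)⁻¹.val)) ∧
        (∀ c : C, (c : S2 F) ∈ Subgroup.center (S2 F) → ∀ g : S2 F, χ ((c : S2 F) * g) = (θ c).val * χ g) ∧
        (∀ g : S2 F, (g : M2 F) 0 1 = 0 → (g : M2 F) 1 0 = 0 → (g : M2 F) 0 0 ^ 2 ≠ 1 → χ g = 0) ∧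
        (∀ g : S2 F, (g : M2 F) 1 0 = 0 → (g : M2 F) 0 0 = 1 → (g : M2 F) 1 1 = 1 → (g : M2 F) 0 1 ≠ 0 → χ g = -1)) ∧
    (∀ χ : S2 F → ℂ, Cfsg.IsIrrCharacter (S2 F) χ → χ 1 = (Fintype.card F : ℂ) - 1 →
      ∃ θ : C →* ℂˣ, (∃ c : C, θ c ^ 2 ≠ 1) ∧
        ∀ c : C, (c : S2 F) ∉ Subgroup.center (S2 F) → χ c = -((θ c).val + (θ c)⁻¹.val)) := by
  have hne : ∀ θ : C →* ℂˣ, (∃ c : C, θ c ^ 2 ≠ 1) ↔ θ ^ 2 ≠ 1 := by
    intro θ
    constructor
    · rintro ⟨c, hc⟩ h1
      exact hc (congrArg (fun f : C →* ℂˣ => f c) h1)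
    · intro h1
      by_contra h2
      push Not at h2
      exact h1 (MonoidHom.ext h2)
  constructor
  · intro θ hθ
    rw [hne] at hθ
    obtain ⟨α, hα⟩ := exists_alpha h θ
    have hirr := Xirr h hα hθ
    refine ⟨Xf α θ, hirr, Xf_one h hα, ?_, ?_, ?_, ?_⟩
    · intro c hc
      exact Xf_C h α θ c (fun hs => hc ((mem_center_iff_isScal _).mpr hs))
    · intro c hc g
      have h1 := CfsgLib.CharBasic.IsCharacter.mul_of_mem_center (CfsgLib.CharBasic.IsIrrCharacter.isCharacter hirr) (CfsgLib.CharBasic.IsIrrCharacter.norm_of_mem_center hirr hc) g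
      obtain ⟨e, he⟩ := (isScal_iff _).mp ((mem_center_iff_isScal _).mp hc)
      have hee : e * e = 1 := by
        have := sl_det (c : S2 F)
        rw [he, Matrix.det_smul, Matrix.det_one] at this
        simp only [Fintype.card_fin, mul_one] at this
        rw [← this]; ring
      rw [Xf_one h hα, Xf_scal h hα he hee, ← hα c e he] at h1
      apply mul_left_cancel₀ (cq1 (F := F))
      change _ = ((Fintype.card F : ℂ) - 1) * (thC θ c * Xf α θ g)
      rw [h1]; ring
    · intro g h01 h10 ha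
      apply Xf_split h α θ h10
      intro e
      apply ha
      have := sl_det g
      rw [det_e, h01, zero_mul, sub_zero, ← e] at this
      rw [sq]; exact this
    · intro g h10 h00 h11 h01
      rw [Xf_par h α θ h10 (by rw [h00, h11]) h01, h00, map_one]
  · intro χ hχ h1
    by_cases h5 : 5 ≤ Fintype.card F
    · have ht := (deg_qm_odd h.h2 h5 (χ := ⟨χ, hχ⟩)).mp h1
      obtain ⟨θ, hθ, he⟩ := Xc_surj h ⟨χ, hχ⟩ ht
      refine ⟨θ, (hne θ).mpr hθ, ?_⟩
      intro c hc
      have e : χ = Xf (exists_alpha h θ).choose θ := by rw [← Xc_coe h hθ, he]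
      rw [e]
      exact Xf_C h _ θ c (fun hs => hc ((mem_center_iff_isScal _).mpr hs))
    · have hq := card_q_ge h.h2
      have ho := (gcd_of_odd h.h2).2
      rw [Nat.odd_iff] at ho
      have hq3 : Fintype.card F = 3 := by omega
      have hq3c : (Fintype.card F : ℂ) = 3 := by rw [hq3]; norm_num
      rw [hq3c] at h1
      obtain ⟨θ, hθ⟩ : ∃ θ : C →* ℂˣ, θ ^ 2 ≠ 1 := by
        classical
        haveI := finite_hom h
        haveI : Fintype (C →* ℂˣ) := Fintype.ofFinite _
        have h1 := card_T2 h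
        have : (Finset.univ.filter (fun θ : C →* ℂˣ => θ ^ 2 ≠ 1)).Nonempty := by
          rw [← Finset.card_pos, h1]; omega
        obtain ⟨θ, hθ⟩ := this
        exact ⟨θ, (Finset.mem_filter.mp hθ).2⟩
      rcases kinds h.h2 ⟨χ, hχ⟩ with h' | h' | h' | h' | h' | h' | h'
      · exfalso
        have : χ 1 = 1 := by
          have := tS_apply (F := F) 1
          rw [← h'] at this; exact this
        rw [this] at h1; norm_num at h1
      · exfalso
        have : χ 1 = Fintype.card F := by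
          have := StS_one (F := F)
          rw [← h'] at this; exact this
        rw [this, hq3c] at h1; norm_num at h1
      · exfalso
        have := AR_deg h'
        rw [hq3c] at this
        change χ 1 = _ at this
        rw [this] at h1; norm_num at h1
      · refine ⟨θ, (hne θ).mpr hθ, ?_⟩
        intro c hc
        exact conv3 h hq3 ⟨χ, hχ⟩ h' θ hθ c (fun hs => hc ((mem_center_iff_isScal _).mpr hs))
      · obtain ⟨θ, hθ, he⟩ := Xc_surj h ⟨χ, hχ⟩ h'
        refine ⟨θ, (hne θ).mpr hθ, ?_⟩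
        intro c hc
        have e : χ = Xf (exists_alpha h θ).choose θ := by rw [← Xc_coe h hθ, he]
        rw [e]
        exact Xf_C h _ θ c (fun hs => hc ((mem_center_iff_isScal _).mpr hs))
      · exfalso
        have := C1_deg h.h2 h'
        rw [hq3c] at this
        change χ 1 = _ at this
        rw [this] at h1; norm_num at h1
      · exfalso
        have := C1'_deg h.h2 h'
        rw [hq3c] at this
        change χ 1 = _ at this
        rw [this] at h1; norm_num at h1


/-- Let F be a finite field with q elements, q odd, and C a cyclic subgroup of order q + 1 of SL₂ over F (a non-split torus; it contains the centre). For every homomorphism θ from C to the non-zero complex numbers with θ² ≠ 1 there is an irreducible complex character χ of degree q − 1 such that χ(c) = −θ(c) − θ(c)⁻¹ for every non-central c in C, χ(zg) = θ(z)χ(g) for central z in C, χ vanishes at diagonal elements with entry a, a² ≠ 1, and χ takes the value −1 at every upper unitriangular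 element other than 1. Conversely every irreducible character of degree q − 1 has, for some such θ, the values −θ(c) − θ(c)⁻¹ at the non-central elements c of C (for q ≥ 5 these are exactly the cuspidal characters of degree q − 1). -/
theorem result {F : Type*} [Field F] [Fintype F] (hodd : Odd (Fintype.card F))
    (C : Subgroup (Matrix.SpecialLinearGroup (Fin 2) F)) (hC : IsCyclic C) (hcard : Nat.card C = Fintype.card F + 1) :
    (∀ θ : C →* ℂˣ, (∃ c : C, θ c ^ 2 ≠ 1) →
      ∃ χ : Matrix.SpecialLinearGroup (Fin 2) F → ℂ, Cfsg.IsIrrCharacter (Matrix.SpecialLinearGroup (Fin 2) F) χ ∧ χ 1 = (Fintype.card F : ℂ) - 1 ∧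
        (∀ c : C, (c : Matrix.SpecialLinearGroup (Fin 2) F) ∉ Subgroup.center (Matrix.SpecialLinearGroup (Fin 2) F) → χ c = -((θ c).val + (θ c)⁻¹.val)) ∧
        (∀ c : C, (c : Matrix.SpecialLinearGroup (Fin 2) F) ∈ Subgroup.center (Matrix.SpecialLinearGroup (Fin 2) F) → ∀ g : Matrix.SpecialLinearGroup (Fin 2) F, χ ((c : Matrix.SpecialLinearGroup (Fin 2) F) * g) = (θ c).val * χ g) ∧
        (∀ g : Matrix.SpecialLinearGroup (Fin 2) F, (g : Matrix (Fin 2) (Fin 2) F) 0 1 = 0 → (g : Matrix (Fin 2) (Fin 2) F) 1 0 = 0 → (g : Matrix (Fin 2) (Fin 2) F) 0 0 ^ 2 ≠ 1 → χ g = 0) ∧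
        (∀ g : Matrix.SpecialLinearGroup (Fin 2) F, (g : Matrix (Fin 2) (Fin 2) F) 1 0 = 0 → (g : Matrix (Fin 2) (Fin 2) F) 0 0 = 1 → (g : Matrix (Fin 2) (Fin 2) F) 1 1 = 1 → (g : Matrix (Fin 2) (Fin 2) F) 0 1 ≠ 0 → χ g = -1)) ∧
    (∀ χ : Matrix.SpecialLinearGroup (Fin 2) F → ℂ, Cfsg.IsIrrCharacter (Matrix.SpecialLinearGroup (Fin 2) F) χ → χ 1 = (Fintype.card F : ℂ) - 1 →
      ∃ θ : C →* ℂˣ, (∃ c : C, θ c ^ 2 ≠ 1) ∧
        ∀ c : C, (c : Matrix.SpecialLinearGroup (Fin 2) F) ∉ Subgroup.center (Matrix.SpecialLinearGroup (Fin 2) F) → χ c = -((θ c).val + (θ c)⁻¹.val)) := by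
  classical
  exact main ⟨two_ne_of_odd hodd, hC, hcard⟩

end Cfsg.Agent.S2434
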