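import Cfsg.Statements.S2435
import Cfsg.Agent.Lib.GLh4

set_option autoImplicit false
open Cfsg CfsgLib.GL2a

open scoped Pointwise
namespace Cfsg.Agent.S2435

theorem main {F : Type*} [Field F] [Fintype F] [DecidableEq F] (h2 : (2 : F) ≠ 0) (hq : 5 ≤ Fintype.card F)
    (χ : S2 F → ℂ) (hχ : Cfsg.IsIrrCharacter (S2 F) χ) (g : S2 F) :
    (χ 1 = (((Fintype.card F + 1) / 2 : ℕ) : ℂ) → (g : M2 F) 0 1 = 0 → (g : M2 F) 1 0 = 0 → (g : M2 F) 0 0 ^ 2 ≠ 1 →
      (IsSquare ((g : M2 F) 0 0) → χ g = 1) ∧ (¬ IsSquare ((g : M2 F) 0 0) → χ g = -1)) ∧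
    (χ 1 = (((Fintype.card F - 1) / 2 : ℕ) : ℂ) → (∀ (c : F) (v : Fin 2 → F), v ≠ 0 → (g : M2 F).mulVec v ≠ c • v) →
      (((g ^ ((Fintype.card F + 1) / 2)) : M2 F) = 1 → χ g = -1) ∧ (((g ^ ((Fintype.card F + 1) / 2)) : M2 F) ≠ 1 → χ g = 1)) := by
  constructor
  · intro h1 h01 h10 ha
    have ht := (deg_hp_odd h2 hq (χ := ⟨χ, hχ⟩)).mp h1
    have hd := sl_det g
    rw [det_e, h01, zero_mul, sub_zero] at hd
    have h0 : (g : M2 F) 0 0 ≠ 0 := by intro e; rw [e] at hd; simp at hd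
    have h11 : (g : M2 F) 1 1 = ((g : M2 F) 0 0)⁻¹ := by
      apply mul_left_cancel₀ h0
      rw [hd, mul_inv_cancel₀ h0]
    have hne : (g : M2 F) 0 0 ≠ (g : M2 F) 1 1 := by
      intro e
      apply ha
      rw [sq]; nth_rewrite 2 [e]; exact hd
    have htr : (g : M2 F).trace ^ 2 ≠ 4 := by
      rw [tr_eq]
      intro e
      apply hne
      have : ((g : M2 F) 0 0 - (g : M2 F) 1 1) ^ 2 = 0 := by linear_combination e - 4 * hd
      exact sub_eq_zero.mp (pow_eq_zero_iff two_ne_zero |>.mp this)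
    have hv := H_val h2 ht g htr
    rw [Rf_up _ _ h10 hne, one_mc h0, one_mc (by rw [h11]; exact inv_ne_zero h0), h11, eta_inv_apply] at hv
    change χ g = _ at hv
    constructor
    · intro hs
      rw [hv, eta_of_sq h0 hs]; ring
    · intro hs
      rw [hv, eta_of_nonsq hs]; ring
  · intro h1 hga
    have ht := (deg_hm_odd h2 hq (χ := ⟨χ, hχ⟩)).mp h1
    have ha : Aniso (g : M2 F) := hga
    have hs := aniso_not_isScal ha
    have htr := aniso_tr h2 ha
    have h : CD (TT g) := ⟨h2, tor_cyclic g hs htr, card_TT_aniso ha⟩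
    obtain ⟨θ, hθ, hθ1, hsg⟩ := exists_sign h
    have hv := half_val h hθ hθ1 (χ := ⟨χ, hχ⟩) ht ⟨g, TT_self g⟩ hs
    change χ g = _ at hv
    have hpow : ((g ^ ((Fintype.card F + 1) / 2)) : M2 F) = 1 ↔ (⟨g, TT_self g⟩ : TT g) ^ ((Fintype.card F + 1) / 2) = 1 := by
      constructor
      · intro e
        apply Subtype.ext
        apply sl_ext
        change ((g ^ ((Fintype.card F + 1) / 2) : S2 F) : M2 F) = _
        rw [Matrix.SpecialLinearGroup.coe_pow, e]; simp
      · intro e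
        have := congrArg (fun x : TT g => ((x : S2 F) : M2 F)) e
        change ((g ^ ((Fintype.card F + 1) / 2) : S2 F) : M2 F) = _ at this
        rw [Matrix.SpecialLinearGroup.coe_pow] at this
        simpa using this
    constructor
    · intro e
      rw [hv, (hsg _).1 (hpow.mp e)]; simp
    · intro e
      rw [hv, (hsg _).2 (fun h' => e (hpow.mpr h'))]; simp


/-- Let F be a finite field with q elements, q odd and q ≥ 5, and χ an irreducible complex character of SL₂ over F. If χ has degree (q + 1)/2, then at a diagonal element with entry a, a² ≠ 1, χ takes the value 1 when a is a square in F and −1 otherwise. If χ has degree (q − 1)/2, then at an element g with no eigenvector in F² (so g has order dividing q + 1), χ takes the value −1 when g raised to the power (q + 1)/2 is the identity and the value 1 otherwise. -/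
theorem result {F : Type*} [Field F] [Fintype F] (hodd : Odd (Fintype.card F)) (hq : 5 ≤ Fintype.card F)
    (χ : Matrix.SpecialLinearGroup (Fin 2) F → ℂ) (hχ : Cfsg.IsIrrCharacter (Matrix.SpecialLinearGroup (Fin 2) F) χ) (g : Matrix.SpecialLinearGroup (Fin 2) F) :
    (χ 1 = (((Fintype.card F + 1) / 2 : ℕ) : ℂ) → (g : Matrix (Fin 2) (Fin 2) F) 0 1 = 0 → (g : Matrix (Fin 2) (Fin 2) F) 1 0 = 0 → (g : Matrix (Fin 2) (Fin 2) F) 0 0 ^ 2 ≠ 1 →
      (IsSquare ((g : Matrix (Fin 2) (Fin 2) F) 0 0) → χ g = 1) ∧ (¬ IsSquare ((g : Matrix (Fin 2) (Fin 2) F) 0 0) → χ g = -1)) ∧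
    (χ 1 = (((Fintype.card F - 1) / 2 : ℕ) : ℂ) → (∀ (c : F) (v : Fin 2 → F), v ≠ 0 → (g : Matrix (Fin 2) (Fin 2) F).mulVec v ≠ c • v) →
      (((g ^ ((Fintype.card F + 1) / 2)) : Matrix (Fin 2) (Fin 2) F) = 1 → χ g = -1) ∧ (((g ^ ((Fintype.card F + 1) / 2)) : Matrix (Fin 2) (Fin 2) F) ≠ 1 → χ g = 1)) := by
  classical
  exact main (two_ne_of_odd hodd) hq χ hχ g

end Cfsg.Agent.S2435
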