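import Cfsg.Statements.S2531

set_option autoImplicit false
open Cfsg

namespace Cfsg.Agent.S2531

open scoped LinearAlgebra.Projectivization

/-- the number of points of a nonzero subspace is `≡ 1 mod q`. -/
theorem card_points {F V : Type*} [Field F] [Finite F] [AddCommGroup V] [Module F V] [Finite V] (U : Submodule F V) (hU : U ≠ ⊥) :
    Nat.card {x : ℙ F V // x.submodule ≤ U} ≡ 1 [MOD Nat.card F] := by
  classical
  let f : ℙ F U → {x : ℙ F V // x.submodule ≤ U} := fun x => ⟨Projectivization.map U.subtype U.injective_subtype x, by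
    induction x using Projectivization.ind with
    | h v hv =>
      rw [Projectivization.map_mk, Projectivization.submodule_mk, Submodule.span_singleton_le_iff_mem]
      exact v.2⟩
  have hf : Function.Bijective f := by
    constructor
    · intro x y hxy
      have := congrArg Subtype.val hxy
      exact Projectivization.map_injective (τ := RingHom.id F) U.subtype U.injective_subtype this
    · rintro ⟨x, hx⟩
      induction x using Projectivization.ind with
      | h v hv =>
        rw [Projectivization.submodule_mk, Submodule.span_singleton_le_iff_mem] at hx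
        refine ⟨Projectivization.mk F ⟨v, hx⟩ (fun h => hv (congrArg Subtype.val h)), ?_⟩
        apply Subtype.ext
        simp only [f, Projectivization.map_mk]
        rfl
  rw [← Nat.card_congr (Equiv.ofBijective f hf)]
  have h1 := Projectivization.card' F U
  have h2 : Nat.card U = Nat.card F ^ Module.finrank F U := Module.natCard_eq_pow_finrank
  have h3 : 1 ≤ Module.finrank F U := by
    have : Nontrivial U := (Submodule.nontrivial_iff_ne_bot).2 hU
    exact Module.finrank_pos
  have h4 : 2 ≤ Nat.card F := Finite.one_lt_card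
  obtain ⟨d, hd⟩ : ∃ d, Module.finrank F U = d + 1 := ⟨Module.finrank F U - 1, by omega⟩
  rw [h2, hd, pow_succ] at h1
  set q := Nat.card F with hq
  set c := Nat.card (ℙ F U) with hc
  have h5 : c * q + 1 = q ^ d * q + c := by
    have : c * q = c * (q - 1) + c := by
      obtain ⟨r, hr⟩ : ∃ r, q = r + 1 := ⟨q - 1, by omega⟩
      rw [hr]; simp; ring
    omega
  have h6 : c * q + 1 ≡ q ^ d * q + c [MOD q] := by rw [h5]
  have h7 : c * q + 1 ≡ 1 [MOD q] := by
    have : c * q ≡ 0 [MOD q] := (Nat.modEq_zero_iff_dvd).2 (dvd_mul_left q c)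
    simpa using this.add_right 1
  have h8 : q ^ d * q + c ≡ c [MOD q] := by
    have : q ^ d * q ≡ 0 [MOD q] := (Nat.modEq_zero_iff_dvd).2 (dvd_mul_left q _)
    simpa using this.add_right c
  exact (h8.symm.trans h6.symm).trans h7

set_option maxHeartbeats 2000000


/-- Let `F` be a finite field and `n ≥ 3`. No set of permutations of the points of the projective space of `Fⁿ`, each induced by an invertible semilinear transformation of `Fⁿ` (so a subset of the full projective semilinear group), is sharply 2-transitive on the points: it is impossible that for all pairs of distinct points `(a, b)` and `(c, d)` exactly one member of the set sends `a` to `c` and `b` to `d`. -/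
theorem result {F : Type*} [Field F] [Finite F]
    (n : ℕ) (hn : 3 ≤ n) (S : Set (Equiv.Perm (Projectivization F (Fin n → F))))
    (hS : ∀ s ∈ S, ∃ (σ : F ≃+* F) (f : (Fin n → F) →ₛₗ[(σ : F →+* F)] (Fin n → F)) (hf : Function.Injective f),
      ∀ x, s x = Projectivization.map f hf x) :
    ¬ (∀ a b c d : Projectivization F (Fin n → F), a ≠ b → c ≠ d →
        ∃! s, s ∈ S ∧ s a = c ∧ s b = d) := by
  classical
  intro h2t
  have : Fintype F := Fintype.ofFinite F
  have : Finite (ℙ F (Fin n → F)) := inferInstance
  have : Fintype (ℙ F (Fin n → F)) := Fintype.ofFinite _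
  -- the vectors e0, e1, e2
  let i0 : Fin n := ⟨0, by omega⟩
  let i1 : Fin n := ⟨1, by omega⟩
  let i2 : Fin n := ⟨2, by omega⟩
  have h01 : i0 ≠ i1 := by simp [i0, i1]
  have h02 : i0 ≠ i2 := by simp [i0, i2]
  have h12 : i1 ≠ i2 := by simp [i1, i2]
  let e : Fin n → (Fin n → F) := fun i => Pi.single i 1
  have he : ∀ i, e i ≠ 0 := by
    intro i h
    have := congrFun h i
    simp [e] at this
  let a : ℙ F (Fin n → F) := Projectivization.mk F (e i0) (he i0)
  let U : Submodule F (Fin n → F) := Submodule.span F {e i1, e i2}
  let H : Submodule F (Fin n → F) := LinearMap.ker (LinearMap.proj i0 : (Fin n → F) →ₗ[F] F)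
  have hU0 : U ≠ ⊥ := by
    intro h
    have : e i1 ∈ U := Submodule.subset_span (by simp)
    rw [h, Submodule.mem_bot] at this
    exact he i1 this
  have hUH : U ≤ H := by
    rw [Submodule.span_le]
    intro v hv
    simp only [Set.mem_insert_iff, Set.mem_singleton_iff] at hv
    rcases hv with rfl | rfl
    · show e i1 i0 = 0
      simp [e, h01]
    · show e i2 i0 = 0
      simp [e, h02]
  have haH : ¬ a.submodule ≤ H := by
    rw [Projectivization.submodule_mk, Submodule.span_singleton_le_iff_mem]
    intro h
    have h' : e i0 i0 = 0 := h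
    simp [e] at h'
  have hH0 : H ≠ ⊥ := fun h => hU0 (le_bot_iff.1 (h ▸ hUH))
  -- finsets
  let A : Finset (ℙ F (Fin n → F)) := Finset.univ.filter (fun x => x.submodule ≤ U)
  let B : Finset (ℙ F (Fin n → F)) := Finset.univ.filter (fun x => x.submodule ≤ H)
  let T : Finset (Equiv.Perm (ℙ F (Fin n → F))) := Finset.univ.filter (fun s => s ∈ S ∧ s a = a)
  set q := Nat.card F with hq
  have hcard : ∀ W : Submodule F (Fin n → F), W ≠ ⊥ → (Finset.univ.filter (fun x : ℙ F (Fin n → F) => x.submodule ≤ W)).card ≡ 1 [MOD q] := by
    intro W hW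
    have := card_points W hW
    rw [Nat.card_eq_fintype_card (α := {x : ℙ F (Fin n → F) // x.submodule ≤ W}), Fintype.card_subtype] at this
    exact this
  have hA : A.card ≡ 1 [MOD q] := hcard U hU0
  have hB : B.card ≡ 1 [MOD q] := hcard H hH0
  have hAB : A ⊆ B := by
    intro x hx
    simp only [A, B, Finset.mem_filter, Finset.mem_univ, true_and] at hx ⊢
    exact hx.trans hUH
  have haB : a ∉ B := by simp only [B, Finset.mem_filter, Finset.mem_univ, true_and]; exact haH
  -- double count
  have hdc : ∑ s ∈ T, (A.filter (fun b => s b ∈ B)).card = ∑ b ∈ A, (T.filter (fun s => s b ∈ B)).card :=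
    Finset.sum_card_bipartiteAbove_eq_sum_card_bipartiteBelow (fun (s : Equiv.Perm (ℙ F (Fin n → F))) (b : ℙ F (Fin n → F)) => s b ∈ B)
  have hT' : ∀ b, b ≠ a → ∀ d, d ≠ a → ∃! s, s ∈ T ∧ s b = d := by
    intro b hb d hd
    obtain ⟨s, ⟨hs1, hs2, hs3⟩, hs4⟩ := h2t a b a d (Ne.symm hb) (Ne.symm hd)
    refine ⟨s, ⟨by simp [T, hs1, hs2], hs3⟩, ?_⟩
    rintro t ⟨ht, ht'⟩
    simp only [T, Finset.mem_filter, Finset.mem_univ, true_and] at ht
    exact hs4 t ⟨ht.1, ht.2, ht'⟩
  have hbcount : ∀ b ∈ A, (T.filter (fun s => s b ∈ B)).card = B.card := by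
    intro b hb
    have hba : b ≠ a := by
      rintro rfl
      exact haB (hAB hb)
    apply Finset.card_bij (fun s _ => s b)
    · intro s hs
      exact (Finset.mem_filter.1 hs).2
    · intro s hs t ht hst
      have hsb : s b ≠ a := by
        intro h
        have := (Finset.mem_filter.1 hs).2
        rw [h] at this
        exact haB this
      obtain ⟨u, _, hu⟩ := hT' b hba (s b) hsb
      rw [hu s ⟨(Finset.mem_filter.1 hs).1, rfl⟩, hu t ⟨(Finset.mem_filter.1 ht).1, hst.symm⟩]
    · intro d hd
      have hda : d ≠ a := by
        rintro rfl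
        exact haB hd
      obtain ⟨u, ⟨hu1, hu2⟩, _⟩ := hT' b hba d hda
      exact ⟨u, Finset.mem_filter.2 ⟨hu1, by rw [hu2]; exact hd⟩, hu2⟩
  -- |T| = N - 1
  have hTcard : T.card + 1 = Fintype.card (ℙ F (Fin n → F)) := by
    have hb1 : Projectivization.mk F (e i1) (he i1) ≠ a := by
      intro h
      apply haB
      rw [← h]
      apply hAB
      simp only [A, Finset.mem_filter, Finset.mem_univ, true_and]
      rw [Projectivization.submodule_mk, Submodule.span_singleton_le_iff_mem]
      exact Submodule.subset_span (by simp)
    have h1 : T.card = (Finset.univ.erase a).card := by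
      apply Finset.card_bij (fun s _ => s (Projectivization.mk F (e i1) (he i1)))
      · intro s hs
        simp only [T, Finset.mem_filter, Finset.mem_univ, true_and] at hs
        rw [Finset.mem_erase]
        refine ⟨?_, Finset.mem_univ _⟩
        intro h
        rw [← hs.2] at h
        exact hb1 (s.injective (h.trans (by rw [hs.2])))
      · intro s hs t ht hst
        have hsb : s (Projectivization.mk F (e i1) (he i1)) ≠ a := by
          simp only [T, Finset.mem_filter, Finset.mem_univ, true_and] at hs
          intro h
          rw [← hs.2] at h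
          exact hb1 (s.injective (h.trans (by rw [hs.2])))
        obtain ⟨u, _, hu⟩ := hT' _ hb1 _ hsb
        rw [hu s ⟨hs, rfl⟩, hu t ⟨ht, hst.symm⟩]
      · intro d hd
        obtain ⟨u, ⟨hu1, hu2⟩, _⟩ := hT' _ hb1 d (Finset.ne_of_mem_erase hd)
        exact ⟨u, hu1, hu2⟩
    rw [h1, Finset.card_erase_of_mem (Finset.mem_univ a), Finset.card_univ]
    have : 0 < Fintype.card (ℙ F (Fin n → F)) := Fintype.card_pos_iff.2 ⟨a⟩
    omega
  -- each s
  have hs1 : ∀ s ∈ T, (A.filter (fun b => s b ∈ B)).card ≡ 1 [MOD q] := by
    intro s hs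
    simp only [T, Finset.mem_filter, Finset.mem_univ, true_and] at hs
    obtain ⟨σ, f, hf, hsf⟩ := hS s hs.1
    have hsurj : RingHomSurjective (σ : F →+* F) := ⟨σ.surjective⟩
    let W : Submodule F (Fin n → F) := U.map f
    have hWH : W ⊓ H ≠ ⊥ := by
      rw [Submodule.ne_bot_iff]
      by_cases hz : f (e i1) i0 = 0
      · refine ⟨f (e i1), ⟨⟨e i1, Submodule.subset_span (by simp), rfl⟩, hz⟩, ?_⟩
        intro h
        rw [← map_zero f] at h
        exact he i1 (hf h)
      · obtain ⟨u1, hu1⟩ := σ.surjective (f (e i2) i0)
        obtain ⟨u2, hu2⟩ := σ.surjective (f (e i1) i0)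
        refine ⟨f (u1 • e i1 - u2 • e i2), ⟨⟨_, U.sub_mem (U.smul_mem _ (Submodule.subset_span (by simp))) (U.smul_mem _ (Submodule.subset_span (by simp))), rfl⟩, ?_⟩, ?_⟩
        · show f (u1 • e i1 - u2 • e i2) i0 = 0
          rw [map_sub, map_smulₛₗ, map_smulₛₗ]
          simp only [RingEquiv.coe_toRingHom, Pi.sub_apply, Pi.smul_apply, smul_eq_mul, hu1, hu2]
          ring
        · intro h
          rw [← map_zero f] at h
          have h' := hf h
          have h'' := congrFun h' i2
          simp [e, h12] at h''
          apply hz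
          rw [← hu2, h'']
          simp
    have key := hcard (W ⊓ H) hWH
    have heq : (A.filter (fun b => s b ∈ B)).card = (Finset.univ.filter (fun x : ℙ F (Fin n → F) => x.submodule ≤ W ⊓ H)).card := by
      apply Finset.card_bij (fun b _ => s b)
      · intro b hb
        rw [Finset.mem_filter] at hb
        simp only [A, B, Finset.mem_filter, Finset.mem_univ, true_and] at hb ⊢
        obtain ⟨hb1, hb2⟩ := hb
        refine le_inf ?_ hb2
        rw [hsf]
        induction b using Projectivization.ind with
        | h v hv =>
          rw [Projectivization.submodule_mk, Submodule.span_singleton_le_iff_mem] at hb1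
          rw [Projectivization.map_mk, Projectivization.submodule_mk, Submodule.span_singleton_le_iff_mem]
          exact ⟨v, hb1, rfl⟩
      · intro b _ b' _ h
        exact s.injective h
      · intro x hx
        simp only [Finset.mem_filter, Finset.mem_univ, true_and] at hx
        induction x using Projectivization.ind with
        | h w hw =>
          rw [Projectivization.submodule_mk, Submodule.span_singleton_le_iff_mem] at hx
          obtain ⟨⟨u, hu, huw⟩, hwH⟩ := hx
          have hu0 : u ≠ 0 := by
            rintro rfl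
            rw [map_zero] at huw
            exact hw huw.symm
          have hsu : s (Projectivization.mk F u hu0) = Projectivization.mk F w hw := by
            rw [hsf, Projectivization.map_mk]
            congr 1
          refine ⟨Projectivization.mk F u hu0, ?_, hsu⟩
          rw [Finset.mem_filter]
          constructor
          · simp only [A, Finset.mem_filter, Finset.mem_univ, true_and]
            rw [Projectivization.submodule_mk, Submodule.span_singleton_le_iff_mem]
            exact hu
          · rw [hsu]
            simp only [B, Finset.mem_filter, Finset.mem_univ, true_and]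
            rw [Projectivization.submodule_mk, Submodule.span_singleton_le_iff_mem]
            exact hwH
    rw [heq]
    exact key
  have hsum1 : ∑ s ∈ T, (A.filter (fun b => s b ∈ B)).card ≡ T.card [MOD q] := by
    have : ∑ s ∈ T, (A.filter (fun b => s b ∈ B)).card ≡ ∑ s ∈ T, 1 [MOD q] := by
      apply Nat.ModEq.sum
      exact hs1
    simpa using this
  have hsum2 : ∑ b ∈ A, (T.filter (fun s => s b ∈ B)).card = A.card * B.card := by
    rw [Finset.sum_congr rfl hbcount, Finset.sum_const, smul_eq_mul]
  rw [hdc, hsum2] at hsum1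
  have hP : Fintype.card (ℙ F (Fin n → F)) ≡ 1 [MOD q] := by
    have htop : (⊤ : Submodule F (Fin n → F)) ≠ ⊥ := by
      intro h
      have : e i1 ∈ (⊤ : Submodule F (Fin n → F)) := Submodule.mem_top
      rw [h, Submodule.mem_bot] at this
      exact he i1 this
    have := hcard ⊤ htop
    simpa using this
  have hT0 : T.card ≡ 0 [MOD q] := by
    rw [← hTcard] at hP
    exact Nat.ModEq.add_right_cancel' 1 (by simpa using hP)
  have h1 : (1 : ℕ) ≡ 0 [MOD q] := by
    have h3 : A.card * B.card ≡ 1 * 1 [MOD q] := hA.mul hB
    rw [one_mul] at h3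
    exact h3.symm.trans (hsum1.trans hT0)
  have h4 : 2 ≤ q := Finite.one_lt_card
  have h5 : q ∣ 1 := (Nat.modEq_zero_iff_dvd).1 h1
  have := Nat.le_of_dvd one_pos h5
  omega

end Cfsg.Agent.S2531
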