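import Cfsg.Statements.S2532

set_option autoImplicit false
open Cfsg

namespace Cfsg.Agent.S2532

open Equiv in
/-- permuting `r` isomorphic regular-type orbits -/
theorem key {m : ℕ} (r : ℕ) (H : Subgroup (Perm (Fin m)))
    (S : Subgroup H) (x : Fin r → Fin m) (hstab : ∀ i, MulAction.stabilizer H (x i) = S)
    (horb : ∀ i j (h : H), h • x i = x j → i = j) :
    ∃ φ : Perm (Fin r) →* Perm (Fin m), Function.Injective φ ∧ ∀ σ, ∀ h ∈ H, φ σ * h = h * φ σ := by
  classical
  -- embedding Fin r × H/S → Fin m
  let ι : Fin r × (H ⧸ S) → Fin m := fun p => Quotient.liftOn' p.2 (fun h : H => h • x p.1) (by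
    intro a b hab
    have hab' : a⁻¹ * b ∈ S := QuotientGroup.leftRel_apply.mp hab
    rw [← hstab p.1, MulAction.mem_stabilizer_iff, mul_smul] at hab'
    show a • x p.1 = b • x p.1
    rw [← hab', smul_inv_smul, hab'])
  have hι : ∀ i (h : H), ι (i, QuotientGroup.mk h) = h • x i := fun i h => rfl
  have hinj : Function.Injective ι := by
    rintro ⟨i, a⟩ ⟨j, b⟩ hab
    induction a using QuotientGroup.induction_on with
    | H a =>
      induction b using QuotientGroup.induction_on with
      | H b =>
        rw [hι, hι] at hab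
        have h1 : (b⁻¹ * a) • x i = x j := by rw [mul_smul, hab, inv_smul_smul]
        have hij := horb i j _ h1
        subst hij
        have h2 : b⁻¹ * a ∈ S := by rw [← hstab i]; exact h1
        have h3 : (QuotientGroup.mk b : H ⧸ S) = QuotientGroup.mk a := QuotientGroup.eq.mpr h2
        rw [h3]
  let emb : Fin r × (H ⧸ S) ↪ Fin m := ⟨ι, hinj⟩
  let ψ : Perm (Fin r) →* Perm (Fin r × (H ⧸ S)) :=
    { toFun := fun σ => σ.prodCongr (Equiv.refl _)
      map_one' := by ext p <;> rfl
      map_mul' := fun σ τ => by ext p <;> rfl }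
  have hψ : Function.Injective ψ := by
    intro σ τ h
    ext i
    have h1 := congrArg (fun f : Perm (Fin r × (H ⧸ S)) => (f (i, QuotientGroup.mk 1)).1) h
    exact congrArg Fin.val h1
  refine ⟨(Equiv.Perm.viaEmbeddingHom emb).comp ψ, (Equiv.Perm.viaEmbeddingHom_injective emb).comp hψ, ?_⟩
  intro σ h hh
  ext1 y
  rw [Perm.mul_apply, Perm.mul_apply, MonoidHom.comp_apply, Equiv.Perm.viaEmbeddingHom_apply]
  by_cases hy : y ∈ Set.range emb
  · obtain ⟨⟨i, a⟩, rfl⟩ := hy
    induction a using QuotientGroup.induction_on with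
    | H a =>
      have e1 : h (emb (i, QuotientGroup.mk a)) = emb (i, QuotientGroup.mk (⟨h, hh⟩ * a)) := by
        show h (ι (i, QuotientGroup.mk a)) = ι (i, QuotientGroup.mk (⟨h, hh⟩ * a))
        rw [hι, hι, mul_smul]
        rfl
      rw [e1, Equiv.Perm.viaEmbedding_apply, Equiv.Perm.viaEmbedding_apply]
      show emb (σ i, QuotientGroup.mk (⟨h, hh⟩ * a)) = h (emb (σ i, QuotientGroup.mk a))
      show ι (σ i, QuotientGroup.mk (⟨h, hh⟩ * a)) = h (ι (σ i, QuotientGroup.mk a))
      rw [hι, hι, mul_smul]
      rfl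
  · have hy' : h y ∉ Set.range emb := by
      rintro ⟨⟨i, a⟩, hia⟩
      apply hy
      induction a using QuotientGroup.induction_on with
      | H a =>
        refine ⟨(i, QuotientGroup.mk (⟨h, hh⟩⁻¹ * a)), ?_⟩
        show ι (i, QuotientGroup.mk (⟨h, hh⟩⁻¹ * a)) = y
        have hia' : ι (i, QuotientGroup.mk a) = h y := hia
        rw [hι] at hia' ⊢
        rw [mul_smul, hia']
        show h⁻¹ (h y) = y
        simp
    rw [Equiv.Perm.viaEmbedding_apply_of_notMem _ _ _ hy', Equiv.Perm.viaEmbedding_apply_of_notMem _ _ _ hy]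

open Equiv in
theorem exists_points {m : ℕ} (r : ℕ) (H : Subgroup (Perm (Fin m))) (hm : Nat.card H * (2 ^ Nat.card H * r) ≤ m) :
    ∃ (S : Subgroup H) (x : Fin r → Fin m), (∀ i, MulAction.stabilizer H (x i) = S) ∧
      (∀ i j (h : H), h • x i = x j → i = j) := by
  classical
  let Ω := MulAction.orbitRel.Quotient H (Fin m)
  have hFinΩ : Fintype Ω := Fintype.ofFinite Ω
  have hFinH : Fintype H := Fintype.ofFinite H
  let rep : Ω → Fin m := fun o => Quotient.out o
  have hrep : ∀ o : Ω, (Quotient.mk'' (rep o) : Ω) = o := fun o => Quotient.out_eq' o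
  have hpos : 0 < Nat.card H := Nat.card_pos
  -- number of orbits
  have h1 : 2 ^ Nat.card H * r ≤ Fintype.card Ω := by
    have h2 : m ≤ Fintype.card Ω * Nat.card H := by
      let f : Ω × H → Fin m := fun p => p.2 • rep p.1
      have hf : Function.Surjective f := by
        intro y
        have h3 : (Quotient.mk'' (rep (Quotient.mk'' y)) : Ω) = Quotient.mk'' y := hrep _
        rw [Quotient.eq''] at h3
        obtain ⟨h, hh⟩ := h3
        refine ⟨(Quotient.mk'' y, h⁻¹), ?_⟩
        show h⁻¹ • rep (Quotient.mk'' y) = y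
        rw [← hh]
        exact inv_smul_smul h y
      have := Fintype.card_le_of_surjective f hf
      rw [Fintype.card_prod, Fintype.card_fin] at this
      rwa [Nat.card_eq_fintype_card]
    have h3 : Nat.card H * (2 ^ Nat.card H * r) ≤ Nat.card H * Fintype.card Ω := by
      rw [mul_comm (Nat.card H) (Fintype.card Ω)]; exact hm.trans h2
    exact Nat.le_of_mul_le_mul_left h3 hpos
  have h4 : Fintype.card (Set H) * r ≤ Fintype.card Ω := by
    rw [Fintype.card_set, ← Nat.card_eq_fintype_card]; exact h1
  obtain ⟨Y, hY⟩ := Fintype.exists_le_card_fiber_of_mul_le_card (fun o : Ω => (MulAction.stabilizer H (rep o) : Set H)) h4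
  obtain ⟨g⟩ : Nonempty (Fin r ↪ {o : Ω // (MulAction.stabilizer H (rep o) : Set H) = Y}) := by
    rw [Function.Embedding.nonempty_iff_card_le, Fintype.card_fin, Fintype.card_subtype]
    exact hY
  rcases Nat.eq_zero_or_pos r with rfl | hr
  · exact ⟨⊤, Fin.elim0, fun i => i.elim0, fun i => i.elim0⟩
  · refine ⟨MulAction.stabilizer H (rep (g ⟨0, hr⟩)), fun i => rep (g i), ?_, ?_⟩
    · intro i
      apply SetLike.coe_injective
      rw [(g i).2, (g ⟨0, hr⟩).2]
    · intro i j h hij
      simp only at hij
      have h5 : (Quotient.mk'' (rep (g i)) : Ω) = Quotient.mk'' (rep (g j)) := by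
        rw [Quotient.eq'']
        apply (MulAction.orbitRel_apply).mpr
        refine ⟨h⁻¹, ?_⟩
        show h⁻¹ • rep (g j) = rep (g i)
        rw [← hij, inv_smul_smul]
      rw [hrep, hrep] at h5
      exact g.injective (Subtype.ext h5)


/-- There is a function `f` of two natural-number arguments such that, whenever `m ≥ f(n, r)`, every subgroup of order `n` of the alternating group of degree `m` centralizes some subgroup of that alternating group isomorphic to the alternating group of degree `r`. -/
theorem result :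
    ∃ f : ℕ → ℕ → ℕ, ∀ (m r : ℕ) (H : Subgroup ↥(alternatingGroup (Fin m))), f (Nat.card H) r ≤ m →
      ∃ K : Subgroup ↥(alternatingGroup (Fin m)), Nonempty (↥K ≃* ↥(alternatingGroup (Fin r))) ∧
        K ≤ Subgroup.centralizer (H : Set ↥(alternatingGroup (Fin m))) := by
  classical
  refine ⟨fun n r => n * (2 ^ n * r), ?_⟩
  intro m r H hm
  let H' : Subgroup (Equiv.Perm (Fin m)) := H.map (alternatingGroup (Fin m)).subtype
  have hcard : Nat.card H' = Nat.card H := Subgroup.card_map_of_injective (alternatingGroup (Fin m)).subtype_injective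
  obtain ⟨S, x, hx1, hx2⟩ := exists_points r H' (by rw [hcard]; exact hm)
  obtain ⟨φ, hφ, hcomm⟩ := key r H' S x hx1 hx2
  have heven : ∀ σ ∈ alternatingGroup (Fin r), φ σ ∈ alternatingGroup (Fin m) := by
    intro σ hσ
    rw [← Equiv.Perm.closure_three_cycles_eq_alternating] at hσ
    have : Subgroup.closure {σ : Equiv.Perm (Fin r) | σ.IsThreeCycle} ≤ (alternatingGroup (Fin m)).comap φ := by
      rw [Subgroup.closure_le]
      intro c hc
      have hc' : c.IsThreeCycle := hc
      have h3 : (φ c) ^ 3 = 1 := by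
        rw [← map_pow, ← hc'.orderOf, pow_orderOf_eq_one, map_one]
      show φ c ∈ alternatingGroup (Fin m)
      rw [Equiv.Perm.mem_alternatingGroup]
      have h4 := congrArg Equiv.Perm.sign h3
      rw [map_pow, map_one] at h4
      rcases Int.units_eq_one_or (Equiv.Perm.sign (φ c)) with h | h
      · exact h
      · rw [h] at h4
        exact absurd h4 (by decide)
    exact this hσ
  let ψ : alternatingGroup (Fin r) →* alternatingGroup (Fin m) :=
    (φ.comp (alternatingGroup (Fin r)).subtype).codRestrict _ (fun σ => heven σ σ.2)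
  have hψ : Function.Injective ψ := by
    intro a b hab
    have h1 : φ a = φ b := congrArg Subtype.val hab
    exact Subtype.ext (hφ h1)
  refine ⟨ψ.range, ⟨(MonoidHom.ofInjective hψ).symm⟩, ?_⟩
  rintro _ ⟨σ, rfl⟩
  rw [Subgroup.mem_centralizer_iff]
  intro h hh
  apply Subtype.ext
  exact (hcomm σ h ⟨h, hh, rfl⟩).symm

end Cfsg.Agent.S2532
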