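import Cfsg.Statements.S2540
import Cfsg.Agent.Lib.H9GL

set_option autoImplicit false
open Cfsg

namespace Cfsg.Agent.S2540

open Matrix

theorem aux {F : Type*} [Field F] {n : ℕ} [NeZero n]
    (hper : commutator (SpecialLinearGroup (Fin n) F) = ⊤) (g : GeneralLinearGroup (Fin n) F)
    (h : ∀ s : SpecialLinearGroup (Fin n) F, ∃ k ∈ Subgroup.center (SpecialLinearGroup (Fin n) F),
      SpecialLinearGroup.toGL k = SpecialLinearGroup.toGL s * g * (SpecialLinearGroup.toGL s)⁻¹ * g⁻¹) :
    ∃ c : F, (g : Matrix (Fin n) (Fin n) F) = c • (1 : Matrix (Fin n) (Fin n) F) := by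
  choose k hk hkg using h
  have hcomm : ∀ s t, SpecialLinearGroup.toGL (k s) * SpecialLinearGroup.toGL t = SpecialLinearGroup.toGL t * SpecialLinearGroup.toGL (k s) := by
    intro s t
    rw [← map_mul, ← map_mul, Subgroup.mem_center_iff.1 (hk s) t]
  let f : SpecialLinearGroup (Fin n) F →* SpecialLinearGroup (Fin n) F := MonoidHom.mk' k (by
    intro s t
    apply CfsgLib.Linear.toGL_injective'
    rw [map_mul, hkg, map_mul]
    have e1 : SpecialLinearGroup.toGL s * SpecialLinearGroup.toGL t * g * (SpecialLinearGroup.toGL s * SpecialLinearGroup.toGL t)⁻¹ * g⁻¹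
        = SpecialLinearGroup.toGL s * SpecialLinearGroup.toGL (k t) * g * (SpecialLinearGroup.toGL s)⁻¹ * g⁻¹ := by
      rw [hkg t]; group
    rw [e1, ← hcomm, hkg s]
    have e2 : SpecialLinearGroup.toGL (k t) * SpecialLinearGroup.toGL s * g * (SpecialLinearGroup.toGL s)⁻¹ * g⁻¹ =
      SpecialLinearGroup.toGL (k t) * SpecialLinearGroup.toGL (k s) := by rw [hkg s]; group
    rw [e2, ← map_mul, ← Subgroup.mem_center_iff.1 (hk t) (k s), map_mul, hkg s])
  have hf : ∀ s, f s = 1 := by
    have h1 : commutator (SpecialLinearGroup (Fin n) F) ≤ f.ker := by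
      rw [commutator_def, Subgroup.commutator_le]
      intro a _ b _
      rw [MonoidHom.mem_ker, map_commutatorElement, commutatorElement_eq_one_iff_mul_comm]
      exact (Subgroup.mem_center_iff.1 (hk a) (f b)).symm
    intro s
    have : s ∈ f.ker := h1 (hper ▸ Subgroup.mem_top s)
    exact this
  have hg : (g : Matrix (Fin n) (Fin n) F) ∈ Set.range (scalar (Fin n)) := by
    apply mem_range_scalar_of_commute_transvectionStruct
    intro t
    have h1 := hkg ⟨t.toMatrix, t.det⟩
    have h2 : k ⟨t.toMatrix, t.det⟩ = 1 := hf _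
    rw [h2, map_one] at h1
    have h3 : SpecialLinearGroup.toGL (⟨t.toMatrix, t.det⟩ : SpecialLinearGroup (Fin n) F) * g = g * SpecialLinearGroup.toGL ⟨t.toMatrix, t.det⟩ := by
      rw [eq_comm, mul_inv_eq_one, mul_inv_eq_iff_eq_mul] at h1
      exact h1
    exact congrArg Units.val h3
  obtain ⟨c, hc⟩ := hg
  exact ⟨c, by rw [← hc, smul_one_eq_diagonal]; rfl⟩

/-- Let F be a finite field and n ≥ 1, excluding the case n = 2 with #F ≤ 3. A subgroup of GL_n(F) that is normalized by every element of SL_n(F) either consists of scalar matrices or contains SL_n(F). -/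
theorem result {F : Type*} [Field F] [Fintype F] (n : ℕ) (hn : 1 ≤ n) (hex : ¬ (n = 2 ∧ Fintype.card F ≤ 3)) (G : Subgroup (Matrix.GeneralLinearGroup (Fin n) F)) (hG : ∀ s : Matrix.SpecialLinearGroup (Fin n) F, ∀ g ∈ G, (Matrix.SpecialLinearGroup.toGL s) * g * (Matrix.SpecialLinearGroup.toGL s)⁻¹ ∈ G) : (∀ g ∈ G, ∃ c : F, (g : Matrix (Fin n) (Fin n) F) = c • (1 : Matrix (Fin n) (Fin n) F)) ∨ (Matrix.SpecialLinearGroup.toGL : Matrix.SpecialLinearGroup (Fin n) F →* _).range ≤ G := by
  rcases Nat.lt_or_ge n 2 with h1 | h2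
  · left
    obtain rfl : n = 1 := by omega
    intro g hg
    refine ⟨(g : Matrix (Fin 1) (Fin 1) F) 0 0, ?_⟩
    ext i j
    obtain rfl := Subsingleton.elim i 0
    obtain rfl := Subsingleton.elim j 0
    simp
  · have hqs := CfsgLib.H9GL.sl_qs (F := F) n h2 (by rw [Nat.card_eq_fintype_card]; exact hex)
    haveI : NeZero n := ⟨by omega⟩
    let K : Subgroup (SpecialLinearGroup (Fin n) F) := G.comap SpecialLinearGroup.toGL
    have hK : K.Normal := ⟨fun k hk s => by
      change SpecialLinearGroup.toGL (s * k * s⁻¹) ∈ G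
      rw [map_mul, map_mul, map_inv]
      exact hG s _ hk⟩
    rcases CfsgLib.Comp.qs_normal hqs K hK with h | h
    · right
      rintro _ ⟨s, rfl⟩
      have : s ∈ K := h ▸ Subgroup.mem_top s
      exact this
    · left
      intro g hg
      apply aux hqs.1.1 g
      intro s
      have h3 : SpecialLinearGroup.toGL s * g * (SpecialLinearGroup.toGL s)⁻¹ * g⁻¹ ∈ G := mul_mem (hG s g hg) (inv_mem hg)
      have h4 : SpecialLinearGroup.toGL s * g * (SpecialLinearGroup.toGL s)⁻¹ * g⁻¹ ∈ (SpecialLinearGroup.toGL : SpecialLinearGroup (Fin n) F →* _).range := by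
        rw [CfsgLib.Linear.range_toGL_eq_ker_det, MonoidHom.mem_ker]
        simp [mul_comm, mul_left_comm]
      obtain ⟨k, hk⟩ := h4
      refine ⟨k, h ?_, hk⟩
      change SpecialLinearGroup.toGL k ∈ G
      rw [hk]; exact h3

end Cfsg.Agent.S2540
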