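import Cfsg.Statements.S2541

set_option autoImplicit false
open Cfsg

namespace Cfsg.Agent.S2541

theorem no_eight (σ : Equiv.Perm (Fin 6)) : orderOf σ ≠ 8 := by
  intro h
  have h1 : ∀ n ∈ σ.cycleType, n ∣ 4 := by
    intro n hn
    have h2 : n ∣ 8 := by rw [← h]; exact Equiv.Perm.dvd_of_mem_cycleType hn
    have h3 : n ≤ 6 := by
      have h4 := Multiset.le_sum_of_mem hn
      have h5 : σ.cycleType.sum ≤ 6 := by
        rw [Equiv.Perm.sum_cycleType]
        exact (Finset.card_le_univ _).trans_eq (by simp)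
      exact h4.trans h5
    have h0 : 0 < n := Nat.pos_of_dvd_of_pos h2 (by norm_num)
    interval_cases n <;> omega
  have h2 : σ.cycleType.lcm ∣ 4 := Multiset.lcm_dvd.mpr h1
  rw [Equiv.Perm.lcm_cycleType, h] at h2
  omega


/-- Let F be a field with 9 elements. The symmetric group S_6 is not isomorphic to PGL_2(F) (although both have index-2 subgroups isomorphic to A_6). -/
theorem result {F : Type*} [Field F] [Fintype F] (hF : Fintype.card F = 9) : ¬ Nonempty (Equiv.Perm (Fin 6) ≃* Matrix.ProjGenLinGroup (Fin 2) F) := by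
  classical
  rintro ⟨e⟩
  obtain ⟨a, ha⟩ := IsCyclic.exists_generator (α := Fˣ)
  have ho : orderOf a = 8 := by
    rw [orderOf_eq_card_of_forall_mem_zpowers ha, Nat.card_eq_fintype_card, Fintype.card_units, hF]
  let g : GL (Fin 2) F := Matrix.GeneralLinearGroup.mkOfDetNeZero !![(a : F), 0; 0, 1] (by rw [Matrix.det_fin_two_of]; simp)
  have hg : (g : Matrix (Fin 2) (Fin 2) F) = !![(a : F), 0; 0, 1] := rfl
  have hpow : ∀ k : ℕ, ((g ^ k : GL (Fin 2) F) : Matrix (Fin 2) (Fin 2) F) = !![(a : F) ^ k, 0; 0, 1] := by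
    intro k
    induction k with
    | zero => rw [pow_zero, pow_zero]; ext i j; fin_cases i <;> fin_cases j <;> simp
    | succ k ih =>
      rw [pow_succ, Units.val_mul, ih, hg]
      ext i j; fin_cases i <;> fin_cases j <;> simp [Matrix.mul_apply, Fin.sum_univ_two, pow_succ]
  have h1 : orderOf (Matrix.ProjGenLinGroup.mk g) = 8 := by
    have hk : ∀ k : ℕ, (Matrix.ProjGenLinGroup.mk g) ^ k = 1 ↔ a ^ k = 1 := by
      intro k
      rw [← map_pow, ← Matrix.ProjGenLinGroup.mk_one, Matrix.ProjGenLinGroup.mk_eq_mk_iff]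
      constructor
      · rintro ⟨u, hu⟩
        have h2 := congrArg (fun m : GL (Fin 2) F => (m : Matrix (Fin 2) (Fin 2) F)) hu
        simp only [Units.val_mul, hpow] at h2
        have h3 := congrFun (congrFun h2 0) 0
        have h4 := congrFun (congrFun h2 1) 1
        simp [Matrix.mul_apply, Fin.sum_univ_two] at h3 h4
        apply Units.ext
        rw [Units.val_pow_eq_pow_val, Units.val_one]
        rw [h4, Units.val_one, mul_one] at h3
        exact h3
      · intro h
        refine ⟨1, ?_⟩
        rw [map_one, mul_one]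
        apply Units.ext
        rw [hpow]
        have : (a : F) ^ k = 1 := by rw [← Units.val_pow_eq_pow_val, h, Units.val_one]
        rw [this]
        ext i j; fin_cases i <;> fin_cases j <;> simp
    rw [← ho]
    apply Nat.dvd_antisymm
    · apply orderOf_dvd_of_pow_eq_one; rw [hk]; exact pow_orderOf_eq_one a
    · apply orderOf_dvd_of_pow_eq_one; rw [← hk]; exact pow_orderOf_eq_one _
  have h2 := no_eight (e.symm (Matrix.ProjGenLinGroup.mk g))
  rw [MulEquiv.orderOf_eq] at h2
  exact h2 h1

end Cfsg.Agent.S2541
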