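import Cfsg.Statements.S2542
import Cfsg.Agent.S0804
import Cfsg.Agent.S0675
import Cfsg.Agent.Lib.SmZ4

set_option autoImplicit false
open Cfsg

set_option linter.style.haveILetI false
namespace Cfsg.Agent.S2542

section
theorem trans2_of_range {G X : Type*} [Group G] [MulAction G X] (n : ℕ)
    (h : MulAction.IsMultiplyPretransitive (MulAction.toPermHom G X).range X n) : MulAction.IsMultiplyPretransitive G X n := by
  rw [MulAction.IsMultiplyPretransitive] at h ⊢
  constructor
  intro x y
  obtain ⟨⟨_, g, rfl⟩, hg⟩ := h.exists_smul_eq x y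
  exact ⟨g, by rw [← hg]; rfl⟩
end


/-- Let F be a field with 11 elements. PSL_2(F) has a subgroup H of index 11 isomorphic to the alternating group A_5, and the action of PSL_2(F) on the cosets of H is 2-transitive (of degree 11). -/
theorem result {F : Type*} [Field F] [Fintype F] (hF : Fintype.card F = 11) : ∃ H : Subgroup (Matrix.ProjectiveSpecialLinearGroup (Fin 2) F), H.index = 11 ∧ Nonempty (H ≃* alternatingGroup (Fin 5)) ∧ MulAction.IsMultiplyPretransitive (Matrix.ProjectiveSpecialLinearGroup (Fin 2) F) ((Matrix.ProjectiveSpecialLinearGroup (Fin 2) F) ⧸ H) 2 := by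
  haveI : Fact (Nat.Prime 11) := ⟨by norm_num⟩
  haveI : IsSimpleGroup (Matrix.ProjectiveSpecialLinearGroup (Fin 2) F) :=
    Matrix.ProjectiveSpecialLinearGroup.rank_two_simple (by rw [Nat.card_eq_fintype_card, hF]; norm_num)
  have hc : Nat.card (Matrix.ProjectiveSpecialLinearGroup (Fin 2) F) = 660 := by
    rw [CfsgLib.SmS.psl_card (p := 11) (h := 5) (by norm_num) hF]
  have hna : ¬ IsMulCommutative (Matrix.ProjectiveSpecialLinearGroup (Fin 2) F) := CfsgLib.SmS.nonab (by rw [hc]; norm_num)
  obtain ⟨H, ⟨e⟩⟩ := (Cfsg.Agent.S0804.result hF).2 (by norm_num)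
  have hH : Nat.card H = 60 := by
    rw [Nat.card_congr e.toEquiv, Nat.card_eq_fintype_card]
    decide +kernel
  have hi : H.index = 11 := by
    have := H.card_mul_index
    rw [hH, hc] at this
    omega
  refine ⟨H, hi, ⟨e⟩, ?_⟩
  classical
  haveI : Fintype (Matrix.ProjectiveSpecialLinearGroup (Fin 2) F ⧸ H) := Fintype.ofFinite _
  have hcard : Fintype.card (Matrix.ProjectiveSpecialLinearGroup (Fin 2) F ⧸ H) = 11 := by
    rw [← Nat.card_eq_fintype_card]; exact hi
  have hHt : H ≠ ⊤ := by
    intro h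
    rw [h, Subgroup.index_top] at hi
    omega
  have hinj := CfsgLib.SmS.coset_inj H hHt
  haveI : MulAction.IsPretransitive (MulAction.toPermHom (Matrix.ProjectiveSpecialLinearGroup (Fin 2) F) (Matrix.ProjectiveSpecialLinearGroup (Fin 2) F ⧸ H)).range (Matrix.ProjectiveSpecialLinearGroup (Fin 2) F ⧸ H) := by
    constructor
    intro x y
    obtain ⟨g, hg⟩ := MulAction.exists_smul_eq (Matrix.ProjectiveSpecialLinearGroup (Fin 2) F) x y
    exact ⟨⟨_, g, rfl⟩, hg⟩
  rcases Cfsg.Agent.S0675.result (by rw [hcard]; norm_num) (MulAction.toPermHom (Matrix.ProjectiveSpecialLinearGroup (Fin 2) F) (Matrix.ProjectiveSpecialLinearGroup (Fin 2) F ⧸ H)).range with h | h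
  · exfalso
    haveI := h
    have hs : Group.IsSolvable (Matrix.ProjectiveSpecialLinearGroup (Fin 2) F) :=
      solvable_of_solvable_injective (f := (MulAction.toPermHom (Matrix.ProjectiveSpecialLinearGroup (Fin 2) F) (Matrix.ProjectiveSpecialLinearGroup (Fin 2) F ⧸ H)).rangeRestrict) (by
        intro a b hab
        exact hinj (congrArg Subtype.val hab))
    exact absurd (CfsgLib.SmS.comm_top hna) (ne_of_lt (IsSolvable.commutator_lt_top_of_nontrivial _))
  · exact trans2_of_range 2 h

end Cfsg.Agent.S2542
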