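import Cfsg.Statements.S2550
import Cfsg.Agent.Lib.P34

set_option autoImplicit false
open Cfsg

namespace Cfsg.Agent.S2550

open Matrix CfsgLib.P34

theorem card_SL3 {K : Type*} [Field K] [Fintype K] (hK : Fintype.card K = 4) : Nat.card (SpecialLinearGroup (Fin 3) K) = 60480 := by
  classical
  have h1 := CfsgLib.Linear.card_GL_eq_units_mul_card_SL (F := K) (ι := Fin 3)
  rw [Matrix.card_GL_field] at h1
  have h3 : Nat.card Kˣ = 3 := by
    rw [Nat.card_eq_fintype_card, Fintype.card_units, hK]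
  rw [h3, hK, Fin.prod_univ_three] at h1
  norm_num [-Nat.card_eq_fintype_card] at h1
  omega

theorem card_SL4 {K : Type*} [Field K] [Fintype K] (hK : Fintype.card K = 2) : Nat.card (SpecialLinearGroup (Fin 4) K) = 20160 := by
  classical
  have h1 := CfsgLib.Linear.card_GL_eq_units_mul_card_SL (F := K) (ι := Fin 4)
  rw [Matrix.card_GL_field] at h1
  have h3 : Nat.card Kˣ = 1 := by
    rw [Nat.card_eq_fintype_card, Fintype.card_units, hK]
  rw [h3, hK, Fin.prod_univ_four] at h1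
  norm_num [-Nat.card_eq_fintype_card] at h1
  omega

def g6 (F : Type*) [Field F] (h2 : (2 : F) = 0) : SpecialLinearGroup (Fin 4) F := ⟨!![0, 1, 0, 0; 1, 1, 0, 0; 0, 0, 1, 1; 0, 0, 0, 1], by
  simp [Matrix.det_succ_row_zero, Fin.sum_univ_succ, Matrix.submatrix, Fin.succAbove]
  linear_combination -h2⟩

theorem g6_sq (F : Type*) [Field F] (h2 : (2 : F) = 0) : (((g6 F h2) ^ 2 : SpecialLinearGroup (Fin 4) F) : Matrix (Fin 4) (Fin 4) F) = !![1, 1, 0, 0; 1, 0, 0, 0; 0, 0, 1, 0; 0, 0, 0, 1] := by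
  rw [pow_two]
  change (!![0, 1, 0, 0; 1, 1, 0, 0; 0, 0, 1, 1; 0, 0, 0, 1] : Matrix (Fin 4) (Fin 4) F) * !![0, 1, 0, 0; 1, 1, 0, 0; 0, 0, 1, 1; 0, 0, 0, 1] = _
  ext i j
  fin_cases i <;> fin_cases j <;> simp [Matrix.mul_apply, Fin.sum_univ_four, one_add_one_eq_two, h2]

theorem g6_cube (F : Type*) [Field F] (h2 : (2 : F) = 0) : (((g6 F h2) ^ 3 : SpecialLinearGroup (Fin 4) F) : Matrix (Fin 4) (Fin 4) F) = !![1, 0, 0, 0; 0, 1, 0, 0; 0, 0, 1, 1; 0, 0, 0, 1] := by
  rw [pow_succ]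
  change (((g6 F h2) ^ 2 : SpecialLinearGroup (Fin 4) F) : Matrix (Fin 4) (Fin 4) F) * !![0, 1, 0, 0; 1, 1, 0, 0; 0, 0, 1, 1; 0, 0, 0, 1] = _
  rw [g6_sq]
  ext i j
  fin_cases i <;> fin_cases j <;> simp [Matrix.mul_apply, Fin.sum_univ_four, one_add_one_eq_two, h2]

theorem g6_six (F : Type*) [Field F] (h2 : (2 : F) = 0) : (g6 F h2) ^ 6 = 1 := by
  rw [show 6 = 3 + 3 from rfl, pow_add]
  apply Subtype.ext
  change (((g6 F h2) ^ 3 : SpecialLinearGroup (Fin 4) F) : Matrix (Fin 4) (Fin 4) F) * (((g6 F h2) ^ 3 : SpecialLinearGroup (Fin 4) F) : Matrix (Fin 4) (Fin 4) F) = 1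
  rw [g6_cube]
  ext i j
  fin_cases i <;> fin_cases j <;> simp [Matrix.mul_apply, Fin.sum_univ_four, one_add_one_eq_two, h2, Matrix.one_apply]

theorem not_center {F : Type*} [Field F] {A : SpecialLinearGroup (Fin 4) F} {i j : Fin 4} (hij : i ≠ j) (h : (A : Matrix (Fin 4) (Fin 4) F) i j ≠ 0) :
    (QuotientGroup.mk A : ProjectiveSpecialLinearGroup (Fin 4) F) ≠ 1 := by
  intro h1
  have h2 := (QuotientGroup.eq_one_iff A).1 h1
  rw [Matrix.SpecialLinearGroup.mem_center_iff] at h2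
  obtain ⟨r, -, h3⟩ := h2
  apply h
  rw [← h3]
  simp [hij]

/-- Let F be a field with 2 elements and K a field with 4 elements. PSL_4(F) and PSL_3(K) have the same order (20160) but are not isomorphic. -/
theorem result {F K : Type*} [Field F] [Fintype F] [Field K] [Fintype K] (hF : Fintype.card F = 2) (hK : Fintype.card K = 4) : Nat.card (Matrix.ProjectiveSpecialLinearGroup (Fin 4) F) = Nat.card (Matrix.ProjectiveSpecialLinearGroup (Fin 3) K) ∧ ¬ Nonempty (Matrix.ProjectiveSpecialLinearGroup (Fin 4) F ≃* Matrix.ProjectiveSpecialLinearGroup (Fin 3) K) := by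
  have h2F : (2 : F) = 0 := by
    have := FiniteField.cast_card_eq_zero F
    rw [hF] at this
    exact_mod_cast this
  constructor
  · have h1 := CfsgLib.Linear.gcd_mul_card_PSL (F := F) (ι := Fin 4)
    have h2 := CfsgLib.Linear.gcd_mul_card_PSL (F := K) (ι := Fin 3)
    rw [card_SL3 hK, hK] at h2
    rw [card_SL4 hF, hF] at h1
    norm_num at h1 h2
    omega
  · rintro ⟨e⟩
    obtain ⟨w, hw, hw1⟩ := exists_w hK
    have key := no_six (char_two hK) (cube hK) hw hw1 (z := e (QuotientGroup.mk (g6 F h2F)))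
      (by rw [← map_pow, ← QuotientGroup.mk_pow, g6_six, QuotientGroup.mk_one, map_one])
      (by
        rw [← map_pow, ← QuotientGroup.mk_pow, Ne, map_eq_one_iff e e.injective]
        apply not_center (i := 0) (j := 1) (by decide)
        rw [g6_sq]; simp)
    rw [← map_pow, ← QuotientGroup.mk_pow, map_eq_one_iff e e.injective] at key
    apply not_center (i := 2) (j := 3) (by decide) _ key
    rw [g6_cube]; simp

end Cfsg.Agent.S2550
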