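import Cfsg.Statements.S2552

set_option autoImplicit false
open Cfsg

namespace Cfsg.Agent.S2552

open Module

theorem ext_equiv {F V : Type*} [Field F] [AddCommGroup V] [Module F V] [FiniteDimensional F V] (U₁ U₂ : Submodule F V)
    (h : finrank F U₁ = finrank F U₂) : ∃ e : V ≃ₗ[F] V, ∀ u ∈ U₁, e u ∈ U₂ := by
  obtain ⟨W₁, h₁⟩ := Submodule.exists_isCompl U₁
  obtain ⟨W₂, h₂⟩ := Submodule.exists_isCompl U₂
  have e1 := Submodule.finrank_add_eq_of_isCompl h₁
  have e2 := Submodule.finrank_add_eq_of_isCompl h₂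
  have hW : finrank F W₁ = finrank F W₂ := by omega
  refine ⟨(U₁.prodEquivOfIsCompl W₁ h₁).symm.trans (((LinearEquiv.ofFinrankEq U₁ U₂ h).prodCongr (LinearEquiv.ofFinrankEq W₁ W₂ hW)).trans (U₂.prodEquivOfIsCompl W₂ h₂)), ?_⟩
  intro u hu
  have e3 : (U₁.prodEquivOfIsCompl W₁ h₁).symm u = (⟨u, hu⟩, 0) := by
    rw [LinearEquiv.symm_apply_eq]
    simp
  rw [LinearEquiv.trans_apply, e3]
  simp

/-- Let F be a finite field and n ≥ 1. For every k, the special linear group SL_n(F) acts transitively on the set of k-dimensional subspaces of F^n: any two subspaces of the same dimension are carried onto each other by some matrix of determinant 1. -/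
theorem result {F : Type*} [Field F] [Fintype F] (n : ℕ) (hn : 1 ≤ n) (U₁ U₂ : Submodule F (Fin n → F)) (h : Module.finrank F U₁ = Module.finrank F U₂) : ∃ g : Matrix.SpecialLinearGroup (Fin n) F, U₁.map ((Matrix.SpecialLinearGroup.toLin' g : (Fin n → F) ≃ₗ[F] (Fin n → F)) : (Fin n → F) →ₗ[F] (Fin n → F)) = U₂ := by
  classical
  obtain ⟨e, he⟩ := ext_equiv U₁ U₂ h
  have hmain : ∀ M : Matrix (Fin n) (Fin n) F, ∀ hM : M.det = 1, (∀ u ∈ U₁, Matrix.toLin' M u ∈ U₂) →
      ∃ g : Matrix.SpecialLinearGroup (Fin n) F, U₁.map ((Matrix.SpecialLinearGroup.toLin' g : (Fin n → F) ≃ₗ[F] (Fin n → F)) : (Fin n → F) →ₗ[F] (Fin n → F)) = U₂ := by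
    intro M hM hU
    refine ⟨⟨M, hM⟩, ?_⟩
    apply Submodule.eq_of_le_of_finrank_eq
    · rintro _ ⟨u, hu, rfl⟩
      exact hU u hu
    · exact (LinearEquiv.finrank_map_eq (Matrix.SpecialLinearGroup.toLin' (⟨M, hM⟩ : Matrix.SpecialLinearGroup (Fin n) F)) U₁).trans h
  by_cases hb : U₂ = ⊥
  · refine hmain 1 Matrix.det_one ?_
    intro u hu
    have h0 : finrank F U₁ = 0 := by rw [h, hb, finrank_bot]
    rw [Submodule.finrank_eq_zero] at h0
    rw [h0, Submodule.mem_bot] at hu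
    rw [hu, _root_.map_zero]
    exact U₂.zero_mem
  · obtain ⟨x, hx, hx0⟩ := Submodule.exists_mem_ne_zero_of_ne_bot hb
    have hdet : LinearMap.det (e : (Fin n → F) →ₗ[F] (Fin n → F)) ≠ 0 := (LinearEquiv.isUnit_det' e).ne_zero
    obtain ⟨f0, hf0⟩ : ∃ f : Dual F (Fin n → F), f x ≠ 0 := by
      by_contra hc
      push Not at hc
      exact hx0 ((Module.forall_dual_apply_eq_zero_iff F x).mp hc)
    let f : Dual F (Fin n → F) := (((LinearMap.det (e : (Fin n → F) →ₗ[F] (Fin n → F)))⁻¹ - 1) * (f0 x)⁻¹) • f0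
    have hf : f x = (LinearMap.det (e : (Fin n → F) →ₗ[F] (Fin n → F)))⁻¹ - 1 := by
      change _ * _ * f0 x = _
      rw [mul_assoc, inv_mul_cancel₀ hf0, mul_one]
    refine hmain (LinearMap.toMatrix' ((LinearMap.transvection f x).comp (e : (Fin n → F) →ₗ[F] (Fin n → F)))) ?_ ?_
    · rw [LinearMap.det_toMatrix', LinearMap.det_comp, LinearMap.transvection.det, hf, add_sub_cancel, inv_mul_cancel₀ hdet]
    · intro u hu
      rw [Matrix.toLin'_toMatrix']
      change e u + f (e u) • x ∈ U₂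
      exact U₂.add_mem (he u hu) (U₂.smul_mem _ hx)

end Cfsg.Agent.S2552
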