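import Cfsg.Statements.S2561
import Cfsg.Agent.Lib.QCl2

set_option autoImplicit false
open Cfsg

namespace Cfsg.Agent.S2561

open CfsgLib.QCl CfsgLib.Quad Module

variable {m : ℕ}

abbrev Pq (m : ℕ) (q : (Fin m ⊕ Fin m → ZMod 2) → ZMod 2) : Prop := ∀ u v, q (u + v) = q u + q v + ff m u v

theorem pol_plus (m : ℕ) : Pq m (quadFormPlus m (ZMod 2)) := fun u v => by unfold ff; ring

theorem ff_add_right (u v w : Fin m ⊕ Fin m → ZMod 2) : ff m u (v + w) = ff m u v + ff m u w := by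
  rw [ff_comm, ff_add_left, ff_comm m v, ff_comm m w]

def Phi (m : ℕ) (w : Fin m ⊕ Fin m → ZMod 2) : {q // Pq m q} :=
  ⟨fun v => quadFormPlus m (ZMod 2) v + ff m v w, fun u v => shift (pol_plus m) w u v⟩

theorem Phi_inj : Function.Injective (Phi m) := by
  intro w w' h
  have h1 : ∀ u, ff m u (w - w') = 0 := by
    intro u
    have h2 := congrFun (congrArg Subtype.val h) u
    have h3 : ff m u w = ff m u w' := add_left_cancel h2
    have h4 : ff m u w = ff m u (w - w') + ff m u w' := by rw [← ff_add_right, sub_add_cancel]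
    rw [h3] at h4
    exact right_eq_add.1 h4
  exact sub_eq_zero.1 (ff_nondeg m h1)

theorem Phi_surj : Function.Surjective (Phi m) := by
  rintro ⟨q, hq⟩
  let D : (Fin m ⊕ Fin m → ZMod 2) →ₗ[ZMod 2] ZMod 2 :=
    { toFun := fun v => q v - quadFormPlus m (ZMod 2) v
      map_add' := fun u v => by rw [hq u v, pol_plus m u v]; ring
      map_smul' := fun a v => by
        rcases zmod2 a with rfl | rfl
        · rw [zero_smul, q_zero hq, q_zero (pol_plus m)]; simp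
        · rw [one_smul]; simp }
  let w : Fin m ⊕ Fin m → ZMod 2 := Sum.elim (fun i => D (fun j => if (.inr i) = j then 1 else 0)) (fun i => D (fun j => if (.inl i) = j then 1 else 0))
  refine ⟨w, Subtype.ext (funext fun v => ?_)⟩
  change quadFormPlus m (ZMod 2) v + ff m v w = q v
  have h1 : D v = q v - quadFormPlus m (ZMod 2) v := rfl
  have h2 : D v = ff m v w := by
    rw [LinearMap.pi_apply_eq_sum_univ D v, Fintype.sum_sum_type, ff, pp, ← Finset.sum_add_distrib]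
    refine Finset.sum_congr rfl fun i _ => ?_
    change _ = v (Sum.inl i) * D (fun j => if (.inl i) = j then 1 else 0) + D (fun j => if (.inr i) = j then 1 else 0) * v (Sum.inr i)
    rw [smul_eq_mul, smul_eq_mul, mul_comm (v (Sum.inr i))]
  rw [← h2, h1]; ring

/-- the quadratic form. -/
def qf {q : (Fin m ⊕ Fin m → ZMod 2) → ZMod 2} (hq : Pq m q) : QuadraticForm (ZMod 2) (Fin m ⊕ Fin m → ZMod 2) :=
  QuadraticMap.ofPolar q (fun a x => by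
    rcases zmod2 a with rfl | rfl
    · rw [zero_smul, q_zero hq]; simp
    · rw [one_smul]; simp) (fun x x' y => by
      have h : ∀ u v, QuadraticMap.polar q u v = ff m u v := fun u v => by rw [QuadraticMap.polar, hq]; ring
      rw [h, h, h, ff_add_left]) (fun a x y => by
      have h : ∀ u v, QuadraticMap.polar q u v = ff m u v := fun u v => by rw [QuadraticMap.polar, hq]; ring
      rw [h, h, ff_smul_left, smul_eq_mul])

theorem qf_apply {q : (Fin m ⊕ Fin m → ZMod 2) → ZMod 2} (hq : Pq m q) (v : Fin m ⊕ Fin m → ZMod 2) : qf hq v = q v := rfl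

theorem qf_nondeg {q : (Fin m ⊕ Fin m → ZMod 2) → ZMod 2} (hq : Pq m q) : (QuadraticMap.polarBilin (qf hq)).Nondegenerate := by
  apply nondegenerate_of_left
  intro x hx
  apply ff_nondeg m
  intro u
  have := hx u
  rw [QuadraticMap.polarBilin_apply_apply, QuadraticMap.polar, qf_apply, qf_apply, qf_apply, hq] at this
  rw [ff_comm]
  linear_combination this

theorem typ {n : ℕ} {q : (Fin (n + 1) ⊕ Fin (n + 1) → ZMod 2) → ZMod 2} (hq : Pq (n + 1) q) :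
    (∃ g : (Fin (n + 1) ⊕ Fin (n + 1) → ZMod 2) ≃ₗ[ZMod 2] (Fin (n + 1) ⊕ Fin (n + 1) → ZMod 2), ∀ v, q v = Cfsg.quadFormPlus (n + 1) (ZMod 2) (g v)) ∨
      (∃ g : (Fin (n + 1) ⊕ Fin (n + 1) → ZMod 2) ≃ₗ[ZMod 2] ((Fin n ⊕ Fin n) ⊕ Fin 2 → ZMod 2), ∀ v, q v = Cfsg.quadFormMinus n (ZMod 2) 1 1 (g v)) := by
  rcases classify n (qf hq) (qf_nondeg hq) (by simp; ring) with ⟨E, hE⟩ | ⟨b, hb, E, hE⟩
  · exact Or.inl ⟨E, fun v => (hE v).symm⟩
  · have hb1 : b = 1 := by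
      rcases zmod2 b with rfl | h
      · exact absurd (hb 0 1 (by ring)).2 one_ne_zero
      · exact h
    subst hb1
    exact Or.inr ⟨E, fun v => (hE v).symm⟩

theorem aniso11 : Aniso (1 : ZMod 2) 1 := by
  unfold Aniso
  decide

theorem card_zmod2 : Nat.card (ZMod 2) = 2 := Nat.card_zmod 2

theorem not_both {n : ℕ} {q : (Fin (n + 1) ⊕ Fin (n + 1) → ZMod 2) → ZMod 2}
    (h1 : ∃ g : (Fin (n + 1) ⊕ Fin (n + 1) → ZMod 2) ≃ₗ[ZMod 2] (Fin (n + 1) ⊕ Fin (n + 1) → ZMod 2), ∀ v, q v = Cfsg.quadFormPlus (n + 1) (ZMod 2) (g v))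
    (h2 : ∃ g : (Fin (n + 1) ⊕ Fin (n + 1) → ZMod 2) ≃ₗ[ZMod 2] ((Fin n ⊕ Fin n) ⊕ Fin 2 → ZMod 2), ∀ v, q v = Cfsg.quadFormMinus n (ZMod 2) 1 1 (g v)) : False := by
  obtain ⟨g, hg⟩ := h1
  obtain ⟨g', hg'⟩ := h2
  have e1 : Nat.card {v // q v = 0} = Nat.card {v // Cfsg.quadFormPlus (n + 1) (ZMod 2) v = 0} :=
    Nat.card_congr (g.toEquiv.subtypeEquiv fun v => by rw [hg v]; rfl)
  have e2 : Nat.card {v // q v = 0} = Nat.card {v // Cfsg.quadFormMinus n (ZMod 2) 1 1 v = 0} :=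
    Nat.card_congr (g'.toEquiv.subtypeEquiv fun v => by rw [hg' v]; rfl)
  have h3 := card_plus_zero (F := ZMod 2) n
  have h4 := card_minus_zero aniso11 n
  rw [← e1, card_zmod2] at h3
  rw [← e2, card_zmod2] at h4
  have h5 : 0 < 2 ^ n := by positivity
  have h6 : 2 ^ (n + 1) = 2 * 2 ^ n := by ring
  omega

/-- Fix the non-singular alternating form on the 2m-dimensional space over the field of two elements obtained by polarizing the plus-type form Σ xᵢyᵢ (m ≥ 1). The functions q on the space with q(u + v) = q(u) + q(v) + f(u, v) (the quadratic forms polarizing to f) number 2^(2m); each is equivalent under an invertible linear map either to the plus-type form or to the minus-type form Σ xᵢyᵢ + (z₁² + z₁z₂ + z₂²); and those of plus type number 2^(2m−1) + 2^(m−1), those of minus type 2^(2m−1) − 2^(m−1). -/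
theorem result (m : ℕ) (hm : 1 ≤ m) :
    Nat.card {q : (Fin m ⊕ Fin m → ZMod 2) → ZMod 2 // (∀ u v : (Fin m ⊕ Fin m → ZMod 2), q (u + v) = q u + q v + (Cfsg.quadFormPlus m (ZMod 2) (u + v) - Cfsg.quadFormPlus m (ZMod 2) u - Cfsg.quadFormPlus m (ZMod 2) v))} = 2 ^ (2 * m) ∧
    (∀ q : (Fin m ⊕ Fin m → ZMod 2) → ZMod 2, (∀ u v : (Fin m ⊕ Fin m → ZMod 2), q (u + v) = q u + q v + (Cfsg.quadFormPlus m (ZMod 2) (u + v) - Cfsg.quadFormPlus m (ZMod 2) u - Cfsg.quadFormPlus m (ZMod 2) v)) →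
      (∃ g : (Fin m ⊕ Fin m → ZMod 2) ≃ₗ[ZMod 2] (Fin m ⊕ Fin m → ZMod 2), ∀ v, q v = Cfsg.quadFormPlus m (ZMod 2) (g v)) ∨
      (∃ g : (Fin m ⊕ Fin m → ZMod 2) ≃ₗ[ZMod 2] ((Fin (m - 1) ⊕ Fin (m - 1)) ⊕ Fin 2 → ZMod 2), ∀ v, q v = Cfsg.quadFormMinus (m - 1) (ZMod 2) 1 1 (g v))) ∧
    Nat.card {q : (Fin m ⊕ Fin m → ZMod 2) → ZMod 2 // (∀ u v : (Fin m ⊕ Fin m → ZMod 2), q (u + v) = q u + q v + (Cfsg.quadFormPlus m (ZMod 2) (u + v) - Cfsg.quadFormPlus m (ZMod 2) u - Cfsg.quadFormPlus m (ZMod 2) v)) ∧ ∃ g : (Fin m ⊕ Fin m → ZMod 2) ≃ₗ[ZMod 2] (Fin m ⊕ Fin m → ZMod 2), ∀ v, q v = Cfsg.quadFormPlus m (ZMod 2) (g v)} = 2 ^ (2 * m - 1) + 2 ^ (m - 1) ∧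
    Nat.card {q : (Fin m ⊕ Fin m → ZMod 2) → ZMod 2 // (∀ u v : (Fin m ⊕ Fin m → ZMod 2), q (u + v) = q u + q v + (Cfsg.quadFormPlus m (ZMod 2) (u + v) - Cfsg.quadFormPlus m (ZMod 2) u - Cfsg.quadFormPlus m (ZMod 2) v)) ∧ ∃ g : (Fin m ⊕ Fin m → ZMod 2) ≃ₗ[ZMod 2] ((Fin (m - 1) ⊕ Fin (m - 1)) ⊕ Fin 2 → ZMod 2), ∀ v, q v = Cfsg.quadFormMinus (m - 1) (ZMod 2) 1 1 (g v)} = 2 ^ (2 * m - 1) - 2 ^ (m - 1) := by
  obtain ⟨n, rfl⟩ : ∃ k, m = k + 1 := ⟨m - 1, by omega⟩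
  let e : (Fin (n + 1) ⊕ Fin (n + 1) → ZMod 2) ≃ {q // Pq (n + 1) q} := Equiv.ofBijective (Phi (n + 1)) ⟨Phi_inj, Phi_surj⟩
  have hcV : Nat.card (Fin (n + 1) ⊕ Fin (n + 1) → ZMod 2) = 2 ^ (2 * (n + 1)) := by
    rw [Nat.card_eq_fintype_card, Fintype.card_fun, ZMod.card, Fintype.card_sum, Fintype.card_fin]
    congr 1; ring
  have hplus : ∀ w, Cfsg.quadFormPlus (n + 1) (ZMod 2) w = 0 ↔ ∃ g : (Fin (n + 1) ⊕ Fin (n + 1) → ZMod 2) ≃ₗ[ZMod 2] (Fin (n + 1) ⊕ Fin (n + 1) → ZMod 2), ∀ v, (e w).1 v = Cfsg.quadFormPlus (n + 1) (ZMod 2) (g v) :=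
    fun w => (equiv_iff (pol_plus (n + 1)) w).symm
  have hminus : ∀ w, ¬ (Cfsg.quadFormPlus (n + 1) (ZMod 2) w = 0) ↔ ∃ g : (Fin (n + 1) ⊕ Fin (n + 1) → ZMod 2) ≃ₗ[ZMod 2] ((Fin n ⊕ Fin n) ⊕ Fin 2 → ZMod 2), ∀ v, (e w).1 v = Cfsg.quadFormMinus n (ZMod 2) 1 1 (g v) := by
    intro w
    constructor
    · intro h
      exact (typ (e w).2).resolve_left fun h1 => h ((hplus w).2 h1)
    · intro h h1
      exact not_both ((hplus w).1 h1) h
  have hN : Nat.card {v // Cfsg.quadFormPlus (n + 1) (ZMod 2) v = 0} = 2 ^ (2 * (n + 1) - 1) + 2 ^ (n + 1 - 1) := by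
    have h3 := card_plus_zero (F := ZMod 2) n
    rw [card_zmod2] at h3
    have e1 : 2 * (n + 1) - 1 = 2 * n + 1 := by omega
    have h6 : 2 ^ (n + 1) = 2 * 2 ^ n := by ring
    rw [e1, Nat.add_sub_cancel]
    omega
  refine ⟨?_, fun q hq => typ hq, ?_, ?_⟩
  · exact (Nat.card_congr e).symm.trans hcV
  · rw [← hN]
    refine (Nat.card_congr ((e.subtypeEquiv (q := fun x : {q // Pq (n + 1) q} => ∃ g : (Fin (n + 1) ⊕ Fin (n + 1) → ZMod 2) ≃ₗ[ZMod 2] (Fin (n + 1) ⊕ Fin (n + 1) → ZMod 2), ∀ v, x.1 v = Cfsg.quadFormPlus (n + 1) (ZMod 2) (g v)) hplus).trans ?_)).symm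
    exact Equiv.subtypeSubtypeEquivSubtypeInter (Pq (n + 1)) (fun q => ∃ g : (Fin (n + 1) ⊕ Fin (n + 1) → ZMod 2) ≃ₗ[ZMod 2] (Fin (n + 1) ⊕ Fin (n + 1) → ZMod 2), ∀ v, q v = Cfsg.quadFormPlus (n + 1) (ZMod 2) (g v))
  · have h1 : Nat.card {v // ¬ Cfsg.quadFormPlus (n + 1) (ZMod 2) v = 0} = 2 ^ (2 * (n + 1) - 1) - 2 ^ (n + 1 - 1) := by
      have h2 := Nat.card_congr (Equiv.sumCompl fun v => Cfsg.quadFormPlus (n + 1) (ZMod 2) v = 0)
      rw [Nat.card_sum, hN, hcV] at h2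
      have e1 : 2 * (n + 1) - 1 = 2 * n + 1 := by omega
      have e2 : 2 ^ (2 * (n + 1)) = 2 * 2 ^ (2 * n + 1) := by ring
      rw [e1, Nat.add_sub_cancel] at h2 ⊢
      omega
    rw [← h1]
    refine (Nat.card_congr ((e.subtypeEquiv (q := fun x : {q // Pq (n + 1) q} => ∃ g : (Fin (n + 1) ⊕ Fin (n + 1) → ZMod 2) ≃ₗ[ZMod 2] ((Fin n ⊕ Fin n) ⊕ Fin 2 → ZMod 2), ∀ v, x.1 v = Cfsg.quadFormMinus n (ZMod 2) 1 1 (g v)) hminus).trans ?_)).symm
    exact Equiv.subtypeSubtypeEquivSubtypeInter (Pq (n + 1)) (fun q => ∃ g : (Fin (n + 1) ⊕ Fin (n + 1) → ZMod 2) ≃ₗ[ZMod 2] ((Fin n ⊕ Fin n) ⊕ Fin 2 → ZMod 2), ∀ v, q v = Cfsg.quadFormMinus n (ZMod 2) 1 1 (g v))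

end Cfsg.Agent.S2561
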