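import Cfsg.Statements.S2562
import Cfsg.Agent.Lib.QCl2
import Cfsg.Agent.Lib.Quad14

set_option autoImplicit false
open Cfsg

namespace Cfsg.Agent.S2562

open CfsgLib.QCl CfsgLib.Quad Module

universe u v

variable {F : Type u} [Field F] {V : Type v} [AddCommGroup V] [Module F V] [FiniteDimensional F V]

theorem witt_le {Q : QuadraticForm F V} (hQ : (QuadraticMap.polarBilin Q).Nondegenerate) {m : ℕ} (hV : finrank F V = 2 * m)
    (U : Submodule F V) (hU : ∀ u ∈ U, Q u = 0) : finrank F U ≤ m := by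
  have h1 := LinearMap.BilinForm.finrank_orthogonal hQ U
  have h2 : U ≤ LinearMap.BilinForm.orthogonal (QuadraticMap.polarBilin Q) U := by
    intro x hx
    rw [LinearMap.BilinForm.mem_orthogonal_iff]
    intro y hy
    change QuadraticMap.polarBilin Q y x = 0
    rw [QuadraticMap.polarBilin_apply_apply, QuadraticMap.polar, hU _ (U.add_mem hy hx), hU _ hx, hU _ hy]; ring
  have h3 := Submodule.finrank_mono h2
  have h4 := Submodule.finrank_le U
  omega

/-- the minus form as a quadratic form. -/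
noncomputable def Qm (n : ℕ) (a b : F) : QuadraticForm F ((Fin n ⊕ Fin n) ⊕ Fin 2 → F) :=
  (hypSum n (binQ a b)).comp (eMinus n a b).toLinearMap

theorem Qm_apply (n : ℕ) (a b : F) (v : (Fin n ⊕ Fin n) ⊕ Fin 2 → F) : Qm n a b v = Cfsg.quadFormMinus n F a b v := eMinus_apply n a b v

theorem Qm_nondeg [Finite F] (n : ℕ) {a b : F} (hab : Aniso a b) : (QuadraticMap.polarBilin (Qm n a b)).Nondegenerate :=
  nondegenerate_congr (eMinus n a b).symm (Q := hypSum n (binQ a b)) (fun u => by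
    change hypSum n (binQ a b) ((eMinus n a b) ((eMinus n a b).symm u)) = _
    rw [LinearEquiv.apply_symm_apply]) (hypSum_nondegenerate n (binQ_nondegenerate hab))

theorem std_max (n : ℕ) : finrank F (suppS F (fun i : (Fin n ⊕ Fin n) ⊕ Fin 2 => ∃ j, i = Sum.inl (Sum.inl j))) = n := by
  rw [finrank_suppS]
  have e : {i : (Fin n ⊕ Fin n) ⊕ Fin 2 // ∃ j, i = Sum.inl (Sum.inl j)} ≃ Fin n :=
    (Equiv.ofBijective (fun j : Fin n => (⟨Sum.inl (Sum.inl j), j, rfl⟩ : {i : (Fin n ⊕ Fin n) ⊕ Fin 2 // ∃ j, i = Sum.inl (Sum.inl j)})) ⟨by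
      intro a b h
      simpa using h, by
      rintro ⟨_, j, rfl⟩
      exact ⟨j, rfl⟩⟩).symm
  rw [Nat.card_congr e, Nat.card_fin]

theorem std_sing (n : ℕ) (b : F) (v : (Fin n ⊕ Fin n) ⊕ Fin 2 → F) (hv : v ∈ suppS F (fun i : (Fin n ⊕ Fin n) ⊕ Fin 2 => ∃ j, i = Sum.inl (Sum.inl j))) :
    Cfsg.quadFormMinus n F 1 b v = 0 := by
  rw [mem_suppS] at hv
  have h1 : ∀ j, v (.inl (.inr j)) = 0 := fun j => hv _ (by rintro ⟨k, hk⟩; simp at hk)
  have h2 : ∀ k, v (.inr k) = 0 := fun j => hv _ (by rintro ⟨k, hk⟩; simp at hk)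
  simp [Cfsg.quadFormMinus, h1, h2]

theorem minus_le [Finite F] (n : ℕ) {b : F} (hb : Aniso 1 b) (U : Submodule F ((Fin n ⊕ Fin n) ⊕ Fin 2 → F))
    (hU : ∀ u ∈ U, Cfsg.quadFormMinus n F 1 b u = 0) : finrank F U ≤ n := by
  by_contra hlt
  push Not at hlt
  obtain ⟨W, hW1, hW2, hW3⟩ := exists_singular_ge (Qm_nondeg n hb) (U := suppS F (fun i : (Fin n ⊕ Fin n) ⊕ Fin 2 => ∃ j, i = Sum.inl (Sum.inl j))) (W := U)
    (fun w hw => by rw [Qm_apply]; exact std_sing n b w hw) (fun w hw => by rw [Qm_apply]; exact hU w hw) (by rw [std_max]; exact hlt.le)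
  have h1 : ¬ W ≤ suppS F (fun i : (Fin n ⊕ Fin n) ⊕ Fin 2 => ∃ j, i = Sum.inl (Sum.inl j)) := by
    intro h
    have := Submodule.finrank_mono h
    rw [std_max] at this
    omega
  apply h1
  intro w hw
  have h2 : ∀ j, w (.inl (.inr j)) = 0 := by
    intro j
    have h3 : (Pi.single (.inl (.inl j)) 1 : (Fin n ⊕ Fin n) ⊕ Fin 2 → F) ∈ W := by
      apply hW1
      rw [mem_suppS]
      intro i hi
      exact Pi.single_eq_of_ne (fun h => hi ⟨j, h⟩) _
    have h4 := pm n b w (Pi.single (.inl (.inl j)) 1)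
    rw [← Qm_apply, ← Qm_apply, ← Qm_apply, hW3 _ (W.add_mem hw h3), hW3 _ hw, hW3 _ h3] at h4
    simpa [Pi.single_apply] using h4.symm
  have h3 := hW3 w hw
  rw [Qm_apply, Cfsg.quadFormMinus] at h3
  simp only [h2, mul_zero, Finset.sum_const_zero, zero_add] at h3
  obtain ⟨h4, h5⟩ := hb _ _ h3
  rw [mem_suppS]
  intro i hi
  rcases i with (i | i) | i
  · exact absurd ⟨i, rfl⟩ hi
  · exact h2 i
  · fin_cases i
    · exact h4
    · exact h5

theorem aniso11 : Aniso (1 : ZMod 2) 1 := by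
  unfold Aniso
  decide

/-- Witt indices over the field of two elements, m ≥ 1: for the plus-type form Σ xᵢyᵢ in dimension 2m some m-dimensional subspace is totally singular and no totally singular subspace has larger dimension; for the minus-type form Σ xᵢyᵢ + (z₁² + z₁z₂ + z₂²) in dimension 2m the maximal dimension of a totally singular subspace is m − 1. -/
theorem result (m : ℕ) (hm : 1 ≤ m) :
    (∃ U : Submodule (ZMod 2) (Fin m ⊕ Fin m → ZMod 2), (∀ u ∈ U, Cfsg.quadFormPlus m (ZMod 2) u = 0) ∧ Module.finrank (ZMod 2) ↥U = m) ∧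
    (∀ U : Submodule (ZMod 2) (Fin m ⊕ Fin m → ZMod 2), (∀ u ∈ U, Cfsg.quadFormPlus m (ZMod 2) u = 0) → Module.finrank (ZMod 2) ↥U ≤ m) ∧
    (∃ U : Submodule (ZMod 2) ((Fin (m - 1) ⊕ Fin (m - 1)) ⊕ Fin 2 → ZMod 2), (∀ u ∈ U, Cfsg.quadFormMinus (m - 1) (ZMod 2) 1 1 u = 0) ∧ Module.finrank (ZMod 2) ↥U = m - 1) ∧
    (∀ U : Submodule (ZMod 2) ((Fin (m - 1) ⊕ Fin (m - 1)) ⊕ Fin 2 → ZMod 2), (∀ u ∈ U, Cfsg.quadFormMinus (m - 1) (ZMod 2) 1 1 u = 0) → Module.finrank (ZMod 2) ↥U ≤ m - 1) := by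
  obtain ⟨n, rfl⟩ : ∃ k, m = k + 1 := ⟨m - 1, by omega⟩
  refine ⟨?_, ?_, ?_, ?_⟩
  · obtain ⟨W, h1, h2⟩ := exists_max_singular (F := ZMod 2) (n + 1)
    exact ⟨W, fun u hu => by rw [← QP_apply]; exact h2 u hu, h1⟩
  · intro U hU
    exact witt_le (QP_nondegenerate (F := ZMod 2) (n + 1)) (finrank_QP (n + 1)) U fun u hu => by rw [QP_apply]; exact hU u hu
  · exact ⟨_, fun u hu => std_sing n 1 u hu, std_max n⟩
  · intro U hU
    exact minus_le n aniso11 U hU

end Cfsg.Agent.S2562
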