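import Cfsg.Statements.S2565
import Cfsg.Agent.Lib.PermMod3

set_option autoImplicit false
open Cfsg

namespace Cfsg.Agent.S2565

open CfsgLib.Quad

/-- The commutator subgroup of the full orthogonal group of the plus-type form Σ xᵢyᵢ in dimension 6 over the field of two elements (the group Ω⁺₆(2), of index 2) is isomorphic to the alternating group of degree 8. -/
theorem result :
    (Cfsg.Omega (ZMod 2) (Cfsg.quadFormPlus 3 (ZMod 2))).index = 2 ∧
    Nonempty (↥(Cfsg.Omega (ZMod 2) (Cfsg.quadFormPlus 3 (ZMod 2))) ≃* alternatingGroup (Fin 8)) := by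
  obtain ⟨e⟩ := CfsgLib.PermMod.O_six_plus_two (F := ZMod 2) (ZMod.card 2)
  have h1 : (commutator (↥(Cfsg.isometryGroup (ZMod 2) (Cfsg.quadFormPlus 3 (ZMod 2))))).map e.toMonoidHom = alternatingGroup (Fin 8) := by
    rw [← alternatingGroup.commutator_perm_eq (by rw [Nat.card_fin]; norm_num), commutator_def, commutator_def, Subgroup.map_commutator, Subgroup.map_top_of_surjective _ e.surjective]
  constructor
  · have h2 := index_commutator_congr e
    rw [alternatingGroup.commutator_perm_eq (by rw [Nat.card_fin]; norm_num), alternatingGroup.index_eq_two] at h2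
    exact h2
  · exact ⟨(e.subgroupMap _).trans (MulEquiv.subgroupCongr h1)⟩

end Cfsg.Agent.S2565
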