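import Cfsg.Statements.S2566
import Cfsg.Agent.Lib.Exc2
import Cfsg.Agent.S0250

set_option autoImplicit false
open Cfsg

namespace Cfsg.Agent.S2566

open CfsgLib.Exc CfsgLib.Quad CfsgLib.IsomDecomp
open scoped MatrixGroups

theorem key {Γ S : Type*} [Group Γ] [Group S] (hS : Nonempty (S ≃* Equiv.Perm (Fin 3))) (hΓ : Nat.card Γ = 72)
    (φ : S × S →* Γ) (hφ : Function.Injective φ) (g : Γ) (hg : ∀ a : S, ∃ b : S, g * φ (a, 1) * g⁻¹ = φ (1, b)) :
    ∃ A B : Subgroup Γ, Nonempty (↥A ≃* Equiv.Perm (Fin 3)) ∧ Nonempty (↥B ≃* Equiv.Perm (Fin 3)) ∧ A ⊓ B = ⊥ ∧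
      (∀ a ∈ A, ∀ b ∈ B, a * b = b * a) ∧ (A ⊔ B).index = 2 ∧ ∃ g : Γ, A.map (MulAut.conj g).toMonoidHom = B := by
  obtain ⟨s⟩ := hS
  haveI : Finite Γ := Nat.finite_of_card_ne_zero (by rw [hΓ]; norm_num)
  have h6 : Nat.card S = 6 := by
    rw [Nat.card_congr s.toEquiv, Nat.card_eq_fintype_card, Fintype.card_perm, Fintype.card_fin]; rfl
  have i1 : Function.Injective (φ.comp (MonoidHom.inl S S)) := hφ.comp (fun a b h => (Prod.ext_iff.mp h).1)
  have i2 : Function.Injective (φ.comp (MonoidHom.inr S S)) := hφ.comp (fun a b h => (Prod.ext_iff.mp h).2)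
  have c1 : Nat.card (φ.comp (MonoidHom.inl S S)).range = 6 := by
    rw [← h6]; exact (Nat.card_congr (MonoidHom.ofInjective i1).toEquiv).symm
  have c2 : Nat.card (φ.comp (MonoidHom.inr S S)).range = 6 := by
    rw [← h6]; exact (Nat.card_congr (MonoidHom.ofInjective i2).toEquiv).symm
  refine ⟨(φ.comp (MonoidHom.inl S S)).range, (φ.comp (MonoidHom.inr S S)).range, ⟨(MonoidHom.ofInjective i1).symm.trans s⟩,
    ⟨(MonoidHom.ofInjective i2).symm.trans s⟩, ?_, ?_, ?_, g, ?_⟩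
  · rw [eq_bot_iff]
    rintro x ⟨⟨a, ha⟩, ⟨b, hb⟩⟩
    have h1 : φ (a, 1) = φ (1, b) := ha.trans hb.symm
    have h2 := (Prod.ext_iff.mp (hφ h1)).1
    rw [Subgroup.mem_bot, ← ha]
    change φ (a, 1) = 1
    rw [show a = 1 from h2]; exact _root_.map_one φ
  · rintro _ ⟨a, rfl⟩ _ ⟨b, rfl⟩
    change φ (a, 1) * φ (1, b) = φ (1, b) * φ (a, 1)
    rw [← _root_.map_mul, ← _root_.map_mul, Prod.mk_mul_mk, Prod.mk_mul_mk, mul_one, mul_one, one_mul, one_mul]
  · have hsup : (φ.comp (MonoidHom.inl S S)).range ⊔ (φ.comp (MonoidHom.inr S S)).range = φ.range := by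
      apply le_antisymm
      · apply sup_le
        · rintro _ ⟨a, rfl⟩; exact ⟨(a, 1), rfl⟩
        · rintro _ ⟨a, rfl⟩; exact ⟨(1, a), rfl⟩
      · rintro _ ⟨⟨a, b⟩, rfl⟩
        have h3 : φ (a, b) = φ (a, 1) * φ (1, b) := by rw [← _root_.map_mul, Prod.mk_mul_mk, mul_one, one_mul]
        rw [h3]
        exact Subgroup.mul_mem_sup ⟨a, rfl⟩ ⟨b, rfl⟩
    rw [hsup]
    have h36 : Nat.card φ.range = 36 := by
      rw [← Nat.card_congr (MonoidHom.ofInjective hφ).toEquiv, Nat.card_prod, h6]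
    have h4 := φ.range.card_mul_index
    rw [h36, hΓ] at h4
    omega
  · apply Subgroup.eq_of_le_of_card_ge
    · rintro _ ⟨_, ⟨a, rfl⟩, rfl⟩
      obtain ⟨b, hb⟩ := hg a
      exact ⟨b, hb.symm⟩
    · rw [c2, ← Nat.card_congr (Subgroup.equivMapOfInjective _ (MulAut.conj g).toMonoidHom (MulAut.conj g).injective).toEquiv, c1]

/-- The full orthogonal group of the plus-type form x₁y₁ + x₂y₂ in dimension 4 over the field of two elements has order 72 and is isomorphic to the wreath product of the symmetric group of degree 3 by a group of order 2: it has a normal subgroup isomorphic to the direct product of two symmetric groups of degree 3, of index 2, whose two direct factors are interchanged by conjugation by some element. -/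
theorem result :
    Nat.card ↥(Cfsg.isometryGroup (ZMod 2) (Cfsg.quadFormPlus 2 (ZMod 2))) = 72 ∧
    ∃ (A B : Subgroup ↥(Cfsg.isometryGroup (ZMod 2) (Cfsg.quadFormPlus 2 (ZMod 2)))),
      Nonempty (↥A ≃* Equiv.Perm (Fin 3)) ∧ Nonempty (↥B ≃* Equiv.Perm (Fin 3)) ∧ A ⊓ B = ⊥ ∧ (∀ a ∈ A, ∀ b ∈ B, a * b = b * a) ∧
      (A ⊔ B).index = 2 ∧ ∃ g : ↥(Cfsg.isometryGroup (ZMod 2) (Cfsg.quadFormPlus 2 (ZMod 2))), A.map (MulAut.conj g).toMonoidHom = B := by
  have h72 : Nat.card ↥(Cfsg.isometryGroup (ZMod 2) (Cfsg.quadFormPlus 2 (ZMod 2))) = 72 := by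
    have h := card_O_plus (F := ZMod 2) 1
    rw [Nat.card_zmod] at h
    exact h.trans (by decide)
  have hker : (phi4 (ZMod 2)).ker = ⊥ := by
    apply Subgroup.eq_bot_of_card_eq
    rw [card_ker_phi4, ZMod.card]; decide
  have hinj : Function.Injective (phi4 (ZMod 2)) := (MonoidHom.ker_eq_bot_iff _).mp hker
  let e := isoMat (quadFormPlus 2 (ZMod 2)) (detQ (ZMod 2)) (eDet (ZMod 2)) eDet_apply
  let τ : O (detQ (ZMod 2)) := ⟨Matrix.transposeLinearEquiv (Fin 2) (Fin 2) (ZMod 2) (ZMod 2), by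
    rw [mem_O]; intro X; rw [detQ_apply, detQ_apply]; exact Matrix.det_transpose X⟩
  refine ⟨h72, key (Cfsg.Agent.S0250.result (ZMod.card 2)) h72 (e.symm.toMonoidHom.comp (phi4 (ZMod 2))) (e.symm.injective.comp hinj) (e.symm τ) ?_⟩
  intro a
  refine ⟨(a.transpose)⁻¹, ?_⟩
  change e.symm τ * e.symm (phi4 _ (a, 1)) * (e.symm τ)⁻¹ = e.symm (phi4 _ (1, (a.transpose)⁻¹))
  rw [← _root_.map_inv, ← _root_.map_mul, ← _root_.map_mul]
  congr 1
  rw [mul_inv_eq_iff_eq_mul]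
  apply O_ext
  intro X
  change Matrix.transpose ((phi4 _ (a, 1)).1 X) = (phi4 _ (1, (a.transpose)⁻¹)).1 (Matrix.transpose X)
  rw [phi4_apply, phi4_apply]
  simp [Matrix.transpose_mul]

end Cfsg.Agent.S2566
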