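import Cfsg.Statements.S2567
import Cfsg.Agent.Lib.Linear

set_option autoImplicit false
open Cfsg

namespace Cfsg.Agent.S2567

/-- Lifting elements of prime order from PGL to GL: let F be a finite field with q elements, r a prime not dividing q − 1, and x an element of order r in GL_n(F) modulo its centre (the scalar matrices). Then x has exactly one preimage in GL_n(F) of order r. -/
theorem result {F : Type*} [Field F] [Fintype F] {q n r : ℕ} (hF : Fintype.card F = q) (hr : r.Prime) (hdiv : ¬ r ∣ q - 1) (x : GL (Fin n) F ⧸ Subgroup.center (GL (Fin n) F)) (hx : orderOf x = r) : ∃! g : GL (Fin n) F, (QuotientGroup.mk g : GL (Fin n) F ⧸ Subgroup.center (GL (Fin n) F)) = x ∧ orderOf g = r := by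
  classical
  have hr1 : r ≠ 1 := hr.one_lt.ne'
  rcases Nat.eq_zero_or_pos n with rfl | hn
  · exfalso
    haveI : Subsingleton (GL (Fin 0) F) := ⟨fun a b => Units.ext (Subsingleton.elim _ _)⟩
    haveI : Subsingleton (GL (Fin 0) F ⧸ Subgroup.center (GL (Fin 0) F)) := (QuotientGroup.mk_surjective).subsingleton
    rw [Subsingleton.elim x 1, orderOf_one] at hx
    exact hr1 hx.symm
  · haveI : Nonempty (Fin n) := ⟨⟨0, hn⟩⟩
    have hZ : (Nat.card (Subgroup.center (GL (Fin n) F))).Coprime r := by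
      rw [CfsgLib.Linear.card_center_GL, Nat.card_eq_fintype_card, Fintype.card_units, hF]
      exact ((Nat.Prime.coprime_iff_not_dvd hr).2 hdiv).symm
    obtain ⟨g0, rfl⟩ := QuotientGroup.mk_surjective x
    have hx1 : (QuotientGroup.mk g0 : GL (Fin n) F ⧸ Subgroup.center (GL (Fin n) F)) ≠ 1 := by
      intro h
      rw [h, orderOf_one] at hx
      exact hr1 hx.symm
    have hc : g0 ^ r ∈ Subgroup.center (GL (Fin n) F) := by
      rw [← QuotientGroup.eq_one_iff, QuotientGroup.mk_pow, ← hx]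
      exact pow_orderOf_eq_one _
    obtain ⟨z, hz⟩ := (powCoprime hZ).surjective ⟨(g0 ^ r)⁻¹, inv_mem hc⟩
    have hz' : (z : GL (Fin n) F) ^ r = (g0 ^ r)⁻¹ := congrArg Subtype.val hz
    have hcomm : ∀ (w : Subgroup.center (GL (Fin n) F)) (g : GL (Fin n) F), Commute g w := fun w g => Subgroup.mem_center_iff.1 w.2 g
    have hmk : ∀ (w : Subgroup.center (GL (Fin n) F)) (g : GL (Fin n) F), (QuotientGroup.mk (g * w) : GL (Fin n) F ⧸ Subgroup.center (GL (Fin n) F)) = QuotientGroup.mk g := by
      intro w g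
      rw [QuotientGroup.mk_mul, (QuotientGroup.eq_one_iff _).2 w.2, mul_one]
    haveI : Fact r.Prime := ⟨hr⟩
    refine ⟨g0 * z, ⟨hmk z g0, ?_⟩, ?_⟩
    · apply orderOf_eq_prime
      · rw [(hcomm z g0).mul_pow, hz', mul_inv_cancel]
      · intro h
        apply hx1
        rw [← hmk z g0, h, QuotientGroup.mk_one]
    · rintro g ⟨hg, hgo⟩
      have h1 : (g0 * z)⁻¹ * g ∈ Subgroup.center (GL (Fin n) F) := by
        rw [← QuotientGroup.eq, hmk, hg]
      have h2 : ((g0 * z) * ((g0 * z)⁻¹ * g)) ^ r = 1 := by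
        rw [mul_inv_cancel_left, ← hgo]; exact pow_orderOf_eq_one _
      rw [(hcomm ⟨_, h1⟩ (g0 * z)).mul_pow, (hcomm z g0).mul_pow, hz', mul_inv_cancel, one_mul] at h2
      have h3 : powCoprime hZ ⟨_, h1⟩ = powCoprime hZ 1 := by
        apply Subtype.ext
        change ((g0 * z)⁻¹ * g) ^ r = (1 : GL (Fin n) F) ^ r
        rw [one_pow]; exact h2
      have h4 := congrArg Subtype.val ((powCoprime hZ).injective h3)
      have h5 : (g0 * (z : GL (Fin n) F))⁻¹ * g = 1 := h4
      rw [inv_mul_eq_one] at h5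
      exact h5.symm

end Cfsg.Agent.S2567
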