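import Cfsg.Statements.S2569
import Cfsg.Agent.Lib.Semis

set_option autoImplicit false
open Cfsg

namespace Cfsg.Agent.S2569


/-- In GL_n over a finite field of characteristic p, the conjugacy class of a semisimple element (an element of order prime to p) under the special linear group is its whole GL-conjugacy class: for every such x and every invertible g there is h of determinant one with h x h⁻¹ = g x g⁻¹. -/
theorem result {F : Type*} [Field F] [Fintype F] {p : ℕ} [Fact p.Prime] [CharP F p] {n : ℕ} (x g : GL (Fin n) F) (hx : (orderOf x).Coprime p) : ∃ h : GL (Fin n) F, (h : Matrix (Fin n) (Fin n) F).det = 1 ∧ h * x * h⁻¹ = g * x * g⁻¹ := by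
  classical
  rcases Nat.eq_zero_or_pos n with rfl | hn
  · exact ⟨g, by simp, rfl⟩
  have : Nonempty (Fin n) := ⟨⟨0, hn⟩⟩
  have hss := CfsgLib.Semis.isSemisimple_of_coprime x hx
  have hg0 : (g : Matrix (Fin n) (Fin n) F).det ≠ 0 := ((Matrix.isUnit_iff_isUnit_det _).1 g.isUnit).ne_zero
  obtain ⟨D, hD1, hD2⟩ := CfsgLib.Semis.matrix_commuting_det (x : Matrix (Fin n) (Fin n) F) hss (((g : Matrix (Fin n) (Fin n) F).det)⁻¹)
  have hDu : IsUnit D := (Matrix.isUnit_iff_isUnit_det D).2 (by rw [hD2]; exact isUnit_iff_ne_zero.2 (inv_ne_zero hg0))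
  obtain ⟨d, hd⟩ := hDu
  have hdx : d * x = x * d := by
    apply Units.ext
    rw [Units.val_mul, Units.val_mul, hd, hD1]
  refine ⟨g * d, ?_, ?_⟩
  · rw [Units.val_mul, Matrix.det_mul, hd, hD2, mul_inv_cancel₀ hg0]
  · rw [mul_inv_rev, mul_assoc g d x, hdx]
    group

end Cfsg.Agent.S2569
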