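import Cfsg.Statements.S2571
import Cfsg.Agent.Lib.RegUnip

set_option autoImplicit false
open Cfsg

namespace Cfsg.Agent.S2571


/-- Centraliser of a regular unipotent element in GL_n(q): if u is an invertible n × n matrix over the field with q elements, n ≥ 1, with (u − 1)^n = 0 and rank(u − 1) = n − 1 (a single unipotent Jordan block), then its centraliser in GL_n(q) has order (q − 1) q^(n−1). -/
theorem result {F : Type*} [Field F] [Fintype F] {q n : ℕ} (hF : Fintype.card F = q) (hn : 1 ≤ n) (u : GL (Fin n) F) (hnil : ((u : Matrix (Fin n) (Fin n) F) - 1) ^ n = 0) (hreg : ((u : Matrix (Fin n) (Fin n) F) - 1).rank = n - 1) : Nat.card ↥(Subgroup.centralizer ({u} : Set (GL (Fin n) F))) = (q - 1) * q ^ (n - 1) := by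
  classical
  obtain ⟨k, rfl⟩ : ∃ k, n = k + 1 := ⟨n - 1, by omega⟩
  have h1 := CfsgLib.RegUnip.centralizerEquiv (u := u) (k := k) (by simp) hnil (by rw [hreg]; simp)
  rw [← Nat.card_congr h1, Nat.card_eq_fintype_card]
  let e : {a : Fin (k + 1) → F // a 0 ≠ 0} ≃ {x : F // x ≠ 0} × (Fin k → F) :=
    { toFun := fun a => (⟨a.1 0, a.2⟩, fun i => a.1 i.succ)
      invFun := fun p => ⟨Fin.cons p.1.1 p.2, p.1.2⟩
      left_inv := fun a => by
        apply Subtype.ext
        funext i
        refine Fin.cases ?_ ?_ i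
        · rfl
        · intro j; rfl
      right_inv := fun p => by
        ext <;> simp }
  rw [Fintype.card_congr e, Fintype.card_prod, Fintype.card_subtype_compl, Fintype.card_fun]
  simp [hF]

end Cfsg.Agent.S2571
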