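import Cfsg.Statements.S2572
import Cfsg.Agent.Lib.SqZero
import Cfsg.Agent.Lib.ConjCount

set_option autoImplicit false
open Cfsg

namespace Cfsg.Agent.S2572

open Matrix in
theorem rank_one_iff {F : Type*} [Field F] {n : ℕ} (N : Matrix (Fin n) (Fin n) F) :
    (N.rank = 1 ∧ N * N = 0) ↔ ∃ v φ : Fin n → F, v ≠ 0 ∧ φ ≠ 0 ∧ φ ⬝ᵥ v = 0 ∧ N = Matrix.vecMulVec v φ := by
  constructor
  · rintro ⟨h1, h2⟩
    have h3 : Module.finrank F (LinearMap.range N.mulVecLin) = 1 := h1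
    obtain ⟨⟨v, hv⟩, hv0, hv'⟩ := finrank_eq_one_iff'.1 h3
    have hv0' : v ≠ 0 := fun h => hv0 (Subtype.ext h)
    have : ∀ j : Fin n, ∃ c : F, N.mulVec (Pi.single j 1) = c • v := by
      intro j
      obtain ⟨c, hc⟩ := hv' ⟨N.mulVecLin (Pi.single j 1), ⟨_, rfl⟩⟩
      refine ⟨c, ?_⟩
      have := congrArg Subtype.val hc
      exact this.symm
    choose φ hφ using this
    have hN : N = Matrix.vecMulVec v φ := by
      ext i j
      have := congrFun (hφ j) i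
      simp [Matrix.mulVec_single] at this
      rw [this, Matrix.vecMulVec_apply, mul_comm]
    have hφ0 : φ ≠ 0 := by
      rintro rfl
      rw [hN] at h1
      simp at h1
    refine ⟨v, φ, hv0', hφ0, ?_, hN⟩
    rw [hN, Matrix.vecMulVec_mul_vecMulVec] at h2
    by_contra hne
    obtain ⟨i, hi⟩ := Function.ne_iff.1 hv0'
    obtain ⟨j, hj⟩ := Function.ne_iff.1 hφ0
    have h4 := congrFun (congrFun h2 i) j
    simp [Matrix.vecMulVec_apply] at h4
    tauto
  · rintro ⟨v, φ, hv, hφ, h0, rfl⟩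
    constructor
    · apply le_antisymm
      · exact Matrix.rank_vecMulVec_le v φ
      · rw [Nat.one_le_iff_ne_zero]
        intro h
        have h1 : LinearMap.range (Matrix.vecMulVec v φ).mulVecLin = ⊥ := Submodule.finrank_eq_zero.1 h
        rw [LinearMap.range_eq_bot] at h1
        obtain ⟨i, hi⟩ := Function.ne_iff.1 hv
        obtain ⟨j, hj⟩ := Function.ne_iff.1 hφ
        have := congrFun (LinearMap.congr_fun h1 (Pi.single j 1)) i
        simp [Matrix.mulVec_single, Matrix.vecMulVec_apply] at this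
        tauto
    · rw [Matrix.vecMulVec_mul_vecMulVec, h0]
      simp

open Matrix in
theorem count_X {F : Type*} [Field F] [Fintype F] (m : ℕ) :
    Nat.card {p : (Fin (m + 1) → F) × (Fin (m + 1) → F) // p.1 ≠ 0 ∧ p.2 ≠ 0 ∧ p.2 ⬝ᵥ p.1 = 0} =
      (Fintype.card F ^ (m + 1) - 1) * (Fintype.card F ^ m - 1) := by
  classical
  have hfib : ∀ v : Fin (m + 1) → F, v ≠ 0 → Nat.card {φ : Fin (m + 1) → F // φ ≠ 0 ∧ φ ⬝ᵥ v = 0} = Fintype.card F ^ m - 1 := by
    intro v hv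
    let l : (Fin (m + 1) → F) →ₗ[F] F :=
      { toFun := fun φ => φ ⬝ᵥ v
        map_add' := fun a b => add_dotProduct a b v
        map_smul' := fun c a => smul_dotProduct c a v }
    have hl : Function.Surjective l := by
      apply LinearMap.surjective
      intro h
      apply hv
      ext i
      have := LinearMap.congr_fun h (Pi.single i 1)
      simpa [l] using this
    have hk : Module.finrank F (LinearMap.ker l) = m := by
      have h1 := LinearMap.finrank_range_add_finrank_ker l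
      rw [LinearMap.range_eq_top.2 hl, finrank_top, Module.finrank_self] at h1
      simp at h1
      omega
    let e : {φ : Fin (m + 1) → F // φ ≠ 0 ∧ φ ⬝ᵥ v = 0} ≃ {x : LinearMap.ker l // x ≠ 0} :=
      { toFun := fun φ => ⟨⟨φ.1, φ.2.2⟩, fun h => φ.2.1 (congrArg Subtype.val h)⟩
        invFun := fun x => ⟨x.1.1, fun h => x.2 (Subtype.ext h), x.1.2⟩
        left_inv := fun _ => rfl
        right_inv := fun _ => rfl }
    rw [Nat.card_congr e, Nat.card_eq_fintype_card, Fintype.card_subtype_compl]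
    rw [Module.card_eq_pow_finrank (K := F) (V := LinearMap.ker l), hk]
    simp
  let e : {p : (Fin (m + 1) → F) × (Fin (m + 1) → F) // p.1 ≠ 0 ∧ p.2 ≠ 0 ∧ p.2 ⬝ᵥ p.1 = 0} ≃
      Σ v : {v : Fin (m + 1) → F // v ≠ 0}, {φ : Fin (m + 1) → F // φ ≠ 0 ∧ φ ⬝ᵥ v.1 = 0} :=
    { toFun := fun p => ⟨⟨p.1.1, p.2.1⟩, ⟨p.1.2, p.2.2⟩⟩
      invFun := fun s => ⟨(s.1.1, s.2.1), s.1.2, s.2.2⟩
      left_inv := fun _ => rfl
      right_inv := fun _ => rfl }
  rw [Nat.card_congr e, Nat.card_sigma, Finset.sum_congr rfl (fun v _ => hfib v.1 v.2), Finset.sum_const, smul_eq_mul,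
    Finset.card_univ, Fintype.card_subtype_compl]
  simp

open Matrix in
theorem count_T {F : Type*} [Field F] [Fintype F] (m : ℕ) :
    Nat.card {N : Matrix (Fin (m + 1)) (Fin (m + 1)) F // N.rank = 1 ∧ N * N = 0} * (Fintype.card F - 1) =
      (Fintype.card F ^ (m + 1) - 1) * (Fintype.card F ^ m - 1) := by
  classical
  rw [← count_X, ← Fintype.card_units, ← Nat.card_eq_fintype_card (α := Fˣ), ← Nat.card_prod]
  choose v φ hv hφ h0 hN using fun N : {N : Matrix (Fin (m + 1)) (Fin (m + 1)) F // N.rank = 1 ∧ N * N = 0} => (rank_one_iff N.1).1 N.2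
  apply Nat.card_congr
  refine Equiv.ofBijective (fun p => ⟨((p.2 : F) • v p.1, ((p.2⁻¹ : Fˣ) : F) • φ p.1), ?_, ?_, ?_⟩) ⟨?_, ?_⟩
  · exact smul_ne_zero p.2.ne_zero (hv p.1)
  · exact smul_ne_zero (p.2⁻¹).ne_zero (hφ p.1)
  · show (((p.2⁻¹ : Fˣ) : F) • φ p.1) ⬝ᵥ ((p.2 : F) • v p.1) = 0
    rw [smul_dotProduct, dotProduct_smul, h0]; simp
  · rintro ⟨N, c⟩ ⟨N', c'⟩ h
    have h1 : (c : F) • v N = (c' : F) • v N' := congrArg (fun x : {p : (Fin (m + 1) → F) × (Fin (m + 1) → F) // p.1 ≠ 0 ∧ p.2 ≠ 0 ∧ p.2 ⬝ᵥ p.1 = 0} => x.1.1) h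
    have h2 : ((c⁻¹ : Fˣ) : F) • φ N = ((c'⁻¹ : Fˣ) : F) • φ N' := congrArg (fun x : {p : (Fin (m + 1) → F) × (Fin (m + 1) → F) // p.1 ≠ 0 ∧ p.2 ≠ 0 ∧ p.2 ⬝ᵥ p.1 = 0} => x.1.2) h
    have h3 : N = N' := by
      apply Subtype.ext
      rw [hN N, hN N']
      have e0 : ∀ (d : Fˣ) (a b : Fin (m + 1) → F), Matrix.vecMulVec a b = Matrix.vecMulVec ((d : F) • a) (((d⁻¹ : Fˣ) : F) • b) := by
        intro d a b
        rw [Matrix.smul_vecMulVec, Matrix.vecMulVec_smul, smul_smul]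
        simp
      have e1 := e0 c (v N) (φ N)
      have e2 := e0 c' (v N') (φ N')
      rw [e1, e2, h1, h2]
    subst h3
    have h4 : c = c' := by
      obtain ⟨i, hi⟩ := Function.ne_iff.1 (hv N)
      have := congrFun h1 i
      apply Units.ext
      exact mul_right_cancel₀ hi this
    rw [h4]
  · rintro ⟨⟨w, ψ⟩, hw, hψ, hwψ⟩
    let N : {N : Matrix (Fin (m + 1)) (Fin (m + 1)) F // N.rank = 1 ∧ N * N = 0} :=
      ⟨Matrix.vecMulVec w ψ, (rank_one_iff _).2 ⟨w, ψ, hw, hψ, hwψ, rfl⟩⟩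
    have hNN : Matrix.vecMulVec w ψ = Matrix.vecMulVec (v N) (φ N) := hN N
    have hent : ∀ i j, w i * ψ j = v N i * φ N j := by
      intro i j
      have := congrFun (congrFun hNN i) j
      rwa [Matrix.vecMulVec_apply, Matrix.vecMulVec_apply] at this
    obtain ⟨j, hj⟩ := Function.ne_iff.1 hψ
    obtain ⟨i, hi⟩ := Function.ne_iff.1 hw
    have hj' : ψ j ≠ 0 := hj
    have hi' : w i ≠ 0 := hi
    have hφj : φ N j ≠ 0 := by
      intro h
      have := hent i j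
      rw [h, mul_zero] at this
      exact (mul_ne_zero hi' hj') this
    have hc : φ N j / ψ j ≠ 0 := div_ne_zero hφj hj'
    refine ⟨(N, Units.mk0 _ hc), ?_⟩
    apply Subtype.ext
    simp only [Units.val_mk0, Units.val_inv_eq_inv_val, Prod.mk.injEq]
    have hw1 : (φ N j / ψ j) • v N = w := by
      ext k
      rw [Pi.smul_apply, smul_eq_mul]
      field_simp
      have := hent k j
      linear_combination -this
    refine ⟨hw1, ?_⟩
    ext k
    rw [Pi.smul_apply, smul_eq_mul]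
    have h5 := hent i k
    have h6 := congrFun hw1 i
    rw [Pi.smul_apply, smul_eq_mul] at h6
    have h7 : v N i ≠ 0 := by
      intro h
      rw [h, mul_zero] at h6
      exact hi' h6.symm
    apply mul_left_cancel₀ hi'
    rw [h5, ← h6]
    field_simp

open Matrix in
theorem count_class {F : Type*} [Field F] [Fintype F] (m : ℕ) (t : GL (Fin (m + 1)) F)
    (ht : Cfsg.IsTransvection (t : Matrix (Fin (m + 1)) (Fin (m + 1)) F)) :
    Nat.card (ConjClasses.mk t).carrier = Nat.card {N : Matrix (Fin (m + 1)) (Fin (m + 1)) F // N.rank = 1 ∧ N * N = 0} := by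
  classical
  have hunit : ∀ N : Matrix (Fin (m + 1)) (Fin (m + 1)) F, N * N = 0 → (1 + N) * (1 - N) = 1 ∧ (1 - N) * (1 + N) = 1 := by
    intro N hN
    constructor
    · have : (1 + N) * (1 - N) = 1 - N * N := by noncomm_ring
      rw [this, hN, sub_zero]
    · have : (1 - N) * (1 + N) = 1 - N * N := by noncomm_ring
      rw [this, hN, sub_zero]
  have hconj : ∀ (c : GL (Fin (m + 1)) F), ((c * t * c⁻¹ : GL (Fin (m + 1)) F) : Matrix (Fin (m + 1)) (Fin (m + 1)) F) - 1 =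
      (c : Matrix (Fin (m + 1)) (Fin (m + 1)) F) * ((t : Matrix (Fin (m + 1)) (Fin (m + 1)) F) - 1) * ((c⁻¹ : GL (Fin (m + 1)) F) : Matrix (Fin (m + 1)) (Fin (m + 1)) F) := by
    intro c
    rw [mul_sub, sub_mul, mul_one, Units.mul_inv]
    rfl
  refine Nat.card_congr (Equiv.ofBijective (fun x => ⟨((x : GL (Fin (m + 1)) F) : Matrix (Fin (m + 1)) (Fin (m + 1)) F) - 1, ?_⟩) ⟨?_, ?_⟩)
  · obtain ⟨c, hc⟩ := (CfsgLib.ConjCount.mem_carrier_iff t x).1 x.2
    rw [hc, hconj]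
    constructor
    · rw [Matrix.rank_mul_eq_left_of_isUnit_det, Matrix.rank_mul_eq_right_of_isUnit_det, ht.1]
      · exact (Matrix.isUnit_iff_isUnit_det _).1 c.isUnit
      · exact (Matrix.isUnit_iff_isUnit_det _).1 (c⁻¹).isUnit
    · have e1 : ((c⁻¹ : GL (Fin (m + 1)) F) : Matrix (Fin (m + 1)) (Fin (m + 1)) F) * (c : Matrix (Fin (m + 1)) (Fin (m + 1)) F) = 1 := Units.inv_mul c
      calc _ = (c : Matrix (Fin (m + 1)) (Fin (m + 1)) F) * ((t : Matrix (Fin (m + 1)) (Fin (m + 1)) F) - 1) * (((c⁻¹ : GL (Fin (m + 1)) F) : Matrix (Fin (m + 1)) (Fin (m + 1)) F) * (c : Matrix (Fin (m + 1)) (Fin (m + 1)) F)) * ((t : Matrix (Fin (m + 1)) (Fin (m + 1)) F) - 1) * ((c⁻¹ : GL (Fin (m + 1)) F) : Matrix (Fin (m + 1)) (Fin (m + 1)) F) := by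
            simp only [Matrix.mul_assoc]
        _ = (c : Matrix (Fin (m + 1)) (Fin (m + 1)) F) * (((t : Matrix (Fin (m + 1)) (Fin (m + 1)) F) - 1) * ((t : Matrix (Fin (m + 1)) (Fin (m + 1)) F) - 1)) * ((c⁻¹ : GL (Fin (m + 1)) F) : Matrix (Fin (m + 1)) (Fin (m + 1)) F) := by
            rw [e1, Matrix.mul_one]; simp only [Matrix.mul_assoc]
        _ = 0 := by rw [ht.2]; simp
  · rintro ⟨x, hx⟩ ⟨y, hy⟩ hxy
    have h1 : (x : Matrix (Fin (m + 1)) (Fin (m + 1)) F) - 1 = (y : Matrix (Fin (m + 1)) (Fin (m + 1)) F) - 1 := congrArg Subtype.val hxy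
    apply Subtype.ext
    apply Units.ext
    exact sub_left_inj.1 h1
  · rintro ⟨N, hN1, hN2⟩
    let x : GL (Fin (m + 1)) F := ⟨1 + N, 1 - N, (hunit N hN2).1, (hunit N hN2).2⟩
    have hx1 : (x : Matrix (Fin (m + 1)) (Fin (m + 1)) F) - 1 = N := by
      show 1 + N - 1 = N
      simp
    have hNl : N.mulVecLin ∘ₗ N.mulVecLin = 0 := by
      rw [← Matrix.mulVecLin_mul, hN2]; ext; simp
    have htl : ((t : Matrix (Fin (m + 1)) (Fin (m + 1)) F) - 1).mulVecLin ∘ₗ ((t : Matrix (Fin (m + 1)) (Fin (m + 1)) F) - 1).mulVecLin = 0 := by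
      rw [← Matrix.mulVecLin_mul, ht.2]; ext; simp
    obtain ⟨e, he⟩ := CfsgLib.SqZero.exists_equiv ((t : Matrix (Fin (m + 1)) (Fin (m + 1)) F) - 1).mulVecLin N.mulVecLin htl hNl
      (show ((t : Matrix (Fin (m + 1)) (Fin (m + 1)) F) - 1).rank = N.rank by rw [ht.1, hN1])
    let P : Matrix (Fin (m + 1)) (Fin (m + 1)) F := LinearMap.toMatrix' (e : (Fin (m + 1) → F) →ₗ[F] (Fin (m + 1) → F))
    let Q : Matrix (Fin (m + 1)) (Fin (m + 1)) F := LinearMap.toMatrix' (e.symm : (Fin (m + 1) → F) →ₗ[F] (Fin (m + 1) → F))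
    have hPQ : P * Q = 1 := by
      rw [← LinearMap.toMatrix'_comp]; simp
    have hQP : Q * P = 1 := by
      rw [← LinearMap.toMatrix'_comp]; simp
    let c : GL (Fin (m + 1)) F := ⟨P, Q, hPQ, hQP⟩
    have hcomm : P * ((t : Matrix (Fin (m + 1)) (Fin (m + 1)) F) - 1) = N * P := by
      have h1 : LinearMap.toMatrix' ((t : Matrix (Fin (m + 1)) (Fin (m + 1)) F) - 1).mulVecLin = (t : Matrix (Fin (m + 1)) (Fin (m + 1)) F) - 1 := LinearMap.toMatrix'_toLin' _
      have h2 : LinearMap.toMatrix' N.mulVecLin = N := LinearMap.toMatrix'_toLin' _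
      conv_lhs => rw [← h1]
      conv_rhs => rw [← h2]
      rw [← LinearMap.toMatrix'_comp, ← LinearMap.toMatrix'_comp]
      congr 1
      apply LinearMap.ext
      intro v
      exact he v
    have hxc : x = c * t * c⁻¹ := by
      rw [eq_mul_inv_iff_mul_eq]
      apply Units.ext
      show (1 + N) * P = P * (t : Matrix (Fin (m + 1)) (Fin (m + 1)) F)
      rw [add_mul, one_mul, ← hcomm, mul_sub, mul_one]
      abel
    refine ⟨⟨x, (CfsgLib.ConjCount.mem_carrier_iff t x).2 ⟨c, hxc⟩⟩, ?_⟩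
    apply Subtype.ext
    exact hx1


/-- Centraliser of a transvection in GL_n(q), n ≥ 2: if t − 1 has rank one and square zero, the centraliser of t in GL_n(q) has order q^(2n−3) (q − 1) |GL_(n−2)(q)| (a group of order q^(2n−3) extended by GL_1(q) × GL_(n−2)(q)). -/
theorem result {F : Type*} [Field F] [Fintype F] {q n : ℕ} (hF : Fintype.card F = q) (hn : 2 ≤ n) (t : GL (Fin n) F) (ht : Cfsg.IsTransvection (t : Matrix (Fin n) (Fin n) F)) : Nat.card ↥(Subgroup.centralizer ({t} : Set (GL (Fin n) F))) = q ^ (2 * n - 3) * (q - 1) * ∏ i : Fin (n - 2), (q ^ (n - 2) - q ^ (i : ℕ)) := by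
  classical
  obtain ⟨m, rfl⟩ : ∃ m, n = m + 2 := ⟨n - 2, by omega⟩
  have h1 := CfsgLib.ConjCount.card_carrier_mul t
  rw [count_class (m + 1) t ht, Matrix.card_GL_field, hF] at h1
  have h2 := count_T (F := F) (m + 1)
  rw [hF] at h2
  set T := Nat.card {N : Matrix (Fin (m + 1 + 1)) (Fin (m + 1 + 1)) F // N.rank = 1 ∧ N * N = 0} with hT
  set C := Nat.card ↥(Subgroup.centralizer ({t} : Set (GL (Fin (m + 2)) F))) with hC
  have hq : 2 ≤ q := by rw [← hF]; exact Fintype.one_lt_card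
  have h3 : ∏ i : Fin (m + 2), (q ^ (m + 2) - q ^ (i : ℕ)) = (q ^ (m + 2) - 1) * (q ^ (m + 1) - 1) * (q ^ (2 * m + 1) * ∏ i : Fin m, (q ^ m - q ^ (i : ℕ))) := by
    rw [Fin.prod_univ_succ, Fin.prod_univ_succ]
    have h4 : ∏ i : Fin m, (q ^ (m + 2) - q ^ ((i.succ.succ : Fin (m + 2)) : ℕ)) = q ^ (2 * m) * ∏ i : Fin m, (q ^ m - q ^ (i : ℕ)) := by
      have : ∀ i : Fin m, q ^ (m + 2) - q ^ ((i.succ.succ : Fin (m + 2)) : ℕ) = q ^ 2 * (q ^ m - q ^ (i : ℕ)) := by
        intro i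
        rw [Nat.mul_sub, ← pow_add, ← pow_add]
        simp only [Fin.val_succ]
        congr 2 <;> omega
      rw [Finset.prod_congr rfl (fun i _ => this i), Finset.prod_mul_distrib, Finset.prod_const, Finset.card_univ, Fintype.card_fin, ← pow_mul]
    rw [h4]
    have h5 : q ^ (m + 2) - q ^ ((Fin.succ (0 : Fin (m + 1)) : Fin (m + 2)) : ℕ) = q * (q ^ (m + 1) - 1) := by
      rw [Nat.mul_sub, ← pow_succ', mul_one]
      simp
    rw [h5]
    simp only [Fin.val_zero, pow_zero]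
    ring
  rw [h3] at h1
  have hA : 0 < q ^ (m + 2) - 1 := by
    have : 1 < q ^ (m + 2) := Nat.one_lt_pow (by omega) (by omega)
    omega
  have hB : 0 < q ^ (m + 1) - 1 := by
    have : 1 < q ^ (m + 1) := Nat.one_lt_pow (by omega) (by omega)
    omega
  have h6 : (q ^ (m + 2) - 1) * (q ^ (m + 1) - 1) * C = (q ^ (m + 2) - 1) * (q ^ (m + 1) - 1) * ((q - 1) * (q ^ (2 * m + 1) * ∏ i : Fin m, (q ^ m - q ^ (i : ℕ)))) := by
    calc _ = (T * (q - 1)) * C := by rw [← h2]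
      _ = (q - 1) * (T * C) := by ring
      _ = _ := by rw [h1]; ring
  have h7 := Nat.eq_of_mul_eq_mul_left (Nat.mul_pos hA hB) h6
  rw [h7]
  have e1 : 2 * (m + 2) - 3 = 2 * m + 1 := by omega
  show _ = q ^ (2 * (m + 2) - 3) * (q - 1) * ∏ i : Fin m, (q ^ m - q ^ (i : ℕ))
  rw [e1]
  ring

end Cfsg.Agent.S2572
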