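import Cfsg.Statements.S2573

set_option autoImplicit false
open Cfsg

namespace Cfsg.Agent.S2573

open Module in
theorem finrank_ker_comp_le {F V : Type*} [Field F] [AddCommGroup V] [Module F V] [FiniteDimensional F V]
    (f g : V →ₗ[F] V) : finrank F (LinearMap.ker (g ∘ₗ f)) ≤ finrank F (LinearMap.ker g) + finrank F (LinearMap.ker f) := by
  have h1 := LinearMap.finrank_range_add_finrank_ker (f.domRestrict (LinearMap.ker (g ∘ₗ f)))
  have h2 : finrank F (LinearMap.range (f.domRestrict (LinearMap.ker (g ∘ₗ f)))) ≤ finrank F (LinearMap.ker g) := by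
    apply Submodule.finrank_mono
    rintro _ ⟨⟨x, hx⟩, rfl⟩
    rw [LinearMap.mem_ker] at hx ⊢
    exact hx
  have h3 : finrank F (LinearMap.ker (f.domRestrict (LinearMap.ker (g ∘ₗ f)))) ≤ finrank F (LinearMap.ker f) := by
    let j : LinearMap.ker (f.domRestrict (LinearMap.ker (g ∘ₗ f))) →ₗ[F] LinearMap.ker f :=
      { toFun := fun x => ⟨((x : LinearMap.ker (g ∘ₗ f)) : V), x.2⟩
        map_add' := fun x y => rfl
        map_smul' := fun c x => rfl }
    have hj : Function.Injective j := by
      intro x y hxy
      have : ((x : LinearMap.ker (g ∘ₗ f)) : V) = ((y : LinearMap.ker (g ∘ₗ f)) : V) := congrArg (fun z : LinearMap.ker f => (z : V)) hxy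
      exact Subtype.ext (Subtype.ext this)
    exact LinearMap.finrank_le_finrank_of_injective hj
  omega


/-- The invariant subspaces of a regular unipotent matrix form a chain: over a finite field, if u is an n × n matrix with (u − 1)^n = 0 and rank(u − 1) = n − 1, then every subspace W of F^n with u W ⊆ W is the kernel of (u − 1)^(dim W); so u has at most one invariant subspace of each dimension. -/
theorem result {F : Type*} [Field F] [Finite F] {n : ℕ} (u : Matrix (Fin n) (Fin n) F) (hnil : (u - 1) ^ n = 0) (hreg : (u - 1).rank = n - 1) (W : Submodule F (Fin n → F)) (hW : ∀ v ∈ W, u.mulVec v ∈ W) : W = LinearMap.ker (Matrix.mulVecLin ((u - 1) ^ Module.finrank F W)) := by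
  classical
  set N : (Fin n → F) →ₗ[F] (Fin n → F) := Matrix.mulVecLin (u - 1) with hN
  have hpow : ∀ k : ℕ, Matrix.mulVecLin ((u - 1) ^ k) = N ^ k := by
    intro k
    rw [hN]
    induction k with
    | zero => ext v; simp
    | succ k ih => rw [pow_succ, Matrix.mulVecLin_mul, ih, pow_succ]; rfl
  rw [hpow]
  have hker1 : Module.finrank F (LinearMap.ker N) ≤ 1 := by
    have h1 := LinearMap.finrank_range_add_finrank_ker N
    have h2 : Module.finrank F (LinearMap.range N) = n - 1 := hreg
    rw [h2] at h1
    simp at h1
    omega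
  have hkerk : ∀ k : ℕ, Module.finrank F (LinearMap.ker (N ^ k)) ≤ k := by
    intro k
    induction k with
    | zero => simp [Module.End.one_eq_id]
    | succ k ih =>
      have := finrank_ker_comp_le N (N ^ k)
      rw [pow_succ]
      have h3 : (N ^ k * N) = (N ^ k) ∘ₗ N := rfl
      rw [h3]
      omega
  have hNW : ∀ v ∈ W, N v ∈ W := by
    intro v hv
    have : N v = u.mulVec v - v := by
      simp [hN, Matrix.sub_mulVec]
    rw [this]
    exact W.sub_mem (hW v hv) hv
  have hnilW : (N.restrict hNW) ^ Module.finrank F W = 0 := by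
    have h1 : IsNilpotent (N.restrict hNW) := by
      refine ⟨n, ?_⟩
      rw [Module.End.pow_restrict]
      ext v : 1
      apply Subtype.ext
      rw [LinearMap.restrict_apply]
      have : (N ^ n) = 0 := by rw [← hpow, hnil]; simp
      simp [this]
    have h2 := h1.charpoly_eq_X_pow_finrank
    have h3 := LinearMap.aeval_self_charpoly (N.restrict hNW)
    rw [h2] at h3
    simpa using h3
  have hle : W ≤ LinearMap.ker (N ^ Module.finrank F W) := by
    intro v hv
    rw [LinearMap.mem_ker]
    have h1 := LinearMap.congr_fun hnilW ⟨v, hv⟩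
    rw [Module.End.pow_restrict] at h1
    exact congrArg Subtype.val h1
  exact Submodule.eq_of_le_of_finrank_le hle (hkerk _)

end Cfsg.Agent.S2573
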