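import Cfsg.Statements.S2574
import Cfsg.Agent.Lib.RegUnip

set_option autoImplicit false
open Cfsg

namespace Cfsg.Agent.S2574


/-- A regular unipotent element of the symplectic group has totally isotropic small invariant subspaces: over a finite field, if u ∈ Sp_2m(F) satisfies (u − 1)^(2m) = 0 and rank(u − 1) = 2m − 1, and W is a u-invariant subspace with 2 dim W ≤ 2m, then the alternating form vanishes identically on W. -/
theorem result {F : Type*} [Field F] [Finite F] {m : ℕ} (u : Matrix.symplecticGroup (Fin m) F) (hnil : ((u : Matrix (Fin m ⊕ Fin m) (Fin m ⊕ Fin m) F) - 1) ^ (2 * m) = 0) (hreg : ((u : Matrix (Fin m ⊕ Fin m) (Fin m ⊕ Fin m) F) - 1).rank = 2 * m - 1) (W : Submodule F (Fin m ⊕ Fin m → F)) (hW : ∀ v ∈ W, (u : Matrix (Fin m ⊕ Fin m) (Fin m ⊕ Fin m) F).mulVec v ∈ W) (hdim : 2 * Module.finrank F W ≤ 2 * m) : ∀ v ∈ W, ∀ w ∈ W, Cfsg.sympForm m F v w = 0 := by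
  classical
  rcases Nat.eq_zero_or_pos m with rfl | hm
  · intro v _ w _
    simp [Cfsg.sympForm, dotProduct]
  set U : Matrix (Fin m ⊕ Fin m) (Fin m ⊕ Fin m) F := (u : Matrix (Fin m ⊕ Fin m) (Fin m ⊕ Fin m) F) with hU
  set V : Matrix (Fin m ⊕ Fin m) (Fin m ⊕ Fin m) F := ((u⁻¹ : Matrix.symplecticGroup (Fin m) F) : Matrix (Fin m ⊕ Fin m) (Fin m ⊕ Fin m) F) with hV
  have hUV : U * V = 1 := by
    have : u * u⁻¹ = 1 := mul_inv_cancel u
    exact congrArg Subtype.val this
  have hVU : V * U = 1 := by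
    have : u⁻¹ * u = 1 := inv_mul_cancel u
    exact congrArg Subtype.val this
  have hJ : U.transpose * Matrix.J (Fin m) F = Matrix.J (Fin m) F * V := by
    have h1 := (SymplecticGroup.mem_iff').1 u.2
    calc U.transpose * Matrix.J (Fin m) F = U.transpose * Matrix.J (Fin m) F * U * V := by
          rw [Matrix.mul_assoc _ U V, hUV, Matrix.mul_one]
      _ = Matrix.J (Fin m) F * V := by rw [h1]
  have hadj : ∀ x y, Cfsg.sympForm m F ((U - 1).mulVec x) y = Cfsg.sympForm m F x ((V - 1).mulVec y) := by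
    intro x y
    unfold Cfsg.sympForm
    rw [Matrix.mulVec_mulVec, mul_sub, ← hJ, mul_one, Matrix.sub_mulVec, Matrix.sub_mulVec, sub_dotProduct, dotProduct_sub,
      ← Matrix.mulVec_mulVec, Matrix.one_mulVec]
    congr 1
    rw [Matrix.dotProduct_mulVec x, Matrix.vecMul_transpose]
  have hadjk : ∀ (j : ℕ) x y, Cfsg.sympForm m F (((U - 1) ^ j).mulVec x) y = Cfsg.sympForm m F x (((V - 1) ^ j).mulVec y) := by
    intro j
    induction j with
    | zero => intro x y; simp
    | succ j ih =>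
      intro x y
      rw [pow_succ, ← Matrix.mulVec_mulVec, ih, hadj, Matrix.mulVec_mulVec, ← pow_succ']
  have hVN : V - 1 = (-V) * (U - 1) := by
    rw [neg_mul, mul_sub, hVU, mul_one, neg_sub]
  have hcomm : Commute (-V) (U - 1) := by
    apply Commute.neg_left
    show V * (U - 1) = (U - 1) * V
    rw [mul_sub, sub_mul, hVU, hUV, mul_one, one_mul]
  have hpow : ∀ j : ℕ, (V - 1) ^ j = (-V) ^ j * (U - 1) ^ j := by
    intro j
    rw [hVN, hcomm.mul_pow]
  have hcard : Fintype.card (Fin m ⊕ Fin m) = 2 * m := by simp; ring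
  set N := Matrix.mulVecLin (U - 1) with hN
  have hNpow : ∀ j, Matrix.mulVecLin ((U - 1) ^ j) = N ^ j := fun j => CfsgLib.RegUnip.mulVecLin_pow _ j
  have hker1 : Module.finrank F (LinearMap.ker N) ≤ 1 := CfsgLib.RegUnip.finrank_ker_le_one (by rw [hreg, hcard])
  have hnilN : IsNilpotent N := ⟨2 * m, by rw [← hNpow, hnil]; ext; simp⟩
  have hNW : ∀ v ∈ W, N v ∈ W := by
    intro v hv
    have : N v = U.mulVec v - v := by
      simp [hN, Matrix.sub_mulVec]
    rw [this]
    exact W.sub_mem (hW v hv) hv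
  have hWker := CfsgLib.RegUnip.invariant_eq_ker N hker1 hnilN W hNW
  set d := Module.finrank F W with hd
  intro v hv w hw
  have hv' : v ∈ LinearMap.range (N ^ (2 * m - d)) := by
    have hle : LinearMap.range (N ^ (2 * m - d)) ≤ LinearMap.ker (N ^ d) := by
      rintro _ ⟨x, rfl⟩
      rw [LinearMap.mem_ker, ← Module.End.mul_apply, ← pow_add]
      have : N ^ (d + (2 * m - d)) = 0 := by
        rw [show d + (2 * m - d) = 2 * m by omega, ← hNpow, hnil]; ext; simp
      rw [this]; rfl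
    have hfr : Module.finrank F (LinearMap.ker (N ^ d)) ≤ Module.finrank F (LinearMap.range (N ^ (2 * m - d))) := by
      have h1 := LinearMap.finrank_range_add_finrank_ker (N ^ (2 * m - d))
      have h2 := CfsgLib.RegUnip.finrank_ker_pow_le N hker1 (2 * m - d)
      have h3 := CfsgLib.RegUnip.finrank_ker_pow_le N hker1 d
      rw [Module.finrank_fintype_fun_eq_card, hcard] at h1
      omega
    rw [Submodule.eq_of_le_of_finrank_le hle hfr, ← hWker]
    exact hv
  obtain ⟨x, rfl⟩ := hv'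
  rw [← hNpow, Matrix.mulVecLin_apply, hadjk, hpow, ← Matrix.mulVec_mulVec]
  have hw' : ((U - 1) ^ (2 * m - d)).mulVec w = 0 := by
    rw [hWker, LinearMap.mem_ker, ← hNpow, Matrix.mulVecLin_apply] at hw
    have : 2 * m - d = (2 * m - d - d) + d := by omega
    rw [this, pow_add, ← Matrix.mulVec_mulVec, hw, Matrix.mulVec_zero]
  rw [hw', Matrix.mulVec_zero]
  simp [Cfsg.sympForm]

end Cfsg.Agent.S2574
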