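import Cfsg.Statements.S2575

set_option autoImplicit false
open Cfsg

namespace Cfsg.Agent.S2575

/-- Which diagonal involutions of PGL_n(q) lie in PSL_n(q), q odd: for the diagonal matrix t with i entries −1 and n − i entries 1, some non-zero scalar multiple of t has determinant one if and only if i is even or the 2-part of q − 1 exceeds the 2-part of n (that is, −1 is an n-th power in the field exactly in the latter case). -/
theorem result {F : Type*} [Field F] [Fintype F] {q : ℕ} (hF : Fintype.card F = q) (hq : Odd q) {n : ℕ} (hn : 1 ≤ n) (i : ℕ) (hi : i ≤ n) : (∃ c : F, c ≠ 0 ∧ (c • Matrix.diagonal (fun j : Fin n => if (j : ℕ) < i then (-1 : F) else 1)).det = 1) ↔ (Even i ∨ padicValNat 2 n < padicValNat 2 (q - 1)) := by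
  classical
  have hdet : ∀ c : F, (c • Matrix.diagonal (fun j : Fin n => if (j : ℕ) < i then (-1 : F) else 1)).det = c ^ n * (-1) ^ i := by
    intro c
    rw [Matrix.det_smul, Fintype.card_fin, Matrix.det_diagonal, Finset.prod_ite, Finset.prod_const, Finset.prod_const_one, mul_one]
    congr 2
    have : (Finset.univ.filter (fun j : Fin n => (j : ℕ) < i)).card = i := by
      rw [Fin.card_filter_val_lt, min_eq_right hi]
    exact this
  have h2 : (2 : F) ≠ 0 := by
    intro h
    have h3 := FiniteField.even_card_of_char_two (F := F) (by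
      have : CharP F 2 := CharTwo.of_one_ne_zero_of_two_eq_zero one_ne_zero h
      exact ringChar.eq F 2)
    rw [hF] at h3
    exact (Nat.not_even_iff_odd.2 hq) (Nat.even_iff.2 h3)
  have hne : (-1 : F) ≠ 1 := fun h => h2 (by linear_combination -h)
  have hq1 : 1 < q := hF ▸ Fintype.one_lt_card
  simp only [hdet]
  rcases Nat.even_or_odd i with hie | hio
  · exact ⟨fun _ => Or.inl hie, fun _ => ⟨1, one_ne_zero, by rw [hie.neg_one_pow]; simp⟩⟩
  · rw [hio.neg_one_pow, or_iff_right (Nat.not_even_iff_odd.2 hio)]
    obtain ⟨v, hv⟩ : ∃ v, v = padicValNat 2 n := ⟨_, rfl⟩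
    obtain ⟨m, hm⟩ : 2 ^ v ∣ n := hv ▸ pow_padicValNat_dvd
    have hmodd : Odd m := by
      rw [← Nat.not_even_iff_odd]
      rintro hme
      have h3 : 2 ^ (v + 1) ∣ n := by
        rw [hm, pow_succ]
        exact Nat.mul_dvd_mul_left _ hme.two_dvd
      have h4 := (padicValNat_dvd_iff_le (p := 2) (by omega : n ≠ 0)).1 h3
      omega
    rw [← hv]
    constructor
    · rintro ⟨c, hc0, hc⟩
      have hc' : c ^ n = -1 := by linear_combination -hc
      have h3 : orderOf (Units.mk0 c hc0 ^ m) = 2 ^ (v + 1) := by
        apply orderOf_eq_prime_pow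
        · intro h
          apply hne
          have h4 := congrArg Units.val h
          rw [← pow_mul, mul_comm m, ← hm] at h4
          rw [← hc']; exact h4
        · rw [← pow_mul, pow_succ, ← mul_assoc, mul_comm m, ← hm, pow_mul]
          apply Units.ext
          change (c ^ n) ^ 2 = 1
          rw [hc']; ring
      have h4 := orderOf_dvd_card (x := Units.mk0 c hc0 ^ m)
      rw [h3, Fintype.card_units, hF, padicValNat_dvd_iff_le (by omega)] at h4
      omega
    · intro hlt
      have h3 : 2 ^ (v + 1) ∣ q - 1 := (padicValNat_dvd_iff_le (by omega)).2 hlt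
      obtain ⟨g, hg⟩ := IsCyclic.exists_generator (α := Fˣ)
      have hgo : orderOf g = q - 1 := by
        rw [orderOf_eq_card_of_forall_mem_zpowers hg, Nat.card_eq_fintype_card, Fintype.card_units, hF]
      obtain ⟨l, hl⟩ := h3
      have hl0 : l ≠ 0 := by rintro rfl; omega
      have h4 : (g ^ l) ^ (2 ^ v) * (g ^ l) ^ (2 ^ v) = 1 := by
        rw [← pow_add, ← two_mul, ← pow_succ', ← pow_mul, mul_comm l, ← hl, ← hgo]
        exact pow_orderOf_eq_one _
      have h5 : (g ^ l) ^ (2 ^ v) ≠ 1 := by
        rw [← pow_mul]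
        intro h
        have h6 := orderOf_dvd_of_pow_eq_one h
        rw [hgo, hl] at h6
        have h7 := Nat.le_of_dvd (by positivity) h6
        have h8 : 0 < 2 ^ v * l := by positivity
        rw [pow_succ, mul_comm l] at h7
        have : 2 ^ v * 2 * l = 2 * (2 ^ v * l) := by ring
        omega
      have h6 : (((g ^ l) ^ (2 ^ v) : Fˣ) : F) = -1 := by
        have h7 : (((g ^ l) ^ (2 ^ v) : Fˣ) : F) * (((g ^ l) ^ (2 ^ v) : Fˣ) : F) = 1 := congrArg Units.val h4
        rcases mul_self_eq_one_iff.1 h7 with h | h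
        · exact absurd (Units.ext h) h5
        · exact h
      refine ⟨((g ^ l : Fˣ) : F), Units.ne_zero _, ?_⟩
      rw [hm, pow_mul, ← Units.val_pow_eq_pow_val, h6, hmodd.neg_one_pow]; ring

end Cfsg.Agent.S2575
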