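import Cfsg.Statements.S2576

set_option autoImplicit false
open Cfsg

open scoped Pointwise
set_option linter.style.haveILetI false
namespace Cfsg.Agent.S2576

/-- Which involutions of PGL_2m(q) coming from a scalar of the quadratic extension field lie in PSL_2m(q), q odd: let μ generate the Sylow 2-subgroup of the multiplicative group of the field with q elements (μ has order the 2-part of q − 1) and let t be the block-diagonal matrix with m diagonal blocks [[0, 1], [μ, 0]] (so t² is the scalar μ and t is an involution modulo scalars). Then some non-zero scalar multiple of t has determinant one if and only if q ≡ 3 (mod 4) or the 2-part of q − 1 is less than the 2-part of 2m. -/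
theorem result {F : Type*} [Field F] [Fintype F] {q : ℕ} (hF : Fintype.card F = q) (hq : Odd q) {m : ℕ} (hm : 1 ≤ m) (μ : F) (hμ : orderOf μ = 2 ^ padicValNat 2 (q - 1)) : (∃ c : F, c ≠ 0 ∧ (c • Matrix.blockDiagonal (fun _ : Fin m => !![(0 : F), 1; μ, 0])).det = 1) ↔ (q % 4 = 3 ∨ padicValNat 2 (q - 1) < padicValNat 2 (2 * m)) := by
  classical
  haveI : Fact (Nat.Prime 2) := ⟨Nat.prime_two⟩
  have hdet : ∀ c : F, (c • Matrix.blockDiagonal (fun _ : Fin m => !![(0 : F), 1; μ, 0])).det = (c ^ 2 * (-μ)) ^ m := by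
    intro c
    rw [Matrix.det_smul, Matrix.det_blockDiagonal]
    simp only [Matrix.det_fin_two_of, Fintype.card_prod, Fintype.card_fin, Finset.prod_const, Finset.card_univ]
    rw [mul_pow, ← pow_mul]
    ring_nf
  have hq1 : 1 < q := hF ▸ Fintype.one_lt_card
  have hq0 : q - 1 ≠ 0 := by omega
  have hne : (-1 : F) ≠ 1 := by
    intro h
    have h2 : (2 : F) = 0 := by linear_combination -h
    haveI : CharP F 2 := CharTwo.of_one_ne_zero_of_two_eq_zero one_ne_zero h2
    have := FiniteField.even_card_of_char_two (F := F) (ringChar.eq F 2 |>.symm ▸ rfl)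
    rw [hF] at this
    obtain ⟨k, hk⟩ := hq
    omega
  set e := padicValNat 2 (q - 1) with he
  have he1 : 1 ≤ e := by
    rw [he, ← padicValNat_dvd_iff_le hq0, pow_one]
    obtain ⟨k, hk⟩ := hq
    omega
  have h2e : 2 ^ e ∣ q - 1 := pow_padicValNat_dvd
  have hμ0 : μ ≠ 0 := by
    rintro rfl
    have : orderOf (0 : F) = 0 := by simp
    rw [this] at hμ
    exact absurd hμ.symm (by positivity)
  constructor
  · rintro ⟨c, hc, h⟩
    by_cases h3 : q % 4 = 3
    · exact Or.inl h3
    right
    rw [hdet] at h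
    obtain ⟨t, ht⟩ : ∃ t, q - 1 = 2 * (2 * t) := by
      obtain ⟨k, hk⟩ := hq
      exact ⟨(q - 1) / 4, by omega⟩
    have hfer : ∀ x : F, x ≠ 0 → x ^ (q - 1) = 1 := fun x hx => by rw [← hF]; exact FiniteField.pow_card_sub_one_eq_one x hx
    have hdne : (c ^ 2 * (-μ)) ^ (2 * t) ≠ 1 := by
      intro h'
      have h5 : μ ^ (2 * t) = 1 := by
        have h6 : (c ^ 2 * (-μ)) ^ (2 * t) = c ^ (q - 1) * μ ^ (2 * t) := by
          rw [ht, mul_pow, ← pow_mul, neg_pow, pow_mul (-1 : F) 2 t, neg_one_sq, one_pow, one_mul]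
        rw [h6, hfer c hc, one_mul] at h'
        exact h'
      have h7 := orderOf_dvd_of_pow_eq_one h5
      rw [hμ] at h7
      have h8 : 2 ^ (e + 1) ∣ q - 1 := by
        rw [ht, pow_succ, mul_comm]
        exact Nat.mul_dvd_mul_left 2 h7
      have h9 := (padicValNat_dvd_iff_le (p := 2) hq0).1 h8
      omega
    have ho : orderOf (c ^ 2 * (-μ)) ∣ m := orderOf_dvd_of_pow_eq_one h
    have ho2 : orderOf (c ^ 2 * (-μ)) ∣ q - 1 := orderOf_dvd_of_pow_eq_one (hfer _ (mul_ne_zero (pow_ne_zero _ hc) (neg_ne_zero.2 hμ0)))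
    obtain ⟨k, hk⟩ := ho2
    have hko : Nat.Coprime (2 ^ e) k := by
      apply Nat.Coprime.pow_left
      rw [Nat.prime_two.coprime_iff_not_dvd]
      rintro ⟨k', rfl⟩
      apply hdne
      rw [← orderOf_dvd_iff_pow_eq_one]
      refine ⟨k', ?_⟩
      have : 2 * (2 * t) = 2 * (orderOf (c ^ 2 * (-μ)) * k') := by rw [← ht, hk]; ring
      omega
    have hd : 2 ^ e ∣ m := (hko.dvd_of_dvd_mul_right (hk ▸ h2e)).trans ho
    have h10 : 2 ^ (e + 1) ∣ 2 * m := by
      rw [pow_succ, mul_comm]
      exact Nat.mul_dvd_mul_left 2 hd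
    have := (padicValNat_dvd_iff_le (p := 2) (by omega : 2 * m ≠ 0)).1 h10
    omega
  · intro h
    refine ⟨1, one_ne_zero, ?_⟩
    rw [hdet, one_pow, one_mul]
    rcases h with h | h
    · have he2 : e = 1 := by
        by_contra hcon
        have : 2 ≤ e := by omega
        rw [he, ← padicValNat_dvd_iff_le hq0] at this
        obtain ⟨k, hk⟩ := this
        omega
      rw [he2, pow_one] at hμ
      have h1 : μ ^ 2 = 1 := by rw [← hμ]; exact pow_orderOf_eq_one μ
      have h2 : μ ≠ 1 := by
        rintro rfl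
        rw [orderOf_one] at hμ
        omega
      have h3 : μ = -1 := by
        rcases mul_self_eq_one_iff.1 (by rw [← sq]; exact h1 : μ * μ = 1) with h | h
        · exact absurd h h2
        · exact h
      rw [h3, neg_neg, one_pow]
    · have h1 : 2 ^ (e + 1) ∣ 2 * m := (padicValNat_dvd_iff_le (p := 2) (by omega : 2 * m ≠ 0)).2 (by omega)
      have h2 : 2 ^ e ∣ m := by
        rw [pow_succ, mul_comm] at h1
        exact Nat.dvd_of_mul_dvd_mul_left (by norm_num) h1
      obtain ⟨k, rfl⟩ := h2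
      have h3 : (-μ) ^ (2 ^ e) = 1 := by
        rw [neg_pow, (Nat.even_pow.2 ⟨even_two, by omega⟩ : Even (2 ^ e)).neg_one_pow, one_mul, ← hμ]
        exact pow_orderOf_eq_one μ
      rw [pow_mul, h3, one_pow]

end Cfsg.Agent.S2576
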