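import Cfsg.Statements.S2578
import Cfsg.Agent.Lib.RegUnip
import Cfsg.Agent.Lib.Unip

set_option autoImplicit false
open Cfsg

namespace Cfsg.Agent.S2578

open Matrix in
theorem shift_rank (k : ℕ) (F : Type*) [Field F] : (CfsgLib.Unip.shift (k + 1) F).rank = k := by
  apply le_antisymm
  · have h1 := CfsgLib.Unip.shift_pow_self (k + 1) F
    by_contra hcon
    push Not at hcon
    have h2 : (CfsgLib.Unip.shift (k + 1) F).rank = k + 1 := by
      have := Matrix.rank_le_card_width (CfsgLib.Unip.shift (k + 1) F)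
      simp at this
      omega
    have h3 : LinearMap.range (CfsgLib.Unip.shift (k + 1) F).mulVecLin = ⊤ := by
      apply Submodule.eq_top_of_finrank_eq
      rw [Module.finrank_fintype_fun_eq_card, Fintype.card_fin]
      exact h2
    have h4 : Function.Injective (CfsgLib.Unip.shift (k + 1) F).mulVecLin :=
      LinearMap.injective_iff_surjective.2 (LinearMap.range_eq_top.1 h3)
    have h5 : (CfsgLib.Unip.shift (k + 1) F).mulVec (Pi.single 0 1) = 0 := by
      ext i
      rw [Matrix.mulVec_single]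
      simp [CfsgLib.Unip.shift]
    have h6 : (Pi.single 0 1 : Fin (k + 1) → F) = 0 := h4 (by simpa using h5)
    have := congrFun h6 0
    simp at this
  · let B : Matrix (Fin k) (Fin (k + 1)) F := Matrix.of fun i j => if i.val = j.val then 1 else 0
    let C : Matrix (Fin (k + 1)) (Fin k) F := Matrix.of fun i j => if i.val = j.val + 1 then 1 else 0
    have h1 : (1 : Matrix (Fin k) (Fin k) F) = B * CfsgLib.Unip.shift (k + 1) F * C := by
      ext i j
      rw [Matrix.mul_apply, Finset.sum_eq_single j.succ]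
      · rw [Matrix.mul_apply, Finset.sum_eq_single i.castSucc]
        · simp [B, C, CfsgLib.Unip.shift, Matrix.one_apply, Fin.ext_iff]
        · intro b _ hb
          have : (i : ℕ) ≠ b := fun h => hb (Fin.ext h.symm)
          simp [B, this]
        · simp
      · intro b _ hb
        have : (b : ℕ) ≠ j + 1 := fun h => hb (Fin.ext h)
        simp [C, this]
      · simp
    have h2 : (1 : Matrix (Fin k) (Fin k) F).rank ≤ (CfsgLib.Unip.shift (k + 1) F).rank := by
      rw [h1]
      exact (Matrix.rank_mul_le_left _ _).trans (Matrix.rank_mul_le_right _ _)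
    simpa using h2

/-- the class of `D u D⁻¹` -/
def conjGL {n : ℕ} {F : Type*} [Field F] (P : GL (Fin n) F) (u : Matrix.SpecialLinearGroup (Fin n) F) :
    Matrix.SpecialLinearGroup (Fin n) F :=
  ⟨(P : Matrix (Fin n) (Fin n) F) * (u : Matrix (Fin n) (Fin n) F) * ((P⁻¹ : GL (Fin n) F) : Matrix (Fin n) (Fin n) F), by
    rw [Matrix.det_mul, Matrix.det_mul, u.det_coe, mul_one, ← Matrix.det_mul, Units.mul_inv, Matrix.det_one]⟩

theorem conjGL_coe {n : ℕ} {F : Type*} [Field F] (P : GL (Fin n) F) (u : Matrix.SpecialLinearGroup (Fin n) F) :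
    Matrix.SpecialLinearGroup.toGL (conjGL P u) = P * Matrix.SpecialLinearGroup.toGL u * P⁻¹ := by
  apply Units.ext
  rfl

theorem toGL_inj {n : ℕ} {F : Type*} [Field F] : Function.Injective (Matrix.SpecialLinearGroup.toGL : Matrix.SpecialLinearGroup (Fin n) F → GL (Fin n) F) := by
  intro a b h
  apply Subtype.ext
  exact congrArg Units.val h


/-- Regular unipotent classes of SL_n(q): for n ≥ 2 over the field with q elements, the matrices u of determinant one with (u − 1)^n = 0 and rank(u − 1) = n − 1 form a single GL_n(q)-class which splits into exactly gcd(n, q − 1) conjugacy classes of SL_n(q). -/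
theorem result {F : Type*} [Field F] [Fintype F] {q : ℕ} (hF : Fintype.card F = q) {n : ℕ} (hn : 2 ≤ n) : Nat.card {C : ConjClasses (Matrix.SpecialLinearGroup (Fin n) F) // ∃ u : Matrix.SpecialLinearGroup (Fin n) F, ConjClasses.mk u = C ∧ ((u : Matrix (Fin n) (Fin n) F) - 1) ^ n = 0 ∧ ((u : Matrix (Fin n) (Fin n) F) - 1).rank = n - 1} = Nat.gcd n (q - 1) := by
  classical
  obtain ⟨k, rfl⟩ : ∃ k, n = k + 1 := ⟨n - 1, by omega⟩
  have hcardk : Fintype.card (Fin (k + 1)) = k + 1 := by simp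
  -- base point
  let N0 := CfsgLib.Unip.shift (k + 1) F
  have hN0nil : N0 ^ (k + 1) = 0 := CfsgLib.Unip.shift_pow_self (k + 1) F
  have hN0rank : N0.rank = k := shift_rank k F
  have hdet0 : (1 + N0).det = 1 := by
    rw [Matrix.det_of_isUpperTriangular]
    · apply Finset.prod_eq_one
      intro i _
      simp [N0, CfsgLib.Unip.shift]
    · intro i j hij
      have hij' : j < i := hij
      have : (j : ℕ) < i := hij'
      simp only [N0, CfsgLib.Unip.shift, Matrix.add_apply, Matrix.of_apply]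
      rw [if_neg (by omega), Matrix.one_apply_ne (by omega), add_zero]
  let u0 : Matrix.SpecialLinearGroup (Fin (k + 1)) F := ⟨1 + N0, hdet0⟩
  have hu0 : (u0 : Matrix (Fin (k + 1)) (Fin (k + 1)) F) - 1 = N0 := by
    show (1 + N0) - 1 = N0
    simp
  let U0 : GL (Fin (k + 1)) F := Matrix.SpecialLinearGroup.toGL u0
  have hU0 : (U0 : Matrix (Fin (k + 1)) (Fin (k + 1)) F) - 1 = N0 := hu0
  let Dm : Fˣ → GL (Fin (k + 1)) F := fun d => 
    ⟨Matrix.diagonal (Function.update (fun _ => (1 : F)) 0 (d : F)), Matrix.diagonal (Function.update (fun _ => (1 : F)) 0 ((d⁻¹ : Fˣ) : F)), by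
      rw [Matrix.diagonal_mul_diagonal, ← Matrix.diagonal_one]
      congr 1
      ext i
      by_cases hi : i = 0
      · subst hi; simp
      · simp [Function.update_of_ne hi], by
      rw [Matrix.diagonal_mul_diagonal, ← Matrix.diagonal_one]
      congr 1
      ext i
      by_cases hi : i = 0
      · subst hi; simp
      · simp [Function.update_of_ne hi]⟩
  have hDdet : ∀ d, Matrix.GeneralLinearGroup.det (Dm d) = d := by
    intro d
    apply Units.ext
    show (Matrix.diagonal (Function.update (fun _ : Fin (k + 1) => (1 : F)) 0 (d : F))).det = d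
    rw [Matrix.det_diagonal, Finset.prod_update_of_mem (Finset.mem_univ _)]
    simp
  -- the centralizer
  have hcent : ∀ g : GL (Fin (k + 1)) F, g * U0 = U0 * g → ∃ a : Fˣ, Matrix.GeneralLinearGroup.det g = a ^ (k + 1) := by
    intro g hg
    have h1 : (g : Matrix (Fin (k + 1)) (Fin (k + 1)) F) * N0 = N0 * g := by
      rw [← hU0, mul_sub, sub_mul, mul_one, one_mul, ← Units.val_mul, hg, Units.val_mul]
    obtain ⟨a, ha, _⟩ := CfsgLib.RegUnip.exists_poly hcardk hN0nil (by rw [hN0rank]) _ h1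
    have h2 : (g : Matrix (Fin (k + 1)) (Fin (k + 1)) F).det = a 0 ^ (k + 1) := by
      rw [← ha, CfsgLib.RegUnip.det_poly hN0nil, hcardk]
    have h3 : a 0 ≠ 0 := by
      intro h0
      rw [h0, zero_pow (by omega)] at h2
      exact ((Matrix.isUnit_iff_isUnit_det _).1 g.isUnit).ne_zero h2
    refine ⟨Units.mk0 (a 0) h3, ?_⟩
    apply Units.ext
    rw [Units.val_pow_eq_pow_val]
    exact h2
  have hscal : ∀ a : Fˣ, ∃ g : GL (Fin (k + 1)) F, g * U0 = U0 * g ∧ Matrix.GeneralLinearGroup.det g = a ^ (k + 1) := by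
    intro a
    refine ⟨Units.map (algebraMap F (Matrix (Fin (k + 1)) (Fin (k + 1)) F)).toMonoidHom a, ?_, ?_⟩
    · apply Units.ext
      exact Algebra.commutes (a : F) (U0 : Matrix (Fin (k + 1)) (Fin (k + 1)) F)
    · apply Units.ext
      show (algebraMap F (Matrix (Fin (k + 1)) (Fin (k + 1)) F) a).det = _
      rw [Matrix.algebraMap_eq_diagonal, Matrix.det_diagonal]
      simp
  let f : Fˣ → ConjClasses (Matrix.SpecialLinearGroup (Fin (k + 1)) F) := fun d => ConjClasses.mk (conjGL (Dm d) u0)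
  have hf : ∀ d d', f d = f d' ↔ d⁻¹ * d' ∈ (powMonoidHom (k + 1) : Fˣ →* Fˣ).range := by
    intro d d'
    show ConjClasses.mk _ = ConjClasses.mk _ ↔ _
    rw [ConjClasses.mk_eq_mk_iff_isConj, isConj_iff]
    constructor
    · rintro ⟨s, hs⟩
      have h1 := congrArg Matrix.SpecialLinearGroup.toGL hs
      rw [map_mul, map_mul, map_inv, conjGL_coe, conjGL_coe] at h1
      set S := Matrix.SpecialLinearGroup.toGL s
      have h2 : ((Dm d')⁻¹ * S * Dm d) * U0 = U0 * ((Dm d')⁻¹ * S * Dm d) := by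
        have h3 : S * (Dm d * U0 * (Dm d)⁻¹) * S⁻¹ = Dm d' * U0 * (Dm d')⁻¹ := h1
        calc ((Dm d')⁻¹ * S * Dm d) * U0 = (Dm d')⁻¹ * (S * (Dm d * U0 * (Dm d)⁻¹) * S⁻¹) * S * Dm d := by group
          _ = (Dm d')⁻¹ * (Dm d' * U0 * (Dm d')⁻¹) * S * Dm d := by rw [h3]
          _ = U0 * ((Dm d')⁻¹ * S * Dm d) := by group
      obtain ⟨a, ha⟩ := hcent _ h2
      rw [map_mul, map_mul, map_inv, hDdet, hDdet] at ha
      have hS : Matrix.GeneralLinearGroup.det S = 1 := by
        apply Units.ext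
        exact s.det_coe
      rw [hS, mul_one] at ha
      refine ⟨a⁻¹, ?_⟩
      rw [powMonoidHom_apply, inv_pow, ← ha, mul_inv_rev, inv_inv]
    · rintro ⟨a, ha⟩
      rw [powMonoidHom_apply] at ha
      obtain ⟨g, hg1, hg2⟩ := hscal a
      -- s = D' g⁻¹... 
      have hdet : Matrix.GeneralLinearGroup.det (Dm d' * g⁻¹ * (Dm d)⁻¹) = 1 := by
        rw [map_mul, map_mul, map_inv, map_inv, hDdet, hDdet, hg2, ha]
        group
      let s : Matrix.SpecialLinearGroup (Fin (k + 1)) F := ⟨((Dm d' * g⁻¹ * (Dm d)⁻¹ : GL (Fin (k + 1)) F) : Matrix (Fin (k + 1)) (Fin (k + 1)) F), congrArg Units.val hdet⟩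
      have hsS : Matrix.SpecialLinearGroup.toGL s = Dm d' * g⁻¹ * (Dm d)⁻¹ := Units.ext rfl
      refine ⟨s, ?_⟩
      apply toGL_inj
      rw [map_mul, map_mul, map_inv, conjGL_coe, conjGL_coe, hsS]
      have hg' : g⁻¹ * U0 * g = U0 := by rw [mul_assoc, ← hg1]; group
      calc Dm d' * g⁻¹ * (Dm d)⁻¹ * (Dm d * U0 * (Dm d)⁻¹) * (Dm d' * g⁻¹ * (Dm d)⁻¹)⁻¹
          = Dm d' * (g⁻¹ * U0 * g) * (Dm d')⁻¹ := by group
        _ = Dm d' * U0 * (Dm d')⁻¹ := by rw [hg']
  have hconjsub : ∀ (P : GL (Fin (k + 1)) F) (u : Matrix.SpecialLinearGroup (Fin (k + 1)) F), ((conjGL P u : Matrix.SpecialLinearGroup (Fin (k + 1)) F) : Matrix (Fin (k + 1)) (Fin (k + 1)) F) - 1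
      = (P : Matrix (Fin (k + 1)) (Fin (k + 1)) F) * ((u : Matrix (Fin (k + 1)) (Fin (k + 1)) F) - 1) * ((P⁻¹ : GL (Fin (k + 1)) F) : Matrix (Fin (k + 1)) (Fin (k + 1)) F) := by
    intro P u
    rw [mul_sub, sub_mul, mul_one, Units.mul_inv]
    rfl
  have hregconj : ∀ (P : GL (Fin (k + 1)) F), (((conjGL P u0 : Matrix.SpecialLinearGroup (Fin (k + 1)) F) : Matrix (Fin (k + 1)) (Fin (k + 1)) F) - 1) ^ (k + 1) = 0 ∧
      (((conjGL P u0 : Matrix.SpecialLinearGroup (Fin (k + 1)) F) : Matrix (Fin (k + 1)) (Fin (k + 1)) F) - 1).rank = (k + 1) - 1 := by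
    intro P
    rw [hconjsub, hu0]
    constructor
    · have := Units.conj_pow P N0 (k + 1)
      rw [this, hN0nil]; simp
    · rw [Matrix.rank_mul_eq_left_of_isUnit_det, Matrix.rank_mul_eq_right_of_isUnit_det, hN0rank]
      · simp
      · exact (Matrix.isUnit_iff_isUnit_det _).1 P.isUnit
      · exact (Matrix.isUnit_iff_isUnit_det _).1 (P⁻¹).isUnit
  let f' : Fˣ ⧸ (powMonoidHom (k + 1) : Fˣ →* Fˣ).range → {C : ConjClasses (Matrix.SpecialLinearGroup (Fin (k + 1)) F) // ∃ u : Matrix.SpecialLinearGroup (Fin (k + 1)) F, ConjClasses.mk u = C ∧ ((u : Matrix (Fin (k + 1)) (Fin (k + 1)) F) - 1) ^ (k + 1) = 0 ∧ ((u : Matrix (Fin (k + 1)) (Fin (k + 1)) F) - 1).rank = (k + 1) - 1} :=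
    Quotient.lift (fun d => ⟨f d, conjGL (Dm d) u0, rfl, hregconj _⟩) (by
      intro a b hab
      apply Subtype.ext
      exact (hf a b).2 (QuotientGroup.leftRel_apply.1 hab))
  have hf'bij : Function.Bijective f' := by
    constructor
    · intro x y hxy
      induction x using QuotientGroup.induction_on with
      | H a =>
        induction y using QuotientGroup.induction_on with
        | H b =>
          apply QuotientGroup.eq.2
          rw [← hf]
          exact congrArg Subtype.val hxy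
    · rintro ⟨C, u, hu, hnil, hrank⟩
      obtain ⟨P, hP⟩ := CfsgLib.RegUnip.exists_conj hcardk hN0nil (by rw [hN0rank]) hnil (by rw [hrank]; simp)
      refine ⟨QuotientGroup.mk (Matrix.GeneralLinearGroup.det P), ?_⟩
      apply Subtype.ext
      show f (Matrix.GeneralLinearGroup.det P) = C
      rw [← hu]
      show ConjClasses.mk _ = ConjClasses.mk _
      rw [ConjClasses.mk_eq_mk_iff_isConj, isConj_iff]
      set d := Matrix.GeneralLinearGroup.det P with hd
      have hdet : Matrix.GeneralLinearGroup.det (P * (Dm d)⁻¹) = 1 := by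
        rw [map_mul, map_inv, hDdet, ← hd, mul_inv_cancel]
      let s : Matrix.SpecialLinearGroup (Fin (k + 1)) F := ⟨((P * (Dm d)⁻¹ : GL (Fin (k + 1)) F) : Matrix (Fin (k + 1)) (Fin (k + 1)) F), congrArg Units.val hdet⟩
      have hsS : Matrix.SpecialLinearGroup.toGL s = P * (Dm d)⁻¹ := Units.ext rfl
      have hPu : P * U0 = Matrix.SpecialLinearGroup.toGL u * P := by
        apply Units.ext
        have h1 : (P : Matrix (Fin (k + 1)) (Fin (k + 1)) F) * ((U0 : Matrix (Fin (k + 1)) (Fin (k + 1)) F) - 1) = ((u : Matrix (Fin (k + 1)) (Fin (k + 1)) F) - 1) * P := by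
          rw [hU0]; exact hP
        rw [mul_sub, sub_mul, mul_one, one_mul, sub_left_inj] at h1
        exact h1
      refine ⟨s, ?_⟩
      apply toGL_inj
      rw [map_mul, map_mul, map_inv, conjGL_coe, hsS]
      calc P * (Dm d)⁻¹ * (Dm d * U0 * (Dm d)⁻¹) * (P * (Dm d)⁻¹)⁻¹ = (P * U0) * P⁻¹ := by group
        _ = Matrix.SpecialLinearGroup.toGL u := by rw [hPu]; group
  rw [← Nat.card_congr (Equiv.ofBijective f' hf'bij)]
  have hidx := IsCyclic.index_powMonoidHom_range (G := Fˣ) (k + 1)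
  rw [Subgroup.index_eq_card] at hidx
  rw [hidx, Nat.card_units, Nat.card_eq_fintype_card, hF, Nat.gcd_comm]

end Cfsg.Agent.S2578
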