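import Cfsg.Statements.S2580

set_option autoImplicit false
open Cfsg

namespace Cfsg.Agent.S2580

open Polynomial DirectSum

/-- `F[X]/(p^e)` is a Frobenius algebra: a functional whose kernel contains no nonzero ideal. -/
theorem frob {F : Type*} [Field F] (p : F[X]) (hp : Irreducible p) (e : ℕ) :
    ∃ l : (F[X] ⧸ Ideal.span {p ^ e}) →ₗ[F] F,
      ∀ x : (F[X] ⧸ Ideal.span {p ^ e}), (∀ y : (F[X] ⧸ Ideal.span {p ^ e}), l (x * y) = 0) → x = 0 := by
  classical
  rcases Nat.eq_zero_or_pos e with rfl | he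
  · refine ⟨0, fun x _ => ?_⟩
    obtain ⟨g, rfl⟩ := Ideal.Quotient.mk_surjective x
    rw [Ideal.Quotient.eq_zero_iff_mem]
    simp [Ideal.mem_span_singleton]
  · have hne : Ideal.Quotient.mk (Ideal.span {p ^ e}) (p ^ (e - 1)) ≠ 0 := by
      rw [Ne, Ideal.Quotient.eq_zero_iff_mem, Ideal.mem_span_singleton]
      intro h
      have := (pow_dvd_pow_iff hp.ne_zero hp.not_isUnit).1 h
      omega
    obtain ⟨l, hl⟩ : ∃ l : (F[X] ⧸ Ideal.span {p ^ e}) →ₗ[F] F,
        l (Ideal.Quotient.mk (Ideal.span {p ^ e}) (p ^ (e - 1))) ≠ 0 := by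
      by_contra hcon
      push Not at hcon
      exact hne ((Module.forall_dual_apply_eq_zero_iff F _).1 hcon)
    refine ⟨l, fun x hx => ?_⟩
    by_contra hx0
    obtain ⟨g, rfl⟩ := Ideal.Quotient.mk_surjective x
    rw [Ideal.Quotient.eq_zero_iff_mem, Ideal.mem_span_singleton] at hx0
    -- gcd (g, p^e) = p^k with k < e, up to unit
    have h1 : EuclideanDomain.gcd g (p ^ e) ∣ p ^ e := EuclideanDomain.gcd_dvd_right _ _
    obtain ⟨k, hk, hk'⟩ := (dvd_prime_pow hp.prime e).1 h1
    have hke : k ≠ e := by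
      rintro rfl
      exact hx0 (hk'.symm.dvd.trans (EuclideanDomain.gcd_dvd_left _ _))
    have h2 : EuclideanDomain.gcd g (p ^ e) ∣ p ^ (e - 1) := hk'.dvd.trans (pow_dvd_pow p (by omega))
    obtain ⟨w, hw⟩ := h2
    rw [EuclideanDomain.gcd_eq_gcd_ab] at hw
    apply hl
    rw [hw]
    have : Ideal.Quotient.mk (Ideal.span {p ^ e}) ((g * EuclideanDomain.gcdA g (p ^ e) + p ^ e * EuclideanDomain.gcdB g (p ^ e)) * w)
        = Ideal.Quotient.mk (Ideal.span {p ^ e}) g * Ideal.Quotient.mk (Ideal.span {p ^ e}) (EuclideanDomain.gcdA g (p ^ e) * w) := by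
      rw [← map_mul, Ideal.Quotient.eq, Ideal.mem_span_singleton]
      exact ⟨EuclideanDomain.gcdB g (p ^ e) * w, by ring⟩
    rw [this, hx]

theorem exists_form {F : Type*} [Field F] {n : ℕ} (A : Matrix (Fin n) (Fin n) F) :
    ∃ B : (Fin n → F) →ₗ[F] (Fin n → F) →ₗ[F] F,
      (∀ v w, B (A.mulVec v) w = B v (A.mulVec w)) ∧ (∀ v w, B v w = B w v) ∧ ∀ v, (∀ w, B v w = 0) → v = 0 := by
  classical
  let φ : (Fin n → F) →ₗ[F] (Fin n → F) := A.mulVecLin
  have htor : Module.IsTorsion F[X] (Module.AEval' φ) := Module.AEval.isTorsion_of_finiteDimensional F (Fin n → F) φ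
  obtain ⟨ι, hι, p, hp, e, ⟨E⟩⟩ := Module.equiv_directSum_of_isTorsion htor
  choose l hl using fun i => frob (p i) (hp i) (e i)
  let π : ∀ i, (Fin n → F) → (F[X] ⧸ Ideal.span {p i ^ e i}) := fun i v => E (Module.AEval'.of φ v) i
  have hπadd : ∀ i v w, π i (v + w) = π i v + π i w := by
    intro i v w; simp only [π, map_add, DirectSum.add_apply]
  have hπsmul : ∀ i (c : F) v, π i (c • v) = c • π i v := by
    intro i c v
    have : (Module.AEval'.of φ (c • v)) = (C c : F[X]) • (Module.AEval'.of φ v) := by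
      rw [map_smul, Module.AEval.C_smul]
    simp only [π, this, map_smul]
    rw [DirectSum.smul_apply, Polynomial.C_eq_algebraMap, algebraMap_smul]
  have hπA : ∀ i v, π i (A.mulVec v) = (Ideal.Quotient.mk _ X) * π i v := by
    intro i v
    have : (Module.AEval'.of φ (A.mulVec v)) = (X : F[X]) • (Module.AEval'.of φ v) := by
      rw [Module.AEval'.X_smul_of]; rfl
    simp only [π, this, map_smul]
    rw [DirectSum.smul_apply]
    rfl
  let B : (Fin n → F) →ₗ[F] (Fin n → F) →ₗ[F] F := LinearMap.mk₂ F (fun v w => ∑ i, l i (π i v * π i w))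
    (by intro v v' w; simp only [hπadd, add_mul, map_add, Finset.sum_add_distrib])
    (by intro c v w; simp only [hπsmul, smul_mul_assoc, map_smul, Finset.smul_sum])
    (by intro v w w'; simp only [hπadd, mul_add, map_add, Finset.sum_add_distrib])
    (by intro c v w; simp only [hπsmul, mul_smul_comm, map_smul, Finset.smul_sum])
  have hB : ∀ v w, B v w = ∑ i, l i (π i v * π i w) := fun v w => rfl
  refine ⟨B, ?_, ?_, ?_⟩
  · intro v w
    rw [hB, hB]
    apply Finset.sum_congr rfl
    intro i _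
    rw [hπA, hπA]
    congr 1
    ring
  · intro v w
    rw [hB, hB]
    apply Finset.sum_congr rfl
    intro i _
    rw [mul_comm]
  · intro v hv
    have h0 : ∀ i, π i v = 0 := by
      intro i
      apply hl i
      intro y
      have := hv ((Module.AEval'.of φ).symm (E.symm (DirectSum.of _ i y)))
      rw [hB, Finset.sum_eq_single i] at this
      · simpa [π] using this
      · intro j _ hj
        have : π j ((Module.AEval'.of φ).symm (E.symm (DirectSum.of _ i y))) = 0 := by
          simp only [π, LinearEquiv.apply_symm_apply]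
          exact DirectSum.of_eq_of_ne _ _ _ hj
        rw [this, mul_zero, map_zero]
      · simp
    have h1 : E (Module.AEval'.of φ v) = 0 := by
      ext i
      exact h0 i
    rw [map_eq_zero_iff _ E.injective] at h1
    rwa [map_eq_zero_iff _ (Module.AEval'.of φ).injective] at h1

theorem exists_conj {F : Type*} [Field F] {n : ℕ} (A : Matrix (Fin n) (Fin n) F) :
    ∃ P : (Matrix (Fin n) (Fin n) F)ˣ, (P : Matrix (Fin n) (Fin n) F) * A = A.transpose * P := by
  classical
  obtain ⟨B, h1, h2, h3⟩ := exists_form A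
  let M := LinearMap.toMatrix₂' F B
  have hM : ∀ v w, B v w = v ⬝ᵥ (M.mulVec w) := by
    intro v w
    have : B = Matrix.toLinearMap₂' F M := by simp [M]
    conv_lhs => rw [this]
    rw [Matrix.toLinearMap₂'_apply']
  have hdet : M.det ≠ 0 := by
    rw [Ne, ← Matrix.exists_mulVec_eq_zero_iff]
    rintro ⟨v, hv, hv'⟩
    apply hv
    apply h3
    intro w
    rw [h2, hM, hv', dotProduct_zero]
  have hu : IsUnit M := (Matrix.isUnit_iff_isUnit_det M).2 (isUnit_iff_ne_zero.2 hdet)
  refine ⟨hu.unit, ?_⟩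
  have hu' : ((hu.unit : (Matrix (Fin n) (Fin n) F)ˣ) : Matrix (Fin n) (Fin n) F) = M := rfl
  rw [hu']
  apply Matrix.ext_of_mulVec_single
  intro j
  apply dotProduct_eq
  intro u
  rw [dotProduct_comm, dotProduct_comm _ u, ← Matrix.mulVec_mulVec, ← hM, ← h1, hM, ← Matrix.mulVec_mulVec,
    Matrix.dotProduct_mulVec u, Matrix.vecMul_transpose]


/-- Over a finite field, a square matrix is similar to its transpose: for every n × n matrix A there is an invertible matrix P with P A P⁻¹ = Aᵀ (stated as conjugacy in the monoid of matrices, whose units are the invertible matrices). -/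
theorem result {F : Type*} [Field F] [Finite F] {n : ℕ} (A : Matrix (Fin n) (Fin n) F) : IsConj A A.transpose := by
  obtain ⟨P, hP⟩ := exists_conj A
  exact ⟨P, hP⟩

end Cfsg.Agent.S2580
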