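import Cfsg.Statements.S2585
import Cfsg.Agent.Lib.OMG12

set_option autoImplicit false
open Cfsg

namespace Cfsg.Agent.S2585

open CfsgLib.Quad CfsgLib.Omg


/-- Over a finite field of characteristic two every element of the symplectic group is orthogonal for a suitable quadratic form: for each A in Sp_2m(F) there is a quadratic form Q on F^(2m) whose polar form is the alternating form defining Sp_2m(F) (so Q is non-degenerate) and which A preserves. Equivalently, for m ≥ 1, Sp_2m(F) is the union of the conjugates of its two orthogonal subgroups O⁺_2m(F) and O⁻_2m(F). -/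
theorem result {F : Type*} [Field F] [Fintype F] [CharP F 2] {m : ℕ} (A : Matrix.symplecticGroup (Fin m) F) : ∃ Q : QuadraticForm F (Fin m ⊕ Fin m → F), (∀ u v : Fin m ⊕ Fin m → F, QuadraticMap.polar ⇑Q u v = Cfsg.sympForm m F u v) ∧ ∀ v : Fin m ⊕ Fin m → F, Q ((A : Matrix (Fin m ⊕ Fin m) (Fin m ⊕ Fin m) F).mulVec v) = Q v := by
  have h2 : (2 : F) = 0 := CharTwo.two_eq_zero
  have hpol : ∀ u v : Fin m ⊕ Fin m → F, QuadraticMap.polarBilin (QP m F) u v = Cfsg.sympForm m F u v := by
    intro u v
    rw [polarP]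
    simp only [Cfsg.sympForm, Matrix.J, Matrix.fromBlocks_mulVec, dotProduct, Fintype.sum_sum_type, Sum.elim_inl,
      Sum.elim_inr, Matrix.zero_mulVec, Matrix.one_mulVec, Matrix.neg_mulVec, zero_add, add_zero, Pi.neg_apply,
      Function.comp_apply, mul_neg, Finset.sum_neg_distrib]
    rw [Finset.sum_add_distrib]
    have h5 : (2 : F) * ∑ i, u (Sum.inl i) * v (Sum.inr i) = 0 := by rw [h2, zero_mul]
    linear_combination h5
  have hA : ∀ u v : Fin m ⊕ Fin m → F, Cfsg.sympForm m F ((A : Matrix (Fin m ⊕ Fin m) (Fin m ⊕ Fin m) F).mulVec u)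
      ((A : Matrix (Fin m ⊕ Fin m) (Fin m ⊕ Fin m) F).mulVec v) = Cfsg.sympForm m F u v := by
    intro u v
    have h5 := (SymplecticGroup.mem_iff').1 A.2
    simp only [Cfsg.sympForm]
    rw [Matrix.mulVec_mulVec, Matrix.dotProduct_mulVec, Matrix.vecMul_mulVec, ← Matrix.dotProduct_mulVec,
      ← Matrix.mul_assoc, h5]
  -- the additive function
  let T := Matrix.mulVecLin (A : Matrix (Fin m ⊕ Fin m) (Fin m ⊕ Fin m) F)
  have hD : ∀ x : F, ∃ s, s * s = x := by
    intro x
    obtain ⟨s, hs⟩ := isSquare_of_two_eq_zero h2 x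
    exact ⟨s, hs.symm⟩
  choose sq hsq using hD
  have hinj : ∀ a b : F, a * a = b * b → a = b := by
    intro a b h
    have h5 : (a - b) * (a - b) = 0 := by linear_combination h + (- (a * b) + b * b) * h2
    have h6 := mul_self_eq_zero.1 h5
    exact sub_eq_zero.1 h6
  let D : (Fin m ⊕ Fin m → F) → F := fun v => QP m F (T v) - QP m F v
  have hadd : ∀ u v, D (u + v) = D u + D v := by
    intro u v
    change QP m F (T (u + v)) - QP m F (u + v) = (QP m F (T u) - QP m F u) + (QP m F (T v) - QP m F v)
    rw [_root_.map_add, CfsgLib.Quad.map_add, CfsgLib.Quad.map_add, hpol, hpol, show Cfsg.sympForm m F (T u) (T v) = Cfsg.sympForm m F u v from hA u v]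
    ring
  have hsmul : ∀ (c : F) v, D (c • v) = c ^ 2 * D v := by
    intro c v
    change QP m F (T (c • v)) - QP m F (c • v) = c ^ 2 * (QP m F (T v) - QP m F v)
    rw [_root_.map_smul, CfsgLib.Quad.map_smul, CfsgLib.Quad.map_smul]
    ring
  let lam : (Fin m ⊕ Fin m → F) →ₗ[F] F :=
    { toFun := fun v => sq (D v)
      map_add' := fun u v => by
        apply hinj
        rw [hsq, hadd]
        linear_combination - hsq (D u) - hsq (D v) - sq (D u) * sq (D v) * h2
      map_smul' := fun c v => by
        apply hinj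
        rw [hsq, hsmul, RingHom.id_apply, smul_eq_mul]
        linear_combination - c ^ 2 * hsq (D v) }
  have hlam : ∀ v, lam v * lam v = D v := fun v => hsq (D v)
  have hker : lam ∈ (LinearMap.ker (T - LinearMap.id)).dualAnnihilator := by
    rw [Submodule.mem_dualAnnihilator]
    intro v hv
    rw [LinearMap.mem_ker, LinearMap.sub_apply, LinearMap.id_apply, sub_eq_zero] at hv
    have h5 : D v = 0 := by
      change QP m F (T v) - QP m F v = 0
      rw [hv, sub_self]
    have h6 := hlam v
    rw [h5] at h6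
    exact mul_self_eq_zero.1 h6
  rw [← LinearMap.range_dualMap_eq_dualAnnihilator_ker] at hker
  obtain ⟨mu, hmu⟩ := hker
  have hmu' : ∀ v, lam v = mu (T v) - mu v := by
    intro v
    rw [← hmu]
    simp [LinearMap.dualMap_apply]
  refine ⟨QP m F + (QuadraticMap.sq (R := F)).comp mu, ?_, ?_⟩
  · intro u v
    rw [← hpol, QuadraticMap.polarBilin_apply_apply, QuadraticMap.polar, QuadraticMap.polar]
    simp only [QuadraticMap.add_apply, QuadraticMap.comp_apply, QuadraticMap.sq_apply, _root_.map_add]
    linear_combination (mu u * mu v) * h2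
  · intro v
    simp only [QuadraticMap.add_apply, QuadraticMap.comp_apply, QuadraticMap.sq_apply]
    have h5 := hlam v
    rw [hmu'] at h5
    change (mu (T v) - mu v) * (mu (T v) - mu v) = QP m F (T v) - QP m F v at h5
    change QP m F (T v) + mu (T v) * mu (T v) = QP m F v + mu v * mu v
    linear_combination - h5 + (mu (T v) * mu (T v) - mu (T v) * mu v) * h2

end Cfsg.Agent.S2585
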