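import Cfsg.Statements.S2586
import Cfsg.Agent.S2580

set_option autoImplicit false
open Cfsg

namespace Cfsg.Agent.S2586


/-- Over a finite field, every element of the symplectic group Sp_2m(F) is conjugate by an invertible matrix to its inverse. -/
theorem result {F : Type*} [Field F] [Finite F] {m : ℕ} (A : Matrix.symplecticGroup (Fin m) F) : IsConj (A : Matrix (Fin m ⊕ Fin m) (Fin m ⊕ Fin m) F) ((A⁻¹ : Matrix.symplecticGroup (Fin m) F) : Matrix (Fin m ⊕ Fin m) (Fin m ⊕ Fin m) F) := by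
  classical
  let e : (Fin m ⊕ Fin m) ≃ Fin (m + m) := finSumFinEquiv
  let f : Matrix (Fin m ⊕ Fin m) (Fin m ⊕ Fin m) F ≃ₐ[F] Matrix (Fin (m + m)) (Fin (m + m)) F := Matrix.reindexAlgEquiv F F e
  have h1 : IsConj (f A) (f A).transpose := Cfsg.Agent.S2580.result (f A)
  have h2 : IsConj (A : Matrix (Fin m ⊕ Fin m) (Fin m ⊕ Fin m) F) (A : Matrix (Fin m ⊕ Fin m) (Fin m ⊕ Fin m) F).transpose := by
    have h3 := MonoidHom.map_isConj (f.symm : Matrix (Fin (m + m)) (Fin (m + m)) F →* Matrix (Fin m ⊕ Fin m) (Fin m ⊕ Fin m) F) h1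
    have h4 : (f A).transpose = f (A : Matrix (Fin m ⊕ Fin m) (Fin m ⊕ Fin m) F).transpose := by
      simp [f, Matrix.reindexAlgEquiv_apply]
    rw [h4] at h3
    simpa using h3
  refine h2.trans ?_
  have hJ : Matrix.J (Fin m) F * (-Matrix.J (Fin m) F) = 1 := by
    rw [Matrix.mul_neg, Matrix.J_squared, neg_neg]
  have hJ' : (-Matrix.J (Fin m) F) * (Matrix.J (Fin m) F) = 1 := by
    rw [Matrix.neg_mul, Matrix.J_squared, neg_neg]
  refine ⟨⟨-Matrix.J (Fin m) F, Matrix.J (Fin m) F, hJ', hJ⟩, ?_⟩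
  rw [SymplecticGroup.coe_inv]
  show (-Matrix.J (Fin m) F) * (A : Matrix (Fin m ⊕ Fin m) (Fin m ⊕ Fin m) F).transpose = (-Matrix.J (Fin m) F) * (A : Matrix (Fin m ⊕ Fin m) (Fin m ⊕ Fin m) F).transpose * Matrix.J (Fin m) F * (-Matrix.J (Fin m) F)
  rw [Matrix.mul_assoc _ (Matrix.J (Fin m) F), hJ, Matrix.mul_one]

end Cfsg.Agent.S2586
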