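import Cfsg.Statements.S2594
import Cfsg.Agent.Lib.Symp2

set_option autoImplicit false
open Cfsg

namespace Cfsg.Agent.S2594

open Matrix CfsgLib.Symp

variable {F : Type*} [Field F] {m : ℕ}

theorem form_eq {t : symplecticGroup (Fin m) F} (ht : ((t : Matrix (Fin m ⊕ Fin m) (Fin m ⊕ Fin m) F) - 1).rank = 1) :
    ∃ (u : Fin m ⊕ Fin m → F) (a : F), a ≠ 0 ∧ u ≠ 0 ∧ ∀ x, (t : Matrix (Fin m ⊕ Fin m) (Fin m ⊕ Fin m) F) *ᵥ x = x + (a * sympB m F x u) • u := by
  have h1 : Module.finrank F (LinearMap.range ((t : Matrix (Fin m ⊕ Fin m) (Fin m ⊕ Fin m) F) - 1).mulVecLin) = 1 := ht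
  obtain ⟨⟨u, hu⟩, hu0, hspan⟩ := finrank_eq_one_iff'.1 h1
  have hu0' : u ≠ 0 := fun h => hu0 (Subtype.ext h)
  have h2 : ∀ x, ∃ c : F, (t : Matrix (Fin m ⊕ Fin m) (Fin m ⊕ Fin m) F) *ᵥ x = x + c • u := by
    intro x
    obtain ⟨c, hc⟩ := hspan ⟨((t : Matrix (Fin m ⊕ Fin m) (Fin m ⊕ Fin m) F) - 1) *ᵥ x, ⟨x, rfl⟩⟩
    refine ⟨c, ?_⟩
    have := congrArg Subtype.val hc
    change c • u = ((t : Matrix (Fin m ⊕ Fin m) (Fin m ⊕ Fin m) F) - 1) *ᵥ x at this
    rw [sub_mulVec, one_mulVec] at this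
    rw [this]; abel
  choose φ hφ using h2
  have hB : ∀ x y, sympB m F ((t : Matrix (Fin m ⊕ Fin m) (Fin m ⊕ Fin m) F) *ᵥ x) ((t : Matrix (Fin m ⊕ Fin m) (Fin m ⊕ Fin m) F) *ᵥ y) = sympB m F x y := by
    intro x y
    rw [sympB_apply, sympB_apply]
    exact (mem_symplecticGroup_iff _).1 t.2 x y
  have hneg : ∀ x y, sympB m F x y = - sympB m F y x := fun x y => by
    have h := (sympB_isAlt (m := m) (F := F)) (x + y)
    simp only [map_add, LinearMap.add_apply, (sympB_isAlt (m := m) (F := F)).self_eq_zero] at h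
    linear_combination h
  have h3 : ∀ x y, φ x * sympB m F u y = φ y * sympB m F u x := by
    intro x y
    have h4 := hB x y
    rw [hφ x, hφ y] at h4
    simp only [map_add, map_smul, LinearMap.add_apply, LinearMap.smul_apply, smul_eq_mul, (sympB_isAlt (m := m) (F := F)).self_eq_zero u, hneg x u] at h4
    linear_combination h4
  obtain ⟨y, hy⟩ : ∃ y, sympB m F u y ≠ 0 := by
    by_contra hcon
    push Not at hcon
    exact hu0' ((sympB_nondegenerate (m := m) (F := F)).1 u hcon)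
  have h5 : ∀ x, φ x = (-φ y / sympB m F u y) * sympB m F x u := by
    intro x
    rw [hneg x u, div_mul_eq_mul_div, eq_div_iff hy, h3 x y]; ring
  refine ⟨u, -φ y / sympB m F u y, ?_, hu0', fun x => by rw [hφ x, ← h5]⟩
  intro h0
  have h6 : (t : Matrix (Fin m ⊕ Fin m) (Fin m ⊕ Fin m) F) - 1 = 0 := by
    rw [sub_eq_zero]
    apply mulVec_injective_matrix
    intro x
    rw [hφ x, h5 x, h0, zero_mul, zero_smul, add_zero, one_mulVec]
  rw [h6, Matrix.rank_zero] at ht
  exact zero_ne_one ht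

theorem form_eq_one [Fintype F] [CharP F 2] {t : symplecticGroup (Fin m) F} (ht : ((t : Matrix (Fin m ⊕ Fin m) (Fin m ⊕ Fin m) F) - 1).rank = 1) :
    ∃ (v : Fin m ⊕ Fin m → F), v ≠ 0 ∧ ∀ x, (t : Matrix (Fin m ⊕ Fin m) (Fin m ⊕ Fin m) F) *ᵥ x = x + (sympB m F x v) • v := by
  obtain ⟨u, a, ha, hu, h⟩ := form_eq ht
  obtain ⟨b, hb⟩ := FiniteField.isSquare_of_char_two (F := F) (ringChar.eq F 2 ▸ rfl) a
  have hb0 : b ≠ 0 := by rintro rfl; exact ha (by rw [hb, mul_zero])
  refine ⟨b • u, smul_ne_zero hb0 hu, fun x => ?_⟩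
  rw [h x, map_smul, smul_smul, hb, smul_eq_mul]
  congr 2; ring

/-- the natural action. -/
@[implicit_reducible] def act (m : ℕ) (F : Type*) [Field F] : MulAction (symplecticGroup (Fin m) F) (Fin m ⊕ Fin m → F) where
  smul g v := (g : Matrix (Fin m ⊕ Fin m) (Fin m ⊕ Fin m) F) *ᵥ v
  one_smul v := one_mulVec v
  mul_smul g h v := (mulVec_mulVec v _ _).symm

/-- Over a finite field with q elements, q even, an element t of Sp_2m(F) with rank(t − 1) = 1 (a symplectic transvection) has centraliser in Sp_2m(F) of order q^(2m−1) · |Sp_(2m−2)(q)| = q^(2m−1) · q^((m−1)²) · Π_(i=1)^(m−1) (q^(2i) − 1). -/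
theorem result {F : Type*} [Field F] [Fintype F] [CharP F 2] {q : ℕ} (hF : Fintype.card F = q) {m : ℕ} (hm : 1 ≤ m) (t : Matrix.symplecticGroup (Fin m) F) (ht : ((t : Matrix (Fin m ⊕ Fin m) (Fin m ⊕ Fin m) F) - 1).rank = 1) : Nat.card ↥(Subgroup.centralizer ({t} : Set ↥(Matrix.symplecticGroup (Fin m) F))) = q ^ (2 * m - 1) * (q ^ ((m - 1) ^ 2) * ∏ i : Fin (m - 1), (q ^ (2 * ((i : ℕ) + 1)) - 1)) := by
  classical
  obtain ⟨v, hv, htv⟩ := form_eq_one ht
  letI := act m F
  have hB : ∀ (g : symplecticGroup (Fin m) F) (x y : Fin m ⊕ Fin m → F), sympB m F (g • x) (g • y) = sympB m F x y := by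
    intro g x y
    rw [sympB_apply, sympB_apply]
    exact (mem_symplecticGroup_iff _).1 g.2 x y
  have htv' : ∀ x, t • x = x + (sympB m F x v) • v := htv
  have hlin : ∀ (g : symplecticGroup (Fin m) F) (x y : Fin m ⊕ Fin m → F) (a : F), g • (x + a • y) = g • x + a • (g • y) := by
    intro g x y a
    exact (mulVec_add _ _ _).trans (congrArg _ (mulVec_smul _ _ _))
  have hext : ∀ g h : symplecticGroup (Fin m) F, (∀ x : Fin m ⊕ Fin m → F, g • x = h • x) → g = h := fun g h H => Subtype.ext (mulVec_injective_matrix H)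
  obtain ⟨y, hy⟩ : ∃ y, sympB m F y v ≠ 0 := by
    by_contra hcon
    push Not at hcon
    exact hv ((sympB_nondegenerate (m := m) (F := F)).2 v hcon)
  have hC : Subgroup.centralizer ({t} : Set ↥(Matrix.symplecticGroup (Fin m) F)) = MulAction.stabilizer (symplecticGroup (Fin m) F) v := by
    ext g
    rw [Subgroup.mem_centralizer_singleton_iff, MulAction.mem_stabilizer_iff]
    constructor
    · intro h
      have h1 : ∀ x, sympB m F x v • (g • v) = sympB m F (g • x) v • v := by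
        intro x
        have h2 : (t * g) • x = (g * t) • x := by rw [h]
        rw [mul_smul, mul_smul, htv', htv', hlin] at h2
        exact (add_left_cancel h2).symm
      obtain ⟨c, hc⟩ : ∃ c : F, g • v = c • v := by
        refine ⟨(sympB m F y v)⁻¹ * sympB m F (g • y) v, ?_⟩
        rw [mul_smul, ← h1 y, smul_smul, inv_mul_cancel₀ hy, one_smul]
      have h3 := h1 y
      rw [hc, smul_smul] at h3
      have h4 : sympB m F y v * c = sympB m F (g • y) v := smul_left_injective F hv h3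
      have h5 : sympB m F y v = c * sympB m F (g • y) v := by
        rw [← hB g y v, hc, map_smul, smul_eq_mul]
      have h6 : c ^ 2 = 1 := by
        apply mul_left_cancel₀ hy
        linear_combination c * h4 - h5
      have h7 : c = 1 := by
        have h2 : (2 : F) = 0 := CharTwo.two_eq_zero
        have : (c - 1) ^ 2 = 0 := by linear_combination h6 + (1 - c) * h2
        exact sub_eq_zero.1 (pow_eq_zero_iff two_ne_zero |>.1 this)
      rw [hc, h7, one_smul]
    · intro h
      apply hext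
      intro x
      rw [mul_smul, mul_smul, htv', htv', hlin, h]
      congr 2
      rw [← hB g x v, h]
  have horb : MulAction.orbit (symplecticGroup (Fin m) F) v = {w | w ≠ 0} := by
    ext w
    constructor
    · rintro ⟨g, rfl⟩ h0
      apply hv
      have h0' : g • v = 0 := h0
      have h1 : g • (0 : Fin m ⊕ Fin m → F) = 0 := mulVec_zero _
      exact MulAction.injective g (h0'.trans h1.symm)
    · intro hw
      exact exists_mulVec_eq v w hv hw
  have h1 := MulAction.index_stabilizer (symplecticGroup (Fin m) F) v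
  rw [horb] at h1
  have h2 : ({w | w ≠ 0} : Set (Fin m ⊕ Fin m → F)).ncard = q ^ (2 * m) - 1 := by
    have h3 : ({w | w ≠ 0} : Set (Fin m ⊕ Fin m → F)) = ({0} : Set (Fin m ⊕ Fin m → F))ᶜ := rfl
    rw [h3, Set.ncard_compl, Set.ncard_singleton, Nat.card_eq_fintype_card, Fintype.card_fun, Fintype.card_sum, Fintype.card_fin, hF]
    congr 2; ring
  rw [h2] at h1
  have h3 := (MulAction.stabilizer (symplecticGroup (Fin m) F) v).card_mul_index
  rw [h1, card_symplecticGroup, Nat.card_eq_fintype_card (α := F), hF] at h3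
  obtain ⟨k, rfl⟩ : ∃ k, m = k + 1 := ⟨m - 1, by omega⟩
  rw [Finset.prod_range_succ, ← mul_assoc] at h3
  have hq : 1 < q := hF ▸ Fintype.one_lt_card
  have h4 : 0 < q ^ (2 * (k + 1)) - 1 := by
    have := Nat.one_lt_pow (n := 2 * (k + 1)) (by omega) hq
    omega
  rw [hC, Nat.eq_of_mul_eq_mul_right h4 h3, Nat.add_sub_cancel, ← Fin.prod_univ_eq_prod_range (fun i => q ^ (2 * (i + 1)) - 1), ← mul_assoc, ← pow_add]
  congr 2
  have : 2 * (k + 1) - 1 = 2 * k + 1 := by omega
  rw [this]; ring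

end Cfsg.Agent.S2594
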