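import Cfsg.Statements.S2599
import Cfsg.Agent.Lib.Quad7

set_option autoImplicit false
open Cfsg

namespace Cfsg.Agent.S2599

open CfsgLib.Quad Module

/-- An irreducible invariant subspace of a semisimple isometry is non-degenerate or totally singular: let Q be a quadratic form on F^n (F finite of characteristic p) with non-degenerate polar form f, x an isometry of Q of order prime to p, and U a non-zero x-invariant subspace containing no x-invariant subspace other than 0 and U. Then U meets its f-orthogonal trivially, or Q vanishes on U, or p = 2, U is a line spanned by a non-singular vector and x fixes U pointwise. -/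
theorem result {F : Type*} [Field F] [Fintype F] {p : ℕ} [Fact p.Prime] [CharP F p] {n : ℕ} (Q : QuadraticForm F (Fin n → F)) (hQ : (QuadraticMap.polarBilin Q).Nondegenerate) (x : ↥(Cfsg.isometryGroup F ⇑Q)) (hx : (orderOf x).Coprime p) (U : Submodule F (Fin n → F)) (hU0 : U ≠ ⊥) (hUx : ∀ u ∈ U, ((x : Matrix.GeneralLinearGroup (Fin n) F) : Matrix (Fin n) (Fin n) F).mulVec u ∈ U) (hirr : ∀ W : Submodule F (Fin n → F), W ≤ U → (∀ w ∈ W, ((x : Matrix.GeneralLinearGroup (Fin n) F) : Matrix (Fin n) (Fin n) F).mulVec w ∈ W) → W = ⊥ ∨ W = U) : U ⊓ LinearMap.BilinForm.orthogonal (QuadraticMap.polarBilin Q) U = ⊥ ∨ (∀ u ∈ U, Q u = 0) ∨ (p = 2 ∧ Module.finrank F U = 1 ∧ (∃ u ∈ U, Q u ≠ 0) ∧ ∀ u ∈ U, ((x : Matrix.GeneralLinearGroup (Fin n) F) : Matrix (Fin n) (Fin n) F).mulVec u = u) := by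
  classical
  set X : Matrix (Fin n) (Fin n) F := ((x : Matrix.GeneralLinearGroup (Fin n) F) : Matrix (Fin n) (Fin n) F) with hX
  have hxQ : ∀ v, Q (X.mulVec v) = Q v := fun v => x.2 v v
  have hxB : ∀ u v, QuadraticMap.polarBilin Q (X.mulVec u) (X.mulVec v) = QuadraticMap.polarBilin Q u v := by
    intro u v
    rw [QuadraticMap.polarBilin_apply_apply, QuadraticMap.polarBilin_apply_apply, QuadraticMap.polar, QuadraticMap.polar, ← Matrix.mulVec_add, hxQ, hxQ, hxQ]
  have hinj : Function.Injective X.mulVec := by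
    intro a b hab
    have h1 : ((x : Matrix.GeneralLinearGroup (Fin n) F)⁻¹).1 * X = 1 := (x : Matrix.GeneralLinearGroup (Fin n) F).inv_mul
    have h2 := congrArg (((x : Matrix.GeneralLinearGroup (Fin n) F)⁻¹).1.mulVec) hab
    rwa [Matrix.mulVec_mulVec, Matrix.mulVec_mulVec, h1, Matrix.one_mulVec, Matrix.one_mulVec] at h2
  -- `X` maps `U` onto `U`
  have hsurj : ∀ u ∈ U, ∃ w ∈ U, X.mulVec w = u := by
    intro u hu
    let f : U → U := fun w => ⟨X.mulVec w, hUx w w.2⟩
    have hf : Function.Injective f := fun a b hab => Subtype.ext (hinj (congrArg Subtype.val hab))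
    obtain ⟨w, hw⟩ := Finite.surjective_of_injective hf ⟨u, hu⟩
    exact ⟨w, w.2, congrArg Subtype.val hw⟩
  have h1 := hirr (U ⊓ LinearMap.BilinForm.orthogonal (QuadraticMap.polarBilin Q) U) inf_le_left (by
    rintro w ⟨hw1, hw2⟩
    refine ⟨hUx w hw1, ?_⟩
    intro u hu
    obtain ⟨u', hu', rfl⟩ := hsurj u hu
    change QuadraticMap.polarBilin Q (X.mulVec u') (X.mulVec w) = 0
    rw [hxB]
    exact hw2 u' hu')
  rcases h1 with h1 | h1
  · exact Or.inl h1
  · right
    have hiso : ∀ u ∈ U, ∀ v ∈ U, QuadraticMap.polarBilin Q u v = 0 := by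
      intro u hu v hv
      have hv' : v ∈ U ⊓ LinearMap.BilinForm.orthogonal (QuadraticMap.polarBilin Q) U := by rw [h1]; exact hv
      exact hv'.2 u hu
    by_cases h2 : (2 : F) = 0
    · have hp2 : p = 2 := by
        have h3 : ((2 : ℕ) : F) = 0 := by exact_mod_cast h2
        rw [CharP.cast_eq_zero_iff F p] at h3
        exact (Nat.prime_dvd_prime_iff_eq Fact.out Nat.prime_two).1 h3
      have hadd : ∀ u ∈ U, ∀ v ∈ U, Q (u + v) = Q u + Q v := by
        intro u hu v hv
        rw [CfsgLib.Quad.map_add, hiso u hu v hv, add_zero]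
      let W : Submodule F (Fin n → F) :=
        { carrier := {u | u ∈ U ∧ Q u = 0}
          add_mem' := fun {a b} ha hb => ⟨U.add_mem ha.1 hb.1, by rw [hadd a ha.1 b hb.1, ha.2, hb.2, add_zero]⟩
          zero_mem' := ⟨U.zero_mem, QuadraticMap.map_zero Q⟩
          smul_mem' := fun c a ha => ⟨U.smul_mem c ha.1, by rw [QuadraticMap.map_smul, ha.2, smul_zero]⟩ }
      rcases hirr W (fun w hw => hw.1) (fun w hw => ⟨hUx w hw.1, by rw [hxQ]; exact hw.2⟩) with hW | hW
      · right
        obtain ⟨u, hu, hu0⟩ := Submodule.exists_mem_ne_zero_of_ne_bot hU0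
        have hQu : Q u ≠ 0 := by
          intro h
          apply hu0
          have : u ∈ W := ⟨hu, h⟩
          rwa [hW, Submodule.mem_bot] at this
        have key : ∀ v ∈ U, ∃ c : F, v = c • u := by
          intro v hv
          obtain ⟨s, hs⟩ := isSquare_of_two_eq_zero h2 (Q v / Q u)
          refine ⟨s, ?_⟩
          have h3 : v + s • u ∈ W := by
            refine ⟨U.add_mem hv (U.smul_mem s hu), ?_⟩
            rw [hadd v hv _ (U.smul_mem s hu), QuadraticMap.map_smul, smul_eq_mul, ← hs, div_mul_cancel₀ _ hQu]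
            linear_combination (Q v) * h2
          rw [hW, Submodule.mem_bot] at h3
          have h4 : s • u + s • u = 0 := by
            rw [← two_smul F, h2, zero_smul]
          calc v = (v + s • u) - s • u := by abel
            _ = 0 - s • u := by rw [h3]
            _ = (s • u + s • u) - s • u := by rw [h4]
            _ = s • u := by abel
        refine ⟨hp2, ?_, ⟨u, hu, hQu⟩, ?_⟩
        · rw [finrank_eq_one_iff_of_nonzero' (⟨u, hu⟩ : U) (fun h => hu0 (congrArg Subtype.val h))]
          rintro ⟨v, hv⟩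
          obtain ⟨c, hc⟩ := key v hv
          exact ⟨c, Subtype.ext hc.symm⟩
        · have hXu : X.mulVec u = u := by
            obtain ⟨c, hc⟩ := key _ (hUx u hu)
            have h3 := hxQ u
            rw [hc, QuadraticMap.map_smul, smul_eq_mul] at h3
            have h4 : (c - 1) * (c - 1) = 0 := by
              have h5 : c * c = 1 := mul_right_cancel₀ hQu (by rw [h3, one_mul])
              linear_combination h5 + (1 - c) * h2
            have h5 : c = 1 := sub_eq_zero.1 (mul_self_eq_zero.1 h4)
            rw [hc, h5, one_smul]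
          intro v hv
          obtain ⟨c, rfl⟩ := key v hv
          rw [Matrix.mulVec_smul, hXu]
      · left
        intro u hu
        have : u ∈ W := by rw [hW]; exact hu
        exact this.2
    · left
      intro u hu
      have h3 := hiso u hu u hu
      rw [polar_self] at h3
      exact (mul_eq_zero.1 h3).resolve_left h2

end Cfsg.Agent.S2599
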