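import Cfsg.Statements.S2600
import Cfsg.Agent.Lib.ChevAut16
import Cfsg.Agent.Lib.CHO6
import Cfsg.Agent.Lib.ChevRep4
import Cfsg.Agent.S1098

set_option autoImplicit false
open Cfsg

namespace Cfsg.Agent.S2600

set_option linter.style.haveILetI false
open CfsgLib.Chev Cfsg.Lie Matrix

/-- isomorphic groups have isomorphic outer automorphism groups -/
noncomputable def outCongr {G : Type*} {H : Type*} [Group G] [Group H] (e : G ≃* H) : Cfsg.Out G ≃* Cfsg.Out H := by
  refine QuotientGroup.congr (Inn G) (Inn H) (MulAut.congr e) ?_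
  ext f
  constructor
  · rintro ⟨_, ⟨g, rfl⟩, rfl⟩
    refine ⟨e g, ?_⟩
    ext x
    show e g * x * (e g)⁻¹ = e (g * e.symm x * g⁻¹)
    simp
  · rintro ⟨h, rfl⟩
    refine ⟨MulAut.conj (e.symm h), ⟨_, rfl⟩, ?_⟩
    ext x
    show e (e.symm h * e.symm x * (e.symm h)⁻¹) = h * x * h⁻¹
    simp

theorem dvd_of_pow {F : Type*} [Field F] [Fintype F] {f j : ℕ} (hf : 1 ≤ f) (hF : Fintype.card F = 2 ^ f)
    (h : ∀ t : F, t ^ (2 ^ j) = t) : f ∣ j := by
  classical
  obtain ⟨g, hg⟩ := IsCyclic.exists_generator (α := Fˣ)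
  have ho : orderOf g = 2 ^ f - 1 := by
    rw [orderOf_eq_card_of_forall_mem_zpowers hg, Nat.card_eq_fintype_card, Fintype.card_units, hF]
  have h1 : g ^ (2 ^ j - 1) = 1 := by
    have h2 : g ^ (2 ^ j) = g := Units.ext (by rw [Units.val_pow_eq_pow_val]; exact h g)
    have h3 : g ^ (2 ^ j - 1) * g = g ^ (2 ^ j) := by
      rw [← pow_succ, Nat.sub_add_cancel Nat.one_le_two_pow]
    rw [h2] at h3
    exact mul_eq_right.mp h3
  have h4 := orderOf_dvd_of_pow_eq_one h1
  rw [ho] at h4
  have h5 := Nat.gcd_eq_left h4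
  rw [Nat.pow_sub_one_gcd_pow_sub_one] at h5
  have h6 : 2 ^ (f.gcd j) = 2 ^ f := by
    have a1 : 1 ≤ 2 ^ (f.gcd j) := Nat.one_le_two_pow
    have a2 : 1 ≤ 2 ^ f := Nat.one_le_two_pow
    omega
  have h7 : f.gcd j = f := Nat.pow_right_injective le_rfl h6
  exact Nat.gcd_eq_left_iff_dvd.mp h7

theorem outB2 {F : Type*} [Field F] [Fintype F] {f : ℕ} (hf : 1 ≤ f) (hF : Fintype.card F = 2 ^ f) :
    IsCyclic (Cfsg.Out ↥(chevB2.group F)) ∧ Nat.card (Cfsg.Out ↥(chevB2.group F)) = 2 * f := by
  classical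
  haveI : Fact (Nat.Prime 2) := ⟨Nat.prime_two⟩
  haveI : CharP F 2 := by
    obtain ⟨p, hp⟩ := CharP.exists F
    haveI := hp
    have hpr : p.Prime := by
      rcases CharP.char_is_prime_or_zero F p with h | h
      · exact h
      · exfalso
        subst h
        haveI := CharP.charP_to_charZero F
        exact (inferInstance : Infinite F).false
    haveI : Fact p.Prime := ⟨hpr⟩
    obtain ⟨n, -, hn⟩ := FiniteField.card F p
    have h1 : p ∣ 2 ^ f := by
      rw [← hF, hn]
      exact dvd_pow_self p n.2.ne'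
    have h2 : p = 2 := (Nat.prime_dvd_prime_iff_eq hpr Nat.prime_two).mp (hpr.dvd_of_dvd_pow h1)
    rw [← h2]
    exact hp
  have hD : chevB2 ∈ [chevG2, chevB2, chevD4, chevF4, chevE6, chevE7, chevE8] := by simp
  obtain ⟨M⟩ := exists_cg hD F
  have hperf : ∀ x : F, ∃ y : F, y ^ 2 = x := fun x => (frobeniusEquiv F 2).surjective x
  obtain ⟨α, hα⟩ := Cfsg.Agent.S1098.result hperf (chevB2, [(1, 2), (0, 1)]) (by simp)
  have hl : ∀ i < chevB2.rank, (([(1, 2), (0, 1)] : List (ℕ × ℕ)).getD i (0, 1)).1 = ([1, 0] : List ℕ).getD i 0 := by decide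
  have hα' : ∀ i < chevB2.rank, ∀ t : F, α (M.xG (chevB2.simple i) t) = M.xG (chevB2.simple (([1, 0] : List ℕ).getD i 0)) (t ^ (([(1, 2), (0, 1)] : List (ℕ × ℕ)).getD i (0, 1)).2) ∧
      α (M.xG (chevB2.neg (chevB2.simple i)) t) = M.xG (chevB2.neg (chevB2.simple (([1, 0] : List ℕ).getD i 0))) (t ^ (([(1, 2), (0, 1)] : List (ℕ × ℕ)).getD i (0, 1)).2) := by
    intro i hi t
    refine ⟨?_, ?_⟩
    · apply Subtype.ext
      apply M.eq_xg.mp
      rw [← hl i hi]
      exact (hα _ i t hi).1 (M.coe_xg _ t)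
    · apply Subtype.ext
      apply M.eq_xg.mp
      rw [← hl i hi]
      exact (hα _ i t hi).2 (M.coe_xg _ t)
  set π : Equiv.Perm (Fin chevB2.rank) := permL chevB2.rank [1, 0] [1, 0] (by decide) with hπ
  have hfr : M.IsFrame α π (fun i t => t ^ (([(1, 2), (0, 1)] : List (ℕ × ℕ)).getD i (0, 1)).2) (fun i t => t ^ (([(1, 2), (0, 1)] : List (ℕ × ℕ)).getD i (0, 1)).2) :=
    M.frame_of (fun i t => (hα' i i.2 t).1) (fun i t => (hα' i i.2 t).2)
  have htp : M.toPerm α = π := M.toPerm_frame hD hfr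
  have hπ1 : π ≠ 1 := permL_ne (by decide) (by decide)
  have hπo : orderOf π = 2 := by
    apply orderOf_eq_prime _ hπ1
    apply Equiv.ext
    decide
  have hr2 : Nat.card M.toPerm.range = 2 := card_two (range_B2 M) ⟨α, htp⟩ hπ1
  -- the order
  have hcard : Nat.card (Cfsg.Out ↥(chevB2.group F)) = 2 * f := by
    rcases Nat.eq_or_lt_of_le hf with h1 | h1
    · subst h1
      have hF2 : Fintype.card F = 2 := by rw [hF, pow_one]
      obtain ⟨-, -, -, -, h, -⟩ := M.out_struct hD _ _ rfl rfl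
      rw [M.closure_diag, M.closure_field] at h
      have hu : ∀ u : Fˣ, u = 1 := by
        have : Fintype.card Fˣ = 1 := by rw [Fintype.card_units, hF2]
        intro u
        exact (Fintype.card_le_one_iff.mp this.le) u 1
      have d1 : M.Dg = ⊥ := by
        rw [eq_bot_iff]
        intro θ hθ
        obtain ⟨c, rfl⟩ := M.mem_Dg'.mp hθ
        rw [Subgroup.mem_bot]
        apply M.ext_auts
        · intro i t
          rw [M.dA_s _ i.2, hu (c i), Units.val_one, one_mul]
          rfl
        · intro i t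
          rw [M.dA_n _ i.2, hu (c i)⁻¹, Units.val_one, one_mul]
          rfl
      have d2 : M.fdHom.range = ⊥ := by
        rw [eq_bot_iff]
        rintro _ ⟨σ, rfl⟩
        have h3 := card_ringAut (F := F) (p := 2) (f := 1) hF
        haveI : Subsingleton (F ≃+* F) := (Nat.card_eq_one_iff_unique.mp h3).1
        rw [Subsingleton.elim σ 1, map_one]
        exact Subgroup.one_mem _
      rw [d1, d2, Subgroup.map_bot, sup_bot_eq, Subgroup.index_bot, hr2] at h
      rw [h, mul_one]
    · have hne : ∃ a : F, a ≠ 0 ∧ a ≠ 1 := by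
        by_contra hcon
        push Not at hcon
        classical
        have hsub : (Finset.univ : Finset F) ⊆ {0, 1} := by
          intro a _
          rw [Finset.mem_insert, Finset.mem_singleton]
          by_cases ha : a = 0
          · exact Or.inl ha
          · exact Or.inr (hcon a ha)
        have := Finset.card_le_card hsub
        rw [Finset.card_univ, hF] at this
        have h2 := Finset.card_le_two (a := (0 : F)) (b := 1)
        have h3 : 2 ^ 2 ≤ 2 ^ f := Nat.pow_le_pow_right (by norm_num) h1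
        omega
      have hs := simple_all (F := F) hD (fun _ => hne)
      have h5 := M.card_out' hD hs (by decide) hF hF (Ord.cardHB2 hF)
      rw [h5, hr2]
      have h6 : Nat.gcd 2 (2 ^ f - 1) = 1 := by
        rw [← Nat.coprime_iff_gcd_eq_one, Nat.coprime_two_left, ← Nat.not_even_iff_odd]
        intro he
        have h7 : Even (2 ^ f) := (Nat.even_pow.mpr ⟨even_two, by omega⟩)
        have h8 : 1 ≤ 2 ^ f := Nat.one_le_two_pow
        obtain ⟨a, ha⟩ := he
        obtain ⟨b, hb⟩ := h7
        omega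
      rw [h6, mul_one]
  refine ⟨?_, hcard⟩
  have hsq : (α * α : MulAut ↥(chevB2.group F)) = M.fdHom (frobeniusEquiv F 2) := by
    apply M.ext_auts
    · rintro ⟨i, hi⟩ t
      rw [M.fd_s]
      change α (α (M.xG (chevB2.simple i) t)) = _
      rw [(hα' i hi t).1]
      have hi2 : i < 2 := hi
      interval_cases i
      · exact (hα' 1 (by decide) _).1.trans (by simp [frobenius_def])
      · exact (hα' 0 (by decide) _).1.trans (by simp [frobenius_def])
    · rintro ⟨i, hi⟩ t
      rw [M.fd_s]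
      change α (α (M.xG (chevB2.neg (chevB2.simple i)) t)) = _
      rw [(hα' i hi t).2]
      have hi2 : i < 2 := hi
      interval_cases i
      · exact (hα' 1 (by decide) _).2.trans (by simp [frobenius_def])
      · exact (hα' 0 (by decide) _).2.trans (by simp [frobenius_def])
  set a : Cfsg.Out ↥(chevB2.group F) := QuotientGroup.mk' (Cfsg.Inn ↥(chevB2.group F)) α with ha
  have hdvd : ∀ k : ℕ, a ^ k = 1 → 2 * f ∣ k := by
    intro k hk
    rw [ha, ← map_pow] at hk
    obtain ⟨x, hx⟩ := (QuotientGroup.eq_one_iff _).mp hk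
    have h1 : π ^ k = 1 := by
      rw [← htp, ← map_pow, ← hx, M.toPerm_conj]
    have h2 := orderOf_dvd_of_pow_eq_one h1
    rw [hπo] at h2
    obtain ⟨j, rfl⟩ := h2
    have h3 : MulAut.conj x = M.fdHom ((frobeniusEquiv F 2) ^ j) := by
      rw [hx, pow_mul, map_pow, ← hsq, sq]
    have h4 : (x : GL chevB2.Idx F) ∈ chevB2.diagonalSubgroup F := by
      rw [← M.conj_mem_DF hD, h3]
      exact Subgroup.mem_sup_right ⟨_, rfl⟩
    obtain ⟨c, hc⟩ := M.frame_H h4
    have h5 : ∀ t : F, (c ⟨0, by decide⟩ : F) * t = ((frobeniusEquiv F 2) ^ j : F ≃+* F) t := by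
      intro t
      have e1 := hc.hf ⟨0, by decide⟩ t
      rw [h3, M.fd_s] at e1
      exact (M.xG_inj (M.N.simple_lt _ (by decide)) e1).symm
    have h6 : (c ⟨0, by decide⟩ : F) = 1 := by
      have := h5 1
      rwa [mul_one, map_one] at this
    have h7 : ∀ t : F, t ^ (2 ^ j) = t := by
      intro t
      have e1 := h5 t
      rw [h6, one_mul] at e1
      have e2 : ∀ (n : ℕ) (s : F), ((frobeniusEquiv F 2) ^ n : F ≃+* F) s = s ^ (2 ^ n) := by
        intro n
        induction n with
        | zero => intro s; simp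
        | succ n ih =>
          intro s
          rw [pow_succ]
          change ((frobeniusEquiv F 2) ^ n : F ≃+* F) (frobeniusEquiv F 2 s) = _
          rw [ih, frobeniusEquiv_def, ← pow_mul, pow_succ']
      rw [← e2, ← e1]
    exact Nat.mul_dvd_mul_left 2 (dvd_of_pow hf hF h7)
  haveI : Finite (Cfsg.Out ↥(chevB2.group F)) := Nat.finite_of_card_ne_zero (by rw [hcard]; omega)
  refine isCyclic_of_orderOf_eq_card a ?_
  rw [hcard]
  refine Nat.dvd_antisymm ?_ (hdvd _ (pow_orderOf_eq_one a))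
  rw [← hcard]
  exact orderOf_dvd_natCard a

/-- Outer automorphism group of PSp_4(q) for q = 2^f even: it is cyclic of order 2f, generated by the class of the exceptional (graph-field) automorphism whose square is the Frobenius field automorphism. -/
theorem result {F : Type*} [Field F] [Fintype F] {f : ℕ} (hf : 1 ≤ f) (hF : Fintype.card F = 2 ^ f) : IsCyclic (Cfsg.Out (Cfsg.PSp 2 F)) ∧ Nat.card (Cfsg.Out (Cfsg.PSp 2 F)) = 2 * f := by
  obtain ⟨e⟩ := CfsgLib.Chev.Rep.PSp_iso F
  obtain ⟨h1, h2⟩ := outB2 hf hF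
  have e' := outCongr e
  exact ⟨isCyclic_of_surjective e'.symm e'.symm.surjective, (Nat.card_congr e'.toEquiv).trans h2⟩

end Cfsg.Agent.S2600
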