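import Cfsg.Statements.S2601
import Cfsg.Agent.Lib.AutPSL9

set_option autoImplicit false
open Cfsg

namespace Cfsg.Agent.S2601


/-- Structure of the outer automorphism group of PSL_n(q), n ≥ 3, q = p^f: it has a normal cyclic subgroup of order gcd(n, q − 1) (the diagonal automorphisms) whose quotient is the direct product of a cyclic group of order f (field automorphisms) and a group of order 2 (the inverse-transpose graph automorphism). -/
theorem result {F : Type*} [Field F] [Fintype F] {p f n : ℕ} [Fact p.Prime] (hf : 1 ≤ f) (hF : Fintype.card F = p ^ f) (hn : 3 ≤ n) : ∃ φ : Cfsg.Out (Matrix.ProjectiveSpecialLinearGroup (Fin n) F) →* Multiplicative (ZMod f × ZMod 2), Function.Surjective φ ∧ IsCyclic φ.ker ∧ Nat.card φ.ker = Nat.gcd n (p ^ f - 1) := by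
  obtain ⟨e⟩ := CfsgLib.AutPSL.ringAut_equiv hF
  let θ : MulAut (Matrix.ProjectiveSpecialLinearGroup (Fin n) F) →* Multiplicative (ZMod f × ZMod 2) :=
    ((MulEquiv.prodMultiplicative (ZMod f) (ZMod 2)).symm.toMonoidHom.comp
      ((e.toMonoidHom.prodMap (MonoidHom.id (Multiplicative (ZMod 2)))).comp (CfsgLib.AutPSL.fg hn)))
  have hθ1 : ∀ α, θ α = 1 ↔ CfsgLib.AutPSL.fg hn α = 1 := by
    intro α
    show (MulEquiv.prodMultiplicative (ZMod f) (ZMod 2)).symm ((e (CfsgLib.AutPSL.fg hn α).1), (CfsgLib.AutPSL.fg hn α).2) = 1 ↔ _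
    rw [EmbeddingLike.map_eq_one_iff, Prod.mk_eq_one, EmbeddingLike.map_eq_one_iff]
    exact (Prod.ext_iff (x := CfsgLib.AutPSL.fg hn α) (y := 1)).symm
  have hθ : ∀ α, θ α = 1 ↔ α ∈ (CfsgLib.AutPSL.gam : GL (Fin n) F →* _).range := fun α => by
    rw [hθ1, CfsgLib.AutPSL.fg_eq_one_iff hn]
  have hsurj : Function.Surjective θ := by
    intro y
    obtain ⟨z, hz⟩ := (MulEquiv.prodMultiplicative (ZMod f) (ZMod 2)).symm.surjective y
    obtain ⟨w, hw⟩ := e.surjective z.1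
    obtain ⟨α, hα⟩ := CfsgLib.AutPSL.fg_surjective hn (w, z.2)
    refine ⟨α, ?_⟩
    show (MulEquiv.prodMultiplicative (ZMod f) (ZMod 2)).symm ((e (CfsgLib.AutPSL.fg hn α).1), (CfsgLib.AutPSL.fg hn α).2) = y
    rw [hα, hw]
    exact hz
  have hinn : Cfsg.Inn (Matrix.ProjectiveSpecialLinearGroup (Fin n) F) ≤ θ.ker := by
    rintro _ ⟨x, rfl⟩
    obtain ⟨s, rfl⟩ := QuotientGroup.mk_surjective x
    rw [MonoidHom.mem_ker, hθ]
    exact ⟨_, (CfsgLib.AutPSL.conj_eq s).symm⟩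
  have hk := CfsgLib.AutPSL.out_ker (n := n) (F := F) (by omega) (QuotientGroup.lift _ θ hinn) (fun α => hθ α)
  rw [hF] at hk
  refine ⟨QuotientGroup.lift _ θ hinn, ?_, hk.1, hk.2⟩
  intro y
  obtain ⟨α, hα⟩ := hsurj y
  exact ⟨QuotientGroup.mk α, hα⟩

end Cfsg.Agent.S2601
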