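import Cfsg.Statements.S2602
import Cfsg.Agent.Lib.AutPSL9

set_option autoImplicit false
open Cfsg

namespace Cfsg.Agent.S2602


/-- Structure of the outer automorphism group of PSL_2(q), q = p^f ≥ 4: it has a normal cyclic subgroup of order gcd(2, q − 1) (diagonal automorphisms) with cyclic quotient of order f (field automorphisms); there is no graph automorphism in dimension 2. -/
theorem result {F : Type*} [Field F] [Fintype F] {p f : ℕ} [Fact p.Prime] (hf : 1 ≤ f) (hF : Fintype.card F = p ^ f) (h4 : 4 ≤ p ^ f) : ∃ φ : Cfsg.Out (Matrix.ProjectiveSpecialLinearGroup (Fin 2) F) →* Multiplicative (ZMod f), Function.Surjective φ ∧ IsCyclic φ.ker ∧ Nat.card φ.ker = Nat.gcd 2 (p ^ f - 1) := by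
  obtain ⟨e⟩ := CfsgLib.AutPSL.ringAut_equiv hF
  let θ : MulAut (Matrix.ProjectiveSpecialLinearGroup (Fin 2) F) →* Multiplicative (ZMod f) :=
    e.toMonoidHom.comp CfsgLib.AutPSL.fg2
  have hθ1 : ∀ α, θ α = 1 ↔ CfsgLib.AutPSL.fg2 α = 1 := by
    intro α
    show e (CfsgLib.AutPSL.fg2 α) = 1 ↔ _
    rw [EmbeddingLike.map_eq_one_iff]
  have hθ : ∀ α, θ α = 1 ↔ α ∈ (CfsgLib.AutPSL.gam : GL (Fin 2) F →* _).range := fun α => by
    rw [hθ1, CfsgLib.AutPSL.fg2_eq_one_iff]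
  have hsurj : Function.Surjective θ := by
    intro y
    obtain ⟨w, hw⟩ := e.surjective y
    obtain ⟨α, hα⟩ := CfsgLib.AutPSL.fg2_surjective w
    refine ⟨α, ?_⟩
    show e (CfsgLib.AutPSL.fg2 α) = y
    rw [hα, hw]
  have hinn : Cfsg.Inn (Matrix.ProjectiveSpecialLinearGroup (Fin 2) F) ≤ θ.ker := by
    rintro _ ⟨x, rfl⟩
    obtain ⟨s, rfl⟩ := QuotientGroup.mk_surjective x
    rw [MonoidHom.mem_ker, hθ]
    exact ⟨_, (CfsgLib.AutPSL.conj_eq s).symm⟩
  have hk := CfsgLib.AutPSL.out_ker (n := 2) (F := F) le_rfl (QuotientGroup.lift _ θ hinn) (fun α => hθ α)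
  rw [hF] at hk
  refine ⟨QuotientGroup.lift _ θ hinn, ?_, hk.1, hk.2⟩
  intro y
  obtain ⟨α, hα⟩ := hsurj y
  exact ⟨QuotientGroup.mk α, hα⟩

end Cfsg.Agent.S2602
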