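import Cfsg.Statements.S2603
import Cfsg.Agent.Lib.AutPSU11

set_option autoImplicit false
open Cfsg

namespace Cfsg.Agent.S2603


/-- Structure of the outer automorphism group of PSU_n(q), n ≥ 3, (n, q) ≠ (3, 2), q = p^f, realised over the field with q² elements: it has a normal cyclic subgroup of order gcd(n, q + 1) (diagonal automorphisms) with cyclic quotient of order 2f (generated by the Frobenius field automorphism of the field with q² elements, whose f-th power is the graph automorphism). -/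
theorem result {K : Type*} [Field K] [Fintype K] {p f q n : ℕ} [Fact p.Prime] (hf : 1 ≤ f) (hq : q = p ^ f) (hK : Fintype.card K = q ^ 2) (hn : 3 ≤ n) (h32 : ¬ (n = 3 ∧ q = 2)) : ∃ φ : Cfsg.Out (Cfsg.PSU n K q) →* Multiplicative (ZMod (2 * f)), Function.Surjective φ ∧ IsCyclic φ.ker ∧ Nat.card φ.ker = Nat.gcd n (q + 1) := by
  obtain ⟨σ, hσ⟩ := CfsgLib.Herm.exists_sigma (F := K) (q := q) (by rw [Nat.card_eq_fintype_card, hK])
  have hq2 := hσ.two_le
  have hF' : Fintype.card K = p ^ (2 * f) := by rw [hK, hq, ← pow_mul, mul_comm]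
  obtain ⟨e⟩ := CfsgLib.AutPSL.ringAut_equiv hF'
  have hS := CfsgLib.AutPSU.setupU (F := K) hσ hn
  have hfull := CfsgLib.AutPSU.fullU (F := K) hσ hn (by omega)
  let θ : MulAut (Cfsg.PSU n K q) →* Multiplicative (ZMod (2 * f)) :=
    e.toMonoidHom.comp (hS.fld hfull)
  have hθ : ∀ α, θ α = 1 ↔ α ∈ hS.gam.range := fun α => by
    rw [← CfsgLib.AutPSU.fld_eq_one_iff hσ hn (by omega)]
    show e (hS.fld hfull α) = 1 ↔ _
    rw [EmbeddingLike.map_eq_one_iff]
  have hsurj : Function.Surjective θ := by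
    intro y
    obtain ⟨w, hw⟩ := e.surjective y
    obtain ⟨α, hα⟩ := CfsgLib.AutPSU.fld_surj hσ hn (by omega) w
    refine ⟨α, ?_⟩
    show e (hS.fld hfull α) = y
    rw [hα, hw]
  have hinn : Cfsg.Inn (Cfsg.PSU n K q) ≤ θ.ker := by
    intro x hx
    rw [MonoidHom.mem_ker, hθ]
    exact hS.inn_le hx
  have hk := CfsgLib.AutPSU.out_ker (n := n) (F := K) hσ hn (QuotientGroup.lift _ θ hinn) (fun α => hθ α)
  refine ⟨QuotientGroup.lift _ θ hinn, ?_, hk.1, hk.2⟩
  intro y
  obtain ⟨α, hα⟩ := hsurj y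
  exact ⟨QuotientGroup.mk α, hα⟩

end Cfsg.Agent.S2603
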