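import Cfsg.Statements.S2604
import Cfsg.Agent.Lib.AutPO19

set_option autoImplicit false
open Cfsg

namespace Cfsg.Agent.S2604

set_option maxHeartbeats 1000000


/-- Outer automorphism group of the simple orthogonal group Ω_(2m+1)(q), m ≥ 3, q = p^f odd: it is the direct product of a group of order 2 (diagonal automorphisms, from SO) and a cyclic group of order f (field automorphisms). -/
theorem result {F : Type*} [Field F] [Fintype F] {p f m : ℕ} [Fact p.Prime] (hf : 1 ≤ f) (hF : Fintype.card F = p ^ f) (hp : p ≠ 2) (hm : 3 ≤ m) : Nonempty (Cfsg.Out (Cfsg.POmega F (Cfsg.quadFormOdd m F)) ≃* Multiplicative (ZMod 2 × ZMod f)) := by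
  have hodd : Odd p := (Fact.out : p.Prime).odd_of_ne_two hp
  have h2 : (2 : F) ≠ 0 := CfsgLib.Quad.two_ne_zero_of_odd (by rw [Nat.card_eq_fintype_card, hF]; exact hodd.pow)
  have hQ := CfsgLib.AutPO.QO_nondegenerate h2 m
  have hV : 7 ≤ Module.finrank F (Unit ⊕ (Fin m ⊕ Fin m) → F) := by rw [CfsgLib.AutPO.finrank_QO]; omega
  have h := CfsgLib.AutPO.out_odd hQ hV hF h2 (CfsgLib.AutPO.odd_card_ι m)
    (CfsgLib.AutPO.fullO (CfsgLib.AutPO.setupFull hQ hV) hQ hV (CfsgLib.AutPO.hH_odd h2 m hm)) (CfsgLib.AutPO.sm_one_QO m)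
  rw [CfsgLib.AutPO.QO_coe] at h
  exact h

end Cfsg.Agent.S2604
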