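import Cfsg.Statements.S2605
import Cfsg.Agent.Lib.AutPO19

set_option autoImplicit false
open Cfsg

namespace Cfsg.Agent.S2605

set_option maxHeartbeats 1000000


/-- Outer automorphism group of PΩ⁻_2m(q), m ≥ 4, q = 2^f: cyclic of order 2f, generated by a semilinear map inducing the Frobenius automorphism of the field (its f-th power is a graph automorphism, an orthogonal transvection). -/
theorem result {F : Type*} [Field F] [Fintype F] {f m : ℕ} (hf : 1 ≤ f) (hF : Fintype.card F = 2 ^ f) (hm : 4 ≤ m) (a b : F) (hab : ∀ z₁ z₂ : F, z₁ ^ 2 + a * z₁ * z₂ + b * z₂ ^ 2 = 0 → z₁ = 0 ∧ z₂ = 0) : IsCyclic (Cfsg.Out (Cfsg.POmega F (Cfsg.quadFormMinus (m - 1) F a b))) ∧ Nat.card (Cfsg.Out (Cfsg.POmega F (Cfsg.quadFormMinus (m - 1) F a b))) = 2 * f := by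
  have hp2 : Fact (Nat.Prime 2) := ⟨Nat.prime_two⟩
  have hch : CharP F 2 := by
    have h3 : ((Fintype.card F : ℕ) : F) = 0 := FiniteField.cast_card_eq_zero F
    rw [hF, Nat.cast_pow] at h3
    have h2 : (2 : F) = 0 := pow_eq_zero_iff (by omega) |>.1 h3
    exact CharTwo.of_one_ne_zero_of_two_eq_zero one_ne_zero h2
  have h := CfsgLib.AutPO.out_minus_two (p := 2) hf hF rfl (m := m - 1) (by omega) (a := a) (b := b) hab
  rw [CfsgLib.AutPO.QM_coe] at h
  exact h

end Cfsg.Agent.S2605
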