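import Cfsg.Statements.S2606
import Cfsg.Agent.Lib.AutPO20

set_option autoImplicit false
open Cfsg

namespace Cfsg.Agent.S2606

set_option maxHeartbeats 1000000


/-- Outer automorphism group of PΩ⁻_2m(q), m ≥ 4, q = p^f odd: it is dihedral of order 8 times cyclic of order f when q ≡ 3 (mod 4) and m is odd, and otherwise the direct product of a group of order 2 with a cyclic group of order 2f. -/
theorem result {F : Type*} [Field F] [Fintype F] {p f m : ℕ} [Fact p.Prime] (hf : 1 ≤ f) (hF : Fintype.card F = p ^ f) (hp : p ≠ 2) (hm : 4 ≤ m) (a b : F) (hab : ∀ z₁ z₂ : F, z₁ ^ 2 + a * z₁ * z₂ + b * z₂ ^ 2 = 0 → z₁ = 0 ∧ z₂ = 0) : if p ^ f % 4 = 3 ∧ Odd m then Nonempty (Cfsg.Out (Cfsg.POmega F (Cfsg.quadFormMinus (m - 1) F a b)) ≃* DihedralGroup 4 × Multiplicative (ZMod f)) else Nonempty (Cfsg.Out (Cfsg.POmega F (Cfsg.quadFormMinus (m - 1) F a b)) ≃* Multiplicative (ZMod 2 × ZMod (2 * f))) := by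
  have hodd : Odd p := (Fact.out : p.Prime).odd_of_ne_two hp
  have hq : Odd (Nat.card F) := by rw [Nat.card_eq_fintype_card, hF]; exact hodd.pow
  have h2 : (2 : F) ≠ 0 := CfsgLib.Quad.two_ne_zero_of_odd hq
  have hch : CharP F p := by
    have h3 : ((Fintype.card F : ℕ) : F) = 0 := FiniteField.cast_card_eq_zero F
    rw [hF, Nat.cast_pow] at h3
    have h4 : (p : F) = 0 := pow_eq_zero_iff (by omega) |>.1 h3
    exact (CharP.charP_iff_prime_eq_zero Fact.out).2 h4
  obtain ⟨k, rfl⟩ : ∃ k, m = k + 1 := ⟨m - 1, by omega⟩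
  rw [Nat.add_sub_cancel]
  obtain ⟨ν, hν⟩ := CfsgLib.AutPO.exists_nu h2
  have hng := CfsgLib.AutPO.ngI_minus k h2 hab
  have hpow := CfsgLib.AutPO.pow_mod_odd (m := k + 1) (Nat.odd_iff.1 hq)
  rw [hpow.1, Nat.card_eq_fintype_card, hF, and_comm] at hng
  have hN := fun h => CfsgLib.AutPO.out_minus_N (p := p) hf hF hν (m := k) (by omega) hab h
  have hD := fun h h' => CfsgLib.AutPO.out_minus_D (p := p) hf hF hν (m := k) (by omega) hab h h'
  rw [hng] at hN hD
  rw [CfsgLib.AutPO.QM_coe] at hN hD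
  split_ifs with h
  · exact hD h ((CfsgLib.AutPO.pow_mod_odd (q := p) (m := f) (Nat.odd_iff.1 hodd)).1.1 h.1).1
  · exact hN h

end Cfsg.Agent.S2606
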