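import Cfsg.Statements.S2609
import Cfsg.Agent.Lib.QSp1

set_option autoImplicit false
open Cfsg

namespace Cfsg.Agent.S2609

open CfsgLib.QSp CfsgLib.Quad Module

universe u
variable {F : Type u} [Field F] [Finite F] {ι : Type} [Fintype ι] [DecidableEq ι]

theorem list_R (h2 : (2 : F) ≠ 0) {Q : QuadraticForm F (ι → F)} (hQ : (QuadraticMap.polarBilin Q).Nondegenerate) (vs : List (ι → F)) (hvs : ∀ v ∈ vs, Q v ≠ 0) :
    ∃ h : O Q, R hQ h vs.length (vs.map (fun v => Q v)).prod ∧ ∀ x, ((vs.map (fun v => Cfsg.reflectionMatrix ⇑Q v)).prod).mulVec x = h.1 x := by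
  induction vs with
  | nil => exact ⟨1, R_one, fun x => by rw [List.map_nil, List.prod_nil, Matrix.one_mulVec]; rfl⟩
  | cons v vs ih =>
    obtain ⟨h, hR, hh⟩ := ih (fun w hw => hvs w (List.mem_cons_of_mem _ hw))
    have hv : Q v ≠ 0 := hvs v (List.mem_cons_self)
    refine ⟨reflO hv * h, ?_, fun x => ?_⟩
    · have := R_mul (R_refl (hQ := hQ) h2 hv) hR
      rw [List.length_cons, List.map_cons, List.prod_cons, add_comm vs.length 1]
      exact this
    · rw [List.map_cons, List.prod_cons, ← Matrix.mulVec_mulVec, hh, reflO_eq_mulVec Q hv]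
      rfl

/-- Spinor norm criterion for Ω over a finite field of odd order: let Q be a quadratic form on F^n, n ≥ 2, with non-degenerate polar form, and let g be an isometry written as a product of reflections in non-singular vectors v_1, …, v_k. Then g lies in Ω (the commutator subgroup of the orthogonal group) if and only if k is even and Q(v_1)⋯Q(v_k) is a square; in particular, for g of determinant one, whether that product is a square does not depend on the chosen factorisation (it is the spinor norm of g). -/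
theorem result {F : Type*} [Field F] [Fintype F] (h2 : (2 : F) ≠ 0) {n : ℕ} (hn : 2 ≤ n) (Q : QuadraticForm F (Fin n → F)) (hQ : (QuadraticMap.polarBilin Q).Nondegenerate) (g : ↥(Cfsg.isometryGroup F ⇑Q)) (vs : List (Fin n → F)) (hvs : ∀ v ∈ vs, Q v ≠ 0) (hg : ((g : Matrix.GeneralLinearGroup (Fin n) F) : Matrix (Fin n) (Fin n) F) = (vs.map (fun v => Cfsg.reflectionMatrix ⇑Q v)).prod) : g ∈ Cfsg.Omega F ⇑Q ↔ (Even vs.length ∧ IsSquare (vs.map (fun v => Q v)).prod) := by
  obtain ⟨h, hR, hh⟩ := list_R h2 hQ vs hvs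
  rw [← R_mem h2 (by rw [finrank_fin_fun]; exact hn) hR, ← mat_mem _ h hh, ← hg]
  constructor
  · intro hgO
    exact ⟨g, hgO, rfl⟩
  · rintro ⟨g', hg', he⟩
    have : g' = g := Subtype.ext (Units.ext he)
    rwa [← this]

end Cfsg.Agent.S2609
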