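import Cfsg.Statements.S2610
import Cfsg.Agent.Lib.QSp1

set_option autoImplicit false
open Cfsg

namespace Cfsg.Agent.S2610

open CfsgLib.QSp CfsgLib.Quad Module

universe u
variable {F : Type u} [Field F] [Finite F]

theorem neg_R (h2 : (2 : F) ≠ 0) {n : ℕ} {V : Type*} [AddCommGroup V] [Module F V] [FiniteDimensional F V] {Q : QuadraticForm F V} (hQ : (QuadraticMap.polarBilin Q).Nondegenerate)
    (v : Basis (Fin n) F V) (hv : ∀ i, Q (v i) ≠ 0) (ho : ∀ i j, i ≠ j → QuadraticMap.polarBilin Q (v i) (v j) = 0) :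
    ∀ i ≤ n, ∃ h : O Q, R hQ h i (∏ j ∈ Finset.univ.filter (fun j : Fin n => (j : ℕ) < i), Q (v j)) ∧ ∀ k, h.1 (v k) = if (k : ℕ) < i then - v k else v k := by
  intro i
  induction i with
  | zero => intro _; exact ⟨1, by simpa using R_one, fun k => by rw [if_neg (Nat.not_lt_zero _)]; rfl⟩
  | succ i ih =>
    intro hi
    obtain ⟨h, hR, hh⟩ := ih (by omega)
    let j : Fin n := ⟨i, by omega⟩
    refine ⟨reflO (hv j) * h, ?_, fun k => ?_⟩
    · have := R_mul (R_refl (hQ := hQ) h2 (hv j)) hR
      have e : Finset.univ.filter (fun k : Fin n => (k : ℕ) < i + 1) = insert j (Finset.univ.filter (fun k : Fin n => (k : ℕ) < i)) := by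
        ext k
        simp only [Finset.mem_filter, Finset.mem_univ, true_and, Finset.mem_insert, Fin.ext_iff]
        change _ ↔ (k : ℕ) = i ∨ _
        omega
      rw [e, Finset.prod_insert (by simp [j]), add_comm i 1]
      exact this
    · change (reflO (hv j)).1 (h.1 (v k)) = _
      rw [hh]
      by_cases hk : (k : ℕ) < i
      · rw [if_pos hk, if_pos (by omega), _root_.map_neg, reflO_of_orthogonal (hv j) (ho j k (fun h => by
          rw [← h] at hk; exact (lt_irrefl _ hk)))]
      · rw [if_neg hk]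
        by_cases hk2 : (k : ℕ) = i
        · have : k = j := Fin.ext hk2
          rw [if_pos (by omega), this, reflO_self]
        · rw [if_neg (by omega), reflO_of_orthogonal (hv j) (ho j k (fun h => hk2 (by rw [← h])))]

/-- For a quadratic form Q on F^n with non-degenerate polar form, F finite of odd order and n ≥ 2 even, the isometry −1 lies in Ω (the commutator subgroup of the orthogonal group) if and only if the discriminant of Q (the determinant of the Gram matrix of its polar form) is a square. -/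
theorem result {F : Type*} [Field F] [Fintype F] (h2 : (2 : F) ≠ 0) {n : ℕ} (hn : 2 ≤ n) (he : Even n) (Q : QuadraticForm F (Fin n → F)) (hQ : (QuadraticMap.polarBilin Q).Nondegenerate) : (∃ g : ↥(Cfsg.isometryGroup F ⇑Q), g ∈ Cfsg.Omega F ⇑Q ∧ ((g : Matrix.GeneralLinearGroup (Fin n) F) : Matrix (Fin n) (Fin n) F) = -1) ↔ IsSquare (Matrix.of (fun i j : Fin n => QuadraticMap.polar ⇑Q (Pi.single i 1) (Pi.single j 1))).det := by
  haveI : Invertible (2 : F) := invertibleOfNonzero h2
  obtain ⟨v0, hv0⟩ := LinearMap.BilinForm.exists_orthogonal_basis (K := F) (B := QuadraticMap.polarBilin Q) (by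
    constructor
    intro x y
    exact polar_comm Q x y)
  let v : Basis (Fin n) F (Fin n → F) := v0.reindex (finCongr (finrank_fin_fun F))
  have ho : ∀ i j, i ≠ j → QuadraticMap.polarBilin Q (v i) (v j) = 0 := by
    intro i j hij
    have := hv0 (show (finCongr (finrank_fin_fun F)).symm i ≠ (finCongr (finrank_fin_fun F)).symm j from fun h => hij ((finCongr (finrank_fin_fun F)).symm.injective h))
    simpa [v] using this
  have hv : ∀ i, Q (v i) ≠ 0 := by
    intro i h0
    apply v.ne_zero i
    apply hQ.1 (v i)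
    intro y
    have h3 : ∀ j, QuadraticMap.polarBilin Q (v i) (v j) = 0 := by
      intro j
      by_cases hij : i = j
      · rw [← hij, polar_self, h0, mul_zero]
      · exact ho i j hij
    have h4 : QuadraticMap.polarBilin Q (v i) = 0 := v.ext (fun j => h3 j)
    rw [h4]; rfl
  obtain ⟨h, hR, hh⟩ := neg_R h2 hQ v hv ho n le_rfl
  have hh' : ∀ x, h.1 x = - x := by
    intro x
    have : (h.1 : (Fin n → F) →ₗ[F] (Fin n → F)) = - LinearMap.id := v.ext (fun k => by
      change h.1 (v k) = - v k
      rw [hh, if_pos k.2])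
    exact congrArg (fun f : (Fin n → F) →ₗ[F] (Fin n → F) => f x) this
  rw [mat_mem (-1) h (fun x => by rw [hh', Matrix.neg_mulVec, Matrix.one_mulVec]), R_mem h2 (by rw [finrank_fin_fun]; exact hn) hR]
  have hfil : Finset.univ.filter (fun j : Fin n => (j : ℕ) < n) = Finset.univ := by
    ext k; simp
  rw [hfil]
  set G : Matrix (Fin n) (Fin n) F := Matrix.of (fun i j : Fin n => QuadraticMap.polar ⇑Q (Pi.single i 1) (Pi.single j 1)) with hG
  let P : Matrix (Fin n) (Fin n) F := Matrix.of (fun i j => v j i)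
  have hGB : G = LinearMap.BilinForm.toMatrix' (QuadraticMap.polarBilin Q) := by
    ext i j
    rw [LinearMap.BilinForm.toMatrix'_apply]; rfl
  have hB : ∀ x y : Fin n → F, QuadraticMap.polarBilin Q x y = x ⬝ᵥ (G.mulVec y) := by
    intro x y
    have := Matrix.toBilin'_apply' G x y
    rw [hGB, Matrix.toBilin'_toMatrix'] at this
    rw [hGB]; exact this
  have hd : P.transpose * G * P = Matrix.diagonal (fun j => 2 * Q (v j)) := by
    ext i j
    have e1 : (P.transpose * G * P) i j = QuadraticMap.polarBilin Q (v i) (v j) := by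
      rw [hB, Matrix.mul_assoc, Matrix.mul_apply]
      rfl
    rw [e1]
    by_cases hij : i = j
    · rw [hij, Matrix.diagonal_apply_eq, polar_self]
    · rw [Matrix.diagonal_apply_ne _ hij, ho i j hij]
  have hdet := congrArg Matrix.det hd
  rw [Matrix.det_mul, Matrix.det_mul, Matrix.det_transpose, Matrix.det_diagonal, Finset.prod_mul_distrib, Finset.prod_const, Finset.card_univ, Fintype.card_fin] at hdet
  obtain ⟨k, hk⟩ := he
  have e2n : (2 : F) ^ n = 2 ^ k * 2 ^ k := by rw [← pow_add, ← hk]
  have hpr : ∏ j, Q (v j) ≠ 0 := Finset.prod_ne_zero_iff.2 fun j _ => hv j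
  have h2n : (2 : F) ^ n ≠ 0 := pow_ne_zero _ h2
  have hP : P.det ≠ 0 := by
    intro h0
    rw [h0, mul_zero] at hdet
    exact mul_ne_zero h2n hpr hdet.symm
  constructor
  · rintro ⟨-, s, hs⟩
    refine ⟨2 ^ k * s / P.det, ?_⟩
    rw [hs, e2n] at hdet
    field_simp
    linear_combination hdet
  · rintro ⟨s, hs⟩
    refine ⟨⟨k, hk⟩, s * P.det / 2 ^ k, ?_⟩
    rw [hs, e2n] at hdet
    have : (2 : F) ^ k ≠ 0 := pow_ne_zero _ h2
    field_simp
    linear_combination -hdet

end Cfsg.Agent.S2610
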