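import Cfsg.Statements.S2611
import Cfsg.Agent.Lib.QSp1
import Cfsg.Agent.Lib.LinearGL

set_option autoImplicit false
open Cfsg

namespace Cfsg.Agent.S2611

open CfsgLib.QSp CfsgLib.Quad Module Matrix

universe u
variable {F : Type u} [Field F] {m : ℕ}

/-- `g ↦ diag(g, g^{-T})` -/
def dd : GL (Fin m) F →* GL (Fin m ⊕ Fin m) F where
  toFun g := ⟨fromBlocks g.1 0 0 (g⁻¹).1.transpose, fromBlocks (g⁻¹).1 0 0 g.1.transpose,
    by rw [fromBlocks_multiply]; simp [← transpose_mul],
    by rw [fromBlocks_multiply]; simp [← transpose_mul]⟩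
  map_one' := by
    apply Units.ext
    show fromBlocks (1 : GL (Fin m) F).1 0 0 ((1 : GL (Fin m) F)⁻¹).1.transpose = 1
    rw [inv_one, Units.val_one, transpose_one, fromBlocks_one]
  map_mul' g h := by
    apply Units.ext
    show fromBlocks (g * h).1 0 0 ((g * h)⁻¹).1.transpose = fromBlocks g.1 0 0 (g⁻¹).1.transpose * fromBlocks h.1 0 0 (h⁻¹).1.transpose
    rw [fromBlocks_multiply, _root_.mul_inv_rev, Units.val_mul, Units.val_mul, transpose_mul]
    simp

theorem dd_coe (g : GL (Fin m) F) : (dd g).1 = fromBlocks g.1 0 0 (g⁻¹).1.transpose := rfl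

theorem dd_form (g : GL (Fin m) F) (v : Fin m ⊕ Fin m → F) :
    ∑ i, ((dd g).1 *ᵥ v) (Sum.inl i) * ((dd g).1 *ᵥ v) (Sum.inr i) = ∑ i, v (Sum.inl i) * v (Sum.inr i) := by
  have h1 : ∀ i, ((dd g).1 *ᵥ v) (Sum.inl i) = (g.1 *ᵥ (v ∘ Sum.inl)) i := by
    intro i
    rw [dd_coe, fromBlocks_mulVec]
    simp
  have h2 : ∀ i, ((dd g).1 *ᵥ v) (Sum.inr i) = ((g⁻¹).1.transpose *ᵥ (v ∘ Sum.inr)) i := by
    intro i
    rw [dd_coe, fromBlocks_mulVec]
    simp
  simp only [h1, h2]
  show (g.1 *ᵥ (v ∘ Sum.inl)) ⬝ᵥ ((g⁻¹).1.transpose *ᵥ (v ∘ Sum.inr)) = (v ∘ Sum.inl) ⬝ᵥ (v ∘ Sum.inr)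
  rw [dotProduct_mulVec, vecMul_transpose, mulVec_mulVec]
  have h3 : (g⁻¹).1 * g.1 = 1 := g.inv_mul
  rw [h3, one_mulVec]

theorem plus_mem (g : GL (Fin m) F) : dd g ∈ Cfsg.isometryGroup F ⇑(QP m F) := by
  intro u v
  change QP m F ((dd g).1 *ᵥ u) = QP m F u
  rw [QP_apply, QP_apply]
  exact dd_form g u

noncomputable def toPlus : GL (Fin m) F →* Cfsg.isometryGroup F ⇑(QP m F) := dd.codRestrict _ plus_mem

noncomputable def phi : GL (Fin m) F →* O (QP m F) := (isometryGroupEquiv (QP m F)).toMonoidHom.comp toPlus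

theorem phi_apply (g : GL (Fin m) F) (v : Fin m ⊕ Fin m → F) : (phi g).1 v = (dd g).1 *ᵥ v :=
  isometryGroupEquiv_apply (QP m F) (toPlus g) v

theorem hpol (u v : Fin m ⊕ Fin m → F) : QuadraticMap.polarBilin (QP m F) u v = ∑ i, (u (.inl i) * v (.inr i) + v (.inl i) * u (.inr i)) := by
  rw [QuadraticMap.polarBilin_apply_apply, QuadraticMap.polar, QP_apply, QP_apply, QP_apply]
  simp only [quadFormPlus, Pi.add_apply]
  rw [← Finset.sum_sub_distrib, ← Finset.sum_sub_distrib]
  exact Finset.sum_congr rfl fun i _ => by ring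

theorem diag_R [Finite F] (h2 : (2 : F) ≠ 0) (i : Fin m) (d : Fˣ) :
    R (QP_nondegenerate (F := F) m) (phi (CfsgLib.LinearGL.diagOne i d)) 2 d := by
  have hq : ∀ c : F, QP m F (Pi.single (.inl i) 1 - c • Pi.single (.inr i) 1) = -c := by
    intro c
    rw [QP_apply]
    simp [quadFormPlus, Pi.single_apply]
  have hb : ∀ (c : F) v, QuadraticMap.polarBilin (QP m F) (Pi.single (.inl i) 1 - c • Pi.single (.inr i) 1) v = v (.inr i) - c * v (.inl i) := by
    intro c v
    rw [LinearMap.map_sub, LinearMap.map_smul, LinearMap.sub_apply, LinearMap.smul_apply, hpol, hpol]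
    simp [Pi.single_apply]
  have n1 : QP m F (Pi.single (.inl i) 1 - (1 : F) • Pi.single (.inr i) 1) ≠ 0 := by rw [hq]; exact neg_ne_zero.2 one_ne_zero
  have nd : QP m F (Pi.single (.inl i) 1 - (d : F) • Pi.single (.inr i) 1) ≠ 0 := by rw [hq]; exact neg_ne_zero.2 d.ne_zero
  have e : phi (CfsgLib.LinearGL.diagOne i d) = reflO n1 * reflO nd := by
    apply O_ext
    intro v
    rw [phi_apply]
    change _ = (reflO n1).1 ((reflO nd).1 v)
    rw [reflO_apply, reflO_apply, hq, hq, hb, hb]
    have hd : (d : F) ≠ 0 := d.ne_zero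
    have hinv : ((CfsgLib.LinearGL.diagOne i d)⁻¹).1 = diagonal (Function.update (1 : Fin m → F) i (d⁻¹ : Fˣ)) := by
      have : (CfsgLib.LinearGL.diagOne i d)⁻¹ = CfsgLib.LinearGL.diagOne (F := F) i d⁻¹ := by
        rw [inv_eq_iff_mul_eq_one]
        apply Units.ext
        change diagonal (Function.update (1 : Fin m → F) i d) * diagonal (Function.update (1 : Fin m → F) i (d⁻¹ : Fˣ)) = 1
        rw [diagonal_mul_diagonal, ← diagonal_one]
        congr 1
        ext k
        by_cases hk : k = i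
        · subst hk; simp
        · simp [Function.update_of_ne hk]
      rw [this]; rfl
    ext k
    rcases k with k | k
    · rw [dd_coe, fromBlocks_mulVec, CfsgLib.LinearGL.diagOne_coe]
      by_cases hk : k = i
      · subst hk
        simp [mulVec_diagonal, Pi.single_apply]
        field_simp
        ring
      · simp [mulVec_diagonal, Pi.single_apply, hk, Function.update_of_ne hk]
    · rw [dd_coe, fromBlocks_mulVec, hinv]
      by_cases hk : k = i
      · subst hk
        simp [mulVec_diagonal, Pi.single_apply]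
        field_simp
        ring
      · simp [mulVec_diagonal, Pi.single_apply, hk, Function.update_of_ne hk]
  have := R_mul (R_refl (hQ := QP_nondegenerate (F := F) m) h2 n1) (R_refl (hQ := QP_nondegenerate (F := F) m) h2 nd)
  rw [hq, hq, neg_mul_neg, one_mul] at this
  rw [e]
  exact this

/-- For the hyperbolic quadratic form Σ x_i y_i on F^(2m) (F finite, m ≥ 1, excluding m = 2 over the field of two elements) and an invertible m × m matrix A, the block-diagonal isometry diag(A, (A⁻¹)ᵀ), which stabilises the two maximal totally singular subspaces x = 0 and y = 0, lies in Ω⁺_2m(F) (the commutator subgroup of the orthogonal group) if and only if det A is a square in F. -/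
theorem result {F : Type*} [Field F] [Fintype F] {m : ℕ} (hm : 1 ≤ m) (h : Fintype.card F ≠ 2 ∨ m ≠ 2) (A : GL (Fin m) F) : (∃ g : ↥(Cfsg.isometryGroup F (Cfsg.quadFormPlus m F)), g ∈ Cfsg.Omega F (Cfsg.quadFormPlus m F) ∧ ((g : Matrix.GeneralLinearGroup (Fin m ⊕ Fin m) F) : Matrix (Fin m ⊕ Fin m) (Fin m ⊕ Fin m) F) = Matrix.fromBlocks (A : Matrix (Fin m) (Fin m) F) 0 0 ((A : Matrix (Fin m) (Fin m) F)⁻¹).transpose) ↔ IsSquare (A : Matrix (Fin m) (Fin m) F).det := by
  have hQe : (Cfsg.quadFormPlus m F) = ⇑(QP m F) := funext fun v => (QP_apply m v).symm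
  rw [hQe]
  have hinvA : ((A : Matrix (Fin m) (Fin m) F)⁻¹) = (A⁻¹).1 := (GeneralLinearGroup.coe_inv A).symm
  rw [hinvA]
  rw [mat_mem (fromBlocks (A : Matrix (Fin m) (Fin m) F) 0 0 ((A⁻¹).1).transpose) (phi A) (fun v => (phi_apply A v).symm)]
  have hcom := CfsgLib.LinearGL.commutator_GL_eq_ker_det (F := F) (ι := Fin m) (by
    intro hm2
    rw [Fintype.card_fin] at hm2
    have h3 : Fintype.card F ≠ 2 := h.resolve_right (fun h' => h' hm2)
    by_contra hcon
    push Not at hcon
    classical
    have h1 : (Finset.univ : Finset F) ⊆ {0, 1} := by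
      intro a _
      by_cases ha : a = 0
      · simp [ha]
      · simp [hcon a ha]
    have h2 := Finset.card_le_card h1
    have h4 := Finset.card_le_two (a := (0 : F)) (b := 1)
    rw [Finset.card_univ] at h2
    have h5 : 1 < Fintype.card F := Fintype.one_lt_card
    omega)
  let i0 : Fin m := ⟨0, hm⟩
  let d : Fˣ := Matrix.GeneralLinearGroup.det A
  have hker : ∀ (T : Type) [CommGroup T] (ψ : GL (Fin m) F →* T), ψ A = ψ (CfsgLib.LinearGL.diagOne i0 d) := by
    intro T _ ψ
    have h1 : A * (CfsgLib.LinearGL.diagOne i0 d)⁻¹ ∈ commutator (GL (Fin m) F) := by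
      rw [hcom, MonoidHom.mem_ker, _root_.map_mul, _root_.map_inv, CfsgLib.LinearGL.det_diagOne, mul_inv_cancel]
    have h3 := Abelianization.commutator_subset_ker ψ h1
    rw [MonoidHom.mem_ker, _root_.map_mul, _root_.map_inv, mul_inv_eq_one] at h3
    exact h3
  have hfr : finrank F (Fin m ⊕ Fin m → F) = 2 * m := finrank_QP m
  by_cases h2 : (2 : F) = 0
  · have hsq : ∀ x : F, IsSquare x := by
      intro x
      have hch : CharP F 2 := CharTwo.of_one_ne_zero_of_two_eq_zero one_ne_zero h2
      exact FiniteField.isSquare_of_char_two (F := F) (ringChar.eq F 2) x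
    refine ⟨fun _ => hsq _, fun _ => ?_⟩
    rw [commutator_eq_ker_dick h2 (QP_nondegenerate (F := F) m) (by
      rcases h with h | h
      · left
        by_contra hcon
        push Not at hcon
        classical
        have h1 : (Finset.univ : Finset F) ⊆ {0, 1} := by
          intro a _
          by_cases ha : a = 0
          · simp [ha]
          · simp [hcon a ha]
        have h2 := Finset.card_le_card h1
        have h4 := Finset.card_le_two (a := (0 : F)) (b := 1)
        rw [Finset.card_univ] at h2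
        have h5 : 1 < Fintype.card F := Fintype.one_lt_card
        omega
      · right
        rw [hfr]; omega), MonoidHom.mem_ker]
    have h3 := hker ℤˣ ((dick (QP_nondegenerate (F := F) m)).comp phi)
    obtain ⟨s, hs⟩ := hsq (d : F)
    have hs0 : s ≠ 0 := by rintro rfl; exact d.ne_zero (by rw [hs, mul_zero])
    have hd2 : CfsgLib.LinearGL.diagOne i0 d = CfsgLib.LinearGL.diagOne i0 (Units.mk0 s hs0) * CfsgLib.LinearGL.diagOne i0 (Units.mk0 s hs0) := by
      apply Units.ext
      change diagonal (Function.update (1 : Fin m → F) i0 d) = diagonal (Function.update (1 : Fin m → F) i0 s) * diagonal (Function.update (1 : Fin m → F) i0 s)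
      rw [diagonal_mul_diagonal]
      congr 1
      ext k
      by_cases hk : k = i0
      · subst hk; simp [hs]
      · simp [Function.update_of_ne hk]
    rw [hd2, _root_.map_mul] at h3
    have h4 : ∀ z : ℤˣ, z * z = 1 := by decide
    rw [h4] at h3
    exact h3
  · have hR := diag_R h2 i0 d
    have hd : (d : F) = (A : Matrix (Fin m) (Fin m) F).det := rfl
    rw [← hd, ← and_iff_right (a := Even 2) (b := IsSquare (d : F)) even_two, ← R_mem h2 (by rw [hfr]; omega) hR,
      commutator_eq_ker_chiO h2 (QP_nondegenerate (F := F) m) (by rw [hfr]; omega) 1 one_ne_zero, MonoidHom.mem_ker, MonoidHom.mem_ker]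
    have h3 := hker (ℤˣ × ℤˣ) ((chiO (QP_nondegenerate (F := F) m) 1).comp phi)
    change chiO (QP_nondegenerate (F := F) m) 1 (phi A) = chiO (QP_nondegenerate (F := F) m) 1 (phi (CfsgLib.LinearGL.diagOne i0 d)) at h3
    rw [h3]

end Cfsg.Agent.S2611
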