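import Cfsg.Statements.S2612
import Cfsg.Agent.S2611

set_option autoImplicit false
open Cfsg

namespace Cfsg.Agent.S2612

open CfsgLib.QSp CfsgLib.Quad Module Matrix Cfsg.Agent.S2611

universe u
variable {F : Type u} [Field F] {m : ℕ}

theorem exists_ne [Fintype F] (h3 : Fintype.card F ≠ 2) : ∃ a : F, a ≠ 0 ∧ a ≠ 1 := by
  by_contra hcon
  push Not at hcon
  classical
  have h1 : (Finset.univ : Finset F) ⊆ {0, 1} := by
    intro a _
    by_cases ha : a = 0
    · simp [ha]
    · simp [hcon a ha]
  have h2 := Finset.card_le_card h1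
  have h4 := Finset.card_le_two (a := (0 : F)) (b := 1)
  rw [Finset.card_univ] at h2
  have h5 : 1 < Fintype.card F := Fintype.one_lt_card
  omega

theorem diag_dick (i : Fin m) (d : Fˣ) :
    dick (QP_nondegenerate (F := F) m) (phi (CfsgLib.LinearGL.diagOne i d)) = 1 := by
  have hq : ∀ c : F, QP m F (Pi.single (.inl i) 1 - c • Pi.single (.inr i) 1) = -c := by
    intro c
    rw [QP_apply]
    simp [quadFormPlus, Pi.single_apply]
  have hb : ∀ (c : F) v, QuadraticMap.polarBilin (QP m F) (Pi.single (.inl i) 1 - c • Pi.single (.inr i) 1) v = v (.inr i) - c * v (.inl i) := by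
    intro c v
    rw [LinearMap.map_sub, LinearMap.map_smul, LinearMap.sub_apply, LinearMap.smul_apply, hpol, hpol]
    simp [Pi.single_apply]
  have n1 : QP m F (Pi.single (.inl i) 1 - (1 : F) • Pi.single (.inr i) 1) ≠ 0 := by rw [hq]; exact neg_ne_zero.2 one_ne_zero
  have nd : QP m F (Pi.single (.inl i) 1 - (d : F) • Pi.single (.inr i) 1) ≠ 0 := by rw [hq]; exact neg_ne_zero.2 d.ne_zero
  have e : phi (CfsgLib.LinearGL.diagOne i d) = reflO n1 * reflO nd := by
    apply O_ext
    intro v
    rw [phi_apply]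
    change _ = (reflO n1).1 ((reflO nd).1 v)
    rw [reflO_apply, reflO_apply, hq, hq, hb, hb]
    have hd : (d : F) ≠ 0 := d.ne_zero
    have hinv : ((CfsgLib.LinearGL.diagOne i d)⁻¹).1 = diagonal (Function.update (1 : Fin m → F) i (d⁻¹ : Fˣ)) := by
      have : (CfsgLib.LinearGL.diagOne i d)⁻¹ = CfsgLib.LinearGL.diagOne (F := F) i d⁻¹ := by
        rw [inv_eq_iff_mul_eq_one]
        apply Units.ext
        change diagonal (Function.update (1 : Fin m → F) i d) * diagonal (Function.update (1 : Fin m → F) i (d⁻¹ : Fˣ)) = 1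
        rw [diagonal_mul_diagonal, ← diagonal_one]
        congr 1
        ext k
        by_cases hk : k = i
        · subst hk; simp
        · simp [Function.update_of_ne hk]
      rw [this]; rfl
    ext k
    rcases k with k | k
    · rw [dd_coe, fromBlocks_mulVec, CfsgLib.LinearGL.diagOne_coe]
      by_cases hk : k = i
      · subst hk
        simp [mulVec_diagonal, Pi.single_apply]
        field_simp
        ring
      · simp [mulVec_diagonal, Pi.single_apply, hk, Function.update_of_ne hk]
    · rw [dd_coe, fromBlocks_mulVec, hinv]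
      by_cases hk : k = i
      · subst hk
        simp [mulVec_diagonal, Pi.single_apply]
        field_simp
        ring
      · simp [mulVec_diagonal, Pi.single_apply, hk, Function.update_of_ne hk]
  rw [e, _root_.map_mul, dick_reflO, dick_reflO]; rfl

theorem dick_phi [Fintype F] (hm : 1 ≤ m) (h : Fintype.card F ≠ 2 ∨ m ≠ 2) (A : GL (Fin m) F) : dick (QP_nondegenerate (F := F) m) (phi A) = 1 := by
  have hcom := CfsgLib.LinearGL.commutator_GL_eq_ker_det (F := F) (ι := Fin m) (by
    intro hm2
    rw [Fintype.card_fin] at hm2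
    exact exists_ne (h.resolve_right (fun h' => h' hm2)))
  let i0 : Fin m := ⟨0, hm⟩
  let d : Fˣ := Matrix.GeneralLinearGroup.det A
  have hker : ∀ (T : Type) [CommGroup T] (ψ : GL (Fin m) F →* T), ψ A = ψ (CfsgLib.LinearGL.diagOne i0 d) := by
    intro T _ ψ
    have h1 : A * (CfsgLib.LinearGL.diagOne i0 d)⁻¹ ∈ commutator (GL (Fin m) F) := by
      rw [hcom, MonoidHom.mem_ker, _root_.map_mul, _root_.map_inv, CfsgLib.LinearGL.det_diagOne, mul_inv_cancel]
    have h3 := Abelianization.commutator_subset_ker ψ h1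
    rw [MonoidHom.mem_ker, _root_.map_mul, _root_.map_inv, mul_inv_eq_one] at h3
    exact h3
  exact (hker ℤˣ ((dick (QP_nondegenerate (F := F) m)).comp phi)).trans (diag_dick i0 d)

theorem swap_ind [Finite F] : ∀ i ≤ m, ∃ h : O (QP m F), dick (QP_nondegenerate (F := F) m) h = (-1) ^ i ∧
    ((2 : F) ≠ 0 → R (QP_nondegenerate (F := F) m) h i ((-1) ^ i)) ∧
    ∀ v k, h.1 v k = if (Sum.elim (fun j : Fin m => (j : ℕ)) (fun j : Fin m => (j : ℕ)) k) < i then v k.swap else v k := by
  intro i
  induction i with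
  | zero =>
    intro _
    exact ⟨1, by rw [_root_.map_one, pow_zero], fun _ => by rw [pow_zero]; exact R_one, fun v k => by rw [if_neg (Nat.not_lt_zero _)]; rfl⟩
  | succ i ih =>
    intro hi
    obtain ⟨h, hd, hR, hh⟩ := ih (by omega)
    let j : Fin m := ⟨i, by omega⟩
    have hq : QP m F (Pi.single (.inl j) 1 - Pi.single (.inr j) 1) = -1 := by
      rw [QP_apply]
      simp [quadFormPlus, Pi.single_apply]
    have hb : ∀ v, QuadraticMap.polarBilin (QP m F) (Pi.single (.inl j) 1 - Pi.single (.inr j) 1) v = v (.inr j) - v (.inl j) := by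
      intro v
      rw [LinearMap.map_sub, LinearMap.sub_apply, hpol, hpol]
      simp [Pi.single_apply]
    have n1 : QP m F (Pi.single (.inl j) 1 - Pi.single (.inr j) 1) ≠ 0 := by rw [hq]; exact neg_ne_zero.2 one_ne_zero
    refine ⟨h * reflO n1, ?_, fun h2 => ?_, fun v k => ?_⟩
    · rw [_root_.map_mul, hd, dick_reflO, pow_succ]
    · have := R_mul (hR h2) (R_refl (hQ := QP_nondegenerate (F := F) m) h2 n1)
      rw [hq] at this
      rwa [← pow_succ] at this
    · change h.1 ((reflO n1).1 v) k = _
      have hg : ∀ k, (reflO n1).1 v k = if (Sum.elim (fun j : Fin m => (j : ℕ)) (fun j : Fin m => (j : ℕ)) k) = i then v k.swap else v k := by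
        intro k
        rw [reflO_apply, hq, hb]
        have hinv : (-1 : F)⁻¹ = -1 := by rw [inv_neg, inv_one]
        rw [hinv]
        simp only [Pi.sub_apply, Pi.smul_apply, smul_eq_mul]
        rcases k with k | k
        · by_cases hk : k = j
          · subst hk
            rw [if_pos (by rfl)]
            simp
          · have hne : ¬ ((k : ℕ) = i) := fun h' => hk (Fin.ext h')
            simp [Pi.single_apply, hk, hne]
        · by_cases hk : k = j
          · subst hk
            rw [if_pos (by rfl)]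
            simp
          · have hne : ¬ ((k : ℕ) = i) := fun h' => hk (Fin.ext h')
            simp [Pi.single_apply, hk, hne]
      have hsw : ∀ k : Fin m ⊕ Fin m, Sum.elim (fun j : Fin m => (j : ℕ)) (fun j : Fin m => (j : ℕ)) k.swap = Sum.elim (fun j : Fin m => (j : ℕ)) (fun j : Fin m => (j : ℕ)) k := by
        rintro (k | k) <;> rfl
      rw [hh, hg, hg, hsw]
      generalize Sum.elim (fun j : Fin m => (j : ℕ)) (fun j : Fin m => (j : ℕ)) k = l
      by_cases h3 : l < i
      · rw [if_pos h3, if_neg h3.ne, if_pos (by omega)]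
      · rw [if_neg h3]
        by_cases h4 : l = i
        · rw [if_pos h4, if_pos (by omega)]
        · rw [if_neg h4, if_neg (by omega)]

theorem swap [Finite F] : ∃ h : O (QP m F), dick (QP_nondegenerate (F := F) m) h = (-1) ^ m ∧
    ((2 : F) ≠ 0 → R (QP_nondegenerate (F := F) m) h m ((-1) ^ m)) ∧ ∀ v k, h.1 v k = v k.swap := by
  obtain ⟨h, h1, h2, h3⟩ := swap_ind (F := F) (m := m) m le_rfl
  refine ⟨h, h1, h2, fun v k => ?_⟩
  rw [h3, if_pos]
  rcases k with k | k
  · exact k.2
  · exact k.2

/-- isometries preserving both maximal subspaces. -/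
theorem eq_phi (h : O (QP m F)) (h1 : ∀ j i, h.1 (Pi.single (.inl j) 1) (.inr i) = 0) (h2 : ∀ j i, h.1 (Pi.single (.inr j) 1) (.inl i) = 0) :
    ∃ A, h = phi A := by
  let A : Matrix (Fin m) (Fin m) F := Matrix.of fun i j => h.1 (Pi.single (.inl j) 1) (.inl i)
  let D : Matrix (Fin m) (Fin m) F := Matrix.of fun i j => h.1 (Pi.single (.inr j) 1) (.inr i)
  have hAD : A.transpose * D = 1 := by
    ext j k
    have h3 : QuadraticMap.polarBilin (QP m F) (h.1 (Pi.single (.inl j) 1)) (h.1 (Pi.single (.inr k) 1)) = QuadraticMap.polarBilin (QP m F) (Pi.single (.inl j) 1) (Pi.single (.inr k) 1) := polar_coe (QP m F) h _ _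
    rw [hpol, hpol] at h3
    simp only [h1, h2, mul_zero, add_zero] at h3
    rw [Matrix.mul_apply]
    refine Eq.trans h3 ?_
    simp [Pi.single_apply, Matrix.one_apply, eq_comm]
  have hDA : D.transpose * A = 1 := by
    have := congrArg Matrix.transpose hAD
    rwa [transpose_mul, transpose_transpose, transpose_one] at this
  let A' : GL (Fin m) F := ⟨A, D.transpose, mul_eq_one_comm.1 hDA, hDA⟩
  refine ⟨A', ?_⟩
  apply O_ext
  intro v
  rw [phi_apply, dd_coe]
  have e1 : ((A'⁻¹).1).transpose = D := transpose_transpose D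
  rw [e1]
  change (h.1 : (Fin m ⊕ Fin m → F) →ₗ[F] (Fin m ⊕ Fin m → F)) v = Matrix.toLin' (fromBlocks A 0 0 D) v
  congr 1
  apply (Pi.basisFun F (Fin m ⊕ Fin m)).ext
  intro k
  rw [Pi.basisFun_apply, Matrix.toLin'_apply, mulVec_single_one]
  ext l
  rcases k with k | k <;> rcases l with l | l
  · rfl
  · exact h1 k l
  · exact h2 k l
  · rfl

/-- For the hyperbolic quadratic form Σ x_i y_i on F^(2m) (F finite, m ≥ 1, excluding m = 2 over the field of two elements), Ω⁺_2m(F) (the commutator subgroup of the orthogonal group) contains an element interchanging the two complementary maximal totally singular subspaces {y = 0} and {x = 0} if and only if m is even (dimension divisible by 4). -/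
theorem result {F : Type*} [Field F] [Fintype F] {m : ℕ} (hm : 1 ≤ m) (h : Fintype.card F ≠ 2 ∨ m ≠ 2) : (∃ g : ↥(Cfsg.isometryGroup F (Cfsg.quadFormPlus m F)), g ∈ Cfsg.Omega F (Cfsg.quadFormPlus m F) ∧ (∀ v : Fin m ⊕ Fin m → F, (∀ i, v (Sum.inr i) = 0) → ∀ i, (((g : Matrix.GeneralLinearGroup (Fin m ⊕ Fin m) F) : Matrix (Fin m ⊕ Fin m) (Fin m ⊕ Fin m) F).mulVec v) (Sum.inl i) = 0) ∧ (∀ v : Fin m ⊕ Fin m → F, (∀ i, v (Sum.inl i) = 0) → ∀ i, (((g : Matrix.GeneralLinearGroup (Fin m ⊕ Fin m) F) : Matrix (Fin m ⊕ Fin m) (Fin m ⊕ Fin m) F).mulVec v) (Sum.inr i) = 0)) ↔ Even m := by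
  have hQe : (Cfsg.quadFormPlus m F) = ⇑(QP m F) := funext fun v => (QP_apply m v).symm
  have hfr : finrank F (Fin m ⊕ Fin m → F) = 2 * m := finrank_QP m
  obtain ⟨s, hs1, hs2, hs3⟩ := swap (F := F) (m := m)
  rw [hQe]
  constructor
  · rintro ⟨g, hg, hg1, hg2⟩
    have hgO : isometryGroupEquiv (QP m F) g ∈ commutator (O (QP m F)) := (mem_commutator_congr (isometryGroupEquiv (QP m F)) g).2 hg
    have hap : ∀ v, (isometryGroupEquiv (QP m F) g).1 v = ((g : GL (Fin m ⊕ Fin m) F) : Matrix (Fin m ⊕ Fin m) (Fin m ⊕ Fin m) F) *ᵥ v := isometryGroupEquiv_apply (QP m F) g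
    obtain ⟨A, hA⟩ := eq_phi (s * isometryGroupEquiv (QP m F) g) (fun j i => by
      change s.1 ((isometryGroupEquiv (QP m F) g).1 _) _ = 0
      rw [hs3, hap]
      exact hg1 _ (fun k => by simp) i) (fun j i => by
      change s.1 ((isometryGroupEquiv (QP m F) g).1 _) _ = 0
      rw [hs3, hap]
      exact hg2 _ (fun k => by simp) i)
    have h4 := congrArg (dick (QP_nondegenerate (F := F) m)) hA
    have h5 : dick (QP_nondegenerate (F := F) m) (isometryGroupEquiv (QP m F) g) = 1 := Abelianization.commutator_subset_ker (dick (QP_nondegenerate (F := F) m)) hgO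
    rw [_root_.map_mul, h5, hs1, dick_phi hm h, mul_one] at h4
    by_contra hodd
    rw [Nat.not_even_iff_odd] at hodd
    rw [hodd.neg_one_pow] at h4
    exact absurd h4 (by decide)
  · intro he
    have hsO : s ∈ commutator (O (QP m F)) := by
      by_cases h2 : (2 : F) = 0
      · rw [commutator_eq_ker_dick h2 (QP_nondegenerate (F := F) m) (by
          rcases h with h | h
          · exact Or.inl (exists_ne h)
          · right
            rw [hfr]; omega), MonoidHom.mem_ker, hs1, he.neg_one_pow]
      · rw [R_mem h2 (by rw [hfr]; omega) (hs2 h2), he.neg_one_pow]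
        exact ⟨he, ⟨1, (one_mul 1).symm⟩⟩
    refine ⟨(isometryGroupEquiv (QP m F)).symm s, ?_, fun v hv i => ?_, fun v hv i => ?_⟩
    · have := mem_commutator_congr (isometryGroupEquiv (QP m F)) ((isometryGroupEquiv (QP m F)).symm s)
      rw [MulEquiv.apply_symm_apply] at this
      exact this.1 hsO
    · have h6 := isometryGroupEquiv_apply (QP m F) ((isometryGroupEquiv (QP m F)).symm s) v
      rw [MulEquiv.apply_symm_apply] at h6
      rw [← h6, hs3]
      exact hv i
    · have h6 := isometryGroupEquiv_apply (QP m F) ((isometryGroupEquiv (QP m F)).symm s) v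
      rw [MulEquiv.apply_symm_apply] at h6
      rw [← h6, hs3]
      exact hv i

end Cfsg.Agent.S2612
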