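import Cfsg.Statements.S2613
import Cfsg.Agent.Lib.QSp1

set_option autoImplicit false
open Cfsg

namespace Cfsg.Agent.S2613

open CfsgLib.QSp CfsgLib.Quad Module

/-- For the hyperbolic form Σ x_j y_j on F^(2m), F finite with q elements, q odd, and 1 ≤ i ≤ m: the involution negating the first i hyperbolic pairs (x_j, y_j ↦ −x_j, −y_j for j < i) and fixing the rest lies in Ω⁺_2m(q) (commutator subgroup of the orthogonal group) if and only if q^i ≡ 1 (mod 4); its (−1)-eigenspace is a hyperbolic 2i-space. -/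
theorem result {F : Type*} [Field F] [Fintype F] {q : ℕ} (hF : Fintype.card F = q) (hq : Odd q) {m : ℕ} (i : ℕ) (hi : 1 ≤ i) (him : i ≤ m) : (∃ g : ↥(Cfsg.isometryGroup F (Cfsg.quadFormPlus m F)), g ∈ Cfsg.Omega F (Cfsg.quadFormPlus m F) ∧ ((g : Matrix.GeneralLinearGroup (Fin m ⊕ Fin m) F) : Matrix (Fin m ⊕ Fin m) (Fin m ⊕ Fin m) F) = Matrix.diagonal (fun k : Fin m ⊕ Fin m => if (Sum.elim (fun j : Fin m => (j : ℕ)) (fun j : Fin m => (j : ℕ)) k) < i then (-1 : F) else 1)) ↔ q ^ i % 4 = 1 := by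
  have h2 : (2 : F) ≠ 0 := by
    intro h
    have h3 := FiniteField.even_card_of_char_two (F := F) (by
      have : CharP F 2 := CharTwo.of_one_ne_zero_of_two_eq_zero one_ne_zero h
      exact ringChar.eq F 2)
    rw [hF] at h3
    exact (Nat.not_even_iff_odd.2 hq) (Nat.even_iff.2 h3)
  have hQe : (Cfsg.quadFormPlus m F) = ⇑(QP m F) := funext fun v => (QP_apply m v).symm
  have hpol : ∀ u v : Fin m ⊕ Fin m → F, QuadraticMap.polarBilin (QP m F) u v = ∑ i, (u (.inl i) * v (.inr i) + v (.inl i) * u (.inr i)) := by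
    intro u v
    rw [QuadraticMap.polarBilin_apply_apply, QuadraticMap.polar, QP_apply, QP_apply, QP_apply]
    simp only [quadFormPlus, Pi.add_apply]
    rw [← Finset.sum_sub_distrib, ← Finset.sum_sub_distrib]
    exact Finset.sum_congr rfl fun i _ => by ring
  obtain ⟨h, hR, hh⟩ := neg_ind h2 (QP_nondegenerate (F := F) m) m (fun j => .inl j) (fun j => .inr j)
    (Sum.elim (fun j : Fin m => (j : ℕ)) (fun j : Fin m => (j : ℕ))) (fun j => by simp) (fun k j => by
      rcases k with k | k
      · simp [Fin.ext_iff]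
      · simp [Fin.ext_iff]) (fun j => by rw [QP_apply]; simp [quadFormPlus, Pi.single_apply])
    (fun j => by rw [QP_apply]; simp [quadFormPlus, Pi.single_apply])
    (fun j v => by rw [hpol]; simp [Pi.single_apply]) (fun j v => by rw [hpol]; simp [Pi.single_apply]) i him
  rw [hQe]
  rw [mat_mem _ h (fun v => by
    ext k
    rw [Matrix.mulVec_diagonal, hh]
    split_ifs <;> ring), R_mem h2 (by rw [finrank_QP]; omega) hR, ← neg_one_pow_sq hF hq]
  exact ⟨fun h => h.2, fun h => ⟨even_two_mul i, h⟩⟩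

end Cfsg.Agent.S2613
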