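import Cfsg.Statements.S2614
import Cfsg.Agent.Lib.QSp1

set_option autoImplicit false
open Cfsg

namespace Cfsg.Agent.S2614

open CfsgLib.QSp CfsgLib.Quad Module

universe u
variable {F : Type u} [Field F]

noncomputable def QOd (m : ℕ) (F : Type u) [Field F] : QuadraticForm F (Unit ⊕ (Fin m ⊕ Fin m) → F) :=
  (hypSum m (sqQ F)).comp (eOdd m F).toLinearMap

theorem QOd_apply (m : ℕ) (v : Unit ⊕ (Fin m ⊕ Fin m) → F) : QOd m F v = quadFormOdd m F v := eOdd_apply m v

theorem QOd_nondeg (h2 : (2 : F) ≠ 0) (m : ℕ) : (QuadraticMap.polarBilin (QOd m F)).Nondegenerate :=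
  nondegenerate_congr (eOdd m F).symm (Q := hypSum m (sqQ F)) (fun u => by
    change hypSum m (sqQ F) ((eOdd m F) ((eOdd m F).symm u)) = _
    rw [LinearEquiv.apply_symm_apply]) (hypSum_nondegenerate m (sqQ_nondegenerate h2))

/-- For the form x_0² + Σ x_j y_j on F^(2m+1), F finite with q elements, q odd, and 1 ≤ i ≤ m: the involution of determinant one negating the first i hyperbolic pairs (and fixing x_0 and the other pairs) lies in Ω_(2m+1)(q) (commutator subgroup of the orthogonal group) if and only if q^i ≡ 1 (mod 4); its (−1)-eigenspace is a hyperbolic 2i-space. -/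
theorem result {F : Type*} [Field F] [Fintype F] {q : ℕ} (hF : Fintype.card F = q) (hq : Odd q) {m : ℕ} (i : ℕ) (hi : 1 ≤ i) (him : i ≤ m) : (∃ g : ↥(Cfsg.isometryGroup F (Cfsg.quadFormOdd m F)), g ∈ Cfsg.Omega F (Cfsg.quadFormOdd m F) ∧ ((g : Matrix.GeneralLinearGroup (Unit ⊕ (Fin m ⊕ Fin m)) F) : Matrix (Unit ⊕ (Fin m ⊕ Fin m)) (Unit ⊕ (Fin m ⊕ Fin m)) F) = Matrix.diagonal (fun k : Unit ⊕ (Fin m ⊕ Fin m) => if (Sum.elim (fun _ : Unit => i) (Sum.elim (fun j : Fin m => (j : ℕ)) (fun j : Fin m => (j : ℕ))) k) < i then (-1 : F) else 1)) ↔ q ^ i % 4 = 1 := by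
  have h2 : (2 : F) ≠ 0 := by
    intro h
    have h3 := FiniteField.even_card_of_char_two (F := F) (by
      have : CharP F 2 := CharTwo.of_one_ne_zero_of_two_eq_zero one_ne_zero h
      exact ringChar.eq F 2)
    rw [hF] at h3
    exact (Nat.not_even_iff_odd.2 hq) (Nat.even_iff.2 h3)
  have hQe : (Cfsg.quadFormOdd m F) = ⇑(QOd m F) := funext fun v => (QOd_apply m v).symm
  have hpol : ∀ u v : Unit ⊕ (Fin m ⊕ Fin m) → F, QuadraticMap.polarBilin (QOd m F) u v =
      2 * u (.inl ()) * v (.inl ()) + ∑ i, (u (.inr (.inl i)) * v (.inr (.inr i)) + v (.inr (.inl i)) * u (.inr (.inr i))) := by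
    intro u v
    rw [QuadraticMap.polarBilin_apply_apply, QuadraticMap.polar, QOd_apply, QOd_apply, QOd_apply]
    simp only [quadFormOdd, Pi.add_apply]
    have : ∑ i, (u (.inr (.inl i)) * v (.inr (.inr i)) + v (.inr (.inl i)) * u (.inr (.inr i))) =
      ∑ i, (u (.inr (.inl i)) + v (.inr (.inl i))) * (u (.inr (.inr i)) + v (.inr (.inr i))) - ∑ i, u (.inr (.inl i)) * u (.inr (.inr i)) - ∑ i, v (.inr (.inl i)) * v (.inr (.inr i)) := by
      rw [← Finset.sum_sub_distrib, ← Finset.sum_sub_distrib]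
      exact Finset.sum_congr rfl fun i _ => by ring
    rw [this]; ring
  obtain ⟨h, hR, hh⟩ := neg_ind h2 (QOd_nondeg h2 m) m (fun j => .inr (.inl j)) (fun j => .inr (.inr j))
    (Sum.elim (fun _ : Unit => m) (Sum.elim (fun j : Fin m => (j : ℕ)) (fun j : Fin m => (j : ℕ)))) (fun j => by simp) (fun k j => by
      rcases k with k | k | k
      · simp; omega
      · simp [Fin.ext_iff]
      · simp [Fin.ext_iff]) (fun j => by rw [QOd_apply]; simp [quadFormOdd, Pi.single_apply])
    (fun j => by rw [QOd_apply]; simp [quadFormOdd, Pi.single_apply])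
    (fun j v => by rw [hpol]; simp [Pi.single_apply]) (fun j v => by rw [hpol]; simp [Pi.single_apply]) i him
  rw [hQe]
  have hl : ∀ k : Unit ⊕ (Fin m ⊕ Fin m), (Sum.elim (fun _ : Unit => i) (Sum.elim (fun j : Fin m => (j : ℕ)) (fun j : Fin m => (j : ℕ))) k) < i ↔
      (Sum.elim (fun _ : Unit => m) (Sum.elim (fun j : Fin m => (j : ℕ)) (fun j : Fin m => (j : ℕ))) k) < i := by
    rintro (k | k | k)
    · simp only [Sum.elim_inl]; omega
    · exact Iff.rfl
    · exact Iff.rfl
  rw [mat_mem _ h (fun v => by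
    ext k
    rw [Matrix.mulVec_diagonal, hh]
    by_cases hk : (Sum.elim (fun _ : Unit => i) (Sum.elim (fun j : Fin m => (j : ℕ)) (fun j : Fin m => (j : ℕ))) k) < i
    · rw [if_pos hk, if_pos ((hl k).1 hk)]; ring
    · rw [if_neg hk, if_neg (fun h => hk ((hl k).2 h))]; ring), R_mem h2 (by rw [finrank_fintype_fun_eq_card, Fintype.card_sum, Fintype.card_sum, Fintype.card_fin, Fintype.card_unit]; omega) hR, ← neg_one_pow_sq hF hq]
  exact ⟨fun h => h.2, fun h => ⟨even_two_mul i, h⟩⟩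

end Cfsg.Agent.S2614
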