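import Cfsg.Statements.S2615
import Cfsg.Agent.Lib.QSp1

set_option autoImplicit false
open Cfsg

namespace Cfsg.Agent.S2615

open CfsgLib.QSp CfsgLib.Quad Module

universe u
variable {F : Type u} [Field F]

/-- the minus form as a quadratic form. -/
noncomputable def Qm (n : ℕ) (a b : F) : QuadraticForm F ((Fin n ⊕ Fin n) ⊕ Fin 2 → F) :=
  (hypSum n (binQ a b)).comp (eMinus n a b).toLinearMap

theorem Qm_apply (n : ℕ) (a b : F) (v : (Fin n ⊕ Fin n) ⊕ Fin 2 → F) : Qm n a b v = Cfsg.quadFormMinus n F a b v := eMinus_apply n a b v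

theorem Qm_nondeg [Finite F] (n : ℕ) {a b : F} (hab : Aniso a b) : (QuadraticMap.polarBilin (Qm n a b)).Nondegenerate :=
  nondegenerate_congr (eMinus n a b).symm (Q := hypSum n (binQ a b)) (fun u => by
    change hypSum n (binQ a b) ((eMinus n a b) ((eMinus n a b).symm u)) = _
    rw [LinearEquiv.apply_symm_apply]) (hypSum_nondegenerate n (binQ_nondegenerate hab))

theorem main [Fintype F] {q : ℕ} (hF : Fintype.card F = q) (hq : Odd q) (n : ℕ) (a b : F) (hab : Aniso a b) (i : ℕ) (hi : 1 ≤ i) (him : i ≤ n) :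
    (∃ g : ↥(Cfsg.isometryGroup F (Cfsg.quadFormMinus n F a b)), g ∈ Cfsg.Omega F (Cfsg.quadFormMinus n F a b) ∧ ((g : Matrix.GeneralLinearGroup ((Fin n ⊕ Fin n) ⊕ Fin 2) F) : Matrix ((Fin n ⊕ Fin n) ⊕ Fin 2) ((Fin n ⊕ Fin n) ⊕ Fin 2) F) = Matrix.diagonal (fun k : (Fin n ⊕ Fin n) ⊕ Fin 2 => if (Sum.elim (Sum.elim (fun j : Fin n => (j : ℕ)) (fun j : Fin n => (j : ℕ))) (fun _ : Fin 2 => i) k) < i then (-1 : F) else 1)) ↔ q ^ i % 4 = 1 := by
  have h2 : (2 : F) ≠ 0 := by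
    intro h
    have h3 := FiniteField.even_card_of_char_two (F := F) (by
      have : CharP F 2 := CharTwo.of_one_ne_zero_of_two_eq_zero one_ne_zero h
      exact ringChar.eq F 2)
    rw [hF] at h3
    exact (Nat.not_even_iff_odd.2 hq) (Nat.even_iff.2 h3)
  have hQe : (Cfsg.quadFormMinus n F a b) = ⇑(Qm n a b) := funext fun v => (Qm_apply n a b v).symm
  have hpol : ∀ u v : (Fin n ⊕ Fin n) ⊕ Fin 2 → F, QuadraticMap.polarBilin (Qm n a b) u v =
      ∑ i, (u (.inl (.inl i)) * v (.inl (.inr i)) + v (.inl (.inl i)) * u (.inl (.inr i))) +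
      (2 * u (.inr 0) * v (.inr 0) + a * (u (.inr 0) * v (.inr 1) + v (.inr 0) * u (.inr 1)) + 2 * b * u (.inr 1) * v (.inr 1)) := by
    intro u v
    rw [QuadraticMap.polarBilin_apply_apply, QuadraticMap.polar, Qm_apply, Qm_apply, Qm_apply]
    simp only [quadFormMinus, Pi.add_apply]
    have : ∑ i, (u (.inl (.inl i)) * v (.inl (.inr i)) + v (.inl (.inl i)) * u (.inl (.inr i))) =
      ∑ i, (u (.inl (.inl i)) + v (.inl (.inl i))) * (u (.inl (.inr i)) + v (.inl (.inr i))) - ∑ i, u (.inl (.inl i)) * u (.inl (.inr i)) - ∑ i, v (.inl (.inl i)) * v (.inl (.inr i)) := by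
      rw [← Finset.sum_sub_distrib, ← Finset.sum_sub_distrib]
      exact Finset.sum_congr rfl fun i _ => by ring
    rw [this]; ring
  obtain ⟨h, hR, hh⟩ := neg_ind h2 (Qm_nondeg n hab) n (fun j => .inl (.inl j)) (fun j => .inl (.inr j))
    (Sum.elim (Sum.elim (fun j : Fin n => (j : ℕ)) (fun j : Fin n => (j : ℕ))) (fun _ : Fin 2 => n)) (fun j => by simp) (fun k j => by
      rcases k with (k | k) | k
      · simp [Fin.ext_iff]
      · simp [Fin.ext_iff]
      · simp; omega) (fun j => by rw [Qm_apply]; simp [quadFormMinus, Pi.single_apply])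
    (fun j => by rw [Qm_apply]; simp [quadFormMinus, Pi.single_apply])
    (fun j v => by rw [hpol]; simp [Pi.single_apply]) (fun j v => by rw [hpol]; simp [Pi.single_apply]) i him
  rw [hQe]
  have hl : ∀ k : (Fin n ⊕ Fin n) ⊕ Fin 2, (Sum.elim (Sum.elim (fun j : Fin n => (j : ℕ)) (fun j : Fin n => (j : ℕ))) (fun _ : Fin 2 => i) k) < i ↔
      (Sum.elim (Sum.elim (fun j : Fin n => (j : ℕ)) (fun j : Fin n => (j : ℕ))) (fun _ : Fin 2 => n) k) < i := by
    rintro ((k | k) | k)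
    · exact Iff.rfl
    · exact Iff.rfl
    · simp only [Sum.elim_inr]; omega
  rw [mat_mem _ h (fun v => by
    ext k
    rw [Matrix.mulVec_diagonal, hh]
    by_cases hk : (Sum.elim (Sum.elim (fun j : Fin n => (j : ℕ)) (fun j : Fin n => (j : ℕ))) (fun _ : Fin 2 => i) k) < i
    · rw [if_pos hk, if_pos ((hl k).1 hk)]; ring
    · rw [if_neg hk, if_neg (fun h => hk ((hl k).2 h))]; ring), R_mem h2 (by rw [finrank_fintype_fun_eq_card, Fintype.card_sum, Fintype.card_sum, Fintype.card_fin, Fintype.card_fin]; omega) hR, ← neg_one_pow_sq hF hq]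
  exact ⟨fun h => h.2, fun h => ⟨even_two_mul i, h⟩⟩

/-- For an elliptic form Σ_(j<m−1) x_j y_j + (z₁² + a z₁z₂ + b z₂²) (anisotropic binary part) on F^(2m), F finite with q elements, q odd, and 1 ≤ i ≤ m − 1: the involution negating the first i hyperbolic pairs and fixing the rest lies in Ω⁻_2m(q) (commutator subgroup of the orthogonal group) if and only if q^i ≡ 1 (mod 4). -/
theorem result {F : Type*} [Field F] [Fintype F] {q : ℕ} (hF : Fintype.card F = q) (hq : Odd q) {m : ℕ} (a b : F) (hab : ∀ z₁ z₂ : F, z₁ ^ 2 + a * z₁ * z₂ + b * z₂ ^ 2 = 0 → z₁ = 0 ∧ z₂ = 0) (i : ℕ) (hi : 1 ≤ i) (him : i + 1 ≤ m) : (∃ g : ↥(Cfsg.isometryGroup F (Cfsg.quadFormMinus (m - 1) F a b)), g ∈ Cfsg.Omega F (Cfsg.quadFormMinus (m - 1) F a b) ∧ ((g : Matrix.GeneralLinearGroup ((Fin (m - 1) ⊕ Fin (m - 1)) ⊕ Fin 2) F) : Matrix ((Fin (m - 1) ⊕ Fin (m - 1)) ⊕ Fin 2) ((Fin (m - 1) ⊕ Fin (m - 1)) ⊕ Fin 2) F) = Matrix.diagonal (fun k : (Fin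 (m - 1) ⊕ Fin (m - 1)) ⊕ Fin 2 => if (Sum.elim (Sum.elim (fun j : Fin (m - 1) => (j : ℕ)) (fun j : Fin (m - 1) => (j : ℕ))) (fun _ : Fin 2 => i) k) < i then (-1 : F) else 1)) ↔ q ^ i % 4 = 1 := by
  obtain ⟨n, rfl⟩ : ∃ n, m = n + 1 := ⟨m - 1, by omega⟩
  exact main hF hq n a b hab i hi (by omega)

end Cfsg.Agent.S2615
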