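import Cfsg.Statements.S2616
import Cfsg.Agent.Lib.QCl1

set_option autoImplicit false
open Cfsg

namespace Cfsg.Agent.S2616

open CfsgLib.QCl CfsgLib.Quad

theorem pp {F : Type*} [Field F] (m : ℕ) (u v : Fin m ⊕ Fin m → F) :
    quadFormPlus m F (u + v) - quadFormPlus m F u - quadFormPlus m F v = ∑ i, (u (.inl i) * v (.inr i) + v (.inl i) * u (.inr i)) := by
  simp only [quadFormPlus, Pi.add_apply]
  rw [← Finset.sum_sub_distrib, ← Finset.sum_sub_distrib]
  exact Finset.sum_congr rfl fun i _ => by ring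

theorem pm {F : Type*} [Field F] (m : ℕ) (b : F) (u v : (Fin m ⊕ Fin m) ⊕ Fin 2 → F) :
    quadFormMinus m F 1 b (u + v) - quadFormMinus m F 1 b u - quadFormMinus m F 1 b v =
      ∑ i, (u (.inl (.inl i)) * v (.inl (.inr i)) + v (.inl (.inl i)) * u (.inl (.inr i))) +
        (2 * u (.inr 0) * v (.inr 0) + (u (.inr 0) * v (.inr 1) + v (.inr 0) * u (.inr 1)) + 2 * b * u (.inr 1) * v (.inr 1)) := by
  simp only [quadFormMinus, Pi.add_apply]
  have : ∑ i, (u (.inl (.inl i)) * v (.inl (.inr i)) + v (.inl (.inl i)) * u (.inl (.inr i))) =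
    ∑ i, (u (.inl (.inl i)) + v (.inl (.inl i))) * (u (.inl (.inr i)) + v (.inl (.inr i))) - ∑ i, u (.inl (.inl i)) * u (.inl (.inr i)) - ∑ i, v (.inl (.inl i)) * v (.inl (.inr i)) := by
    rw [← Finset.sum_sub_distrib, ← Finset.sum_sub_distrib]
    exact Finset.sum_congr rfl fun i _ => by ring
  rw [this]; ring

variable {F V : Type*} [Field F] [AddCommGroup V] [Module F V]

theorem polar_eq {ι : Type*} [Fintype ι] [DecidableEq ι] {Q : QuadraticForm F V} {q : (ι → F) → F} (E : V ≃ₗ[F] (ι → F)) (hE : ∀ v, q (E v) = Q v) (i j : ι) :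
    QuadraticMap.polar ⇑Q (Module.Basis.ofEquivFun E i) (Module.Basis.ofEquivFun E j) =
      q (Pi.single i 1 + Pi.single j 1) - q (Pi.single i 1) - q (Pi.single j 1) := by
  rw [QuadraticMap.polar, ← hE, ← hE, ← hE, _root_.map_add, Module.Basis.coe_ofEquivFun]
  simp

theorem val_eq {ι : Type*} [Fintype ι] [DecidableEq ι] {Q : QuadraticForm F V} {q : (ι → F) → F} (E : V ≃ₗ[F] (ι → F)) (hE : ∀ v, q (E v) = Q v) (i : ι) :
    Q (Module.Basis.ofEquivFun E i) = q (Pi.single i 1) := by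
  rw [← hE, Module.Basis.coe_ofEquivFun]
  simp

/-- Standard bases of a non-degenerate quadratic space of even dimension 2m over a finite field: either there is a hyperbolic basis e_i, f_i (Q(e_i) = Q(f_i) = 0, B(e_i, f_j) = δ_ij, the e's pairwise orthogonal and the f's pairwise orthogonal, B the polar form), or there is an elliptic basis: hyperbolic pairs e_i, f_i for i < m − 1 together with x, y orthogonal to them with Q(x) = 1, B(x, y) = 1, Q(y) = ζ where t² + t + ζ has no root in the field. -/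
theorem result {F V : Type*} [Field F] [Finite F] [AddCommGroup V] [Module F V] [FiniteDimensional F V] {m : ℕ} (hm : 1 ≤ m) (hV : Module.finrank F V = 2 * m) (Q : QuadraticForm F V) (hQ : (QuadraticMap.polarBilin Q).Nondegenerate) : (∃ b : Module.Basis (Fin m ⊕ Fin m) F V, (∀ i, Q (b (Sum.inl i)) = 0 ∧ Q (b (Sum.inr i)) = 0) ∧ (∀ i j, QuadraticMap.polar ⇑Q (b (Sum.inl i)) (b (Sum.inr j)) = if i = j then 1 else 0) ∧ (∀ i j, QuadraticMap.polar ⇑Q (b (Sum.inl i)) (b (Sum.inl j)) = 0 ∧ QuadraticMap.polar ⇑Q (b (Sum.inr i)) (b (Sum.inr j)) = 0)) ∨ (∃ (b : Module.Basis ((Fin (m - 1) ⊕ Fin (m - 1)) ⊕ Fin 2) F V) (ζ : F), (∀ t : F, t ^ 2 + t + ζ ≠ 0) ∧ (∀ i, Q (b (Sum.inl (Sum.inl i))) = 0 ∧ Q (b (Sum.inl (Sum.inr i))) = 0) ∧ (∀ i j, QuadraticMap.polar ⇑Q (b (Sum.inl (Sum.inl i))) (b (Sum.inl (Sum.inr j))) = if i = j then 1 else 0) ∧ (∀ i j, QuadraticMap.polar ⇑Q (b (Sum.inl (Sum.inl i))) (b (Sum.inl (Sum.inl j))) = 0 ∧ QuadraticMap.polar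 ⇑Q (b (Sum.inl (Sum.inr i))) (b (Sum.inl (Sum.inr j))) = 0) ∧ (∀ i (k : Fin 2), QuadraticMap.polar ⇑Q (b (Sum.inl (Sum.inl i))) (b (Sum.inr k)) = 0 ∧ QuadraticMap.polar ⇑Q (b (Sum.inl (Sum.inr i))) (b (Sum.inr k)) = 0) ∧ Q (b (Sum.inr 0)) = 1 ∧ QuadraticMap.polar ⇑Q (b (Sum.inr 0)) (b (Sum.inr 1)) = 1 ∧ Q (b (Sum.inr 1)) = ζ) := by
  obtain ⟨k, rfl⟩ : ∃ k, m = k + 1 := ⟨m - 1, by omega⟩
  rcases classify k Q hQ hV with ⟨E, hE⟩ | ⟨b, hb, E, hE⟩
  · left
    refine ⟨Module.Basis.ofEquivFun E, fun i => ⟨?_, ?_⟩, fun i j => ?_, fun i j => ⟨?_, ?_⟩⟩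
    · rw [val_eq E hE]; simp [quadFormPlus, Pi.single_apply]
    · rw [val_eq E hE]; simp [quadFormPlus, Pi.single_apply]
    · rw [polar_eq E hE, pp]; simp [Pi.single_apply, eq_comm (a := i) (b := j)]
    · rw [polar_eq E hE, pp]; simp [Pi.single_apply]
    · rw [polar_eq E hE, pp]; simp [Pi.single_apply]
  · right
    refine ⟨Module.Basis.ofEquivFun E, b, fun t ht => ?_, fun i => ⟨?_, ?_⟩, fun i j => ?_, fun i j => ⟨?_, ?_⟩, fun i k => ⟨?_, ?_⟩, ?_, ?_, ?_⟩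
    · exact one_ne_zero (hb t 1 (by linear_combination ht)).2
    · rw [val_eq E hE]; simp [quadFormMinus, Pi.single_apply]
    · rw [val_eq E hE]; simp [quadFormMinus, Pi.single_apply]
    · rw [polar_eq E hE, pm]; simp [Pi.single_apply, eq_comm (a := i) (b := j)]
    · rw [polar_eq E hE, pm]; simp [Pi.single_apply]
    · rw [polar_eq E hE, pm]; simp [Pi.single_apply]
    · rw [polar_eq E hE, pm]; simp [Pi.single_apply]
    · rw [polar_eq E hE, pm]; simp [Pi.single_apply]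
    · rw [val_eq E hE]; simp [quadFormMinus, Pi.single_apply]
    · rw [polar_eq E hE, pm]; simp [Pi.single_apply]
    · rw [val_eq E hE]; simp [quadFormMinus, Pi.single_apply]

end Cfsg.Agent.S2616
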