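import Cfsg.Statements.S2617
import Cfsg.Agent.Lib.OMG8

set_option autoImplicit false
open Cfsg

namespace Cfsg.Agent.S2617

open CfsgLib.Quad CfsgLib.Omg CfsgLib.Disc

/-- The two standard quadratic forms of even dimension 2m over a finite field are not isometric: there is no linear isomorphism carrying the elliptic form Σ_(i<m−1) x_i y_i + z₁² + z₁z₂ + ζ z₂² (t² + t + ζ without roots) to the hyperbolic form Σ_(i<m) x_i y_i (they have different Witt index). -/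
theorem result {F : Type*} [Field F] [Finite F] {m : ℕ} (hm : 1 ≤ m) (ζ : F) (hζ : ∀ t : F, t ^ 2 + t + ζ ≠ 0) (g : (Fin m ⊕ Fin m → F) ≃ₗ[F] ((Fin (m - 1) ⊕ Fin (m - 1)) ⊕ Fin 2 → F)) : ¬ (∀ v : Fin m ⊕ Fin m → F, Cfsg.quadFormMinus (m - 1) F 1 ζ (g v) = Cfsg.quadFormPlus m F v) := by
  obtain ⟨m', rfl⟩ : ∃ m', m = m' + 1 := ⟨m - 1, by omega⟩
  have hab : Aniso (1 : F) ζ := by
    intro z₁ z₂ h
    have h2 : z₂ = 0 := by
      by_contra hne
      apply hζ (z₁ / z₂)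
      have h3 : (z₁ / z₂) ^ 2 + z₁ / z₂ + ζ = (z₁ ^ 2 + 1 * z₁ * z₂ + ζ * z₂ ^ 2) / z₂ ^ 2 := by
        field_simp
      rw [h3, h, zero_div]
    rw [h2] at h
    refine ⟨?_, h2⟩
    have h4 : z₁ ^ 2 = 0 := by linear_combination h
    exact pow_eq_zero_iff (two_ne_zero) |>.1 h4
  exact not_isom hab g

end Cfsg.Agent.S2617
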