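import Cfsg.Statements.S2618
import Cfsg.Agent.Lib.OMG9

set_option autoImplicit false
open Cfsg

namespace Cfsg.Agent.S2618

open CfsgLib.Quad CfsgLib.Omg CfsgLib.Disc

theorem polar_odd {F : Type*} [Field F] (m : ℕ) (x y : Unit ⊕ (Fin m ⊕ Fin m) → F) :
    Cfsg.quadFormOdd m F (x + y) - Cfsg.quadFormOdd m F x - Cfsg.quadFormOdd m F y =
      2 * (x (Sum.inl ()) * y (Sum.inl ())) + ∑ i, (x (Sum.inr (Sum.inl i)) * y (Sum.inr (Sum.inr i)) +
        x (Sum.inr (Sum.inr i)) * y (Sum.inr (Sum.inl i))) := by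
  simp only [Cfsg.quadFormOdd, Pi.add_apply]
  have h1 : ∑ i : Fin m, (x (Sum.inr (Sum.inl i)) + y (Sum.inr (Sum.inl i))) * (x (Sum.inr (Sum.inr i)) + y (Sum.inr (Sum.inr i))) =
      ∑ i : Fin m, x (Sum.inr (Sum.inl i)) * x (Sum.inr (Sum.inr i)) + ∑ i : Fin m, y (Sum.inr (Sum.inl i)) * y (Sum.inr (Sum.inr i)) +
      ∑ i : Fin m, (x (Sum.inr (Sum.inl i)) * y (Sum.inr (Sum.inr i)) +
        x (Sum.inr (Sum.inr i)) * y (Sum.inr (Sum.inl i))) := by
    rw [← Finset.sum_add_distrib, ← Finset.sum_add_distrib]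
    apply Finset.sum_congr rfl
    intro i _
    ring
  rw [h1]
  ring

/-- Standard (parabolic) basis of a non-degenerate quadratic space of odd dimension 2m + 1 over a finite field (the non-degeneracy of the polar form forces the characteristic to be odd): there is a basis e_i, f_i (i < m), x with Q(e_i) = Q(f_i) = 0, B(e_i, f_j) = δ_ij (B the polar form), the e's pairwise orthogonal and the f's pairwise orthogonal, x orthogonal to all of them and Q(x) ≠ 0. -/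
theorem result {F V : Type*} [Field F] [Finite F] [AddCommGroup V] [Module F V] [FiniteDimensional F V] {m : ℕ} (hV : Module.finrank F V = 2 * m + 1) (Q : QuadraticForm F V) (hQ : (QuadraticMap.polarBilin Q).Nondegenerate) : ∃ b : Module.Basis (Unit ⊕ (Fin m ⊕ Fin m)) F V, Q (b (Sum.inl ())) ≠ 0 ∧ (∀ i, QuadraticMap.polar ⇑Q (b (Sum.inl ())) (b (Sum.inr (Sum.inl i))) = 0 ∧ QuadraticMap.polar ⇑Q (b (Sum.inl ())) (b (Sum.inr (Sum.inr i))) = 0) ∧ (∀ i, Q (b (Sum.inr (Sum.inl i))) = 0 ∧ Q (b (Sum.inr (Sum.inr i))) = 0) ∧ (∀ i j, QuadraticMap.polar ⇑Q (b (Sum.inr (Sum.inl i))) (b (Sum.inr (Sum.inr j))) = if i = j then 1 else 0) ∧ (∀ i j, QuadraticMap.polar ⇑Q (b (Sum.inr (Sum.inl i))) (b (Sum.inr (Sum.inl j))) = 0 ∧ QuadraticMap.polar ⇑Q (b (Sum.inr (Sum.inr i))) (b (Sum.inr (Sum.inr j))) = 0) := by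
  obtain ⟨c, g, hc, hg⟩ := odd_basis hV Q hQ
  let w : Unit ⊕ (Fin m ⊕ Fin m) → Fˣ := Sum.elim (fun _ => 1) (Sum.elim (fun _ => Units.mk0 c hc) (fun _ => 1))
  let b := ((Pi.basisFun F (Unit ⊕ (Fin m ⊕ Fin m))).map g).unitsSMul w
  have hb : ∀ i, b i = (w i : F) • g (Pi.single i 1) := by
    intro i
    rw [Module.Basis.unitsSMul_apply, Module.Basis.map_apply, Pi.basisFun_apply]
    rfl
  have hQg : ∀ v, Q (g v) = c⁻¹ * Cfsg.quadFormOdd m F v := by
    intro v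
    rw [← hg v, inv_mul_cancel_left₀ hc]
  have hpol : ∀ i j, QuadraticMap.polar ⇑Q (b i) (b j) = (w i : F) * ((w j : F) * (c⁻¹ *
      (2 * ((Pi.single i 1 : Unit ⊕ (Fin m ⊕ Fin m) → F) (Sum.inl ()) * (Pi.single j 1 : Unit ⊕ (Fin m ⊕ Fin m) → F) (Sum.inl ())) +
      ∑ k, ((Pi.single i 1 : Unit ⊕ (Fin m ⊕ Fin m) → F) (Sum.inr (Sum.inl k)) * (Pi.single j 1 : Unit ⊕ (Fin m ⊕ Fin m) → F) (Sum.inr (Sum.inr k)) +
        (Pi.single i 1 : Unit ⊕ (Fin m ⊕ Fin m) → F) (Sum.inr (Sum.inr k)) * (Pi.single j 1 : Unit ⊕ (Fin m ⊕ Fin m) → F) (Sum.inr (Sum.inl k)))))) := by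
    intro i j
    rw [hb, hb, QuadraticMap.polar_smul_left, QuadraticMap.polar_smul_right, smul_eq_mul, smul_eq_mul]
    congr 2
    rw [QuadraticMap.polar, ← _root_.map_add, hQg, hQg, hQg, ← polar_odd]
    ring
  have hw0 : ∀ u, (w (Sum.inl u) : F) = 1 := fun _ => rfl
  have hw1 : ∀ i, (w (Sum.inr (Sum.inl i)) : F) = c := fun _ => rfl
  have hw2 : ∀ i, (w (Sum.inr (Sum.inr i)) : F) = 1 := fun _ => rfl
  refine ⟨b, ?_, ?_, ?_, ?_, ?_⟩
  · rw [hb, hw0, one_smul, hQg]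
    simp [Cfsg.quadFormOdd, Pi.single_apply, hc]
  · intro i
    rw [hpol, hpol]
    constructor <;> simp [Pi.single_apply]
  · intro i
    rw [hb, hb, hw1, hw2, one_smul, QuadraticMap.map_smul, hQg, hQg]
    constructor <;> simp [Cfsg.quadFormOdd, Pi.single_apply]
  · intro i j
    rw [hpol, hw1, hw2]
    simp [Pi.single_apply]
    by_cases hij : i = j
    · subst hij
      simp [hc]
    · simp [hij, Ne.symm hij]
  · intro i j
    rw [hpol, hpol]
    constructor <;> simp [Pi.single_apply]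

end Cfsg.Agent.S2618
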