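import Cfsg.Statements.S2619

set_option autoImplicit false
open Cfsg

namespace Cfsg.Agent.S2619

theorem ex_fin {F V : Type*} [Field F] [CharP F 2] [AddCommGroup V] [Module F V] {n : ℕ} (b : Module.Basis (Fin n) F V)
    (B : LinearMap.BilinForm F V) (hB : B.IsAlt) (c : Fin n → F) :
    ∃ Q : QuadraticForm F V, QuadraticMap.polarBilin Q = B ∧ ∀ i, Q (b i) = c i := by
  classical
  let A : LinearMap.BilinForm F V := Matrix.toBilin b (Matrix.of fun i j => if i < j then B (b i) (b j) else if i = j then c i else 0)
  have hA : ∀ i j, A (b i) (b j) = if i < j then B (b i) (b j) else if i = j then c i else 0 := by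
    intro i j
    rw [← LinearMap.BilinForm.toMatrix_apply b A i j]
    change LinearMap.BilinForm.toMatrix b (Matrix.toBilin b _) i j = _
    rw [LinearMap.BilinForm.toMatrix_toBilin]
    rfl
  refine ⟨LinearMap.BilinMap.toQuadraticMap A, ?_, ?_⟩
  · apply LinearMap.BilinForm.ext_basis b
    intro i j
    have h1 : QuadraticMap.polarBilin (LinearMap.BilinMap.toQuadraticMap A) (b i) (b j) = A (b i) (b j) + A (b j) (b i) := by
      rw [QuadraticMap.polarBilin_apply_apply, LinearMap.BilinMap.polar_toQuadraticMap]
    rw [h1, hA, hA]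
    rcases lt_trichotomy i j with h | h | h
    · rw [if_pos h, if_neg h.asymm, if_neg h.ne', add_zero]
    · subst h
      rw [if_neg (lt_irrefl _), if_pos rfl, CharTwo.add_self_eq_zero, hB (b i)]
    · rw [if_neg h.asymm, if_neg h.ne', if_pos h, zero_add, ← hB.neg_eq, CharTwo.neg_eq]
  · intro i
    rw [LinearMap.BilinMap.toQuadraticMap_apply, hA, if_neg (lt_irrefl _), if_pos rfl]

/-- Over a finite field of characteristic two, given an alternating bilinear form B on a finite-dimensional space, a basis (v_i) and scalars (λ_i), there is exactly one quadratic form whose polar form is B and whose value at each v_i is λ_i. -/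
theorem result {F V ι : Type*} [Field F] [Finite F] [CharP F 2] [AddCommGroup V] [Module F V] [Fintype ι] (b : Module.Basis ι F V) (B : LinearMap.BilinForm F V) (hB : B.IsAlt) (c : ι → F) : ∃! Q : QuadraticForm F V, QuadraticMap.polarBilin Q = B ∧ ∀ i, Q (b i) = c i := by
  classical
  let e := Fintype.equivFin ι
  obtain ⟨Q, hQ1, hQ2⟩ := ex_fin (b.reindex e) B hB (c ∘ e.symm)
  have hQ3 : ∀ i, Q (b i) = c i := by
    intro i
    have := hQ2 (e i)
    rw [Module.Basis.reindex_apply, Function.comp_apply, Equiv.symm_apply_apply] at this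
    exact this
  refine ⟨Q, ⟨hQ1, hQ3⟩, ?_⟩
  rintro Q' ⟨h1, h2⟩
  ext x
  have hadd : ∀ (P : QuadraticForm F V), QuadraticMap.polarBilin P = B → ∀ x y, P (x + y) = P x + P y + B x y := by
    intro P hP x y
    rw [← hP, QuadraticMap.polarBilin_apply_apply, QuadraticMap.polar]
    ring
  have hx : x ∈ Submodule.span F (Set.range b) := by rw [b.span_eq]; trivial
  induction hx using Submodule.span_induction with
  | mem x hx =>
    obtain ⟨i, rfl⟩ := hx
    rw [h2, hQ3]
  | zero => rw [QuadraticMap.map_zero, QuadraticMap.map_zero]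
  | add x y _ _ ihx ihy => rw [hadd Q' h1, hadd Q hQ1, ihx, ihy]
  | smul a x _ ih => rw [QuadraticMap.map_smul, QuadraticMap.map_smul, ih]

end Cfsg.Agent.S2619
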