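import Cfsg.Statements.S2622
import Cfsg.Agent.Lib.Quad14

set_option autoImplicit false
open Cfsg

namespace Cfsg.Agent.S2622

open Module

theorem sqx {F : Type*} [Field F] [Finite F] [CharP F 2] (a : F) : ∃ s : F, s * s = a := by
  obtain ⟨s, hs⟩ := CfsgLib.Quad.isSquare_of_two_eq_zero (F := F) CharTwo.two_eq_zero a
  exact ⟨s, hs.symm⟩

theorem res_nondeg {F V : Type*} [Field F] [AddCommGroup V] [Module F V]
    {B : LinearMap.BilinForm F V} (hS : ∀ x y, B x y = B y x) (hB : ∀ x, (∀ y, B x y = 0) → x = 0)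
    {v : V} (hv : B v v = 1) (x : V) (hx : B v x = 0) (h : ∀ y, B v y = 0 → B x y = 0) : x = 0 := by
  apply hB
  intro y
  have h1 : B v (y - B v y • v) = 0 := by
    rw [map_sub, map_smul, hv, smul_eq_mul, mul_one, sub_self]
  have h2 := h _ h1
  rw [map_sub, map_smul, hS x v, hx, smul_zero, sub_zero] at h2
  exact h2

theorem pick {F V : Type*} [Field F] [Finite F] [CharP F 2] [AddCommGroup V] [Module F V] [FiniteDimensional F V]
    {n : ℕ} (hV : finrank F V = n + 1)
    {B : LinearMap.BilinForm F V} (hS : ∀ x y, B x y = B y x) (hB : ∀ x, (∀ y, B x y = 0) → x = 0)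
    (hna : ∃ v, B v v ≠ 0) : ∃ v, B v v = 1 ∧ (n = 0 ∨ ∃ w, B v w = 0 ∧ B w w ≠ 0) := by
  obtain ⟨u, hu⟩ := hna
  obtain ⟨s, hs⟩ := sqx (B u u)
  have hs0 : s ≠ 0 := by rintro rfl; apply hu; rw [← hs, mul_zero]
  have hv0 : B (s⁻¹ • u) (s⁻¹ • u) = 1 := by
    rw [LinearMap.map_smul₂, map_smul, ← hs]
    simp only [smul_eq_mul]
    field_simp
  obtain ⟨v0, hv0'⟩ : ∃ v0, v0 = s⁻¹ • u := ⟨_, rfl⟩
  rw [← hv0'] at hv0
  by_cases h1 : ∃ w, B v0 w = 0 ∧ B w w ≠ 0
  · exact ⟨v0, hv0, Or.inr h1⟩
  · rcases Nat.eq_zero_or_pos n with h0 | hpos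
    · exact ⟨v0, hv0, Or.inl h0⟩
    · push Not at h1
      have hne : B v0 ≠ 0 := by
        intro h
        rw [h] at hv0
        simp at hv0
      have h2 := Module.Dual.finrank_ker_add_one_of_ne_zero hne
      have h3 : LinearMap.ker (B v0) ≠ ⊥ := by
        intro h
        rw [h, finrank_bot] at h2
        omega
      obtain ⟨e, he, he0⟩ := (Submodule.ne_bot_iff _).1 h3
      rw [LinearMap.mem_ker] at he
      obtain ⟨f0, hf0, hef0⟩ : ∃ f0, B v0 f0 = 0 ∧ B e f0 ≠ 0 := by
        by_contra hcon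
        push Not at hcon
        exact he0 (res_nondeg hS hB hv0 e he hcon)
      obtain ⟨f, hf⟩ : ∃ f, f = (B e f0)⁻¹ • f0 := ⟨_, rfl⟩
      have hvf : B v0 f = 0 := by rw [hf, map_smul, hf0, smul_zero]
      have hef : B e f = 1 := by rw [hf, map_smul, smul_eq_mul, inv_mul_cancel₀ hef0]
      have hee := h1 e he
      have hff := h1 f hvf
      have h2' : (2 : F) = 0 := CharTwo.two_eq_zero
      refine ⟨v0 + e, ?_, Or.inr ⟨v0 + f, ?_, ?_⟩⟩
      · rw [LinearMap.map_add₂, map_add, map_add, hS e v0, he, hee, hv0]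
        ring
      · rw [LinearMap.map_add₂, map_add, map_add, hS e v0, he, hvf, hef, hv0]
        linear_combination h2'
      · rw [LinearMap.map_add₂, map_add, map_add, hS f v0, hvf, hff, hv0]
        simp

theorem fam {F : Type*} [Field F] [Finite F] [CharP F 2] (n : ℕ) : ∀ (V : Type _) [AddCommGroup V] [Module F V]
    [FiniteDimensional F V] (B : LinearMap.BilinForm F V), finrank F V = n → (∀ x y, B x y = B y x) →
    (∀ x, (∀ y, B x y = 0) → x = 0) → (n = 0 ∨ ∃ v, B v v ≠ 0) →
    ∃ w : Fin n → V, ∀ i j, B (w i) (w j) = if i = j then 1 else 0 := by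
  induction n with
  | zero =>
    intro V _ _ _ B _ _ _ _
    exact ⟨fun i => i.elim0, fun i => i.elim0⟩
  | succ n ih =>
    intro V _ _ _ B hV hS hB hna
    obtain ⟨v, hv, hrest⟩ := pick hV hS hB (hna.resolve_left (Nat.succ_ne_zero n))
    have hne : B v ≠ 0 := by
      intro h
      rw [h] at hv
      simp at hv
    have h2 := Module.Dual.finrank_ker_add_one_of_ne_zero hne
    have hrank : finrank F (LinearMap.ker (B v)) = n := by omega
    obtain ⟨w, hw⟩ := ih (LinearMap.ker (B v)) (B.restrict (LinearMap.ker (B v))) hrank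
      (fun x y => hS _ _)
      (fun x hx => by
        apply Subtype.ext
        apply res_nondeg hS hB hv x.1 x.2
        intro y hy
        exact hx ⟨y, hy⟩)
      (by
        rcases hrest with h | ⟨w, hw1, hw2⟩
        · exact Or.inl h
        · exact Or.inr ⟨⟨w, hw1⟩, hw2⟩)
    refine ⟨Fin.cons v (fun i => (w i : V)), ?_⟩
    intro i j
    refine Fin.cases ?_ (fun i => ?_) i
    · refine Fin.cases ?_ (fun j => ?_) j
      · simpa using hv
      · rw [Fin.cons_zero, Fin.cons_succ, if_neg (Fin.succ_ne_zero j).symm]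
        exact (w j).2
    · refine Fin.cases ?_ (fun j => ?_) j
      · rw [Fin.cons_zero, Fin.cons_succ, if_neg (Fin.succ_ne_zero i), hS]
        exact (w i).2
      · rw [Fin.cons_succ, Fin.cons_succ]
        have h5 := hw i j
        simp only [Fin.succ_inj]
        exact h5

/-- Over a finite field of characteristic two, a non-degenerate symmetric bilinear form that is not alternating (some vector v has B(v, v) ≠ 0) admits an orthonormal basis. -/
theorem result {F V : Type*} [Field F] [Finite F] [CharP F 2] [AddCommGroup V] [Module F V] [FiniteDimensional F V] {n : ℕ} (hV : Module.finrank F V = n) (B : LinearMap.BilinForm F V) (hS : B.IsSymm) (hB : B.Nondegenerate) (hna : ∃ v : V, B v v ≠ 0) : ∃ b : Module.Basis (Fin n) F V, ∀ i j, B (b i) (b j) = if i = j then 1 else 0 := by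
  obtain ⟨w, hw⟩ := fam n V B hV (fun x y => hS.eq x y) (fun x hx => hB.1 x hx) (Or.inr hna)
  have hli : LinearIndependent F w := by
    rw [Fintype.linearIndependent_iff]
    intro g hg i
    have h1 : B (w i) (∑ j, g j • w j) = 0 := by rw [hg, map_zero]
    rw [map_sum] at h1
    simp only [map_smul, hw, smul_eq_mul, mul_ite, mul_one, mul_zero, Finset.sum_ite_eq, Finset.mem_univ, if_true] at h1
    exact h1
  have hn0 : 0 < n := by
    obtain ⟨v, hv⟩ := hna
    rw [← hV]
    have hv0 : v ≠ 0 := by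
      rintro rfl
      apply hv
      rw [map_zero]
    haveI : Nontrivial V := ⟨⟨v, 0, hv0⟩⟩
    exact finrank_pos
  haveI : Nonempty (Fin n) := ⟨⟨0, hn0⟩⟩
  refine ⟨basisOfLinearIndependentOfCardEqFinrank hli (by rw [Fintype.card_fin, hV]), ?_⟩
  intro i j
  rw [coe_basisOfLinearIndependentOfCardEqFinrank]
  exact hw i j

end Cfsg.Agent.S2622
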