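import Cfsg.Statements.S2623
import Cfsg.Agent.Lib.OMG8

set_option autoImplicit false
open Cfsg

namespace Cfsg.Agent.S2623

open CfsgLib.Quad CfsgLib.Omg CfsgLib.Disc

/-- Over a finite field of odd order, two quadratic forms on F^n with non-degenerate polar forms are isometric (related by an invertible linear change of variables) if and only if their discriminants (determinants of the Gram matrices of their polar forms) lie in the same square class. -/
theorem result {F : Type*} [Field F] [Fintype F] (h2 : (2 : F) ≠ 0) {n : ℕ} (Q₁ Q₂ : QuadraticForm F (Fin n → F)) (h₁ : (QuadraticMap.polarBilin Q₁).Nondegenerate) (h₂ : (QuadraticMap.polarBilin Q₂).Nondegenerate) : (∃ g : (Fin n → F) ≃ₗ[F] (Fin n → F), ∀ v, Q₂ (g v) = Q₁ v) ↔ IsSquare ((Matrix.of (fun i j : Fin n => QuadraticMap.polar ⇑Q₁ (Pi.single i 1) (Pi.single j 1))).det * (Matrix.of (fun i j : Fin n => QuadraticMap.polar ⇑Q₂ (Pi.single i 1) (Pi.single j 1))).det) := by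
  have e1 : (Matrix.of (fun i j : Fin n => QuadraticMap.polar ⇑Q₁ (Pi.single i 1) (Pi.single j 1))).det =
      gd (QuadraticMap.polarBilin Q₁) (Pi.basisFun F (Fin n)) := by
    unfold gd
    congr 1
    ext i j
    simp only [Matrix.of_apply, Pi.basisFun_apply]
    rfl
  have e2 : (Matrix.of (fun i j : Fin n => QuadraticMap.polar ⇑Q₂ (Pi.single i 1) (Pi.single j 1))).det =
      gd (QuadraticMap.polarBilin Q₂) (Pi.basisFun F (Fin n)) := by
    unfold gd
    congr 1
    ext i j
    simp only [Matrix.of_apply, Pi.basisFun_apply]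
    rfl
  rw [e1, e2]
  constructor
  · rintro ⟨g, hg⟩
    exact isSquare_of_isom g hg _ _
  · intro h
    exact isom_of_gd h2 h₁ h₂ rfl _ _ h

end Cfsg.Agent.S2623
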