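import Cfsg.Statements.S2625

set_option autoImplicit false
open Cfsg

namespace Cfsg.Agent.S2625


/-- For a quadratic form Q on F^n with non-degenerate polar form, F finite and n odd (so |F| is odd), the multiplier of any similarity is a square: if g is an invertible linear map with Q(g v) = c·Q(v) for all v then c is a square. -/
theorem result {F : Type*} [Field F] [Fintype F] {n : ℕ} (hn : Odd n) (Q : QuadraticForm F (Fin n → F)) (hQ : (QuadraticMap.polarBilin Q).Nondegenerate) (g : (Fin n → F) ≃ₗ[F] (Fin n → F)) (c : F) (hg : ∀ v, Q (g v) = c * Q v) : IsSquare c := by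
  classical
  by_cases hc : c = 0
  · rw [hc]; exact ⟨0, by simp⟩
  set B := QuadraticMap.polarBilin Q with hB
  have hBg : ∀ v w, B (g v) (g w) = c * B v w := by
    intro v w
    simp only [hB, QuadraticMap.polarBilin_apply_apply, QuadraticMap.polar]
    rw [← map_add, hg, hg, hg]; ring
  let M : Matrix (Fin n) (Fin n) F := LinearMap.toMatrix₂' F B
  let G : Matrix (Fin n) (Fin n) F := LinearMap.toMatrix' (g : (Fin n → F) →ₗ[F] (Fin n → F))
  have h1 : G.transpose * M * G = c • M := by
    have h2 : LinearMap.toMatrix₂' F (B.compl₁₂ (g : (Fin n → F) →ₗ[F] (Fin n → F)) (g : (Fin n → F) →ₗ[F] (Fin n → F))) = G.transpose * M * G := by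
      rw [LinearMap.toMatrix₂'_compl₁₂]
    rw [← h2]
    have h3 : B.compl₁₂ (g : (Fin n → F) →ₗ[F] (Fin n → F)) (g : (Fin n → F) →ₗ[F] (Fin n → F)) = c • B := by
      apply LinearMap.ext; intro v
      apply LinearMap.ext; intro w
      simp [hBg]
    rw [h3, map_smul]
  have hM : M.det ≠ 0 := by
    rw [← LinearMap.nondegenerate_toLinearMap₂'_iff_det_ne_zero]
    simpa [M] using hQ
  have h2 := congrArg Matrix.det h1
  rw [Matrix.det_mul, Matrix.det_mul, Matrix.det_transpose, Matrix.det_smul, Fintype.card_fin] at h2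
  have h3 : G.det * G.det = c ^ n := by
    apply mul_right_cancel₀ hM
    rw [← h2]; ring
  obtain ⟨k, hk⟩ := hn
  refine ⟨G.det / c ^ k, ?_⟩
  rw [div_mul_div_comm, h3, hk]
  field_simp
  ring

end Cfsg.Agent.S2625
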