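import Cfsg.Statements.S2627
import Cfsg.Agent.Lib.OMG7

set_option autoImplicit false
open Cfsg

namespace Cfsg.Agent.S2627

open CfsgLib.Quad CfsgLib.Omg

/-- For an orthogonal direct sum Q = Q₁ ⊕ Q₂ of quadratic forms with non-degenerate polar forms over a finite field, an isometry g₁ of Q₁ extended by the identity on the second summand lies in Ω(Q) (the commutator subgroup of the orthogonal group of Q) if and only if g₁ lies in Ω(Q₁). (Excluded: the field of two elements when the first summand or the whole space has dimension 4, where the commutator subgroup of O⁺₄(2) is smaller than the group usually called Ω.) -/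
theorem result {F : Type*} [Field F] [Fintype F] {k l : ℕ} (h : Fintype.card F ≠ 2 ∨ (k ≠ 4 ∧ k + l ≠ 4)) (Q₁ : QuadraticForm F (Fin k → F)) (Q₂ : QuadraticForm F (Fin l → F)) (h₁ : (QuadraticMap.polarBilin Q₁).Nondegenerate) (h₂ : (QuadraticMap.polarBilin Q₂).Nondegenerate) (g₁ : ↥(Cfsg.isometryGroup F ⇑Q₁)) : (∃ g : ↥(Cfsg.isometryGroup F (fun v : Fin k ⊕ Fin l → F => Q₁ (v ∘ Sum.inl) + Q₂ (v ∘ Sum.inr))), g ∈ Cfsg.Omega F (fun v : Fin k ⊕ Fin l → F => Q₁ (v ∘ Sum.inl) + Q₂ (v ∘ Sum.inr)) ∧ ((g : Matrix.GeneralLinearGroup (Fin k ⊕ Fin l) F) : Matrix (Fin k ⊕ Fin l) (Fin k ⊕ Fin l) F) = Matrix.fromBlocks ((g₁ : Matrix.GeneralLinearGroup (Fin k) F) : Matrix (Fin k) (Fin k) F) 0 0 1) ↔ g₁ ∈ Cfsg.Omega F ⇑Q₁ := by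
  have hfk : Module.finrank F (Fin k → F) = k := by simp
  have hfl : Module.finrank F (Fin l → F) = l := by simp
  have h4 : (∃ c : F, c ≠ 0 ∧ c ≠ 1) ∨ (Module.finrank F (Fin k → F) ≠ 4 ∧
      Module.finrank F (Fin k → F) + Module.finrank F (Fin l → F) ≠ 4) := by
    rcases h with h | h
    · exact Or.inl (exists_two_elements h)
    · right
      rwa [hfk, hfl]
  obtain ⟨x, hx, hm⟩ := exists_mat Q₁ Q₂ (isometryGroupEquiv Q₁ g₁, 1)
  rw [MulEquiv.symm_apply_apply, coe_symm_one, comm_pr_iff h₁ h₂ h4,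
    mem_commutator_congr (isometryGroupEquiv Q₁) g₁] at *
  constructor
  · rintro ⟨g, hg, hgm⟩
    have hxg : x = g := uniq_mat (Q := sQ Q₁ Q₂) (hm.trans hgm.symm)
    rw [hxg] at hx
    exact hx.1 hg
  · intro hg
    exact ⟨x, hx.2 hg, hm⟩

end Cfsg.Agent.S2627
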