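import Cfsg.Statements.S2636

set_option autoImplicit false
open Cfsg

namespace Cfsg.Agent.S2636


/-- Centraliser of a field automorphism in PGL_n: let F be the field with q = q₀^r elements, σ a field automorphism of F of prime order r (so its fixed field has q₀ elements) and n ≥ 1. The invertible matrices g whose entrywise image under σ is a scalar multiple of g — those whose coset modulo scalars is fixed by σ — number (q − 1)/(q₀ − 1) · |GL_n(q₀)|; equivalently the centraliser in PGL_n(q) of the induced automorphism has the order of PGL_n(q₀). -/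
theorem result {F : Type*} [Field F] [Fintype F] {q₀ r n : ℕ} (hr : r.Prime) (hn : 1 ≤ n) (hF : Fintype.card F = q₀ ^ r) (σ : F ≃+* F) (hσ : orderOf σ = r) : Nat.card {g : GL (Fin n) F // ∃ c : F, c ≠ 0 ∧ (g : Matrix (Fin n) (Fin n) F).map σ = c • (g : Matrix (Fin n) (Fin n) F)} = (q₀ ^ r - 1) / (q₀ - 1) * ∏ i : Fin n, (q₀ ^ n - q₀ ^ (i : ℕ)) := by
  classical
  set G : Subgroup (RingAut F) := Subgroup.zpowers (σ : RingAut F) with hG
  set K : Subfield F := FixedPoints.subfield G F with hKd
  haveI : Finite (RingAut F) := Finite.of_injective (fun e : F ≃+* F => (e : F → F)) DFunLike.coe_injective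
  haveI : Fintype G := Fintype.ofFinite _
  have hfix : ∀ x : F, σ x = x → x ∈ K := by
    intro x hx
    have h1 : (σ : RingAut F) ∈ MulAction.stabilizer (RingAut F) x := hx
    have h2 : G ≤ MulAction.stabilizer (RingAut F) x := by
      rw [hG, Subgroup.zpowers_le]
      exact h1
    intro g
    exact h2 g.2
  have hfix' : ∀ x ∈ K, σ x = x := by
    intro x hx
    exact hx ⟨σ, Subgroup.mem_zpowers _⟩
  have hKc : Nat.card K = q₀ := by
    have h1 : Module.finrank K F = r := by
      rw [hKd, FixedPoints.finrank_eq_card, ← Nat.card_eq_fintype_card, hG, Nat.card_zpowers]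
      exact hσ
    have h2 : Fintype.card F = Nat.card K ^ r := by
      have := Module.natCard_eq_pow_finrank (K := K) (V := F)
      rw [h1, Nat.card_eq_fintype_card] at this
      exact this
    rw [hF] at h2
    exact (Nat.pow_left_injective hr.ne_zero h2).symm
  have hq2 : 2 ≤ q₀ := by
    rw [← hKc]
    exact Finite.one_lt_card
  have hcom : ∀ (d : Fˣ) (g : GL (Fin n) K), Commute (Units.map (Matrix.scalar (Fin n)).toMonoidHom d : GL (Fin n) F)
      (Matrix.GeneralLinearGroup.map K.subtype g) := by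
    intro d g
    apply Units.ext
    exact (Matrix.scalar_commute (d : F) (fun r' => Commute.all _ _) _).eq
  set φ : Fˣ × GL (Fin n) K →* GL (Fin n) F :=
    MonoidHom.noncommCoprod (Units.map (Matrix.scalar (Fin n)).toMonoidHom) (Matrix.GeneralLinearGroup.map K.subtype) hcom with hφ
  have hval : ∀ d g, ((φ (d, g) : GL (Fin n) F) : Matrix (Fin n) (Fin n) F) = (d : F) • (g : Matrix (Fin n) (Fin n) K).map K.subtype := by
    intro d g
    rw [hφ, MonoidHom.noncommCoprod_apply]
    change (Matrix.scalar (Fin n) (d : F)) * _ = _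
    rw [Matrix.scalar_apply, ← Matrix.smul_eq_diagonal_mul]
    rfl
  have hrange : ∀ g : GL (Fin n) F, (∃ c : F, c ≠ 0 ∧ (g : Matrix (Fin n) (Fin n) F).map σ = c • (g : Matrix (Fin n) (Fin n) F)) ↔
      g ∈ φ.range := by
    intro g
    constructor
    · rintro ⟨c, hc, hgc⟩
      have hg0 : (g : Matrix (Fin n) (Fin n) F) ≠ 0 := by
        intro h0
        haveI : Nonempty (Fin n) := ⟨⟨0, hn⟩⟩
        have h1 : (g : Matrix (Fin n) (Fin n) F).det ≠ 0 := (Matrix.GeneralLinearGroup.det g).ne_zero
        rw [h0, Matrix.det_zero] at h1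
        exact h1 rfl
      obtain ⟨i, j, hij⟩ : ∃ i j, (g : Matrix (Fin n) (Fin n) F) i j ≠ 0 := by
        by_contra hcon
        push Not at hcon
        exact hg0 (Matrix.ext hcon)
      have hent : ∀ a b, σ ((g : Matrix (Fin n) (Fin n) F) a b) = c * (g : Matrix (Fin n) (Fin n) F) a b := by
        intro a b
        exact congrFun (congrFun hgc a) b
      have hmem : ∀ a b, ((g : Matrix (Fin n) (Fin n) F) i j)⁻¹ * (g : Matrix (Fin n) (Fin n) F) a b ∈ K := by
        intro a b
        apply hfix
        rw [map_mul, map_inv₀, hent, hent]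
        field_simp
      set M0 : Matrix (Fin n) (Fin n) K := Matrix.of fun a b => ⟨_, hmem a b⟩ with hM0
      have hM : M0.map K.subtype = ((g : Matrix (Fin n) (Fin n) F) i j)⁻¹ • (g : Matrix (Fin n) (Fin n) F) := by
        ext a b
        rfl
      have hdet : M0.det ≠ 0 := by
        intro h0
        have h1 : K.subtype M0.det = 0 := by rw [h0, map_zero]
        rw [RingHom.map_det] at h1
        change (M0.map K.subtype).det = 0 at h1
        rw [hM, Matrix.det_smul] at h1
        exact (mul_ne_zero (pow_ne_zero _ (inv_ne_zero hij)) (Matrix.GeneralLinearGroup.det g).ne_zero) h1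
      refine ⟨(Units.mk0 _ hij, Matrix.GeneralLinearGroup.mkOfDetNeZero M0 hdet), ?_⟩
      apply Units.ext
      rw [hval]
      change (g : Matrix (Fin n) (Fin n) F) i j • M0.map K.subtype = _
      rw [hM, smul_smul, mul_inv_cancel₀ hij, one_smul]
    · rintro ⟨⟨d, g0⟩, rfl⟩
      refine ⟨σ d * (d : F)⁻¹, mul_ne_zero ?_ (inv_ne_zero d.ne_zero), ?_⟩
      · intro h0
        exact d.ne_zero (σ.injective (by rw [h0, map_zero]))
      · rw [hval]
        ext a b
        change σ ((d : F) * ((g0 : Matrix (Fin n) (Fin n) K) a b : F)) = (σ d * (d : F)⁻¹) * ((d : F) * ((g0 : Matrix (Fin n) (Fin n) K) a b : F))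
        rw [map_mul, hfix' _ ((g0 : Matrix (Fin n) (Fin n) K) a b).2]
        have := d.ne_zero
        field_simp
  have hker : Nat.card φ.ker = q₀ - 1 := by
    have h1 : Nat.card Kˣ = q₀ - 1 := by
      rw [Nat.card_units, hKc]
    rw [← h1]
    symm
    haveI : Nonempty (Fin n) := ⟨⟨0, hn⟩⟩
    refine Nat.card_congr (Equiv.ofBijective (fun u : Kˣ => (⟨(Units.map K.subtype.toMonoidHom u,
      (Units.map (Matrix.scalar (Fin n)).toMonoidHom u⁻¹ : GL (Fin n) K)), ?_⟩ : φ.ker)) ⟨?_, ?_⟩)
    · rw [MonoidHom.mem_ker]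
      apply Units.ext
      rw [hval]
      ext a b
      change ((u : K) : F) * ((Matrix.scalar (Fin n) ((u⁻¹ : Kˣ) : K)) a b : F) = (1 : Matrix (Fin n) (Fin n) F) a b
      by_cases hab : a = b
      · subst hab
        simp [Matrix.scalar_apply]
      · simp [Matrix.scalar_apply, hab]
    · intro u v huv
      have h2 := congrArg (fun z : φ.ker => ((z : Fˣ × GL (Fin n) K).1 : F)) huv
      apply Units.ext
      apply Subtype.ext
      exact h2
    · rintro ⟨⟨d, g⟩, hdg⟩
      rw [MonoidHom.mem_ker] at hdg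
      have h2 : (d : F) • (g : Matrix (Fin n) (Fin n) K).map K.subtype = 1 := by
        rw [← hval, hdg]
        rfl
      have h3 : ∀ a b, (d : F) * ((g : Matrix (Fin n) (Fin n) K) a b : F) = (1 : Matrix (Fin n) (Fin n) F) a b :=
        fun a b => congrFun (congrFun h2 a) b
      have i0 : Fin n := ⟨0, hn⟩
      have h4 : (d : F) * ((g : Matrix (Fin n) (Fin n) K) i0 i0 : F) = 1 := by
        rw [h3, Matrix.one_apply_eq]
      have h5 : (d : F) = (((g : Matrix (Fin n) (Fin n) K) i0 i0)⁻¹ : K) := by
        push_cast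
        exact eq_inv_of_mul_eq_one_left h4
      have h6 : ((g : Matrix (Fin n) (Fin n) K) i0 i0)⁻¹ ≠ 0 := by
        intro h0
        rw [h0] at h5
        exact d.ne_zero h5
      refine ⟨Units.mk0 _ h6, ?_⟩
      apply Subtype.ext
      refine Prod.ext ?_ ?_
      · apply Units.ext
        exact h5.symm
      · apply Units.ext
        ext a b
        change ((Matrix.scalar (Fin n) ((((Units.mk0 _ h6)⁻¹ : Kˣ)) : K)) a b : F) = ((g : Matrix (Fin n) (Fin n) K) a b : F)
        have h7 := h3 a b
        have h8 : ((g : Matrix (Fin n) (Fin n) K) a b : F) = (d : F)⁻¹ * (1 : Matrix (Fin n) (Fin n) F) a b := by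
          rw [← h7, inv_mul_cancel_left₀ d.ne_zero]
        rw [h8, h5]
        by_cases hab : a = b
        · subst hab
          simp [Matrix.scalar_apply]
        · simp [Matrix.scalar_apply, hab]
  have hcount : Nat.card φ.range * (q₀ - 1) = (q₀ ^ r - 1) * ∏ i : Fin n, (q₀ ^ n - q₀ ^ (i : ℕ)) := by
    have h1 := Subgroup.card_eq_card_quotient_mul_card_subgroup φ.ker
    rw [Nat.card_congr (QuotientGroup.quotientKerEquivRange φ).toEquiv, hker, Nat.card_prod, Nat.card_units, Nat.card_eq_fintype_card (α := F), hF,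
      Matrix.card_GL_field, ← Nat.card_eq_fintype_card (α := K), hKc] at h1
    exact h1.symm
  have hcard : Nat.card {g : GL (Fin n) F // ∃ c : F, c ≠ 0 ∧ (g : Matrix (Fin n) (Fin n) F).map σ = c • (g : Matrix (Fin n) (Fin n) F)} = Nat.card φ.range :=
    Nat.card_congr (Equiv.subtypeEquivRight hrange)
  rw [hcard]
  have hdvd : q₀ - 1 ∣ q₀ ^ r - 1 := by
    have := Nat.sub_dvd_pow_sub_pow q₀ 1 r
    rwa [one_pow] at this
  obtain ⟨e, he⟩ := hdvd
  rw [he, Nat.mul_div_cancel_left _ (by omega : 0 < q₀ - 1)]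
  rw [he, mul_assoc, mul_comm (Nat.card _)] at hcount
  exact Nat.eq_of_mul_eq_mul_left (by omega : 0 < q₀ - 1) hcount

end Cfsg.Agent.S2636
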