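import Cfsg.Statements.S2639
import Cfsg.Agent.Lib.OMG17

set_option autoImplicit false
open Cfsg

namespace Cfsg.Agent.S2639


/-- The unitary group embeds in the symplectic group of twice the dimension over the subfield: for a field K with q² elements and a field F with q elements (isomorphic to the subfield of K of order q), there is an injective homomorphism GU_m(q) → Sp_2m(F). -/
theorem result {K F : Type*} [Field K] [Fintype K] [Field F] [Fintype F] {q : ℕ} (hK : Fintype.card K = q ^ 2) (hF : Fintype.card F = q) (m : ℕ) : ∃ φ : ↥(Cfsg.GU m K q) →* ↥(Matrix.symplecticGroup (Fin m) F), Function.Injective φ := by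
  classical
  obtain ⟨σ, ι, hpow, hι, hinv⟩ := CfsgLib.GUs.setup hK hF
  letI : Algebra F K := ι.toAlgebra
  have hσι : ∀ c, σ (ι c) = ι c := fun c => (hι (ι c)).2 ⟨c, rfl⟩
  have hfr := CfsgLib.GUs.finrank_two (K := K) (F := F) hK hF
  obtain ⟨lam, hl, hl0⟩ : ∃ lam : K, Algebra.trace F K lam = 0 ∧ lam ≠ 0 := by
    have h1 : LinearMap.ker (Algebra.trace F K) ≠ ⊥ := by
      apply LinearMap.ker_ne_bot_of_finrank_lt
      rw [hfr, Module.finrank_self]
      norm_num
    obtain ⟨x, hx, hx0⟩ := Submodule.exists_mem_ne_zero_of_ne_bot h1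
    exact ⟨x, hx, hx0⟩
  have hsm : ∀ (c : F) (x : K), c • x = ι c * x := fun c x => Algebra.smul_def c x
  have hσs : ∀ (c : F) (x : K), σ (c • x) = c • σ x := by
    intro c x
    rw [hsm, map_mul, hσι, hsm]
  set B : LinearMap.BilinForm F (Fin m → K) := LinearMap.mk₂ F
    (fun u v => Algebra.trace F K (lam * ∑ i, u i * σ (v i)))
    (fun u u' v => by
      simp only [Pi.add_apply, add_mul, Finset.sum_add_distrib, mul_add, map_add])
    (fun c u v => by
      have : lam * ∑ i, (c • u) i * σ (v i) = c • (lam * ∑ i, u i * σ (v i)) := by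
        rw [← mul_smul_comm, Finset.smul_sum]
        congr 1
        apply Finset.sum_congr rfl
        intro i _
        rw [Pi.smul_apply, smul_mul_assoc]
      rw [this, map_smul])
    (fun u v v' => by
      simp only [Pi.add_apply, mul_add, Finset.sum_add_distrib, map_add])
    (fun c u v => by
      have : lam * ∑ i, u i * σ ((c • v) i) = c • (lam * ∑ i, u i * σ (v i)) := by
        rw [← mul_smul_comm, Finset.smul_sum]
        congr 1
        apply Finset.sum_congr rfl
        intro i _
        rw [Pi.smul_apply, hσs, mul_smul_comm]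
      rw [this, map_smul]) with hB
  have hBa : ∀ u v, B u v = Algebra.trace F K (lam * ∑ i, u i * σ (v i)) := fun u v => rfl
  have halt : B.IsAlt := by
    intro u
    rw [hBa]
    obtain ⟨s, hs⟩ := (hι (∑ i, u i * σ (u i))).1 (by
      rw [map_sum]
      apply Finset.sum_congr rfl
      intro i _
      rw [map_mul, hinv, mul_comm])
    have h1 : lam * ∑ i, u i * σ (u i) = s • lam := by
      rw [hsm, ← hs, mul_comm]
    rw [h1, map_smul, hl, smul_zero]
  have hsurj : Function.Surjective σ := fun a => ⟨σ a, hinv a⟩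
  have hleft : ∀ u, (∀ v, B u v = 0) → u = 0 := by
    intro u hu
    ext i
    have h1 : lam * u i = 0 := by
      apply (traceForm_nondegenerate F K).1
      intro s
      obtain ⟨t, rfl⟩ := hsurj s
      have h2 := hu (Pi.single i t)
      rw [hBa, Finset.sum_eq_single i, Pi.single_eq_same, ← mul_assoc] at h2
      · exact h2
      · intro j _ hj
        rw [Pi.single_eq_of_ne hj, map_zero, mul_zero]
      · intro h
        exact absurd (Finset.mem_univ _) h
    exact (mul_eq_zero.1 h1).resolve_left hl0
  have hnd : B.Nondegenerate := ⟨hleft, fun v hv => hleft v (fun u => halt.isRefl u v (hv u))⟩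
  have hdim : Module.finrank F (Fin m → K) = 2 * m := by
    rw [Module.finrank_pi_fintype, Finset.sum_const, hfr, Finset.card_univ, Fintype.card_fin, smul_eq_mul, mul_comm]
  obtain ⟨e, he⟩ := CfsgLib.Symp.exists_equiv_sympB hnd halt hdim
  have hpres : ∀ (g : ↥(Cfsg.GU m K q)) (u v : Fin m → K), B (CfsgLib.GUs.L F m g.1 u) (CfsgLib.GUs.L F m g.1 v) = B u v := by
    intro g u v
    have h1 := g.2 u v
    rw [hBa, hBa]
    have h2 : ∀ u v : Fin m → K, ∑ i, u i * σ (v i) = Cfsg.hermForm m K q u v := by
      intro u v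
      apply Finset.sum_congr rfl
      intro i _
      rw [hpow]
    rw [h2, h2]
    congr 2
  refine ⟨(CfsgLib.Symp.toIsom m F).symm.toMonoidHom.comp
    { toFun := fun g => ⟨(e.symm.trans (CfsgLib.GUs.L F m g.1)).trans e, ?_⟩
      map_one' := ?_
      map_mul' := ?_ }, ?_⟩
  · intro u v
    change CfsgLib.Symp.sympB m F (e (CfsgLib.GUs.L F m g.1 (e.symm u))) (e (CfsgLib.GUs.L F m g.1 (e.symm v))) = _
    rw [he, hpres, ← he, LinearEquiv.apply_symm_apply, LinearEquiv.apply_symm_apply]
  · apply Subtype.ext
    apply LinearEquiv.ext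
    intro v
    change e (CfsgLib.GUs.L F m 1 (e.symm v)) = v
    rw [map_one]
    exact LinearEquiv.apply_symm_apply e v
  · intro g h
    apply Subtype.ext
    apply LinearEquiv.ext
    intro v
    change e (CfsgLib.GUs.L F m (g.1 * h.1) (e.symm v)) = e (CfsgLib.GUs.L F m g.1 (e.symm (e (CfsgLib.GUs.L F m h.1 (e.symm v)))))
    rw [map_mul, LinearEquiv.symm_apply_apply]
    rfl
  · intro g h hgh
    have h1 := (CfsgLib.Symp.toIsom m F).symm.injective hgh
    have h2 := congrArg Subtype.val h1
    apply Subtype.ext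
    apply CfsgLib.GUs.L_inj F m
    apply LinearEquiv.ext
    intro v
    have h3 := congrArg (fun f : (Fin m ⊕ Fin m → F) ≃ₗ[F] (Fin m ⊕ Fin m → F) => f (e v)) h2
    change e (CfsgLib.GUs.L F m g.1 (e.symm (e v))) = e (CfsgLib.GUs.L F m h.1 (e.symm (e v))) at h3
    rw [LinearEquiv.symm_apply_apply] at h3
    exact e.injective h3

end Cfsg.Agent.S2639
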