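import Cfsg.Statements.S2640
import Cfsg.Agent.S2562
import Cfsg.Agent.Lib.QEmb

set_option autoImplicit false
open Cfsg

namespace Cfsg.Agent.S2640

open CfsgLib.QCl CfsgLib.Quad Module Cfsg.Agent.S2562 CfsgLib.QEmb

section
variable {K F : Type*} [Field K] [Fintype K] [Field F] [Fintype F] [Algebra F K] {q : ℕ}

theorem tr_eq (hF : Fintype.card F = q) (h2 : finrank F K = 2) (x : K) : algebraMap F K (Algebra.trace F K x) = x + x ^ q := by
  rw [FiniteField.algebraMap_trace_eq_sum_pow, h2, Finset.sum_range_succ, Finset.sum_range_one, Nat.card_eq_fintype_card, hF]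
  simp

theorem nm_eq (hF : Fintype.card F = q) (h2 : finrank F K = 2) (x : K) : algebraMap F K (Algebra.norm F x) = x * x ^ q := by
  rw [FiniteField.algebraMap_norm_eq_prod_pow, h2, Finset.prod_range_succ, Finset.prod_range_one, Nat.card_eq_fintype_card, hF]
  simp

theorem frob_add (hF : Fintype.card F = q) (x y : K) : (x + y) ^ q = x ^ q + y ^ q := by
  obtain ⟨p, hp⟩ := CharP.exists F
  haveI : CharP F p := hp
  obtain ⟨n, hpr, hn⟩ := FiniteField.card F p
  haveI : Fact p.Prime := ⟨hpr⟩
  haveI : CharP K p := charP_of_injective_algebraMap (algebraMap F K).injective p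
  rw [← hF, hn]
  exact add_pow_char_pow x y p n

theorem frob_F (hF : Fintype.card F = q) (c : F) : (algebraMap F K c) ^ q = algebraMap F K c := by
  rw [← map_pow, ← hF, FiniteField.pow_card]

/-- the hermitian form as a quadratic form. -/
noncomputable def QH (hF : Fintype.card F = q) (h2 : finrank F K = 2) (m : ℕ) : QuadraticForm F (Fin m → K) :=
  ∑ i, QuadraticMap.comp (QuadraticMap.ofPolar (fun x : K => Algebra.norm F x) (fun c x => by
      apply (algebraMap F K).injective
      rw [smul_eq_mul, map_mul, nm_eq hF h2, nm_eq hF h2, Algebra.smul_def, mul_pow, frob_F hF, map_mul]; ring)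
    (fun x x' y => by
      apply (algebraMap F K).injective
      simp only [QuadraticMap.polar, _root_.map_sub, _root_.map_add, nm_eq hF h2, frob_add hF]; ring)
    (fun c x y => by
      apply (algebraMap F K).injective
      rw [smul_eq_mul, map_mul]
      simp only [QuadraticMap.polar, _root_.map_sub, nm_eq hF h2, frob_add hF, Algebra.smul_def, mul_pow, frob_F hF]; ring)) (LinearMap.proj i : (Fin m → K) →ₗ[F] K)

theorem QH_apply (hF : Fintype.card F = q) (h2 : finrank F K = 2) (m : ℕ) (v : Fin m → K) : QH hF h2 m v = ∑ i, Algebra.norm F (v i) := by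
  rw [QH, QuadraticMap.sum_apply]
  rfl

theorem QH_map (hF : Fintype.card F = q) (h2 : finrank F K = 2) (m : ℕ) (v : Fin m → K) : algebraMap F K (QH hF h2 m v) = Cfsg.hermForm m K q v v := by
  rw [QH_apply, map_sum, Cfsg.hermForm]
  exact Finset.sum_congr rfl fun i _ => nm_eq hF h2 _

theorem QH_nondeg (hF : Fintype.card F = q) (h2 : finrank F K = 2) (m : ℕ) : (QuadraticMap.polarBilin (QH hF h2 m)).Nondegenerate := by
  apply nondegenerate_of_left
  intro x hx
  ext i
  by_contra hne
  change x i ≠ 0 at hne
  obtain ⟨z, hz⟩ := Algebra.trace_surjective F K 1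
  have hKq : ∀ y : K, (y ^ q) ^ q = y := by
    intro y
    rw [← pow_mul]
    have h3 : Fintype.card K = q * q := by
      rw [Module.card_eq_pow_finrank (K := F) (V := K), h2, hF, pow_two]
    rw [← h3, FiniteField.pow_card]
  have h4 := hx (Pi.single i (z / (x i) ^ q))
  rw [QuadraticMap.polarBilin_apply_apply, QuadraticMap.polar, QH_apply, QH_apply, QH_apply, ← Finset.sum_sub_distrib, ← Finset.sum_sub_distrib] at h4
  rw [Finset.sum_eq_single i (fun j _ hj => by rw [Pi.add_apply, Pi.single_eq_of_ne hj, add_zero, Algebra.norm_zero]; ring) (fun h => absurd (Finset.mem_univ _) h)] at h4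
  rw [Pi.add_apply, Pi.single_eq_same] at h4
  have h5 := congrArg (algebraMap F K) h4
  rw [_root_.map_sub, _root_.map_sub, nm_eq hF h2, nm_eq hF h2, nm_eq hF h2, frob_add hF, _root_.map_zero, div_pow, hKq] at h5
  have h6 : algebraMap F K (Algebra.trace F K z) = 1 := by rw [hz, map_one]
  rw [tr_eq hF h2] at h6
  have hxq : x i ^ q ≠ 0 := pow_ne_zero _ hne
  have h7 : z + z ^ q = 0 := by
    have e : z + z ^ q = (x i + z / x i ^ q) * (x i ^ q + z ^ q / x i) - x i * x i ^ q - z / x i ^ q * (z ^ q / x i) := by
      field_simp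
      ring
    rw [e]; exact h5
  rw [h7] at h6
  exact zero_ne_one h6

theorem main {n k : ℕ} (hF : Fintype.card F = q) (h2 : finrank F K = 2) (hnk : n + 1 = k + k) :
    ∃ φ : ↥(Cfsg.GU (n + 1) K q) →* ↥(Cfsg.isometryGroup F (Cfsg.quadFormPlus (n + 1) F)), Function.Injective φ := by
  have hVK : ∀ l, finrank F (Fin l → K) = 2 * l := by
    intro l
    rw [← finrank_mul_finrank F K (Fin l → K), h2, finrank_fin_fun]
  rcases classify n (QH hF h2 (n + 1)) (QH_nondeg hF h2 (n + 1)) (hVK (n + 1)) with ⟨E, hE⟩ | ⟨b', hb', E, hE⟩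
  · let ψ : ↥(Cfsg.GU (n + 1) K q) →* O (QH hF h2 (n + 1)) :=
      { toFun := fun g => ⟨(glEquiv (Fin (n + 1)) K g.1).restrictScalars F, by
          rw [mem_O]
          intro v
          apply (algebraMap F K).injective
          rw [QH_map, QH_map]
          change Cfsg.hermForm (n + 1) K q (glEquiv (Fin (n + 1)) K g.1 v) (glEquiv (Fin (n + 1)) K g.1 v) = _
          rw [glEquiv_apply]
          exact g.2 v v⟩
        map_one' := by
          apply O_ext
          intro v
          change glEquiv (Fin (n + 1)) K 1 v = v
          rw [map_one]; rfl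
        map_mul' := fun g h => by
          apply O_ext
          intro v
          change glEquiv (Fin (n + 1)) K (g.1 * h.1) v = _
          rw [map_mul]; rfl }
    have e := isoMat (Cfsg.quadFormPlus (n + 1) F) (QH hF h2 (n + 1)) E.symm (fun v => by
      rw [← hE, LinearEquiv.apply_symm_apply])
    refine ⟨e.symm.toMonoidHom.comp ψ, e.symm.injective.comp ?_⟩
    intro g h hgh
    apply Subtype.ext
    apply (glEquiv (Fin (n + 1)) K).injective
    apply LinearEquiv.ext
    intro v
    exact congrArg (fun f : O (QH hF h2 (n + 1)) => f.1 v) hgh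
  · exfalso
    obtain ⟨al, hal⟩ : ∃ al : K, Algebra.norm F al = -1 := by
      obtain ⟨u, hu⟩ := FiniteField.unitsMap_norm_surjective F K (-1 : Fˣ)
      exact ⟨u, by simpa using congrArg Units.val hu⟩
    let L0 : (Fin k → K) →ₗ[F] (Fin (k + k) → K) :=
      { toFun := fun x => Fin.append x (al • x)
        map_add' := fun x y => by
          ext i
          refine Fin.addCases (fun j => ?_) (fun j => ?_) i
          · change Fin.append (x + y) (al • (x + y)) (Fin.castAdd k j) = Fin.append x (al • x) (Fin.castAdd k j) + Fin.append y (al • y) (Fin.castAdd k j)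
            rw [Fin.append_left, Fin.append_left, Fin.append_left]; rfl
          · change Fin.append (x + y) (al • (x + y)) (Fin.natAdd k j) = Fin.append x (al • x) (Fin.natAdd k j) + Fin.append y (al • y) (Fin.natAdd k j)
            rw [Fin.append_right, Fin.append_right, Fin.append_right, smul_add]; rfl
        map_smul' := fun c x => by
          ext i
          refine Fin.addCases (fun j => ?_) (fun j => ?_) i
          · change Fin.append (c • x) (al • (c • x)) (Fin.castAdd k j) = c • Fin.append x (al • x) (Fin.castAdd k j)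
            rw [Fin.append_left, Fin.append_left]; rfl
          · change Fin.append (c • x) (al • (c • x)) (Fin.natAdd k j) = c • Fin.append x (al • x) (Fin.natAdd k j)
            rw [Fin.append_right, Fin.append_right]
            change al * (c • x j) = c • (al * x j)
            rw [mul_smul_comm] }
    let L := (LinearEquiv.funCongrLeft F K (finCongr hnk)).toLinearMap.comp L0
    have hL0 : Function.Injective L0 := by
      intro x y hxy
      ext j
      have := congrFun hxy (Fin.castAdd k j)
      change Fin.append x (al • x) (Fin.castAdd k j) = Fin.append y (al • y) (Fin.castAdd k j) at this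
      rwa [Fin.append_left, Fin.append_left] at this
    have hL : Function.Injective L := by
      intro x y hxy
      apply hL0
      apply (LinearEquiv.funCongrLeft F K (finCongr hnk)).injective
      exact hxy
    have hL2 : ∀ x, QH hF h2 (n + 1) (L x) = 0 := by
      intro x
      rw [QH_apply]
      have e1 : ∑ i, Algebra.norm F (L x i) = ∑ i, Algebra.norm F (Fin.append x (al • x) i) :=
        Equiv.sum_comp (finCongr hnk) fun i => Algebra.norm F (Fin.append x (al • x) i)
      rw [e1, Fin.sum_univ_add]
      simp only [Fin.append_left, Fin.append_right, Pi.smul_apply, smul_eq_mul, map_mul, hal]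
      rw [← Finset.sum_add_distrib]
      exact Finset.sum_eq_zero fun i _ => by ring
    have h1 := minus_le n hb' ((LinearMap.range L).map (E : (Fin (n + 1) → K) →ₗ[F] _)) (by
      rintro _ ⟨_, ⟨x, rfl⟩, rfl⟩
      change Cfsg.quadFormMinus n F 1 b' (E (L x)) = 0
      rw [hE]
      exact hL2 x)
    rw [LinearEquiv.finrank_map_eq, LinearMap.finrank_range_of_inj hL, hVK] at h1
    omega
end

/-- For m even, the unitary group GU_m(q) (over the field with q² elements) embeds in the orthogonal group O⁺_2m(q) of the hyperbolic form Σ x_i y_i over the field with q elements (there is an injective homomorphism). -/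
theorem result {K F : Type*} [Field K] [Fintype K] [Field F] [Fintype F] {q : ℕ} (hK : Fintype.card K = q ^ 2) (hF : Fintype.card F = q) (m : ℕ) (hm : Even m) : ∃ φ : ↥(Cfsg.GU m K q) →* ↥(Cfsg.isometryGroup F (Cfsg.quadFormPlus m F)), Function.Injective φ := by
  obtain ⟨i⟩ := exists_emb hK hF
  letI : Algebra F K := i.toAlgebra
  have h2 := finrank_two hK hF
  obtain ⟨k, hk⟩ := hm
  rcases Nat.eq_zero_or_pos m with rfl | hm0
  · haveI : Subsingleton (GL (Fin 0) K) := ⟨fun a b => Units.ext (Subsingleton.elim _ _)⟩
    haveI : Subsingleton ↥(Cfsg.GU 0 K q) := ⟨fun a b => Subtype.ext (Subsingleton.elim _ _)⟩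
    exact ⟨1, fun a b _ => Subsingleton.elim _ _⟩
  · obtain ⟨n, rfl⟩ : ∃ n, m = n + 1 := ⟨m - 1, by omega⟩
    exact main hF h2 hk

end Cfsg.Agent.S2640
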