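import Cfsg.Statements.S2641
import Cfsg.Agent.S2562
import Cfsg.Agent.Lib.QEmb

set_option autoImplicit false
open Cfsg

namespace Cfsg.Agent.S2641

open CfsgLib.QCl CfsgLib.Quad Module Cfsg.Agent.S2562 CfsgLib.QEmb

section
variable {K F : Type*} [Field K] [Fintype K] [Field F] [Fintype F] [Algebra F K] {q : ℕ}

theorem tr_eq (hF : Fintype.card F = q) (h2 : finrank F K = 2) (x : K) : algebraMap F K (Algebra.trace F K x) = x + x ^ q := by
  rw [FiniteField.algebraMap_trace_eq_sum_pow, h2, Finset.sum_range_succ, Finset.sum_range_one, Nat.card_eq_fintype_card, hF]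
  simp

theorem nm_eq (hF : Fintype.card F = q) (h2 : finrank F K = 2) (x : K) : algebraMap F K (Algebra.norm F x) = x * x ^ q := by
  rw [FiniteField.algebraMap_norm_eq_prod_pow, h2, Finset.prod_range_succ, Finset.prod_range_one, Nat.card_eq_fintype_card, hF]
  simp

theorem frob_add (hF : Fintype.card F = q) (x y : K) : (x + y) ^ q = x ^ q + y ^ q := by
  obtain ⟨p, hp⟩ := CharP.exists F
  haveI : CharP F p := hp
  obtain ⟨n, hpr, hn⟩ := FiniteField.card F p
  haveI : Fact p.Prime := ⟨hpr⟩
  haveI : CharP K p := charP_of_injective_algebraMap (algebraMap F K).injective p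
  rw [← hF, hn]
  exact add_pow_char_pow x y p n

theorem frob_F (hF : Fintype.card F = q) (c : F) : (algebraMap F K c) ^ q = algebraMap F K c := by
  rw [← map_pow, ← hF, FiniteField.pow_card]

/-- the hermitian form as a quadratic form. -/
noncomputable def QH (hF : Fintype.card F = q) (h2 : finrank F K = 2) (m : ℕ) : QuadraticForm F (Fin m → K) :=
  ∑ i, QuadraticMap.comp (QuadraticMap.ofPolar (fun x : K => Algebra.norm F x) (fun c x => by
      apply (algebraMap F K).injective
      rw [smul_eq_mul, map_mul, nm_eq hF h2, nm_eq hF h2, Algebra.smul_def, mul_pow, frob_F hF, map_mul]; ring)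
    (fun x x' y => by
      apply (algebraMap F K).injective
      simp only [QuadraticMap.polar, _root_.map_sub, _root_.map_add, nm_eq hF h2, frob_add hF]; ring)
    (fun c x y => by
      apply (algebraMap F K).injective
      rw [smul_eq_mul, map_mul]
      simp only [QuadraticMap.polar, _root_.map_sub, nm_eq hF h2, frob_add hF, Algebra.smul_def, mul_pow, frob_F hF]; ring)) (LinearMap.proj i : (Fin m → K) →ₗ[F] K)

theorem QH_apply (hF : Fintype.card F = q) (h2 : finrank F K = 2) (m : ℕ) (v : Fin m → K) : QH hF h2 m v = ∑ i, Algebra.norm F (v i) := by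
  rw [QH, QuadraticMap.sum_apply]
  rfl

theorem QH_map (hF : Fintype.card F = q) (h2 : finrank F K = 2) (m : ℕ) (v : Fin m → K) : algebraMap F K (QH hF h2 m v) = Cfsg.hermForm m K q v v := by
  rw [QH_apply, map_sum, Cfsg.hermForm]
  exact Finset.sum_congr rfl fun i _ => nm_eq hF h2 _

theorem QH_nondeg (hF : Fintype.card F = q) (h2 : finrank F K = 2) (m : ℕ) : (QuadraticMap.polarBilin (QH hF h2 m)).Nondegenerate := by
  apply nondegenerate_of_left
  intro x hx
  ext i
  by_contra hne
  change x i ≠ 0 at hne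
  obtain ⟨z, hz⟩ := Algebra.trace_surjective F K 1
  have hKq : ∀ y : K, (y ^ q) ^ q = y := by
    intro y
    rw [← pow_mul]
    have h3 : Fintype.card K = q * q := by
      rw [Module.card_eq_pow_finrank (K := F) (V := K), h2, hF, pow_two]
    rw [← h3, FiniteField.pow_card]
  have h4 := hx (Pi.single i (z / (x i) ^ q))
  rw [QuadraticMap.polarBilin_apply_apply, QuadraticMap.polar, QH_apply, QH_apply, QH_apply, ← Finset.sum_sub_distrib, ← Finset.sum_sub_distrib] at h4
  rw [Finset.sum_eq_single i (fun j _ hj => by rw [Pi.add_apply, Pi.single_eq_of_ne hj, add_zero, Algebra.norm_zero]; ring) (fun h => absurd (Finset.mem_univ _) h)] at h4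
  rw [Pi.add_apply, Pi.single_eq_same] at h4
  have h5 := congrArg (algebraMap F K) h4
  rw [_root_.map_sub, _root_.map_sub, nm_eq hF h2, nm_eq hF h2, nm_eq hF h2, frob_add hF, _root_.map_zero, div_pow, hKq] at h5
  have h6 : algebraMap F K (Algebra.trace F K z) = 1 := by rw [hz, map_one]
  rw [tr_eq hF h2] at h6
  have hxq : x i ^ q ≠ 0 := pow_ne_zero _ hne
  have h7 : z + z ^ q = 0 := by
    have e : z + z ^ q = (x i + z / x i ^ q) * (x i ^ q + z ^ q / x i) - x i * x i ^ q - z / x i ^ q * (z ^ q / x i) := by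
      field_simp
      ring
    rw [e]; exact h5
  rw [h7] at h6
  exact zero_ne_one h6


theorem finV (h2 : finrank F K = 2) (l : ℕ) : finrank F (Fin l → K) = 2 * l := by
  rw [← finrank_mul_finrank F K (Fin l → K), h2, finrank_fin_fun]

theorem plusE {n k : ℕ} (hF : Fintype.card F = q) (h2 : finrank F K = 2) (hnk : n + 1 = k + k) :
    ∃ E : (Fin (n + 1) → K) ≃ₗ[F] (Fin (n + 1) ⊕ Fin (n + 1) → F), ∀ v, Cfsg.quadFormPlus (n + 1) F (E v) = QH hF h2 (n + 1) v := by
  have hVK : ∀ l, finrank F (Fin l → K) = 2 * l := finV h2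
  rcases classify n (QH hF h2 (n + 1)) (QH_nondeg hF h2 (n + 1)) (hVK (n + 1)) with ⟨E, hE⟩ | ⟨b', hb', E, hE⟩
  · exact ⟨E, hE⟩
  · exfalso
    obtain ⟨al, hal⟩ : ∃ al : K, Algebra.norm F al = -1 := by
      obtain ⟨u, hu⟩ := FiniteField.unitsMap_norm_surjective F K (-1 : Fˣ)
      exact ⟨u, by simpa using congrArg Units.val hu⟩
    let L0 : (Fin k → K) →ₗ[F] (Fin (k + k) → K) :=
      { toFun := fun x => Fin.append x (al • x)
        map_add' := fun x y => by
          ext i
          refine Fin.addCases (fun j => ?_) (fun j => ?_) i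
          · change Fin.append (x + y) (al • (x + y)) (Fin.castAdd k j) = Fin.append x (al • x) (Fin.castAdd k j) + Fin.append y (al • y) (Fin.castAdd k j)
            rw [Fin.append_left, Fin.append_left, Fin.append_left]; rfl
          · change Fin.append (x + y) (al • (x + y)) (Fin.natAdd k j) = Fin.append x (al • x) (Fin.natAdd k j) + Fin.append y (al • y) (Fin.natAdd k j)
            rw [Fin.append_right, Fin.append_right, Fin.append_right, smul_add]; rfl
        map_smul' := fun c x => by
          ext i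
          refine Fin.addCases (fun j => ?_) (fun j => ?_) i
          · change Fin.append (c • x) (al • (c • x)) (Fin.castAdd k j) = c • Fin.append x (al • x) (Fin.castAdd k j)
            rw [Fin.append_left, Fin.append_left]; rfl
          · change Fin.append (c • x) (al • (c • x)) (Fin.natAdd k j) = c • Fin.append x (al • x) (Fin.natAdd k j)
            rw [Fin.append_right, Fin.append_right]
            change al * (c • x j) = c • (al * x j)
            rw [mul_smul_comm] }
    let L := (LinearEquiv.funCongrLeft F K (finCongr hnk)).toLinearMap.comp L0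
    have hL0 : Function.Injective L0 := by
      intro x y hxy
      ext j
      have := congrFun hxy (Fin.castAdd k j)
      change Fin.append x (al • x) (Fin.castAdd k j) = Fin.append y (al • y) (Fin.castAdd k j) at this
      rwa [Fin.append_left, Fin.append_left] at this
    have hL : Function.Injective L := by
      intro x y hxy
      apply hL0
      apply (LinearEquiv.funCongrLeft F K (finCongr hnk)).injective
      exact hxy
    have hL2 : ∀ x, QH hF h2 (n + 1) (L x) = 0 := by
      intro x
      rw [QH_apply]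
      have e1 : ∑ i, Algebra.norm F (L x i) = ∑ i, Algebra.norm F (Fin.append x (al • x) i) :=
        Equiv.sum_comp (finCongr hnk) fun i => Algebra.norm F (Fin.append x (al • x) i)
      rw [e1, Fin.sum_univ_add]
      simp only [Fin.append_left, Fin.append_right, Pi.smul_apply, smul_eq_mul, map_mul, hal]
      rw [← Finset.sum_add_distrib]
      exact Finset.sum_eq_zero fun i _ => by ring
    have h1 := minus_le n hb' ((LinearMap.range L).map (E : (Fin (n + 1) → K) →ₗ[F] _)) (by
      rintro _ ⟨_, ⟨x, rfl⟩, rfl⟩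
      change Cfsg.quadFormMinus n F 1 b' (E (L x)) = 0
      rw [hE]
      exact hL2 x)
    rw [LinearEquiv.finrank_map_eq, LinearMap.finrank_range_of_inj hL, hVK] at h1
    omega

theorem plusE' {n : ℕ} (hF : Fintype.card F = q) (h2 : finrank F K = 2) (hn : Even n) :
    ∃ E : (Fin n → K) ≃ₗ[F] (Fin n ⊕ Fin n → F), ∀ v, Cfsg.quadFormPlus n F (E v) = QH hF h2 n v := by
  rcases n with _ | n
  · refine ⟨0, fun v => ?_⟩
    rw [QH_apply, Cfsg.quadFormPlus]
    simp
  · obtain ⟨k, hk⟩ := hn
    exact plusE hF h2 hk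

open Polynomial in
theorem root_ex (h2 : finrank F K = 2) (a b : F) (hab : ∀ z₁ z₂ : F, z₁ ^ 2 + a * z₁ * z₂ + b * z₂ ^ 2 = 0 → z₁ = 0 ∧ z₂ = 0) :
    ∃ θ : K, θ ^ 2 - algebraMap F K a * θ + algebraMap F K b = 0 := by
  have hdeg : (X ^ 2 - C a * X + C b : F[X]).natDegree = 2 := by
    compute_degree!
  have hirr : Irreducible (X ^ 2 - C a * X + C b : F[X]) := by
    apply Polynomial.irreducible_of_degree_le_three_of_not_isRoot
    · rw [hdeg]; decide
    · intro x hx
      rw [IsRoot.def] at hx
      simp only [eval_add, eval_sub, eval_pow, eval_mul, eval_X, eval_C] at hx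
      have := hab (-x) 1 (by linear_combination hx)
      exact one_ne_zero this.2
  haveI : Fact (Irreducible (X ^ 2 - C a * X + C b : F[X])) := ⟨hirr⟩
  have hfr : finrank F (AdjoinRoot (X ^ 2 - C a * X + C b : F[X])) = 2 := by
    rw [(AdjoinRoot.powerBasis hirr.ne_zero).finrank, AdjoinRoot.powerBasis_dim, hdeg]
  obtain ⟨φ⟩ := FiniteField.nonempty_algHom_of_finrank_dvd (F := F) (K := AdjoinRoot (X ^ 2 - C a * X + C b : F[X])) (L := K) (by rw [hfr, h2])
  refine ⟨φ (AdjoinRoot.root _), ?_⟩
  have h3 : (aeval (AdjoinRoot.root (X ^ 2 - C a * X + C b : F[X]))) (X ^ 2 - C a * X + C b : F[X]) = 0 := by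
    rw [AdjoinRoot.aeval_eq, AdjoinRoot.mk_self]
  have h4 := congrArg φ h3
  rw [_root_.map_zero, ← Polynomial.aeval_algHom_apply] at h4
  simp only [_root_.map_add, _root_.map_sub, _root_.map_mul, _root_.map_pow, aeval_X, aeval_C] at h4
  exact h4

theorem theta (hF : Fintype.card F = q) (h2 : finrank F K = 2) (a b : F) (hab : ∀ z₁ z₂ : F, z₁ ^ 2 + a * z₁ * z₂ + b * z₂ ^ 2 = 0 → z₁ = 0 ∧ z₂ = 0) :
    ∃ θ : K, θ + θ ^ q = algebraMap F K a ∧ θ * θ ^ q = algebraMap F K b := by
  obtain ⟨θ, hθ⟩ := root_ex (K := K) h2 a b hab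
  have hne : θ ^ q ≠ θ := by
    intro h
    obtain ⟨z, hz⟩ := Algebra.trace_surjective F K 1
    have h6 : algebraMap F K (Algebra.trace F K z) = 1 := by rw [hz, map_one]
    rw [tr_eq hF h2] at h6
    have h7 : algebraMap F K (Algebra.trace F K (θ * z)) = θ := by
      rw [tr_eq hF h2, mul_pow, h, ← mul_add, h6, mul_one]
    rw [← h7, ← _root_.map_pow, ← _root_.map_mul, ← _root_.map_sub, ← _root_.map_add, _root_.map_eq_zero_iff _ (algebraMap F K).injective] at hθ
    have := hab (-(Algebra.trace F K (θ * z))) 1 (by linear_combination hθ)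
    exact one_ne_zero this.2
  have h8 : (θ ^ q) ^ 2 - algebraMap F K a * θ ^ q + algebraMap F K b = 0 := by
    have h9 := congrArg (fun x : K => x ^ q) (show θ ^ 2 + algebraMap F K b = algebraMap F K a * θ by linear_combination hθ)
    simp only [frob_add hF, mul_pow, frob_F hF] at h9
    rw [← pow_mul, mul_comm 2 q, pow_mul] at h9
    linear_combination h9
  have h10 : θ + θ ^ q = algebraMap F K a := by
    have h11 : (θ - θ ^ q) * (θ + θ ^ q - algebraMap F K a) = 0 := by linear_combination hθ - h8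
    rcases mul_eq_zero.mp h11 with h | h
    · exact absurd (sub_eq_zero.mp h).symm hne
    · exact sub_eq_zero.mp h
  refine ⟨θ, h10, ?_⟩
  have h12 : θ ^ q = algebraMap F K a - θ := by rw [← h10]; ring
  rw [h12]
  linear_combination -hθ

theorem main2 {n : ℕ} (hF : Fintype.card F = q) (h2 : finrank F K = 2) (hn : Even n)
    (a b : F) (hab : ∀ z₁ z₂ : F, z₁ ^ 2 + a * z₁ * z₂ + b * z₂ ^ 2 = 0 → z₁ = 0 ∧ z₂ = 0) :
    ∃ φ : ↥(Cfsg.GU (n + 1) K q) →* ↥(Cfsg.isometryGroup F (Cfsg.quadFormMinus n F a b)), Function.Injective φ := by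
  obtain ⟨E, hE⟩ := plusE' hF h2 hn
  obtain ⟨θ, hθ1, hθ2⟩ := theta (K := K) hF h2 a b hab
  let L2 : (Fin 2 → F) →ₗ[F] K :=
    (Algebra.linearMap F K).comp (LinearMap.proj 0) + (LinearMap.toSpanSingleton F K θ).comp (LinearMap.proj 1)
  have hL2 : ∀ w, L2 w = algebraMap F K (w 0) + algebraMap F K (w 1) * θ := by
    intro w
    change algebraMap F K (w 0) + w 1 • θ = _
    rw [Algebra.smul_def]
  have hN : ∀ w, Algebra.norm F (L2 w) = w 0 ^ 2 + a * w 0 * w 1 + b * w 1 ^ 2 := by
    intro w
    apply (algebraMap F K).injective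
    rw [nm_eq hF h2, hL2, frob_add hF, mul_pow, frob_F hF, frob_F hF]
    simp only [_root_.map_add, _root_.map_mul, _root_.map_pow]
    rw [← hθ1, ← hθ2]
    ring
  let Ψ : ((Fin n ⊕ Fin n) ⊕ Fin 2 → F) →ₗ[F] (Fin (n + 1) → K) :=
    LinearMap.pi (Fin.cons (L2.comp (LinearMap.funLeft F F Sum.inr))
      (fun j => (LinearMap.proj j : (Fin n → K) →ₗ[F] K).comp (E.symm.toLinearMap.comp (LinearMap.funLeft F F Sum.inl))) : Fin (n + 1) → (((Fin n ⊕ Fin n) ⊕ Fin 2 → F) →ₗ[F] K))
  have h0 : ∀ w, Ψ w 0 = L2 (fun i => w (Sum.inr i)) := fun w => rfl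
  have hs : ∀ w j, Ψ w (Fin.succ j) = E.symm (fun i => w (Sum.inl i)) j := fun w j => rfl
  have hQ : ∀ w, QH hF h2 (n + 1) (Ψ w) = Cfsg.quadFormMinus n F a b w := by
    intro w
    rw [QH_apply, Fin.sum_univ_succ, h0, hN]
    have e1 : ∑ i : Fin n, Algebra.norm F (Ψ w (Fin.succ i)) = QH hF h2 n (E.symm (fun i => w (Sum.inl i))) := by
      rw [QH_apply]
      exact Finset.sum_congr rfl fun i _ => by rw [hs]
    rw [e1, ← hE, LinearEquiv.apply_symm_apply, Cfsg.quadFormPlus, Cfsg.quadFormMinus]
    ring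
  have hinj : Function.Injective Ψ := by
    rw [injective_iff_map_eq_zero]
    intro w hw
    have hw0 : L2 (fun i => w (Sum.inr i)) = 0 := by rw [← h0, hw]; rfl
    have hw1 : E.symm (fun i => w (Sum.inl i)) = 0 := by
      ext j
      rw [← hs, hw]; rfl
    rw [LinearEquiv.map_eq_zero_iff] at hw1
    have h3 := hN (fun i => w (Sum.inr i))
    rw [hw0, Algebra.norm_zero] at h3
    have h4 := hab _ _ h3.symm
    ext i
    rcases i with i | i
    · exact congrFun hw1 i
    · fin_cases i
      · exact h4.1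
      · exact h4.2
  let Φ := LinearMap.linearEquivOfInjective Ψ hinj (by
    rw [finV h2, finrank_fintype_fun_eq_card]; simp; ring)
  let ψ : ↥(Cfsg.GU (n + 1) K q) →* O (QH hF h2 (n + 1)) :=
    { toFun := fun g => ⟨(glEquiv (Fin (n + 1)) K g.1).restrictScalars F, by
        rw [mem_O]
        intro v
        apply (algebraMap F K).injective
        rw [QH_map, QH_map]
        change Cfsg.hermForm (n + 1) K q (glEquiv (Fin (n + 1)) K g.1 v) (glEquiv (Fin (n + 1)) K g.1 v) = _
        rw [glEquiv_apply]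
        exact g.2 v v⟩
      map_one' := by
        apply O_ext
        intro v
        change glEquiv (Fin (n + 1)) K 1 v = v
        rw [map_one]; rfl
      map_mul' := fun g h => by
        apply O_ext
        intro v
        change glEquiv (Fin (n + 1)) K (g.1 * h.1) v = _
        rw [map_mul]; rfl }
  have e := isoMat (Cfsg.quadFormMinus n F a b) (QH hF h2 (n + 1)) Φ (fun v => hQ v)
  refine ⟨e.symm.toMonoidHom.comp ψ, e.symm.injective.comp ?_⟩
  intro g h hgh
  apply Subtype.ext
  apply (glEquiv (Fin (n + 1)) K).injective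
  apply LinearEquiv.ext
  intro v
  exact congrArg (fun f : O (QH hF h2 (n + 1)) => f.1 v) hgh
end

/-- For m odd, the unitary group GU_m(q) (over the field with q² elements) embeds in the orthogonal group O⁻_2m(q) of an elliptic form (Σ_(i<m−1) x_i y_i plus an anisotropic binary form) over the field with q elements (there is an injective homomorphism). -/
theorem result {K F : Type*} [Field K] [Fintype K] [Field F] [Fintype F] {q : ℕ} (hK : Fintype.card K = q ^ 2) (hF : Fintype.card F = q) (m : ℕ) (hm : Odd m) (a b : F) (hab : ∀ z₁ z₂ : F, z₁ ^ 2 + a * z₁ * z₂ + b * z₂ ^ 2 = 0 → z₁ = 0 ∧ z₂ = 0) : ∃ φ : ↥(Cfsg.GU m K q) →* ↥(Cfsg.isometryGroup F (Cfsg.quadFormMinus (m - 1) F a b)), Function.Injective φ := by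
  obtain ⟨i⟩ := exists_emb hK hF
  letI : Algebra F K := i.toAlgebra
  have h2 := finrank_two hK hF
  obtain ⟨k, rfl⟩ := hm
  exact main2 hF h2 (even_two_mul k) a b hab

end Cfsg.Agent.S2641
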