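import Cfsg.Statements.S2664
import Cfsg.Agent.Lib.CHF2
import Cfsg.Agent.Lib.CHO5

set_option autoImplicit false
open scoped MatrixGroups
open Cfsg

namespace Cfsg.Agent.S2664


/-- Centralizers of field automorphisms of prime order, type G₂. Let `F` be a finite field and `G` the Chevalley group of type G₂ over `F` (for this type the group generated by the root elements is the whole group of rational points, with trivial centre). Let `φ` be a field automorphism of `G` (it sends each root element `x_s(t)` to `x_s(σ t)` for a fixed automorphism `σ` of `F`) whose order is a prime `r`. Then `F` has `q₀ ^ r` elements for some prime power `q₀`, and the subgroup of elements fixed by `φ` is isomorphic to the Chevalley group of type G₂ over a field with `q₀` elements. -/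
theorem result {F : Type*} [Field F] [Fintype F]
    (φ : MulAut ↥(Cfsg.Lie.chevG2.group F)) (hφ : Cfsg.Lie.chevG2.IsFieldAut φ) (r : ℕ) (hr : r.Prime) (ho : orderOf φ = r) :
    ∃ (F₀ : Type) (_ : Field F₀) (_ : Fintype F₀), Fintype.card F = Fintype.card F₀ ^ r ∧
      Nonempty (↥((MulEquiv.toMonoidHom φ).eqLocus (MonoidHom.id ↥(Cfsg.Lie.chevG2.group F))) ≃* ↥(Cfsg.Lie.chevG2.group F₀)) := by
  have hU : ∀ i : Fin Cfsg.Lie.chevG2.rank, CfsgLib.Chev.Ord.sdG2 i = 1 := by decide +kernel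
  have h1 := CfsgLib.Chev.Ord.sfG2
  have h2 : (Matrix.diagonal fun i => (CfsgLib.Chev.Ord.sdG2 i : ℤ)) = 1 := by
    rw [← Matrix.diagonal_one]
    congr 1
    funext i
    rw [hU i]
    rfl
  rw [h2] at h1
  have hA : CfsgLib.Chev.cmat Cfsg.Lie.chevG2 * (CfsgLib.Chev.Ord.sVG2 * CfsgLib.Chev.Ord.sUG2) = 1 := by
    have h3 : CfsgLib.Chev.cmat Cfsg.Lie.chevG2 * (CfsgLib.Chev.Ord.sVG2 * CfsgLib.Chev.Ord.sUG2) =
        (CfsgLib.Chev.Ord.sUiG2 * CfsgLib.Chev.Ord.sUG2) * (CfsgLib.Chev.cmat Cfsg.Lie.chevG2 * (CfsgLib.Chev.Ord.sVG2 * CfsgLib.Chev.Ord.sUG2)) := by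
      rw [CfsgLib.Chev.Ord.sbG2, one_mul]
    rw [h3]
    calc _ = CfsgLib.Chev.Ord.sUiG2 * (CfsgLib.Chev.Ord.sUG2 * CfsgLib.Chev.cmat Cfsg.Lie.chevG2 * CfsgLib.Chev.Ord.sVG2) * CfsgLib.Chev.Ord.sUG2 := by
          simp only [Matrix.mul_assoc]
      _ = 1 := by rw [h1, Matrix.mul_one, CfsgLib.Chev.Ord.sbG2]
  exact CfsgLib.Chev.field_fixed (by simp) hA φ hφ r hr ho

end Cfsg.Agent.S2664
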