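import Cfsg.Statements.S2666

set_option autoImplicit false
open Cfsg

namespace Cfsg.Agent.S2666

theorem prod_eq {X : Type*} [Group X] (σ : MulAut X) (g a : X) (ha : g = a * (σ a)⁻¹) (d : ℕ) :
    ((List.range d).map (fun i => (σ ^ i) g)).prod = a * ((σ ^ d) a)⁻¹ := by
  induction d with
  | zero => simp
  | succ d ih =>
    rw [List.range_succ, List.map_append, List.prod_append, ih]
    simp only [List.map_cons, List.map_nil, List.prod_cons, List.prod_nil, mul_one]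
    have : (σ ^ d) g = (σ ^ d) a * ((σ ^ (d + 1)) a)⁻¹ := by
      rw [ha, map_mul, map_inv, pow_succ, MulAut.mul_apply]
    rw [this]; group

theorem comm_pow {X : Type*} [Group X] (σ : MulAut X) (e : ℕ) (a : X) : (σ ^ e) (σ a) = σ ((σ ^ e) a) := by
  rw [← MulAut.mul_apply, ← MulAut.mul_apply, ← pow_succ, ← pow_succ']

theorem fixpow {X : Type*} [Group X] (σ : MulAut X) (x : X) (hx : σ x = x) (n : ℕ) : (σ ^ n) x = x := by
  induction n with
  | zero => simp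
  | succ n ih => rw [pow_succ, MulAut.mul_apply, hx, ih]

theorem fix {X : Type*} [Group X] (σ : MulAut X) (e : ℕ) (g : X) (hg : (σ ^ e) g = g) (a : X) (ha : g = a * (σ a)⁻¹) :
    σ (((σ ^ e) a)⁻¹ * a) = ((σ ^ e) a)⁻¹ * a := by
  have h1 : (σ ^ e) (σ a) = σ ((σ ^ e) a) := comm_pow σ e a
  have h2 : (σ ^ e) a * (σ ((σ ^ e) a))⁻¹ = a * (σ a)⁻¹ := by
    rw [← h1, ← map_inv, ← map_mul, ← ha, hg]
  have h3 : σ ((σ ^ e) a) = σ a * a⁻¹ * (σ ^ e) a := by
    have : (σ ((σ ^ e) a))⁻¹ = ((σ ^ e) a)⁻¹ * (a * (σ a)⁻¹) := by rw [← h2]; group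
    rw [← inv_inv (σ ((σ ^ e) a)), this]; group
  rw [map_mul, map_inv, h3]; group


/-- Shintani descent, in an abstract form. Let `σ` be an automorphism of a group `X` such that the maps `a ↦ a·σ(a)⁻¹` and `a ↦ a·σᵉ(a)⁻¹` are surjective on `X` (the Lang–Steinberg property, which holds when `X` is a connected algebraic group and `σ` a Steinberg endomorphism), where `e ≥ 1`. Write `G` for the subgroup of fixed points of `σᵉ` and `H` for the subgroup of fixed points of `σ`. The `G`-conjugacy classes in the coset `G σ` of the semidirect product of `G` by `σ` correspond to the orbits of `G` on itself under twisted conjugation `g ↦ k g σ(k)⁻¹`, and the `e`-th power of `g σ` has `G`-part the norm `g σ(g) ⋯ σ^(e-1)(g)`. For `g` in `G` and any `a` with `g = a σ(a)⁻¹`, put `x = σᵉ(a)⁻¹ a`. Then: (1) `x` lies in `H`, and `a⁻¹ · (g σ(g) ⋯ σ^(e-1)(g)) · a = x`; (2) for `g, g'` in `G` with such elements `a, b` and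 `x, x'`, the elements `g, g'` are twisted-conjugate under `G` if and only if `x, x'` are conjugate in `H`; (3) every element of `H` arises as such an `x`. So `g ↦ x` induces a well-defined bijection from the twisted `G`-classes of `G` onto the conjugacy classes of `H` (the Shintani map). -/
theorem result {X : Type*} [Group X] (σ : MulAut X) (e : ℕ) (he : 1 ≤ e)
    (hL : ∀ g : X, ∃ a : X, g = a * (σ a)⁻¹) (hLe : ∀ g : X, ∃ a : X, g = a * ((σ ^ e) a)⁻¹) :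
    (∀ g ∈ (MulEquiv.toMonoidHom (σ ^ e)).eqLocus (MonoidHom.id X), ∀ a : X, g = a * (σ a)⁻¹ →
        ((σ ^ e) a)⁻¹ * a ∈ (MulEquiv.toMonoidHom σ).eqLocus (MonoidHom.id X) ∧
          a⁻¹ * ((List.range e).map (fun i => (σ ^ i) g)).prod * a = ((σ ^ e) a)⁻¹ * a) ∧
    (∀ g ∈ (MulEquiv.toMonoidHom (σ ^ e)).eqLocus (MonoidHom.id X), ∀ g' ∈ (MulEquiv.toMonoidHom (σ ^ e)).eqLocus (MonoidHom.id X), ∀ a b : X,
        g = a * (σ a)⁻¹ → g' = b * (σ b)⁻¹ →
          ((∃ k ∈ (MulEquiv.toMonoidHom (σ ^ e)).eqLocus (MonoidHom.id X), g' = k * g * (σ k)⁻¹) ↔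
            (∃ h ∈ (MulEquiv.toMonoidHom σ).eqLocus (MonoidHom.id X), ((σ ^ e) b)⁻¹ * b = h * (((σ ^ e) a)⁻¹ * a) * h⁻¹))) ∧
    (∀ x ∈ (MulEquiv.toMonoidHom σ).eqLocus (MonoidHom.id X), ∃ g ∈ (MulEquiv.toMonoidHom (σ ^ e)).eqLocus (MonoidHom.id X), ∃ a : X,
        g = a * (σ a)⁻¹ ∧ ((σ ^ e) a)⁻¹ * a = x) := by
  refine ⟨?_, ?_, ?_⟩
  · intro g hg a ha
    refine ⟨fix σ e g hg a ha, ?_⟩
    rw [prod_eq σ g a ha e]; group
  · intro g hg g' hg' a b ha hb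
    constructor
    · rintro ⟨k, hk, hkg⟩
      have hk' : (σ ^ e) k = k := hk
      have e1 : b * (σ b)⁻¹ = k * (a * (σ a)⁻¹) * (σ k)⁻¹ := by rw [← hb, ← ha, hkg]
      have hh : σ (b⁻¹ * k * a) = b⁻¹ * k * a := by
        rw [map_mul, map_mul, map_inv]
        have : (σ b)⁻¹ = b⁻¹ * (k * (a * (σ a)⁻¹) * (σ k)⁻¹) := by rw [← e1]; group
        rw [this]; group
      refine ⟨b⁻¹ * k * a, hh, ?_⟩
      have h2 := fixpow σ _ hh e
      rw [map_mul, map_mul, map_inv, hk'] at h2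
      have h3 : ((σ ^ e) b)⁻¹ = (b⁻¹ * k * a) * ((σ ^ e) a)⁻¹ * k⁻¹ := by rw [← h2]; group
      rw [h3]; group
    · rintro ⟨h, hh, hx⟩
      have hh' : σ h = h := hh
      refine ⟨b * h * a⁻¹, ?_, ?_⟩
      · change (σ ^ e) (b * h * a⁻¹) = b * h * a⁻¹
        rw [map_mul, map_mul, map_inv, fixpow σ h hh' e]
        have h3 : ((σ ^ e) b) = b * (h * (((σ ^ e) a)⁻¹ * a) * h⁻¹)⁻¹ := by rw [← hx]; group
        rw [h3]; group
      · rw [map_mul, map_mul, map_inv, hh', ha, hb]; group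
  · intro x hx
    have hx' : σ x = x := hx
    obtain ⟨c, hc⟩ := hLe x⁻¹
    have e1 : (σ ^ e) c⁻¹ = c⁻¹ * x⁻¹ := by
      rw [map_inv]
      have : ((σ ^ e) c)⁻¹ = c⁻¹ * (c * ((σ ^ e) c)⁻¹) := by group
      rw [this, ← hc]
    refine ⟨c⁻¹ * (σ c⁻¹)⁻¹, ?_, c⁻¹, rfl, ?_⟩
    · change (σ ^ e) (c⁻¹ * (σ c⁻¹)⁻¹) = c⁻¹ * (σ c⁻¹)⁻¹
      rw [map_mul, map_inv (σ ^ e) (σ c⁻¹), comm_pow, e1, map_mul, map_inv σ x, hx']; group
    · rw [e1]; group

end Cfsg.Agent.S2666
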