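import Cfsg.Statements.S2668

set_option autoImplicit false
open Cfsg

namespace Cfsg.Agent.S2668

theorem prod_eq {X : Type*} [Group X] (σ : MulAut X) (g a : X) (ha : g = a * (σ a)⁻¹) (d : ℕ) :
    ((List.range d).map (fun i => (σ ^ i) g)).prod = a * ((σ ^ d) a)⁻¹ := by
  induction d with
  | zero => simp
  | succ d ih =>
    rw [List.range_succ, List.map_append, List.prod_append, ih]
    simp only [List.map_cons, List.map_nil, List.prod_cons, List.prod_nil, mul_one]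
    have : (σ ^ d) g = (σ ^ d) a * ((σ ^ (d + 1)) a)⁻¹ := by
      rw [ha, map_mul, map_inv, pow_succ, MulAut.mul_apply]
    rw [this]; group

theorem fix {X : Type*} [Group X] (σ : MulAut X) (e : ℕ) (g : X) (hg : (σ ^ e) g = g) (a : X) (ha : g = a * (σ a)⁻¹) :
    σ (((σ ^ e) a)⁻¹ * a) = ((σ ^ e) a)⁻¹ * a := by
  have h1 : (σ ^ e) (σ a) = σ ((σ ^ e) a) := by
    rw [← MulAut.mul_apply, ← MulAut.mul_apply, ← pow_succ, ← pow_succ']
  have h2 : (σ ^ e) a * (σ ((σ ^ e) a))⁻¹ = a * (σ a)⁻¹ := by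
    rw [← h1, ← map_inv, ← map_mul, ← ha, hg]
  have h3 : σ ((σ ^ e) a) = σ a * a⁻¹ * (σ ^ e) a := by
    have : (σ ((σ ^ e) a))⁻¹ = ((σ ^ e) a)⁻¹ * (a * (σ a)⁻¹) := by rw [← h2]; group
    rw [← inv_inv (σ ((σ ^ e) a)), this]; group
  rw [map_mul, map_inv, h3]; group

/-- Shintani descent and powers (abstract form). Let `σ` be an automorphism of a group `X`, `e ≥ 1` and `d ≥ 1`, let `g` be fixed by `σᵉ` and let `a` satisfy `g = a σ(a)⁻¹`, so that the Shintani map of `(X, σ, e)` sends the class of `g σ` to the class of `x = σᵉ(a)⁻¹ a`. Put `h = g σ(g) ⋯ σ^(d-1)(g)`, the part in `X` of the `d`-th power `(g σ)^d = h σ^d`. Then `h = a σ^d(a)⁻¹` (so `a` also serves for `h` with respect to `σ^d`), `h` is fixed by `(σ^d)ᵉ`, and `(σ^d)ᵉ(a)⁻¹ a = x^d`: the Shintani map of `(X, σ^d, e)` sends the class of `(g σ)^d` to the class of `x^d`. (When `d` divides `e`, the Shintani map of `(X, σ^d, e/d)` sends it to the class of `x`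 itself, since `(σ^d)^(e/d) = σᵉ`.) -/
theorem result {X : Type*} [Group X] (σ : MulAut X) (e d : ℕ) (he : 1 ≤ e) (hd : 1 ≤ d)
    (g : X) (hg : g ∈ (MulEquiv.toMonoidHom (σ ^ e)).eqLocus (MonoidHom.id X)) (a : X) (ha : g = a * (σ a)⁻¹) :
    ((List.range d).map (fun i => (σ ^ i) g)).prod = a * ((σ ^ d) a)⁻¹ ∧
      ((List.range d).map (fun i => (σ ^ i) g)).prod ∈ (MulEquiv.toMonoidHom ((σ ^ d) ^ e)).eqLocus (MonoidHom.id X) ∧
      (((σ ^ d) ^ e) a)⁻¹ * a = (((σ ^ e) a)⁻¹ * a) ^ d := by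
  have hg' : (σ ^ e) g = g := hg
  have hx : σ (((σ ^ e) a)⁻¹ * a) = ((σ ^ e) a)⁻¹ * a := fix σ e g hg' a ha
  set x := ((σ ^ e) a)⁻¹ * a with hxdef
  have hpow : ∀ n : ℕ, (σ ^ n) x = x := by
    intro n
    induction n with
    | zero => simp
    | succ n ih => rw [pow_succ, MulAut.mul_apply, hx, ih]
  have hea : (σ ^ e) a = a * x⁻¹ := by rw [hxdef]; group
  have key : ∀ n : ℕ, ((σ ^ n) ^ e) a = a * (x ^ n)⁻¹ := by
    intro n
    rw [← pow_mul, mul_comm, pow_mul]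
    induction n with
    | zero => simp
    | succ n ih =>
      rw [pow_succ', MulAut.mul_apply, ih, map_mul, hea, map_inv, map_pow, hpow e]
      group
  refine ⟨prod_eq σ g a ha d, ?_, ?_⟩
  · rw [prod_eq σ g a ha d]
    change ((σ ^ d) ^ e) (a * ((σ ^ d) a)⁻¹) = a * ((σ ^ d) a)⁻¹
    have h1 : ((σ ^ d) ^ e) ((σ ^ d) a) = (σ ^ d) (((σ ^ d) ^ e) a) := by
      rw [← MulAut.mul_apply, ← MulAut.mul_apply, ← pow_succ, ← pow_succ']
    rw [map_mul, map_inv, h1, key d, map_mul, map_inv, map_pow, hpow d]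
    group
  · rw [key d]; group

end Cfsg.Agent.S2668
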