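import Cfsg.Statements.S2669

set_option autoImplicit false
open Cfsg

namespace Cfsg.Agent.S2669

theorem prod_eq {X : Type*} [Group X] (σ : MulAut X) (g a : X) (ha : g = a * (σ a)⁻¹) (d : ℕ) :
    ((List.range d).map (fun i => (σ ^ i) g)).prod = a * ((σ ^ d) a)⁻¹ := by
  induction d with
  | zero => simp
  | succ d ih =>
    rw [List.range_succ, List.map_append, List.prod_append, ih]
    simp only [List.map_cons, List.map_nil, List.prod_cons, List.prod_nil, mul_one]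
    have : (σ ^ d) g = (σ ^ d) a * ((σ ^ (d + 1)) a)⁻¹ := by
      rw [ha, map_mul, map_inv, pow_succ, MulAut.mul_apply]
    rw [this]; group

theorem comm_pow {X : Type*} [Group X] (σ : MulAut X) (e : ℕ) (a : X) : (σ ^ e) (σ a) = σ ((σ ^ e) a) := by
  rw [← MulAut.mul_apply, ← MulAut.mul_apply, ← pow_succ, ← pow_succ']

theorem fixpow {X : Type*} [Group X] (σ : MulAut X) (x : X) (hx : σ x = x) (n : ℕ) : (σ ^ n) x = x := by
  induction n with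
  | zero => simp
  | succ n ih => rw [pow_succ, MulAut.mul_apply, hx, ih]

theorem fix {X : Type*} [Group X] (σ : MulAut X) (e : ℕ) (g : X) (hg : (σ ^ e) g = g) (a : X) (ha : g = a * (σ a)⁻¹) :
    σ (((σ ^ e) a)⁻¹ * a) = ((σ ^ e) a)⁻¹ * a := by
  have h1 : (σ ^ e) (σ a) = σ ((σ ^ e) a) := comm_pow σ e a
  have h2 : (σ ^ e) a * (σ ((σ ^ e) a))⁻¹ = a * (σ a)⁻¹ := by
    rw [← h1, ← map_inv, ← map_mul, ← ha, hg]
  have h3 : σ ((σ ^ e) a) = σ a * a⁻¹ * (σ ^ e) a := by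
    have : (σ ((σ ^ e) a))⁻¹ = ((σ ^ e) a)⁻¹ * (a * (σ a)⁻¹) := by rw [← h2]; group
    rw [← inv_inv (σ ((σ ^ e) a)), this]; group
  rw [map_mul, map_inv, h3]; group


/-- Shintani descent preserves numbers of fixed points on coset spaces (abstract form). Let `σ` be an automorphism of a group `X` and `e ≥ 1`; write `G` for the fixed points of `σᵉ` and `H` for the fixed points of `σ`, and assume `G` is finite. Let `Y` be a `σ`-stable subgroup of `X` on which the maps `a ↦ a σ(a)⁻¹` and `a ↦ a σᵉ(a)⁻¹` are surjective (as for a closed connected `σ`-stable subgroup of an algebraic group). Let `g ∈ G`, let `a ∈ X` satisfy `g = a σ(a)⁻¹` and put `x = σᵉ(a)⁻¹ a` (the Shintani image, an element of `H`). The element `g σ` of the semidirect product acts on the cosets of `Y ∩ G` in `G` by `k (Y ∩ G) ↦ g σ(k) (Y ∩ G)`, fixing that coset exactly when `k⁻¹ g σ(k) ∈ Y`; and `x` fixes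 the coset `h (Y ∩ H)` of `H` exactly when `h⁻¹ x h ∈ Y`. Then the two numbers of fixed cosets agree; in cross-multiplied form, `#{k ∈ G : k⁻¹ g σ(k) ∈ Y} · |Y ∩ H| = #{h ∈ H : h⁻¹ x h ∈ Y} · |Y ∩ G|`. -/
theorem result {X : Type*} [Group X] (σ : MulAut X) (e : ℕ) (he : 1 ≤ e)
    [Finite ↥((MulEquiv.toMonoidHom (σ ^ e)).eqLocus (MonoidHom.id X))]
    (Y : Subgroup X) (hY : ∀ y : X, y ∈ Y ↔ σ y ∈ Y)
    (hYL : ∀ y ∈ Y, ∃ a ∈ Y, y = a * (σ a)⁻¹) (hYLe : ∀ y ∈ Y, ∃ a ∈ Y, y = a * ((σ ^ e) a)⁻¹)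
    (g : X) (hg : g ∈ (MulEquiv.toMonoidHom (σ ^ e)).eqLocus (MonoidHom.id X)) (a : X) (ha : g = a * (σ a)⁻¹) :
    Nat.card {k : ↥((MulEquiv.toMonoidHom (σ ^ e)).eqLocus (MonoidHom.id X)) // (k : X)⁻¹ * g * σ k ∈ Y} *
        Nat.card ↥(Y ⊓ (MulEquiv.toMonoidHom σ).eqLocus (MonoidHom.id X)) =
      Nat.card {h : ↥((MulEquiv.toMonoidHom σ).eqLocus (MonoidHom.id X)) // (h : X)⁻¹ * (((σ ^ e) a)⁻¹ * a) * h ∈ Y} *
        Nat.card ↥(Y ⊓ (MulEquiv.toMonoidHom (σ ^ e)).eqLocus (MonoidHom.id X)) := by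
  classical
  have hg' : (σ ^ e) g = g := hg
  -- Lang elements for k
  have hA : ∀ k : {k : ↥((MulEquiv.toMonoidHom (σ ^ e)).eqLocus (MonoidHom.id X)) // (k : X)⁻¹ * g * σ k ∈ Y},
      ∃ c : X, c ∈ Y ∧ ((k : ↥((MulEquiv.toMonoidHom (σ ^ e)).eqLocus (MonoidHom.id X))) : X)⁻¹ * g * σ ((k : ↥((MulEquiv.toMonoidHom (σ ^ e)).eqLocus (MonoidHom.id X))) : X) = c * (σ c)⁻¹ := by
    intro k
    obtain ⟨c, hc, h⟩ := hYL _ k.2
    exact ⟨c, hc, h⟩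
  choose cA hcA hcA' using hA
  have hYe : ∀ n : ℕ, ∀ y : X, y ∈ Y → (σ ^ n) y ∈ Y := by
    intro n
    induction n with
    | zero => intro y hy; simpa using hy
    | succ n ih => intro y hy; rw [pow_succ, MulAut.mul_apply]; exact ih _ ((hY y).1 hy)
  have hB : ∀ h : {h : ↥((MulEquiv.toMonoidHom σ).eqLocus (MonoidHom.id X)) // (h : X)⁻¹ * (((σ ^ e) a)⁻¹ * a) * h ∈ Y},
      ∃ c : X, c ∈ Y ∧ ((σ ^ e) c)⁻¹ * c = ((h : ↥((MulEquiv.toMonoidHom σ).eqLocus (MonoidHom.id X))) : X)⁻¹ * (((σ ^ e) a)⁻¹ * a) * ((h : ↥((MulEquiv.toMonoidHom σ).eqLocus (MonoidHom.id X))) : X) := by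
    intro h
    obtain ⟨b, hb, hb'⟩ := hYLe _ (Y.inv_mem h.2)
    refine ⟨b⁻¹, Y.inv_mem hb, ?_⟩
    rw [map_inv, ← inv_inj, mul_inv_rev, inv_inv, inv_inv, ← hb']
  choose cB hcB hcB' using hB
  let P := {p : X × X // (σ ^ e) p.1 = p.1 ∧ p.2 ∈ Y ∧ σ (a⁻¹ * p.1 * p.2) = a⁻¹ * p.1 * p.2}
  -- first count
  have key1 : ∀ k c : X, σ (a⁻¹ * k * c) = a⁻¹ * k * c ↔ k⁻¹ * g * σ k = c * (σ c)⁻¹ := by
    intro k c
    rw [map_mul, map_mul, map_inv, ha]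
    constructor
    · intro h
      have h' : σ k = σ a * (a⁻¹ * k * c) * (σ c)⁻¹ := by rw [← h]; group
      rw [h']; group
    · intro h
      have h' : σ k = σ a * a⁻¹ * k * (c * (σ c)⁻¹) := by rw [← h]; group
      rw [h']; group
  have key2 : ∀ h c : X, σ h = h → ((σ ^ e) (a * h * c⁻¹) = a * h * c⁻¹ ↔ ((σ ^ e) c)⁻¹ * c = h⁻¹ * (((σ ^ e) a)⁻¹ * a) * h) := by
    intro h c hh
    rw [map_mul, map_mul, map_inv, fixpow σ h hh e]
    constructor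
    · intro h'
      have h2 : ((σ ^ e) c)⁻¹ = h⁻¹ * ((σ ^ e) a)⁻¹ * (a * h * c⁻¹) := by rw [← h']; group
      rw [h2]; group
    · intro h'
      have h2 : ((σ ^ e) c)⁻¹ = h⁻¹ * (((σ ^ e) a)⁻¹ * a) * h * c⁻¹ := by rw [← h']; group
      rw [h2]; group
  have e1 : Nat.card ({k : ↥((MulEquiv.toMonoidHom (σ ^ e)).eqLocus (MonoidHom.id X)) // (k : X)⁻¹ * g * σ k ∈ Y} ×
      ↥(Y ⊓ (MulEquiv.toMonoidHom σ).eqLocus (MonoidHom.id X))) = Nat.card P := by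
    refine Nat.card_congr (Equiv.ofBijective (fun q => ⟨((q.1.1 : X), cA q.1 * (q.2 : X)), q.1.1.2, Y.mul_mem (hcA q.1) q.2.2.1, ?_⟩) ⟨?_, ?_⟩)
    · rw [key1]
      rw [hcA' q.1, map_mul]
      have : σ (q.2 : X) = q.2 := q.2.2.2
      rw [this]; group
    · rintro ⟨k, z⟩ ⟨k', z'⟩ h
      have h1 := congrArg (fun p : P => p.1.1) h
      have h2 := congrArg (fun p : P => p.1.2) h
      simp only at h1 h2
      have hk : k = k' := Subtype.ext (Subtype.ext h1)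
      subst hk
      have : (z : X) = z' := mul_left_cancel h2
      rw [Subtype.ext this]
    · rintro ⟨⟨k, c⟩, hk, hc, hkc⟩
      have hk1 : k⁻¹ * g * σ k = c * (σ c)⁻¹ := (key1 k c).1 hkc
      have hkY : k⁻¹ * g * σ k ∈ Y := by
        rw [hk1]; exact Y.mul_mem hc (Y.inv_mem ((hY c).1 hc))
      let k' : {k : ↥((MulEquiv.toMonoidHom (σ ^ e)).eqLocus (MonoidHom.id X)) // (k : X)⁻¹ * g * σ k ∈ Y} := ⟨⟨k, hk⟩, hkY⟩
      have h3 : k⁻¹ * g * σ k = cA k' * (σ (cA k'))⁻¹ := hcA' k'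
      refine ⟨(k', ⟨(cA k')⁻¹ * c, Y.mul_mem (Y.inv_mem (hcA k')) hc, ?_⟩), ?_⟩
      · change σ ((cA k')⁻¹ * c) = (cA k')⁻¹ * c
        rw [map_mul, map_inv]
        have h4 : (σ (cA k'))⁻¹ = (cA k')⁻¹ * (c * (σ c)⁻¹) := by rw [← hk1, h3]; group
        rw [h4]; group
      · apply Subtype.ext
        simp only [k', Prod.mk.injEq, true_and]
        group
  have e2 : Nat.card ({h : ↥((MulEquiv.toMonoidHom σ).eqLocus (MonoidHom.id X)) // (h : X)⁻¹ * (((σ ^ e) a)⁻¹ * a) * h ∈ Y} ×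
      ↥(Y ⊓ (MulEquiv.toMonoidHom (σ ^ e)).eqLocus (MonoidHom.id X))) = Nat.card P := by
    refine Nat.card_congr (Equiv.ofBijective (fun q => ⟨(a * (q.1.1 : X) * ((q.2 : X) * cB q.1)⁻¹, (q.2 : X) * cB q.1), ?_, Y.mul_mem q.2.2.1 (hcB q.1), ?_⟩) ⟨?_, ?_⟩)
    · have hz : (σ ^ e) (q.2 : X) = q.2 := q.2.2.2
      have hh : σ (q.1.1 : X) = q.1.1 := q.1.1.2
      show (σ ^ e) (a * (q.1.1 : X) * ((q.2 : X) * cB q.1)⁻¹) = a * (q.1.1 : X) * ((q.2 : X) * cB q.1)⁻¹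
      rw [key2 _ _ hh, ← hcB' q.1, map_mul, hz]; group
    · have hh : σ (q.1.1 : X) = q.1.1 := q.1.1.2
      show σ (a⁻¹ * (a * (q.1.1 : X) * ((q.2 : X) * cB q.1)⁻¹) * ((q.2 : X) * cB q.1)) = a⁻¹ * (a * (q.1.1 : X) * ((q.2 : X) * cB q.1)⁻¹) * ((q.2 : X) * cB q.1)
      have : a⁻¹ * (a * (q.1.1 : X) * ((q.2 : X) * cB q.1)⁻¹) * ((q.2 : X) * cB q.1) = q.1.1 := by group
      rw [this, hh]
    · rintro ⟨k, z⟩ ⟨k', z'⟩ h
      have h1 := congrArg (fun p : P => p.1.1) h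
      have h2 := congrArg (fun p : P => p.1.2) h
      simp only at h1 h2
      rw [h2] at h1
      have h3 : ((k : ↥((MulEquiv.toMonoidHom σ).eqLocus (MonoidHom.id X))) : X) = ((k' : ↥((MulEquiv.toMonoidHom σ).eqLocus (MonoidHom.id X))) : X) := mul_left_cancel (mul_right_cancel h1)
      have hk : k = k' := Subtype.ext (Subtype.ext h3)
      subst hk
      have : (z : X) = z' := mul_right_cancel h2
      rw [Subtype.ext this]
    · rintro ⟨⟨k, c⟩, hk, hc, hkc⟩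
      simp only at hk hc hkc
      have hk0 : a * (a⁻¹ * k * c) * c⁻¹ = k := by group
      have hk1 := (key2 (a⁻¹ * k * c) c hkc).1 (by rw [hk0]; exact hk)
      let h' : {h : ↥((MulEquiv.toMonoidHom σ).eqLocus (MonoidHom.id X)) // (h : X)⁻¹ * (((σ ^ e) a)⁻¹ * a) * h ∈ Y} :=
        ⟨⟨a⁻¹ * k * c, hkc⟩, by
          show (a⁻¹ * k * c)⁻¹ * (((σ ^ e) a)⁻¹ * a) * (a⁻¹ * k * c) ∈ Y
          rw [← hk1]; exact Y.mul_mem (Y.inv_mem (hYe e c hc)) hc⟩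
      have h3 : ((σ ^ e) (cB h'))⁻¹ * (cB h') = (a⁻¹ * k * c)⁻¹ * (((σ ^ e) a)⁻¹ * a) * (a⁻¹ * k * c) := hcB' h'
      refine ⟨(h', ⟨c * (cB h')⁻¹, Y.mul_mem hc (Y.inv_mem (hcB h')), ?_⟩), ?_⟩
      · change (σ ^ e) (c * (cB h')⁻¹) = c * (cB h')⁻¹
        rw [map_mul, map_inv]
        have h4 : ((σ ^ e) (cB h'))⁻¹ = ((σ ^ e) c)⁻¹ * c * (cB h')⁻¹ := by rw [hk1, ← h3]; group
        rw [h4]; group
      · apply Subtype.ext
        simp only [h', Prod.mk.injEq]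
        constructor <;> group
  rw [← Nat.card_prod, ← Nat.card_prod, e1, e2]

end Cfsg.Agent.S2669
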