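import Cfsg.Statements.S2678
import Cfsg.Agent.Lib.QEmb

set_option autoImplicit false
open Cfsg

namespace Cfsg.Agent.S2678

open CfsgLib.Symp Module CfsgLib.QEmb CfsgLib.AltForm

theorem main {K F : Type*} [Field K] [Fintype K] [Field F] [Fintype F] [Algebra F K] (h2 : finrank F K = 2) (a : ℕ) :
    ∃ φ : ↥(Matrix.symplecticGroup (Fin a) K) →* ↥(Matrix.symplecticGroup (Fin (2 * a)) F), Function.Injective φ := by
  have hsm : ∀ (c : F) (z : K), c • z = algebraMap F K c * z := fun c z => Algebra.smul_def c z
  let B : LinearMap.BilinForm F (Fin a ⊕ Fin a → K) := LinearMap.mk₂ F (fun x y => Algebra.trace F K (sympB a K x y))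
    (fun x x' y => by rw [map_add, LinearMap.add_apply, map_add])
    (fun c x y => by
      have e : c • x = (algebraMap F K c) • x := by
        ext i; rw [Pi.smul_apply, Pi.smul_apply, hsm, smul_eq_mul]
      rw [e, LinearMap.map_smul, LinearMap.smul_apply, smul_eq_mul, ← hsm, LinearMap.map_smul])
    (fun x y y' => by rw [map_add, map_add])
    (fun c x y => by
      have e : c • y = (algebraMap F K c) • y := by
        ext i; rw [Pi.smul_apply, Pi.smul_apply, hsm, smul_eq_mul]
      rw [e, LinearMap.map_smul, smul_eq_mul, ← hsm, LinearMap.map_smul])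
  have hBa : ∀ x y, B x y = Algebra.trace F K (sympB a K x y) := fun x y => rfl
  have hA : B.IsAlt := fun x => by rw [hBa, (sympB_isAlt (m := a) (F := K)).self_eq_zero, map_zero]
  have hB : B.Nondegenerate := by
    refine (hA.isRefl.nondegenerate_iff_separatingLeft).mpr ?_
    intro x hx
    apply (sympB_nondegenerate (m := a) (F := K)).1
    intro y
    by_contra hne
    obtain ⟨t, ht⟩ := Algebra.trace_surjective F K 1
    have h3 := hx ((t / sympB a K x y) • y)
    rw [hBa, LinearMap.map_smul, smul_eq_mul, div_mul_cancel₀ _ hne, ht] at h3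
    exact one_ne_zero h3
  have hd : finrank F (Fin a ⊕ Fin a → K) = 2 * (2 * a) := by
    rw [← finrank_mul_finrank F K (Fin a ⊕ Fin a → K), h2, finrank_fintype_fun_eq_card, Fintype.card_sum, Fintype.card_fin]; ring
  obtain ⟨e⟩ := exists_isom_equiv hB hA hd
  let ψ : ↥(Matrix.symplecticGroup (Fin a) K) →* isom B :=
    { toFun := fun g => ⟨(toIsom a K g : (Fin a ⊕ Fin a → K) ≃ₗ[K] (Fin a ⊕ Fin a → K)).restrictScalars F, fun u v => by
        change Algebra.trace F K (sympB a K ((toIsom a K g : (Fin a ⊕ Fin a → K) ≃ₗ[K] (Fin a ⊕ Fin a → K)) u) ((toIsom a K g : (Fin a ⊕ Fin a → K) ≃ₗ[K] (Fin a ⊕ Fin a → K)) v)) = Algebra.trace F K (sympB a K u v)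
        rw [(toIsom a K g).2 u v]⟩
      map_one' := by
        apply Subtype.ext
        apply LinearEquiv.ext
        intro v
        change (toIsom a K 1 : (Fin a ⊕ Fin a → K) ≃ₗ[K] (Fin a ⊕ Fin a → K)) v = v
        rw [map_one]; rfl
      map_mul' := fun g h => by
        apply Subtype.ext
        apply LinearEquiv.ext
        intro v
        change (toIsom a K (g * h) : (Fin a ⊕ Fin a → K) ≃ₗ[K] (Fin a ⊕ Fin a → K)) v = _
        rw [map_mul]; rfl }
  refine ⟨e.toMonoidHom.comp ψ, e.injective.comp ?_⟩
  intro g h hgh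
  apply (toIsom a K).injective
  apply Subtype.ext
  apply LinearEquiv.ext
  intro v
  exact congrArg (fun f : isom B => f.1 v) hgh

/-- Field-extension embedding of symplectic groups: for a field K with q² elements and a field F with q elements there is an injective homomorphism Sp_2a(K) → Sp_4a(F). -/
theorem result {K F : Type*} [Field K] [Fintype K] [Field F] [Fintype F] {q : ℕ} (hK : Fintype.card K = q ^ 2) (hF : Fintype.card F = q) (a : ℕ) : ∃ φ : ↥(Matrix.symplecticGroup (Fin a) K) →* ↥(Matrix.symplecticGroup (Fin (2 * a)) F), Function.Injective φ := by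
  obtain ⟨i⟩ := exists_emb hK hF
  letI : Algebra F K := i.toAlgebra
  exact main (finrank_two hK hF) a

end Cfsg.Agent.S2678
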