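import Cfsg.Statements.S2679
import Cfsg.Agent.S2562

set_option autoImplicit false
open Cfsg

namespace Cfsg.Agent.S2679

open CfsgLib.QCl CfsgLib.Quad Module Cfsg.Agent.S2562

universe u v
variable {F : Type u} [Field F]

theorem mp (n : ℕ) (a b : F) (u v : (Fin n ⊕ Fin n) ⊕ Fin 2 → F) :
    QuadraticMap.polarBilin (Qm n a b) u v =
      ∑ i, (u (.inl (.inl i)) * v (.inl (.inr i)) + v (.inl (.inl i)) * u (.inl (.inr i))) +
        (2 * u (.inr 0) * v (.inr 0) + a * (u (.inr 0) * v (.inr 1) + v (.inr 0) * u (.inr 1)) + 2 * b * u (.inr 1) * v (.inr 1)) := by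
  rw [QuadraticMap.polarBilin_apply_apply, QuadraticMap.polar, Qm_apply, Qm_apply, Qm_apply]
  simp only [quadFormMinus, Pi.add_apply]
  have : ∑ i, (u (.inl (.inl i)) * v (.inl (.inr i)) + v (.inl (.inl i)) * u (.inl (.inr i))) =
    ∑ i, (u (.inl (.inl i)) + v (.inl (.inl i))) * (u (.inl (.inr i)) + v (.inl (.inr i))) - ∑ i, u (.inl (.inl i)) * u (.inl (.inr i)) - ∑ i, v (.inl (.inl i)) * v (.inl (.inr i)) := by
    rw [← Finset.sum_sub_distrib, ← Finset.sum_sub_distrib]
    exact Finset.sum_congr rfl fun i _ => by ring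
  rw [this]; ring

theorem nondeg (n : ℕ) {a b : F} (hd : a ^ 2 - 4 * b ≠ 0) : (QuadraticMap.polarBilin (Qm n a b)).Nondegenerate := by
  apply nondegenerate_of_left
  intro x hx
  have h1 : ∀ j, x (.inl (.inr j)) = 0 := by
    intro j
    have := hx (Pi.single (.inl (.inl j)) 1)
    rw [mp] at this
    simpa [Pi.single_apply] using this
  have h2 : ∀ j, x (.inl (.inl j)) = 0 := by
    intro j
    have := hx (Pi.single (.inl (.inr j)) 1)
    rw [mp] at this
    simpa [Pi.single_apply] using this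
  have h3 : 2 * x (.inr 0) + a * x (.inr 1) = 0 := by
    have := hx (Pi.single (.inr 0) 1)
    rw [mp] at this
    simpa [Pi.single_apply] using this
  have h4 : a * x (.inr 0) + 2 * b * x (.inr 1) = 0 := by
    have := hx (Pi.single (.inr 1) 1)
    rw [mp] at this
    simpa [Pi.single_apply] using this
  have h5 : (a ^ 2 - 4 * b) * x (.inr 0) = 0 := by linear_combination a * h4 - 2 * b * h3
  have h6 : (a ^ 2 - 4 * b) * x (.inr 1) = 0 := by linear_combination a * h3 - 2 * h4
  have h7 := (mul_eq_zero.1 h5).resolve_left hd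
  have h8 := (mul_eq_zero.1 h6).resolve_left hd
  ext k
  rcases k with (k | k) | k
  · exact h2 k
  · exact h1 k
  · fin_cases k
    · exact h7
    · exact h8

theorem exists_sing (n : ℕ) {a b r : F} (hr : r ^ 2 + a * r + b = 0) : ∃ W : Submodule F ((Fin n ⊕ Fin n) ⊕ Fin 2 → F), finrank F W = n + 1 ∧ ∀ w ∈ W, quadFormMinus n F a b w = 0 := by
  let L : ((Fin n → F) × F) →ₗ[F] ((Fin n ⊕ Fin n) ⊕ Fin 2 → F) :=
    { toFun := fun x => Sum.elim (Sum.elim x.1 (fun _ => 0)) ![r * x.2, x.2]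
      map_add' := fun x y => by
        ext k
        rcases k with (k | k) | k
        · rfl
        · simp
        · fin_cases k
          · simp; ring
          · simp
      map_smul' := fun c x => by
        ext k
        rcases k with (k | k) | k
        · rfl
        · simp
        · fin_cases k
          · simp; ring
          · simp }
  have hL : Function.Injective L := by
    intro x y hxy
    refine Prod.ext (funext fun k => ?_) ?_
    · exact congrFun hxy (.inl (.inl k))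
    · exact congrFun hxy (.inr 1)
  refine ⟨LinearMap.range L, ?_, ?_⟩
  · rw [LinearMap.finrank_range_of_inj hL, finrank_prod, finrank_fintype_fun_eq_card, Fintype.card_fin, finrank_self]
  · rintro _ ⟨x, rfl⟩
    change (∑ i : Fin n, x.1 i * 0) + ((r * x.2) ^ 2 + a * (r * x.2) * x.2 + b * x.2 ^ 2) = 0
    simp only [mul_zero, Finset.sum_const_zero, zero_add]
    linear_combination x.2 ^ 2 * hr

theorem to_plus [Finite F] (n : ℕ) {a b r : F} (hd : a ^ 2 - 4 * b ≠ 0) (hr : r ^ 2 + a * r + b = 0) :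
    Nonempty (↥(Cfsg.isometryGroup F ⇑(Qm n a b)) ≃* ↥(Cfsg.isometryGroup F (Cfsg.quadFormPlus (n + 1) F))) := by
  have hV : finrank F ((Fin n ⊕ Fin n) ⊕ Fin 2 → F) = 2 * (n + 1) := by
    rw [finrank_fintype_fun_eq_card, Fintype.card_sum, Fintype.card_sum, Fintype.card_fin, Fintype.card_fin]; ring
  rcases classify n (Qm n a b) (nondeg n hd) hV with ⟨E, hE⟩ | ⟨b', hb', E, hE⟩
  · refine ⟨(isometryGroupEquiv (Qm n a b)).trans (isoMat (Cfsg.quadFormPlus (n + 1) F) (Qm n a b) E.symm (fun v => ?_)).symm⟩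
    rw [← hE, LinearEquiv.apply_symm_apply]
  · exfalso
    obtain ⟨W, hW, hW2⟩ := exists_sing n hr
    have h1 := minus_le n hb' (W.map (E : ((Fin n ⊕ Fin n) ⊕ Fin 2 → F) →ₗ[F] ((Fin n ⊕ Fin n) ⊕ Fin 2 → F))) (by
      rintro _ ⟨w, hw, rfl⟩
      change quadFormMinus n F 1 b' (E w) = 0
      rw [hE, Qm_apply]
      exact hW2 w hw)
    rw [LinearEquiv.finrank_map_eq, hW] at h1
    omega

/-- extension of scalars of an isometry. -/
theorem map_iso {K : Type v} [Field K] (i : F →+* K) (n : ℕ) (a b : F) (X : Matrix ((Fin n ⊕ Fin n) ⊕ Fin 2) ((Fin n ⊕ Fin n) ⊕ Fin 2) F)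
    (hX : ∀ v, Qm n a b (X.mulVec v) = Qm n a b v) (v : (Fin n ⊕ Fin n) ⊕ Fin 2 → K) :
    Qm n (i a) (i b) ((X.map i).mulVec v) = Qm n (i a) (i b) v := by
  have hQi : ∀ w : (Fin n ⊕ Fin n) ⊕ Fin 2 → F, Qm n (i a) (i b) (i ∘ w) = i (Qm n a b w) := by
    intro w
    rw [Qm_apply, Qm_apply]
    simp [quadFormMinus]
  have hBi : ∀ w w' : (Fin n ⊕ Fin n) ⊕ Fin 2 → F, QuadraticMap.polarBilin (Qm n (i a) (i b)) (i ∘ w) (i ∘ w') = i (QuadraticMap.polarBilin (Qm n a b) w w') := by
    intro w w'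
    have h2i : i 2 = 2 := map_ofNat i 2
    rw [mp, mp]
    simp [h2i]
  have hsing : ∀ k, (i ∘ (Pi.single k 1 : (Fin n ⊕ Fin n) ⊕ Fin 2 → F)) = Pi.single k 1 := by
    intro k
    ext l
    by_cases h : l = k
    · subst h; simp
    · simp [h]
  have hcol : ∀ k, (X.map i).mulVec (Pi.single k 1) = i ∘ (X.mulVec (Pi.single k 1)) := by
    intro k
    ext l
    rw [Matrix.mulVec_single_one, Function.comp_apply, Matrix.mulVec_single_one]
    rfl
  have hXB : ∀ u w, QuadraticMap.polarBilin (Qm n a b) (X.mulVec u) (X.mulVec w) = QuadraticMap.polarBilin (Qm n a b) u w := by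
    intro u w
    rw [QuadraticMap.polarBilin_apply_apply, QuadraticMap.polarBilin_apply_apply, QuadraticMap.polar, QuadraticMap.polar, ← Matrix.mulVec_add, hX, hX, hX]
  let Q1 : QuadraticForm K ((Fin n ⊕ Fin n) ⊕ Fin 2 → K) := (Qm n (i a) (i b)).comp (X.map i).mulVecLin
  have hQ1 : ∀ k, Q1 (Pi.single k 1) = Qm n (i a) (i b) (Pi.single k 1) := by
    intro k
    change Qm n (i a) (i b) ((X.map i).mulVec (Pi.single k 1)) = _
    rw [hcol, hQi, hX, ← hQi, hsing]
  have hB1 : ∀ k l, QuadraticMap.polarBilin Q1 (Pi.single k 1) (Pi.single l 1) = QuadraticMap.polarBilin (Qm n (i a) (i b)) (Pi.single k 1) (Pi.single l 1) := by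
    intro k l
    have e1 : QuadraticMap.polarBilin Q1 (Pi.single k 1) (Pi.single l 1) = QuadraticMap.polarBilin (Qm n (i a) (i b)) ((X.map i).mulVec (Pi.single k 1)) ((X.map i).mulVec (Pi.single l 1)) := by
      rw [QuadraticMap.polarBilin_apply_apply, QuadraticMap.polarBilin_apply_apply, QuadraticMap.polar, QuadraticMap.polar, ← Matrix.mulVec_add]
      rfl
    rw [e1, hcol, hcol, hBi, hXB, ← hBi, hsing, hsing]
  have hpolar : QuadraticMap.polarBilin Q1 = QuadraticMap.polarBilin (Qm n (i a) (i b)) := by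
    apply (Pi.basisFun K ((Fin n ⊕ Fin n) ⊕ Fin 2)).ext
    intro k
    apply (Pi.basisFun K ((Fin n ⊕ Fin n) ⊕ Fin 2)).ext
    intro l
    rw [Pi.basisFun_apply, Pi.basisFun_apply]
    exact hB1 k l
  have key : ∀ s : Finset ((Fin n ⊕ Fin n) ⊕ Fin 2), Q1 (∑ k ∈ s, v k • Pi.single k 1) = Qm n (i a) (i b) (∑ k ∈ s, v k • Pi.single k 1) := by
    classical
    intro s
    induction s using Finset.induction_on with
    | empty => simp
    | insert k s hk ih =>
      rw [Finset.sum_insert hk, qadd, qadd, qsmul, qsmul, hQ1, ih, hpolar]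
  have hv : v = ∑ k, v k • (Pi.single k 1 : (Fin n ⊕ Fin n) ⊕ Fin 2 → K) := by
    ext l
    simp [Finset.sum_apply, Pi.single_apply]
  have := key Finset.univ
  rw [← hv] at this
  exact this

theorem emb_iso {K : Type v} [Field K] (i : F →+* K) (n : ℕ) (a c : F) :
    ∃ ψ : ↥(Cfsg.isometryGroup F ⇑(Qm n a c)) →* ↥(Cfsg.isometryGroup K ⇑(Qm n (i a) (i c))), Function.Injective ψ := by
  let ψ : ↥(Cfsg.isometryGroup F ⇑(Qm n a c)) →* ↥(Cfsg.isometryGroup K ⇑(Qm n (i a) (i c))) :=
    ((Matrix.GeneralLinearGroup.map i).comp (Subgroup.subtype _)).codRestrict _ (fun g => by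
      intro u v
      exact map_iso i n a c _ (fun w => g.2 w w) u)
  refine ⟨ψ, ?_⟩
  intro g h hgh
  apply Subtype.ext
  apply Units.ext
  ext k l
  have h1 : Matrix.GeneralLinearGroup.map i g.1 = Matrix.GeneralLinearGroup.map i h.1 := congrArg Subtype.val hgh
  have h2 : (Matrix.GeneralLinearGroup.map i g.1).1 = (Matrix.GeneralLinearGroup.map i h.1).1 := by rw [h1]
  have h3 := congrFun (congrFun h2 k) l
  exact i.injective h3

theorem exists_root {K : Type v} [Field K] [Fintype F] [Fintype K] {q : ℕ} (hF : Fintype.card F = q) (hK : Fintype.card K = q ^ 2) {a c : F} (hac' : Aniso a c) :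
    ∃ (i : F →+* K) (r : K), r ^ 2 + i a * r + i c = 0 := by
  haveI : Fact (∀ r : F, r ^ 2 ≠ -c + a * r) := hac'.fact
  haveI hfin : Finite (QK a c) := Module.finite_of_finite F
  letI : Fintype (QK a c) := Fintype.ofFinite _
  have hcard : Fintype.card (QK a c) = Fintype.card K := by
    rw [Module.card_eq_pow_finrank (K := F) (V := QK a c), QuadraticAlgebra.finrank_eq_two, hF, hK]
  let eK : QK a c ≃+* K := FiniteField.ringEquivOfCardEq hcard
  refine ⟨(eK : QK a c →+* K).comp (algebraMap F (QK a c)), eK (-⟨0, 1⟩), ?_⟩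
  change eK (-⟨0, 1⟩) ^ 2 + eK (algebraMap F (QK a c) a) * eK (-⟨0, 1⟩) + eK (algebraMap F (QK a c) c) = 0
  rw [← map_pow, ← map_mul, ← _root_.map_add, ← _root_.map_add]
  rw [map_eq_zero_iff _ eK.injective]
  ext
  · simp [pow_two, QuadraticAlgebra.algebraMap_eq]
  · simp [pow_two, QuadraticAlgebra.algebraMap_eq]

theorem main2 {K : Type v} [Field K] [Fintype F] [Fintype K] {q : ℕ} (hF : Fintype.card F = q) (hK : Fintype.card K = q ^ 2) {a c : F} (hac' : Aniso a c) (n : ℕ) :
    ∃ φ : ↥(Cfsg.isometryGroup F (Cfsg.quadFormMinus n F a c)) →* ↥(Cfsg.isometryGroup K (Cfsg.quadFormPlus (n + 1) K)), Function.Injective φ := by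
  obtain ⟨i, r, hr⟩ := exists_root hF hK hac'
  have hd : (i a) ^ 2 - 4 * i c ≠ 0 := by
    have h1 := hac'.disc_ne_zero
    intro h2
    apply h1
    apply i.injective
    have h4 : i 4 = 4 := map_ofNat i 4
    rw [_root_.map_sub, map_mul, map_pow, map_zero, h4]
    exact h2
  obtain ⟨e⟩ := to_plus n hd hr
  have hQe : (Cfsg.quadFormMinus n F a c) = ⇑(Qm n a c) := funext fun v => (Qm_apply n a c v).symm
  rw [hQe]
  obtain ⟨ψ, hψ⟩ := emb_iso i n a c
  exact ⟨e.toMonoidHom.comp ψ, e.injective.comp hψ⟩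

/-- An elliptic orthogonal group embeds in the hyperbolic orthogonal group of the same dimension over the quadratic extension: for a field F with q elements and a field K with q² elements there is an injective homomorphism from O⁻_2m(F) (isometries of Σ_(j<m−1) x_j y_j + z₁² + a z₁z₂ + c z₂², binary part anisotropic) to O⁺_2m(K) (isometries of Σ_(j<m) x_j y_j over K). -/
theorem result {F K : Type*} [Field F] [Fintype F] [Field K] [Fintype K] {q : ℕ} (hF : Fintype.card F = q) (hK : Fintype.card K = q ^ 2) {m : ℕ} (hm : 1 ≤ m) (a c : F) (hac : ∀ z₁ z₂ : F, z₁ ^ 2 + a * z₁ * z₂ + c * z₂ ^ 2 = 0 → z₁ = 0 ∧ z₂ = 0) : ∃ φ : ↥(Cfsg.isometryGroup F (Cfsg.quadFormMinus (m - 1) F a c)) →* ↥(Cfsg.isometryGroup K (Cfsg.quadFormPlus m K)), Function.Injective φ := by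
  obtain ⟨n, rfl⟩ : ∃ n, m = n + 1 := ⟨m - 1, by omega⟩
  exact main2 hF hK hac n

end Cfsg.Agent.S2679
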