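import Cfsg.Statements.S2689
import Cfsg.Agent.Lib.AutPSL7

set_option autoImplicit false
open Cfsg

namespace Cfsg.Agent.S2689


/-- The automorphism group of a simple projective special linear group PSL_n(F) over a finite field (n ≥ 2; |F| ≥ 4 when n = 2) is generated by the automorphisms induced by invertible semilinear maps of F^n (the image of the projective semilinear group) together with the inverse-transpose automorphism. -/
theorem result {F : Type*} [Field F] [Fintype F] {p f : ℕ} [Fact p.Prime] (hF : Fintype.card F = p ^ f) (hf : 1 ≤ f) {n : ℕ} (hn : 2 ≤ n) (hs : n = 2 → 4 ≤ Fintype.card F) :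
    Cfsg.gammaPSL n F ⊔ Cfsg.autSubgroupOf (fun β : Matrix.ProjectiveSpecialLinearGroup (Fin n) F ≃* Matrix.ProjectiveSpecialLinearGroup (Fin n) F => Cfsg.IsInverseTransposeAutPSL β) = ⊤ := by
  rw [eq_top_iff]
  intro α _
  rcases CfsgLib.AutPSL.main' hn α with ⟨g, σ, h⟩ | ⟨_, g, σ, h⟩
  · rw [h]
    exact (le_sup_left : Cfsg.gammaPSL n F ≤ _) (Subgroup.subset_closure ⟨g, σ, (CfsgLib.AutPSL.isInduced_iff g σ _).2 rfl⟩)
  · rw [h]
    exact mul_mem ((le_sup_left : Cfsg.gammaPSL n F ≤ _) (Subgroup.subset_closure ⟨g, σ, (CfsgLib.AutPSL.isInduced_iff g σ _).2 rfl⟩))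
      ((le_sup_right : _ ≤ Cfsg.gammaPSL n F ⊔ Cfsg.autSubgroupOf (fun β : Matrix.ProjectiveSpecialLinearGroup (Fin n) F ≃* Matrix.ProjectiveSpecialLinearGroup (Fin n) F => Cfsg.IsInverseTransposeAutPSL β)) (Subgroup.subset_closure ((CfsgLib.AutPSL.isInvTr_iff _).2 rfl)))

end Cfsg.Agent.S2689
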