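import Cfsg.Statements.S2692
import Cfsg.Agent.Lib.AutPSU10

set_option autoImplicit false
open Cfsg

namespace Cfsg.Agent.S2692


/-- Every automorphism of a simple PSU_n(q), n ≥ 3, (n, q) ≠ (3, 2), realised over the field F with q² elements, is a product δ φ of an inner-diagonal automorphism δ (induced by a general unitary matrix) and a standard field automorphism φ (one automorphism of F applied to every entry, possibly the identity; the standard field automorphisms of even order are the graph automorphisms here). -/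
theorem result {F : Type*} [Field F] [Fintype F] {p f q : ℕ} [Fact p.Prime] (hq : q = p ^ f) (hf : 1 ≤ f) (hF : Fintype.card F = q ^ 2) {n : ℕ} (hn : 3 ≤ n) (hs : ¬ (n = 3 ∧ q = 2)) (β : MulAut (Cfsg.PSU n F q)) :
    ∃ (δ φ : MulAut (Cfsg.PSU n F q)) (σ : F ≃+* F), Cfsg.IsInnerDiagonalAutPSU δ ∧ Cfsg.IsFieldAutPSUOf σ φ ∧ β = δ * φ := by
  obtain ⟨σ, hσ⟩ := CfsgLib.Herm.exists_sigma (F := F) (q := q) (by rw [Nat.card_eq_fintype_card, hF])
  have hq2 := hσ.two_le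
  obtain ⟨g, τ, hg, hβ⟩ := CfsgLib.AutPSU.mainU hσ (by omega) β
  have hS := CfsgLib.AutPSU.setupU (F := F) hσ hn
  have hβ' := (hS.ind_iff (σ := τ) (show CfsgLib.SemiAut.sm g τ ∈ CfsgLib.AutPSU.GamU hσ n from hg) β).1 hβ
  have h1 : CfsgLib.SemiAut.sm (1 : GL (Fin n) F) τ ∈ CfsgLib.AutPSU.GamU hσ n := one_mem (GU n F q)
  refine ⟨hS.gam ⟨g, hg⟩, hS.Psi ⟨CfsgLib.SemiAut.sm 1 τ, h1⟩, τ, ⟨g, hg, ?_⟩, ?_, ?_⟩
  · exact (hS.ind_iff (σ := RingEquiv.refl F) (hS.mem g hg) _).2 rfl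
  · exact (hS.std_iff (σ := τ) h1 _).2 rfl
  · rw [hβ', CfsgLib.SemiAut.Setup.gam_eq, ← map_mul]
    congr 1
    apply Subtype.ext
    exact CfsgLib.SemiAut.sm_eq g τ

end Cfsg.Agent.S2692
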