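import Cfsg.Statements.S2697
import Cfsg.Agent.Lib.AutPSL10

set_option autoImplicit false
open Cfsg

namespace Cfsg.Agent.S2697

open CfsgLib.AutPSL in
theorem aux {X : Type*} [Group X] (N : Subgroup X) (α x δ k : X) (hN : ∀ m ∈ N, α⁻¹ * m * α ∈ N)
    (hk : k ∈ N) (h : α * (δ * x) * α⁻¹ = k * (α * x * α⁻¹) * k⁻¹) : ∃ m ∈ N, δ * x = m * x * m⁻¹ := by
  refine ⟨α⁻¹ * k * α, hN k hk, ?_⟩
  have h1 : δ * x = α⁻¹ * (α * (δ * x) * α⁻¹) * α := by group
  rw [h1, h]
  group


/-- Let T = PSL_n(F) be simple over a finite field (n ≥ 2; |F| ≥ 4 when n = 2) and let x be a field automorphism or a graph-field automorphism of T of prime order r. Then an element y of the coset Inndiag(T)·x (that is, y = δ x with δ in the inner-diagonal group, the image of PGL_n(F)) has order r if and only if y is conjugate to x by an element of Inndiag(T). -/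
theorem result {F : Type*} [Field F] [Fintype F] {p f : ℕ} [Fact p.Prime] (hF : Fintype.card F = p ^ f) (hf : 1 ≤ f) {n : ℕ} (hn : 2 ≤ n) (hs : n = 2 → 4 ≤ Fintype.card F) (x δ : MulAut (Matrix.ProjectiveSpecialLinearGroup (Fin n) F)) (hx : Cfsg.IsFieldAutClassPSL x ∨ Cfsg.IsGraphFieldAutClassPSL x) {r : ℕ} (hr : r.Prime) (hxr : orderOf x = r) (hδ : δ ∈ Cfsg.inndiagPSL n F) :
    orderOf (δ * x) = r ↔ Cfsg.IsConjUnder (Cfsg.inndiagPSL n F) x (δ * x) := by
  open CfsgLib.AutPSL in
  constructor
  · intro hord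
    obtain ⟨d, rfl⟩ := (mem_inndiag_iff δ).1 hδ
    have hN : ∀ α : MulAut (Matrix.ProjectiveSpecialLinearGroup (Fin n) F), ∀ m ∈ Cfsg.inndiagPSL n F, α⁻¹ * m * α ∈ Cfsg.inndiagPSL n F := by
      intro α m hm
      obtain ⟨g, rfl⟩ := (mem_inndiag_iff m).1 hm
      obtain ⟨g', hg'⟩ := gam_conj hn α⁻¹ g
      rw [inv_inv] at hg'
      rw [mem_inndiag_iff]
      exact ⟨g', hg'⟩
    have hpow : ∀ (α : MulAut (Matrix.ProjectiveSpecialLinearGroup (Fin n) F)) (y : MulAut (Matrix.ProjectiveSpecialLinearGroup (Fin n) F)),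
        orderOf (α * y * α⁻¹) = orderOf y := by
      intro α y
      exact orderOf_injective (MulAut.conj α).toMonoidHom (MulAut.conj α).injective y
    rcases hx with ⟨α, σ, hσ, hx⟩ | ⟨h3, α, φ, γ, σ, hσ, hφ, hγ, hx⟩
    · rw [isStdField_iff] at hx
      have hor : orderOf (σ : RingAut F) = r := by
        rw [← hxr, ← hpow α x, hx]
        apply orderOf_eq_orderOf_iff.2
        intro m
        constructor
        · intro hm
          rw [psl_semi_pow, hm]
          have : nmG (σ : RingAut F) (1 : Matrix.GeneralLinearGroup (Fin n) F) m = 1 := by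
            induction m with
            | zero => rfl
            | succ m ih => 
              clear ih hm
              have : ∀ m, nmG (σ : RingAut F) (1 : Matrix.GeneralLinearGroup (Fin n) F) m = 1 := by
                intro m
                induction m with
                | zero => rfl
                | succ m ih => show 1 * gm σ (nmG _ _ m) = 1; rw [ih, map_one, mul_one]
              exact this _
          rw [this]
          exact psl_semi_one
        · intro hm
          rw [psl_semi_pow] at hm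
          exact (psl_semi_eq_one hn hm).1
      obtain ⟨d', hd'⟩ := gam_conj hn α d
      have h1 : α * (psl (semi d (RingEquiv.refl F)) * x) * α⁻¹ = psl (semi d' σ) := by
        have : α * (psl (semi d (RingEquiv.refl F)) * x) * α⁻¹ = (α * gam d * α⁻¹) * (α * x * α⁻¹) := by
          rw [gam_apply]; group
        rw [this, hd', hx, gam_apply, psl_semi_mul, map_one, mul_one]
        rfl
      obtain ⟨k, hk⟩ := field_conj hn σ d' (by
        rw [hor, ← h1, ← hord, ← hpow α, pow_orderOf_eq_one])
      exact aux _ α x _ (gam k) (hN α) ((mem_inndiag_iff _).2 ⟨k, rfl⟩) (by rw [h1, hk, hx])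
    · rw [isStdField_iff] at hφ
      rw [isInvTr_iff] at hγ
      rw [hφ, hγ] at hx
      have hfg : fg h3 (psl (semi 1 σ) * psl invTr) = ((σ : RingAut F), Multiplicative.ofAdd 1) := by
        have := fg_eq h3 1 ((σ : RingAut F), Multiplicative.ofAdd (1 : ZMod 2))
        have hne : Multiplicative.ofAdd (1 : ZMod 2) ≠ 1 := by decide
        rw [T, if_neg hne] at this
        exact this
      have hx2 : (psl (semi 1 σ) * psl invTr : MulAut (Matrix.ProjectiveSpecialLinearGroup (Fin n) F)) ^ r = 1 := by
        rw [← hx, ← hxr, ← hpow α x, pow_orderOf_eq_one]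
      have hpr : ((σ : RingAut F), Multiplicative.ofAdd (1 : ZMod 2)) ^ r = 1 := by
        rw [← hfg, ← map_pow, hx2, map_one]
      have hr2 : r = 2 := by
        have h4 : (Multiplicative.ofAdd (1 : ZMod 2)) ^ r = 1 := congrArg Prod.snd hpr
        have h5 : orderOf (Multiplicative.ofAdd (1 : ZMod 2)) = 2 := by
          apply orderOf_eq_prime <;> decide
        have h6 : 2 ∣ r := by rw [← h5]; exact orderOf_dvd_of_pow_eq_one h4
        exact ((Nat.prime_dvd_prime_iff_eq Nat.prime_two hr).1 h6).symm
      have hσ2 : orderOf (σ : RingAut F) = 2 := by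
        apply orderOf_eq_prime
        · have h4 : (σ : RingAut F) ^ r = 1 := congrArg Prod.fst hpr
          rwa [hr2] at h4
        · exact hσ
      obtain ⟨d', hd'⟩ := gam_conj hn α d
      have h1 : α * (psl (semi d (RingEquiv.refl F)) * x) * α⁻¹ = psl (semi d' σ) * psl invTr := by
        have : α * (psl (semi d (RingEquiv.refl F)) * x) * α⁻¹ = (α * gam d * α⁻¹) * (α * x * α⁻¹) := by
          rw [gam_apply]; group
        rw [this, hd', hx, gam_apply, ← mul_assoc, psl_semi_mul, map_one, mul_one]
        rfl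
      obtain ⟨k, hk⟩ := graph_conj hn σ hσ2 d' (by
        rw [← h1, ← hr2, ← hord, ← hpow α, pow_orderOf_eq_one])
      exact aux _ α x _ (gam k) (hN α) ((mem_inndiag_iff _).2 ⟨k, rfl⟩) (by rw [h1, hk, hx])
  · rintro ⟨h, _, hh⟩
    rw [hh, ← hxr]
    exact orderOf_injective (MulAut.conj h).toMonoidHom (MulAut.conj h).injective x

end Cfsg.Agent.S2697
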