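import Cfsg.Statements.S2698
import Cfsg.Agent.Lib.AutPSL12

set_option autoImplicit false
open Cfsg

namespace Cfsg.Agent.S2698


/-- Let T = PSL_n(F) be simple over the field F with p^f elements (n ≥ 2; p^f ≥ 4 when n = 2), G = Inndiag(T) the image of PGL_n(F) in Aut(T), and x a field automorphism of T of prime order r. Then r divides f; the centralizer C_G(x) is isomorphic to PGL_n(F₀) for the subfield size |F₀| = p^(f/r); and the G-class of x is the union of exactly gcd(n, (p^f − 1)/(p^(f/r) − 1)) classes under conjugation by T (the inner automorphism group). -/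
theorem result {F : Type*} [Field F] [Fintype F] {p f : ℕ} [Fact p.Prime] (hF : Fintype.card F = p ^ f) (hf : 1 ≤ f) {n : ℕ} (hn : 2 ≤ n) (hs : n = 2 → 4 ≤ Fintype.card F) (x : MulAut (Matrix.ProjectiveSpecialLinearGroup (Fin n) F)) (hx : Cfsg.IsFieldAutClassPSL x) {r : ℕ} (hr : r.Prime) (hxr : orderOf x = r) (F₀ : Type*) [Field F₀] [Fintype F₀] (hF₀ : Fintype.card F₀ = p ^ (f / r)) :
    r ∣ f ∧ Nonempty (↥(Cfsg.inndiagPSL n F ⊓ Subgroup.centralizer {x}) ≃* Matrix.ProjGenLinGroup (Fin n) F₀) ∧ Cfsg.splitClassCount (Cfsg.inndiagPSL n F) (Cfsg.Inn (Matrix.ProjectiveSpecialLinearGroup (Fin n) F)) x = Nat.gcd n ((p ^ f - 1) / (p ^ (f / r) - 1)) := by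
  open CfsgLib.AutPSL in
  have hpow : ∀ (α : MulAut (Matrix.ProjectiveSpecialLinearGroup (Fin n) F)) (y : MulAut (Matrix.ProjectiveSpecialLinearGroup (Fin n) F)),
      orderOf (α * y * α⁻¹) = orderOf y := by
    intro α y
    exact orderOf_injective (MulAut.conj α).toMonoidHom (MulAut.conj α).injective y
  obtain ⟨α, σ, hσ, hx⟩ := hx
  rw [isStdField_iff] at hx
  have hnm : ∀ m, nmG (σ : RingAut F) (1 : Matrix.GeneralLinearGroup (Fin n) F) m = 1 := by
    intro m
    induction m with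
    | zero => rfl
    | succ m ih => show 1 * gm σ (nmG _ _ m) = 1; rw [ih, map_one, mul_one]
  have hor : orderOf (σ : RingAut F) = r := by
    rw [← hxr, ← hpow α x, hx]
    apply orderOf_eq_orderOf_iff.2
    intro m
    constructor
    · intro hm
      rw [psl_semi_pow, hm, hnm]
      exact psl_semi_one
    · intro hm
      rw [psl_semi_pow] at hm
      exact (psl_semi_eq_one hn hm).1
  obtain ⟨hrf, j, hj⟩ := exists_emb (σ : RingAut F) hF hor F₀ hF₀
  refine ⟨hrf, ?_⟩
  have hN' : ∀ (α : MulAut (Matrix.ProjectiveSpecialLinearGroup (Fin n) F)) (h : MulAut (Matrix.ProjectiveSpecialLinearGroup (Fin n) F)),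
      h ∈ (gam : Matrix.GeneralLinearGroup (Fin n) F →* _).range → α * h * α⁻¹ ∈ (gam : Matrix.GeneralLinearGroup (Fin n) F →* _).range := by
    rintro α _ ⟨g, rfl⟩
    obtain ⟨g', hg'⟩ := gam_conj hn α g
    exact ⟨g', hg'.symm⟩
  have hN : ∀ h, h ∈ (gam : Matrix.GeneralLinearGroup (Fin n) F →* _).range ↔ α * h * α⁻¹ ∈ (gam : Matrix.GeneralLinearGroup (Fin n) F →* _).range := by
    intro h
    refine ⟨hN' α h, fun hh => ?_⟩
    have h1 := hN' α⁻¹ _ hh
    have h2 : α⁻¹ * (α * h * α⁻¹) * α⁻¹⁻¹ = h := by group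
    rwa [h2] at h1
  have hI : ∀ h, h ∈ Cfsg.Inn (Matrix.ProjectiveSpecialLinearGroup (Fin n) F) ↔ α * h * α⁻¹ ∈ Cfsg.Inn (Matrix.ProjectiveSpecialLinearGroup (Fin n) F) := by
    intro h
    have hnorm : (Cfsg.Inn (Matrix.ProjectiveSpecialLinearGroup (Fin n) F)).Normal := inferInstance
    refine ⟨fun hh => hnorm.conj_mem _ hh _, fun hh => ?_⟩
    have h1 := hnorm.conj_mem _ hh α⁻¹
    have h2 : α⁻¹ * (α * h * α⁻¹) * α⁻¹⁻¹ = h := by group
    rwa [h2] at h1
  rw [inndiag_eq]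
  constructor
  · obtain ⟨e1⟩ := centralizer_conj (gam : Matrix.GeneralLinearGroup (Fin n) F →* _).range α x hN
    rw [hx] at e1
    obtain ⟨e2⟩ := field_centralizer hn (σ : RingAut F) j hj
    exact ⟨e1.trans e2⟩
  · rw [← split_conj _ _ α hN hI, hx, ← hF, ← hF₀]
    exact field_split hn (σ : RingAut F) j hj

end Cfsg.Agent.S2698
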