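import Cfsg.Statements.S2704
import Cfsg.Agent.Lib.AutPSL13

set_option autoImplicit false
open Cfsg

namespace Cfsg.Agent.S2704

open CfsgLib.AutPSL in
theorem gf_norm {F : Type*} [Field F] [Finite F] {n : ℕ} (hn : 3 ≤ n) (x : MulAut (Matrix.ProjectiveSpecialLinearGroup (Fin n) F))
    (hx : Cfsg.IsGraphFieldAutClassPSL x) (hx2 : orderOf x = 2) :
    ∃ (σ : RingAut F) (g : Matrix.GeneralLinearGroup (Fin n) F), orderOf σ = 2 ∧
      x = gam g * (psl (semi 1 σ) * psl invTr) * (gam g)⁻¹ := by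
  obtain ⟨h3, α, φ, γ, σ, hσ, hφ, hγ, hx⟩ := hx
  have hpow : ∀ (α : MulAut (Matrix.ProjectiveSpecialLinearGroup (Fin n) F)) (y : MulAut (Matrix.ProjectiveSpecialLinearGroup (Fin n) F)),
      orderOf (α * y * α⁻¹) = orderOf y := by
    intro α y
    exact orderOf_injective (MulAut.conj α).toMonoidHom (MulAut.conj α).injective y
  rw [isStdField_iff] at hφ
  rw [isInvTr_iff] at hγ
  rw [hφ, hγ] at hx
  have hσ2 : orderOf (σ : RingAut F) = 2 := by
    have hfg : fg h3 (psl (semi 1 σ) * psl invTr) = ((σ : RingAut F), Multiplicative.ofAdd 1) := by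
      have := fg_eq h3 1 ((σ : RingAut F), Multiplicative.ofAdd (1 : ZMod 2))
      have hne : Multiplicative.ofAdd (1 : ZMod 2) ≠ 1 := by decide
      rw [T, if_neg hne] at this
      exact this
    have hx3 : (psl (semi 1 σ) * psl invTr : MulAut (Matrix.ProjectiveSpecialLinearGroup (Fin n) F)) ^ 2 = 1 := by
      rw [← hx, ← hx2, ← hpow α x, pow_orderOf_eq_one]
    have hpr : ((σ : RingAut F), Multiplicative.ofAdd (1 : ZMod 2)) ^ 2 = 1 := by
      rw [← hfg, ← map_pow, hx3, map_one]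
    apply orderOf_eq_prime
    · exact congrArg Prod.fst hpr
    · exact hσ
  obtain ⟨g, hg⟩ := fg_spec h3 α⁻¹
  refine ⟨σ, g, hσ2, ?_⟩
  set τ : RingAut F := (fg h3 α⁻¹).1
  set e := (fg h3 α⁻¹).2
  have h1 : x = α⁻¹ * (psl (semi 1 σ) * psl invTr) * α := by rw [← hx]; group
  have hα : α = (psl (semi g τ) * T e)⁻¹ := by rw [← hg, inv_inv]
  have hcomm1 : T (n := n) e * (psl (semi 1 σ) * psl invTr) = (psl (semi 1 σ) * psl invTr) * T e := by
    by_cases h : e = 1
    · rw [h, T_one, one_mul, mul_one]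
    · rw [T, if_neg h, mul_assoc, psl_invTr_sq, mul_one, ← mul_assoc, psl_invTr_mul_semi]
      have : git (1 : Matrix.GeneralLinearGroup (Fin n) F) = 1 := by
        apply Units.ext
        show ((1 : Matrix.GeneralLinearGroup (Fin n) F)⁻¹).1.transpose = 1
        rw [inv_one, Units.val_one, Matrix.transpose_one]
      rw [this, mul_assoc, psl_invTr_sq, mul_one]
  have hcomm2 : psl (semi 1 τ) * (psl (semi 1 σ) * psl invTr) = (psl (semi (n := n) 1 σ) * psl invTr) * psl (semi 1 τ) := by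
    have hab : (RingEquiv.trans (σ : F ≃+* F) τ) = RingEquiv.trans τ σ := by
      have hcyc : IsCyclic (RingAut F) := ringAut_isCyclic
      have h2 : τ * (σ : RingAut F) = σ * τ := by
        obtain ⟨k, hk⟩ := IsCyclic.exists_generator (α := RingAut F)
        obtain ⟨i, hi⟩ := hk τ
        obtain ⟨j, hj⟩ := hk σ
        have hj' : (σ : RingAut F) = k ^ j := hj.symm
        have hi' : τ = k ^ i := hi.symm
        rw [hj', hi', ← zpow_add, ← zpow_add, add_comm]
      exact h2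
    rw [mul_assoc (psl (semi 1 σ)), psl_invTr_mul_semi, ← mul_assoc, ← mul_assoc, psl_semi_mul, psl_semi_mul]
    have : git (1 : Matrix.GeneralLinearGroup (Fin n) F) = 1 := by
      apply Units.ext
      show ((1 : Matrix.GeneralLinearGroup (Fin n) F)⁻¹).1.transpose = 1
      rw [inv_one, Units.val_one, Matrix.transpose_one]
    rw [this, map_one, map_one, hab]
  have hdec : psl (semi g τ) = gam g * psl (semi 1 τ) := by
    rw [gam_apply, psl_semi_mul, map_one, mul_one]
    rfl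
  rw [h1, hg, hα, hdec]
  calc gam g * psl (semi 1 τ) * T e * (psl (semi 1 σ) * psl invTr) * (gam g * psl (semi 1 τ) * T e)⁻¹
      = gam g * (psl (semi 1 τ) * (T e * (psl (semi 1 σ) * psl invTr))) * (gam g * psl (semi 1 τ) * T e)⁻¹ := by group
    _ = gam g * ((psl (semi 1 τ) * (psl (semi 1 σ) * psl invTr)) * T e) * (gam g * psl (semi 1 τ) * T e)⁻¹ := by
      rw [hcomm1, mul_assoc (psl (semi 1 τ))]
    _ = gam g * (psl (semi 1 σ) * psl invTr) * (gam g)⁻¹ := by
      rw [hcomm2]; group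

/-- Let T = PSL_n(F) over the field F with p^f elements, n ≥ 3, and G = Inndiag(T) the image of PGL_n(F). If x is an involutory graph-field automorphism of T then f is even; x is G-conjugate to every other involutory graph-field automorphism; C_G(x) is isomorphic to the projective general unitary group PGU_n(q₀) with q₀² = p^f, realised over F itself through the Hermitian form Σ uᵢ vᵢ^{q₀}; and the G-class of x is the union of exactly gcd(n, q₀ − 1) T-classes. -/
theorem result {F : Type*} [Field F] [Fintype F] {p f : ℕ} [Fact p.Prime] (hF : Fintype.card F = p ^ f) (hf : 1 ≤ f) {n : ℕ} (hn : 3 ≤ n) (x : MulAut (Matrix.ProjectiveSpecialLinearGroup (Fin n) F)) (hx : Cfsg.IsGraphFieldAutClassPSL x) (hx2 : orderOf x = 2) :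
    Even f ∧ (∀ y : MulAut (Matrix.ProjectiveSpecialLinearGroup (Fin n) F), Cfsg.IsGraphFieldAutClassPSL y → orderOf y = 2 → Cfsg.IsConjUnder (Cfsg.inndiagPSL n F) x y) ∧ Nonempty (↥(Cfsg.inndiagPSL n F ⊓ Subgroup.centralizer {x}) ≃* Cfsg.PGU n F (p ^ (f / 2))) ∧ Cfsg.splitClassCount (Cfsg.inndiagPSL n F) (Cfsg.Inn (Matrix.ProjectiveSpecialLinearGroup (Fin n) F)) x = Nat.gcd n (p ^ (f / 2) - 1) := by
  open CfsgLib.AutPSL in
  have hn2 : 2 ≤ n := by omega
  obtain ⟨σ, g, hσ, hx'⟩ := gf_norm hn x hx hx2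
  obtain ⟨hf2, hq⟩ := involution_pow hF σ hσ
  refine ⟨hf2, ?_, ?_, ?_⟩
  · intro y hy hy2
    obtain ⟨τ, h, hτ, hy'⟩ := gf_norm hn y hy hy2
    obtain ⟨_, hq'⟩ := involution_pow hF τ hτ
    have hστ : σ = τ := RingEquiv.ext fun a => by rw [hq, hq']
    refine ⟨gam (h * g⁻¹), ?_, ?_⟩
    · rw [inndiag_eq]; exact ⟨_, rfl⟩
    · rw [hx', hy', hστ, map_mul, map_inv]
      group
  · have hN : ∀ k, k ∈ (gam : Matrix.GeneralLinearGroup (Fin n) F →* _).range ↔ gam g * k * (gam g)⁻¹ ∈ (gam : Matrix.GeneralLinearGroup (Fin n) F →* _).range := by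
      intro k
      constructor
      · intro hk
        exact mul_mem (mul_mem ⟨_, rfl⟩ hk) (inv_mem ⟨_, rfl⟩)
      · intro hk
        have : k = (gam g)⁻¹ * (gam g * k * (gam g)⁻¹) * gam g := by group
        rw [this]
        exact mul_mem (mul_mem (inv_mem ⟨_, rfl⟩) hk) ⟨_, rfl⟩
    rw [inndiag_eq, hx']
    obtain ⟨e1⟩ := centralizer_conj (gam : Matrix.GeneralLinearGroup (Fin n) F →* _).range (gam g) (psl (semi 1 σ) * psl invTr) hN
    obtain ⟨e2⟩ := gf_centralizer hn2 σ hσ hq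
    exact ⟨e1.symm.trans e2⟩
  · have hN : ∀ k, k ∈ (gam : Matrix.GeneralLinearGroup (Fin n) F →* _).range ↔ gam g * k * (gam g)⁻¹ ∈ (gam : Matrix.GeneralLinearGroup (Fin n) F →* _).range := by
      intro k
      constructor
      · intro hk
        exact mul_mem (mul_mem ⟨_, rfl⟩ hk) (inv_mem ⟨_, rfl⟩)
      · intro hk
        have : k = (gam g)⁻¹ * (gam g * k * (gam g)⁻¹) * gam g := by group
        rw [this]
        exact mul_mem (mul_mem (inv_mem ⟨_, rfl⟩) hk) ⟨_, rfl⟩
    have hI : ∀ h, h ∈ Cfsg.Inn (Matrix.ProjectiveSpecialLinearGroup (Fin n) F) ↔ gam g * h * (gam g)⁻¹ ∈ Cfsg.Inn (Matrix.ProjectiveSpecialLinearGroup (Fin n) F) := by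
      intro h
      have hnorm : (Cfsg.Inn (Matrix.ProjectiveSpecialLinearGroup (Fin n) F)).Normal := inferInstance
      refine ⟨fun hh => hnorm.conj_mem _ hh _, fun hh => ?_⟩
      have h1 := hnorm.conj_mem _ hh (gam g)⁻¹
      have h2 : (gam g)⁻¹ * (gam g * h * (gam g)⁻¹) * (gam g)⁻¹⁻¹ = h := by group
      rwa [h2] at h1
    rw [inndiag_eq, hx', split_conj _ _ (gam g) hN hI]
    refine gf_split hn2 σ hσ hq ?_
    rw [hF, ← pow_mul]
    congr 1
    obtain ⟨m, rfl⟩ := hf2
    omega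

end Cfsg.Agent.S2704
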