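import Cfsg.Statements.S2711
import Cfsg.Agent.Lib.AutPSU13

set_option autoImplicit false
open Cfsg

namespace Cfsg.Agent.S2711


/-- Let T = PSU_n(q) be simple (n ≥ 3, (n,q) ≠ (3,2)), realised over the field F with q² elements, and let x be a field automorphism of T (conjugate to a standard field automorphism of odd order) of prime order r. Then an element y of the coset Inndiag(T)·x (y = δ x with δ in the image of PGU_n(q)) has order r if and only if y is conjugate to x by an element of Inndiag(T). (T has no graph-field automorphisms.) -/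
theorem result {F : Type*} [Field F] [Fintype F] {p f q : ℕ} [Fact p.Prime] (hq : q = p ^ f) (hf : 1 ≤ f) (hF : Fintype.card F = q ^ 2) {n : ℕ} (hn : 3 ≤ n) (hs : ¬ (n = 3 ∧ q = 2)) (x δ : MulAut (Cfsg.PSU n F q)) (hx : Cfsg.IsFieldAutClassPSU x) {r : ℕ} (hr : r.Prime) (hxr : orderOf x = r) (hδ : δ ∈ Cfsg.inndiagPSU n F q) :
    orderOf (δ * x) = r ↔ Cfsg.IsConjUnder (Cfsg.inndiagPSU n F q) x (δ * x) := by
  open CfsgLib.AutPSU CfsgLib.SemiAut in
  obtain ⟨σ, hσ⟩ := CfsgLib.Herm.exists_sigma (F := F) (q := q) (by rw [Nat.card_eq_fintype_card, hF])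
  have hq2 := hσ.two_le
  have hdim : (n = 3 ∧ 3 ≤ q) ∨ 4 ≤ n := by omega
  have hF' : Fintype.card F = p ^ (2 * f) := by rw [hF, hq, ← pow_mul, mul_comm]
  have hpow : ∀ (α : MulAut (Cfsg.PSU n F q)) (y : MulAut (Cfsg.PSU n F q)), orderOf (α * y * α⁻¹) = orderOf y := by
    intro α y
    exact orderOf_injective (MulAut.conj α).toMonoidHom (MulAut.conj α).injective y
  obtain ⟨α, φ, τ, _, hodd, hφ, hx⟩ := hx
  rw [CfsgLib.AutPSU.std_iffU hσ hn] at hφ
  have hor : orderOf (τ : RingAut F) = r := by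
    rw [← CfsgLib.SemiAut.Setup.orderOf_std (CfsgLib.AutPSU.setupU (F := F) hσ hn) (CfsgLib.AutPSU.one_mem_GamU hσ n τ), ← hφ, ← hx, hpow, hxr]
  have hro : Odd r := by
    rw [← hor]
    exact hodd
  have hrf2 : r ∣ 2 * f := by
    have hfin : Finite (RingAut F) := Finite.of_injective (fun σ : RingAut F => (σ : F → F)) DFunLike.coe_injective
    rw [← hor, ← CfsgLib.AutPSL.ringAut_card hF']
    exact orderOf_dvd_natCard (τ : RingAut F)
  have hrf : r ∣ f := by
    have hcop : Nat.Coprime r 2 := Nat.coprime_two_right.2 hro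
    exact hcop.dvd_of_dvd_mul_left hrf2
  have hfr : 0 < f / r := Nat.div_pos (Nat.le_of_dvd (by omega) hrf) hr.pos
  have hfin0 : Fintype (GaloisField p (2 * (f / r))) := Fintype.ofFinite _
  have hF₀ : Fintype.card (GaloisField p (2 * (f / r))) = p ^ (2 * (f / r)) := by
    rw [← Nat.card_eq_fintype_card, GaloisField.card p _ (by omega)]
  obtain ⟨_, j, hj, σ₀, hσ₀, hjσ⟩ := CfsgLib.AutPSU.exists_data hσ hq hf (τ : RingAut F) hor hro (GaloisField p (2 * (f / r))) hF₀
  exact CfsgLib.AutPSU.conj_fieldU hσ₀ j τ hj hjσ hσ hn hdim (hx.trans hφ) hxr hδ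

end Cfsg.Agent.S2711
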