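import Cfsg.Statements.S2712
import Cfsg.Agent.Lib.AutPSp7

set_option autoImplicit false
open Cfsg

namespace Cfsg.Agent.S2712

theorem number {q r : ℕ} (hq : 2 ≤ q) (hr : 1 ≤ r) : Nat.gcd 2 ((q ^ r - 1) / (q - 1)) = Nat.gcd (Nat.gcd 2 (q ^ r - 1)) r := by
  rw [← Nat.geomSum_eq hq r]
  have h1' : 1 ≤ q ^ r := Nat.one_le_pow _ _ (by omega)
  rcases Nat.even_or_odd q with he | ho
  · have h1 : ∀ n, 1 ≤ n → (∑ k ∈ Finset.range n, q ^ k) % 2 = 1 := by
      intro n hn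
      induction n, hn using Nat.le_induction with
      | base => simp
      | succ n hn ih =>
        rw [Finset.sum_range_succ, Nat.add_mod, ih]
        have h2 : q ^ n % 2 = 0 := Nat.even_iff.1 (he.pow_of_ne_zero (by omega))
        rw [h2]
    have h2 : (q ^ r - 1) % 2 = 1 := by
      have h3 : q ^ r % 2 = 0 := Nat.even_iff.1 (he.pow_of_ne_zero (by omega))
      omega
    rw [Nat.gcd_rec, h1 r hr, Nat.gcd_rec 2 (q ^ r - 1), h2]
    simp
  · have h1 : ∀ n, (∑ k ∈ Finset.range n, q ^ k) % 2 = n % 2 := by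
      intro n
      induction n with
      | zero => simp
      | succ n ih =>
        rw [Finset.sum_range_succ, Nat.add_mod, ih]
        have h2 : q ^ n % 2 = 1 := Nat.odd_iff.1 ho.pow
        rw [h2]
        omega
    have h2 : (q ^ r - 1) % 2 = 0 := by
      have h3 : q ^ r % 2 = 1 := Nat.odd_iff.1 ho.pow
      omega
    rw [Nat.gcd_rec, h1 r, Nat.gcd_rec 2 (q ^ r - 1), h2, ← Nat.gcd_rec, Nat.gcd_zero_left]

/-- Let T = PSp_{2m}(F) be simple over the field F with p^f elements (m ≥ 2, (2m, |F|) ≠ (4, 2)), G = Inndiag(T) the image of the projective conformal symplectic group PGSp_{2m}(F), and x a field automorphism of T of prime order r. Then r divides f; C_G(x) is isomorphic to PGSp_{2m}(F₀) for a field F₀ with p^(f/r) elements; and the G-class of x is the union of exactly gcd(gcd(2, p^f − 1), r) T-classes. -/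
theorem result {F : Type*} [Field F] [Fintype F] {p f : ℕ} [Fact p.Prime] (hF : Fintype.card F = p ^ f) (hf : 1 ≤ f) {m : ℕ} (hm : 2 ≤ m) (hs : m = 2 → 3 ≤ Fintype.card F) (x : MulAut (Cfsg.PSp m F)) (hx : Cfsg.IsFieldAutClassPSp x) {r : ℕ} (hr : r.Prime) (hxr : orderOf x = r) (F₀ : Type*) [Field F₀] [Fintype F₀] (hF₀ : Fintype.card F₀ = p ^ (f / r)) :
    r ∣ f ∧ Nonempty (↥(Cfsg.inndiagPSp m F ⊓ Subgroup.centralizer {x}) ≃* Cfsg.PGSp m F₀) ∧ Cfsg.splitClassCount (Cfsg.inndiagPSp m F) (Cfsg.Inn (Cfsg.PSp m F)) x = Nat.gcd (Nat.gcd 2 (p ^ f - 1)) r := by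
  open CfsgLib.AutPSp CfsgLib.SemiAut in
  have hpow : ∀ (α : MulAut (Cfsg.PSp m F)) (y : MulAut (Cfsg.PSp m F)), orderOf (α * y * α⁻¹) = orderOf y := by
    intro α y
    exact orderOf_injective (MulAut.conj α).toMonoidHom (MulAut.conj α).injective y
  obtain ⟨α, σ, _, hx⟩ := hx
  rw [CfsgLib.AutPSp.std_iff' hm] at hx
  have hor : orderOf (σ : RingAut F) = r := by
    rw [← CfsgLib.SemiAut.Setup.orderOf_std (CfsgLib.AutPSp.setup (F := F) hm) (CfsgLib.AutPSp.one_mem_Gam (m := m) σ), ← hx, hpow, hxr]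
  obtain ⟨hrf, j, hj⟩ := CfsgLib.AutPSL.exists_emb (σ : RingAut F) hF hor F₀ hF₀
  refine ⟨hrf, CfsgLib.AutPSp.centralizer_field j (σ : RingAut F) hj hm hx, ?_⟩
  rw [CfsgLib.AutPSp.split_field j (σ : RingAut F) hj hm hx, Nat.card_eq_fintype_card, Nat.card_eq_fintype_card, hF, hF₀]
  have h1 : p ^ f = (p ^ (f / r)) ^ r := by
    rw [← pow_mul, Nat.div_mul_cancel hrf]
  have h2 : 2 ≤ p ^ (f / r) := by
    have h3 : f / r ≠ 0 := by
      have := Nat.div_pos (Nat.le_of_dvd (by omega) hrf) hr.pos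
      omega
    calc 2 ≤ p := (Fact.out : p.Prime).two_le
      _ ≤ _ := Nat.le_self_pow h3 p
  rw [h1, number h2 hr.pos]

end Cfsg.Agent.S2712
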