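import Cfsg.Statements.S2723
import Cfsg.Agent.Lib.AutPO17

set_option autoImplicit false
open Cfsg

namespace Cfsg.Agent.S2723


/-- Let T = PΩ⁺_{2m}(F) with m ≥ 4 and |F| = q odd. The image of the special orthogonal group in Aut(T) contains the inner automorphism group T with index 1 (they coincide) when m is odd and q ≡ 3 (mod 4), and with index 2 otherwise (the index is 2 exactly when the discriminant of the form is a square). -/
theorem result {F : Type*} [Field F] [Fintype F] (hodd : Odd (Fintype.card F)) {m : ℕ} (hm : 4 ≤ m) :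
    ((Odd m ∧ Fintype.card F % 4 = 3) → (Cfsg.Inn (Cfsg.POmega F (Cfsg.quadFormPlus m F))).relIndex (Cfsg.psoAut F (Cfsg.quadFormPlus m F)) = 1) ∧ (¬ (Odd m ∧ Fintype.card F % 4 = 3) → (Cfsg.Inn (Cfsg.POmega F (Cfsg.quadFormPlus m F))).relIndex (Cfsg.psoAut F (Cfsg.quadFormPlus m F)) = 2) := by
  have hodd' : Nat.card F % 2 = 1 := by rw [Nat.card_eq_fintype_card]; exact Nat.odd_iff.1 hodd
  have h2 : (2 : F) ≠ 0 := CfsgLib.Quad.two_ne_zero_of_odd (by rw [Nat.card_eq_fintype_card]; exact hodd)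
  obtain ⟨ν, hν⟩ := CfsgLib.AutPO.exists_nu h2
  have hQ := CfsgLib.Quad.QP_nondegenerate (F := F) m
  have hV : 7 ≤ Module.finrank F (Fin m ⊕ Fin m → F) := by rw [CfsgLib.AutPO.finrank_ι_P]; omega
  have hng := CfsgLib.AutPO.ngI_plus (F := F) m h2 (by omega)
  have hpow := CfsgLib.AutPO.pow_mod_odd (m := m) hodd'
  rw [← Nat.card_eq_fintype_card, ← CfsgLib.AutPO.QP_coe]
  constructor
  · intro h
    apply CfsgLib.AutPO.card_pso_N hQ hV (CfsgLib.AutPO.card_ι_P m) hν
    rw [hng, hpow.2]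
    exact fun h' => h' h
  · intro h
    apply CfsgLib.AutPO.card_pso_D hQ hV hν
    rw [hng, hpow.2]
    exact h

end Cfsg.Agent.S2723
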