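import Cfsg.Statements.S2724
import Cfsg.Agent.Lib.AutPO17

set_option autoImplicit false
open Cfsg

namespace Cfsg.Agent.S2724


/-- Let T = PΩ⁺_{2m}(F) with m ≥ 4 and |F| = q odd. The image G̃ of the conformal orthogonal group in Aut(T), taken modulo the inner automorphism group T, is elementary abelian of order 4 when m is odd and q ≡ 3 (mod 4), and dihedral of order 8 otherwise. -/
theorem result {F : Type*} [Field F] [Fintype F] (hodd : Odd (Fintype.card F)) {m : ℕ} (hm : 4 ≤ m) :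
    ((Odd m ∧ Fintype.card F % 4 = 3) → (∃ φ : ↥(Cfsg.pgoAut F (Cfsg.quadFormPlus m F)) →* Multiplicative (ZMod 2 × ZMod 2), Function.Surjective φ ∧ φ.ker = (Cfsg.Inn (Cfsg.POmega F (Cfsg.quadFormPlus m F))).subgroupOf (Cfsg.pgoAut F (Cfsg.quadFormPlus m F)))) ∧ (¬ (Odd m ∧ Fintype.card F % 4 = 3) → (∃ φ : ↥(Cfsg.pgoAut F (Cfsg.quadFormPlus m F)) →* DihedralGroup 4, Function.Surjective φ ∧ φ.ker = (Cfsg.Inn (Cfsg.POmega F (Cfsg.quadFormPlus m F))).subgroupOf (Cfsg.pgoAut F (Cfsg.quadFormPlus m F)))) := by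
  have hodd' : Nat.card F % 2 = 1 := by rw [Nat.card_eq_fintype_card]; exact Nat.odd_iff.1 hodd
  have h2 : (2 : F) ≠ 0 := CfsgLib.Quad.two_ne_zero_of_odd (by rw [Nat.card_eq_fintype_card]; exact hodd)
  have hQ := CfsgLib.Quad.QP_nondegenerate (F := F) m
  have hV : 7 ≤ Module.finrank F (Fin m ⊕ Fin m → F) := by rw [CfsgLib.AutPO.finrank_ι_P]; omega
  have hne := CfsgLib.AutPO.exists_ne_of_nd hQ (by omega)
  have hng := CfsgLib.AutPO.ngI_plus (F := F) m h2 (by omega)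
  have hpow := CfsgLib.AutPO.pow_mod_odd (m := m) hodd'
  rw [hpow.2, Nat.card_eq_fintype_card] at hng
  have hN := fun h => CfsgLib.AutPO.pgo_N hQ hV (CfsgLib.AutPO.card_ι_P m) hne (CfsgLib.AutPO.mu_surj_plus m hne) h2 h
  have hD := fun h => CfsgLib.AutPO.pgo_D hQ hV (CfsgLib.AutPO.card_ι_P m) hne (CfsgLib.AutPO.mu_surj_plus m hne) h2 h
  rw [hng] at hN hD
  rw [CfsgLib.AutPO.QP_coe] at hN hD
  exact ⟨fun h => hN (fun h' => h' h), hD⟩

end Cfsg.Agent.S2724
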