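import Cfsg.Statements.S2725
import Cfsg.Agent.Lib.AutPO26

set_option autoImplicit false
open Cfsg

namespace Cfsg.Agent.S2725

set_option maxHeartbeats 1000000


/-- Let T = PΩ⁺_{2m}(F) with m ≥ 4 and |F| = q odd. The inner-diagonal group G = Inndiag(T) (image of the class-preserving similarities) taken modulo the inner automorphism group T is cyclic of order 2 when m is odd and q ≡ 3 (mod 4), cyclic of order 4 when m is odd and q ≡ 1 (mod 4), and elementary abelian of order 4 when m is even. -/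
theorem result {F : Type*} [Field F] [Fintype F] (hodd : Odd (Fintype.card F)) {m : ℕ} (hm : 4 ≤ m) :
    ((Odd m ∧ Fintype.card F % 4 = 3) → (∃ φ : ↥(Cfsg.inndiagPOmegaPlus m F) →* Multiplicative (ZMod 2), Function.Surjective φ ∧ φ.ker = (Cfsg.Inn (Cfsg.POmega F (Cfsg.quadFormPlus m F))).subgroupOf (Cfsg.inndiagPOmegaPlus m F))) ∧ ((Odd m ∧ Fintype.card F % 4 = 1) → (∃ φ : ↥(Cfsg.inndiagPOmegaPlus m F) →* Multiplicative (ZMod 4), Function.Surjective φ ∧ φ.ker = (Cfsg.Inn (Cfsg.POmega F (Cfsg.quadFormPlus m F))).subgroupOf (Cfsg.inndiagPOmegaPlus m F))) ∧ (Even m → (∃ φ : ↥(Cfsg.inndiagPOmegaPlus m F) →* Multiplicative (ZMod 2 × ZMod 2), Function.Surjective φ ∧ φ.ker = (Cfsg.Inn (Cfsg.POmega F (Cfsg.quadFormPlus m F))).subgroupOf (Cfsg.inndiagPOmegaPlus m F))) := by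
  have hodd' : Nat.card F % 2 = 1 := by rw [Nat.card_eq_fintype_card]; exact Nat.odd_iff.1 hodd
  have h2 : (2 : F) ≠ 0 := CfsgLib.Quad.two_ne_zero_of_odd (by rw [Nat.card_eq_fintype_card]; exact hodd)
  have hV : 7 ≤ Module.finrank F (Fin m ⊕ Fin m → F) := by rw [CfsgLib.AutPO.finrank_ι_P]; omega
  have hng := CfsgLib.AutPO.ngI_plus (F := F) m h2 (by omega)
  have hpow := CfsgLib.AutPO.pow_mod_odd (m := m) hodd'
  rw [hpow.2, Nat.card_eq_fintype_card] at hng
  have hN := fun h => CfsgLib.AutPO.plus_N m h2 hV h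
  have hD := fun h => CfsgLib.AutPO.plus_D_odd m h2 hV h
  have hD' := fun h => CfsgLib.AutPO.plus_D_even m h2 hV h
  rw [hng] at hN hD hD'
  rw [CfsgLib.AutPO.QP_coe] at hN hD hD'
  refine ⟨fun h => hN (fun h' => h' h), fun h => hD (fun h' => ?_) h.1, fun h => hD' (fun h' => ?_) h⟩
  · rw [h.2] at h'
    exact absurd h'.2 (by decide)
  · exact (Nat.not_odd_iff_even.2 h) h'.1

end Cfsg.Agent.S2725
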