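import Cfsg.Statements.S2727
import Cfsg.Agent.Lib.AutPO17

set_option autoImplicit false
open Cfsg

namespace Cfsg.Agent.S2727


/-- Let T = PΩ⁻_{2m+2}(F) with m ≥ 3 and |F| = q odd (form with anisotropic binary part). The image of the special orthogonal group in Aut(T) contains the inner automorphism group T with index 2 when m is even and q ≡ 3 (mod 4), and coincides with it otherwise (the index is 2 exactly when the discriminant of the form is a square). -/
theorem result {F : Type*} [Field F] [Fintype F] (hodd : Odd (Fintype.card F)) {m : ℕ} (hm : 3 ≤ m) (a b : F) (hab : (∀ z₁ z₂ : F, z₁ ^ 2 + a * z₁ * z₂ + b * z₂ ^ 2 = 0 → z₁ = 0 ∧ z₂ = 0)) :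
    ((Even m ∧ Fintype.card F % 4 = 3) → (Cfsg.Inn (Cfsg.POmega F (Cfsg.quadFormMinus m F a b))).relIndex (Cfsg.psoAut F (Cfsg.quadFormMinus m F a b)) = 2) ∧ (¬ (Even m ∧ Fintype.card F % 4 = 3) → (Cfsg.Inn (Cfsg.POmega F (Cfsg.quadFormMinus m F a b))).relIndex (Cfsg.psoAut F (Cfsg.quadFormMinus m F a b)) = 1) := by
  have hodd' : Nat.card F % 2 = 1 := by rw [Nat.card_eq_fintype_card]; exact Nat.odd_iff.1 hodd
  have h2 : (2 : F) ≠ 0 := CfsgLib.Quad.two_ne_zero_of_odd (by rw [Nat.card_eq_fintype_card]; exact hodd)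
  obtain ⟨ν, hν⟩ := CfsgLib.AutPO.exists_nu h2
  have hQ := CfsgLib.AutPO.QM_nondegenerate (F := F) m hab
  have hV : 7 ≤ Module.finrank F ((Fin m ⊕ Fin m) ⊕ Fin 2 → F) := by rw [CfsgLib.AutPO.finrank_QM]; omega
  have hng := CfsgLib.AutPO.ngI_minus m h2 hab
  have hpow := CfsgLib.AutPO.pow_mod_odd (m := m + 1) hodd'
  rw [← Nat.card_eq_fintype_card, ← CfsgLib.AutPO.QM_coe]
  have hm1 : Even m ↔ Odd (m + 1) := by
    rw [Nat.odd_add_one, Nat.not_odd_iff_even]
  rw [hm1]
  constructor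
  · intro h
    apply CfsgLib.AutPO.card_pso_D hQ hV hν
    rw [hng, hpow.1]
    exact h
  · intro h
    apply CfsgLib.AutPO.card_pso_N hQ hV (CfsgLib.AutPO.card_ι_M m) hν
    rw [hng, hpow.1]
    exact h

end Cfsg.Agent.S2727
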