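import Cfsg.Statements.S2728
import Cfsg.Agent.Lib.AutPO17

set_option autoImplicit false
open Cfsg

namespace Cfsg.Agent.S2728

set_option maxHeartbeats 2000000


/-- Let T = PΩ⁻_{2m+2}(F) with m ≥ 3 and |F| = q odd (form with anisotropic binary part). The image G̃ of the conformal orthogonal group in Aut(T), taken modulo the inner automorphism group T, is dihedral of order 8 when m is even and q ≡ 3 (mod 4), and elementary abelian of order 4 otherwise. -/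
theorem result {F : Type*} [Field F] [Fintype F] (hodd : Odd (Fintype.card F)) {m : ℕ} (hm : 3 ≤ m) (a b : F) (hab : (∀ z₁ z₂ : F, z₁ ^ 2 + a * z₁ * z₂ + b * z₂ ^ 2 = 0 → z₁ = 0 ∧ z₂ = 0)) :
    ((Even m ∧ Fintype.card F % 4 = 3) → (∃ φ : ↥(Cfsg.pgoAut F (Cfsg.quadFormMinus m F a b)) →* DihedralGroup 4, Function.Surjective φ ∧ φ.ker = (Cfsg.Inn (Cfsg.POmega F (Cfsg.quadFormMinus m F a b))).subgroupOf (Cfsg.pgoAut F (Cfsg.quadFormMinus m F a b)))) ∧ (¬ (Even m ∧ Fintype.card F % 4 = 3) → (∃ φ : ↥(Cfsg.pgoAut F (Cfsg.quadFormMinus m F a b)) →* Multiplicative (ZMod 2 × ZMod 2), Function.Surjective φ ∧ φ.ker = (Cfsg.Inn (Cfsg.POmega F (Cfsg.quadFormMinus m F a b))).subgroupOf (Cfsg.pgoAut F (Cfsg.quadFormMinus m F a b)))) := by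
  have hodd' : Nat.card F % 2 = 1 := by rw [Nat.card_eq_fintype_card]; exact Nat.odd_iff.1 hodd
  have h2 : (2 : F) ≠ 0 := CfsgLib.Quad.two_ne_zero_of_odd (by rw [Nat.card_eq_fintype_card]; exact hodd)
  have hQ := CfsgLib.AutPO.QM_nondegenerate (F := F) m hab
  have hV : 7 ≤ Module.finrank F ((Fin m ⊕ Fin m) ⊕ Fin 2 → F) := by rw [CfsgLib.AutPO.finrank_QM]; omega
  have hne := CfsgLib.AutPO.exists_ne_of_nd hQ (by omega)
  have hng := CfsgLib.AutPO.ngI_minus m h2 hab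
  have hpow := CfsgLib.AutPO.pow_mod_odd (m := m + 1) hodd'
  have hm1 : Odd (m + 1) ↔ Even m := by
    rw [Nat.odd_add_one, Nat.not_odd_iff_even]
  rw [hpow.1, Nat.card_eq_fintype_card, hm1] at hng
  have hN := fun h => CfsgLib.AutPO.pgo_N hQ hV (CfsgLib.AutPO.card_ι_M m) hne (CfsgLib.AutPO.mu_surj_minus m hab hne) h2 h
  have hD := fun h => CfsgLib.AutPO.pgo_D hQ hV (CfsgLib.AutPO.card_ι_M m) hne (CfsgLib.AutPO.mu_surj_minus m hab hne) h2 h
  rw [hng] at hN hD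
  rw [CfsgLib.AutPO.QM_coe] at hN hD
  exact ⟨hD, hN⟩

end Cfsg.Agent.S2728
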