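import Cfsg.Statements.S2734
import Cfsg.Agent.Lib.ChevEm2

set_option autoImplicit false
open Cfsg

namespace Cfsg.Agent.S2734

open Cfsg.Lie CfsgLib.Chev CfsgLib.Chev.GA CfsgLib.Chev.Em CfsgLib.Chev.TwD4

def pf4 : Equiv.Perm (Fin 4) := πf

theorem symm_cases : ∀ π : Equiv.Perm (Fin 4), (∀ i j : Fin 4, i ≠ j → chevD4.bonds (π i) (π j) = chevD4.bonds i j) →
    π * π = 1 ∨ π = pf4 ∨ π * pf4 = 1 := by
  decide +kernel

theorem not_long : ∀ i : Fin 4, chevD4.isLong (chevD4.simple i) = false := by decide +kernel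

variable {F : Type*} [Field F]

theorem of_perm (τ : MulAut ↥(chevD4.group F)) (π : Equiv.Perm (Fin 4))
    (h : ∀ (g : ↥(chevD4.group F)) (i : Fin chevD4.rank) (t : F),
      (((g : GL chevD4.Idx F) : Matrix chevD4.Idx chevD4.Idx F) = chevD4.x F (chevD4.simple i) t →
        ((τ g : GL chevD4.Idx F) : Matrix chevD4.Idx chevD4.Idx F) =
          chevD4.x F (chevD4.simple (π i)) (t ^ chevD4.graphExp (ringChar F) i (π i))) ∧
      (((g : GL chevD4.Idx F) : Matrix chevD4.Idx chevD4.Idx F) = chevD4.x F (chevD4.neg (chevD4.simple i)) t →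
        ((τ g : GL chevD4.Idx F) : Matrix chevD4.Idx chevD4.Idx F) =
          chevD4.x F (chevD4.neg (chevD4.simple (π i))) (t ^ chevD4.graphExp (ringChar F) i (π i)))) :
    (∀ (i : Fin 4) (t : F), (τ ⟨xg chevD4 (chevD4.simple i) t, (cgD4 F).xg_mem_G _ _⟩ : GL chevD4.Idx F) =
      xg chevD4 (chevD4.simple (π i)) t) ∧
    (∀ (i : Fin 4) (t : F), (τ ⟨xg chevD4 (chevD4.neg (chevD4.simple i)) t, (cgD4 F).xg_mem_G _ _⟩ : GL chevD4.Idx F) =
      xg chevD4 (chevD4.neg (chevD4.simple (π i))) t) := by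
  have hexp : ∀ i : Fin 4, chevD4.graphExp (ringChar F) i (π i) = 1 := by
    intro i
    unfold ChevalleyDatum.graphExp
    rw [not_long (π i)]
    rfl
  constructor
  · intro i t
    have h1 := (h ⟨xg chevD4 (chevD4.simple i) t, (cgD4 F).xg_mem_G _ _⟩ i t).1 ((cgD4 F).coe_xg _ _)
    rw [hexp i, pow_one] at h1
    apply Units.ext
    rw [h1, (cgD4 F).coe_xg]
  · intro i t
    have h1 := (h ⟨xg chevD4 (chevD4.neg (chevD4.simple i)) t, (cgD4 F).xg_mem_G _ _⟩ i t).2 ((cgD4 F).coe_xg _ _)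
    rw [hexp i, pow_one] at h1
    apply Units.ext
    rw [h1, (cgD4 F).coe_xg]

theorem main_iso [Fintype F] (τ : MulAut ↥(chevD4.group F))
    (h1 : ∀ (i : Fin 4) (t : F), (τ ⟨xg chevD4 (chevD4.simple i) t, (cgD4 F).xg_mem_G _ _⟩ : GL chevD4.Idx F) =
      xg chevD4 (chevD4.simple (pf4 i)) t)
    (h2 : ∀ (i : Fin 4) (t : F), (τ ⟨xg chevD4 (chevD4.neg (chevD4.simple i)) t, (cgD4 F).xg_mem_G _ _⟩ : GL chevD4.Idx F) =
      xg chevD4 (chevD4.neg (chevD4.simple (pf4 i))) t) (P : Subgroup ↥(chevD4.group F)) (hP : ∀ g, g ∈ P ↔ τ g = g) :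
    Nonempty (P ≃* ↥(chevG2.group F)) := by
  have h := agree (ta (RingHom.id F)) (cgD4 F) τ
    (fun i t => (h1 i t).trans ((ta (RingHom.id F)).xp i t).symm)
    (fun i t => (h2 i t).trans ((ta (RingHom.id F)).xn i t).symm)
  obtain ⟨e⟩ := fix_iso (ta (RingHom.id F)) (cgD4 F) τ h P hP
  obtain ⟨e'⟩ := CfsgLib.Chev.EmG2.iso (K := F)
  exact ⟨e.trans e'⟩

/-- In the Chevalley group of type D₄ over a finite field F (the matrix group generated by the root elements), a graph automorphism attached to a symmetry π of the Dynkin diagram (sending each fundamental root element x_p(t) to x_{π(p)}(t) and each x_{−p}(t) to x_{−π(p)}(t)) that has order 3 — a standard triality graph automorphism, π being a 3-cycle of the three outer nodes — has fixed-point subgroup isomorphic to the Chevalley group of type G₂ over F. -/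
theorem result {F : Type*} [Field F] [Fintype F] (τ : MulAut ↥(Cfsg.Lie.chevD4.group F)) (hτ : Cfsg.Lie.chevD4.IsGraphAut τ) (hτ3 : orderOf τ = 3) :
    Nonempty (↥(MonoidHom.eqLocus τ.toMonoidHom (MonoidHom.id ↥(Cfsg.Lie.chevD4.group F))) ≃* ↥(Cfsg.Lie.chevG2.group F)) := by
  obtain ⟨π, hs, h⟩ := hτ
  have h' := of_perm τ π h
  obtain ⟨h1, h2⟩ := h'
  rcases symm_cases π hs with h3 | h3 | h3
  · exfalso
    have e : τ * τ = 1 := by
      apply MulEquiv.toMonoidHom_injective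
      apply GE.hom_ext (cgD4 F)
      · intro i t
        have e1 : τ ⟨xg chevD4 (chevD4.simple i) t, (cgD4 F).xg_mem_G _ _⟩ =
            ⟨xg chevD4 (chevD4.simple (π i)) t, (cgD4 F).xg_mem_G _ _⟩ := Subtype.ext (h1 i t)
        have e2 : τ ⟨xg chevD4 (chevD4.simple (π i)) t, (cgD4 F).xg_mem_G _ _⟩ =
            ⟨xg chevD4 (chevD4.simple (π (π i))) t, (cgD4 F).xg_mem_G _ _⟩ := Subtype.ext (h1 (π i) t)
        have e3 : π (π i) = i := Equiv.Perm.congr_fun h3 i
        change τ (τ _) = _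
        rw [e1, e2]
        apply Subtype.ext
        change xg chevD4 (chevD4.simple (π (π i))) t = xg chevD4 (chevD4.simple i) t
        rw [e3]
      · intro i t
        have e1 : τ ⟨xg chevD4 (chevD4.neg (chevD4.simple i)) t, (cgD4 F).xg_mem_G _ _⟩ =
            ⟨xg chevD4 (chevD4.neg (chevD4.simple (π i))) t, (cgD4 F).xg_mem_G _ _⟩ := Subtype.ext (h2 i t)
        have e2 : τ ⟨xg chevD4 (chevD4.neg (chevD4.simple (π i))) t, (cgD4 F).xg_mem_G _ _⟩ =
            ⟨xg chevD4 (chevD4.neg (chevD4.simple (π (π i)))) t, (cgD4 F).xg_mem_G _ _⟩ := Subtype.ext (h2 (π i) t)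
        have e3 : π (π i) = i := Equiv.Perm.congr_fun h3 i
        change τ (τ _) = _
        rw [e1, e2]
        apply Subtype.ext
        change xg chevD4 (chevD4.neg (chevD4.simple (π (π i)))) t = xg chevD4 (chevD4.neg (chevD4.simple i)) t
        rw [e3]
    have h4 : orderOf τ ∣ 2 := orderOf_dvd_of_pow_eq_one (by rw [pow_two, e])
    rw [hτ3] at h4
    omega
  · subst h3
    exact main_iso τ h1 h2 _ (fun g => Iff.rfl)
  · have k1 : ∀ (i : Fin 4) (t : F), (τ⁻¹ ⟨xg chevD4 (chevD4.simple i) t, (cgD4 F).xg_mem_G _ _⟩ : GL chevD4.Idx F) =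
        xg chevD4 (chevD4.simple (pf4 i)) t := by
      intro i t
      have e1 : τ ⟨xg chevD4 (chevD4.simple (pf4 i)) t, (cgD4 F).xg_mem_G _ _⟩ =
          ⟨xg chevD4 (chevD4.simple i) t, (cgD4 F).xg_mem_G _ _⟩ := by
        apply Subtype.ext
        have e2 : π (pf4 i) = i := Equiv.Perm.congr_fun h3 i
        exact (h1 (pf4 i) t).trans (congrArg (fun k : Fin 4 => xg chevD4 (chevD4.simple k) t) e2)
      rw [← e1, MulAut.inv_apply_self]
    have k2 : ∀ (i : Fin 4) (t : F), (τ⁻¹ ⟨xg chevD4 (chevD4.neg (chevD4.simple i)) t, (cgD4 F).xg_mem_G _ _⟩ : GL chevD4.Idx F) =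
        xg chevD4 (chevD4.neg (chevD4.simple (pf4 i))) t := by
      intro i t
      have e1 : τ ⟨xg chevD4 (chevD4.neg (chevD4.simple (pf4 i))) t, (cgD4 F).xg_mem_G _ _⟩ =
          ⟨xg chevD4 (chevD4.neg (chevD4.simple i)) t, (cgD4 F).xg_mem_G _ _⟩ := by
        apply Subtype.ext
        have e2 : π (pf4 i) = i := Equiv.Perm.congr_fun h3 i
        exact (h2 (pf4 i) t).trans (congrArg (fun k : Fin 4 => xg chevD4 (chevD4.neg (chevD4.simple k)) t) e2)
      rw [← e1, MulAut.inv_apply_self]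
    refine main_iso τ⁻¹ k1 k2 _ (fun g => ?_)
    change τ g = g ↔ τ⁻¹ g = g
    constructor
    · intro h5
      rw [← h5, MulAut.inv_apply_self, h5]
    · intro h5
      rw [← h5, MulAut.apply_inv_self, h5]

end Cfsg.Agent.S2734
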