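import Cfsg.Statements.S2738

set_option autoImplicit false
open Cfsg

namespace Cfsg.Agent.S2738

/-- the diagonal matrix diag(1, w, w²) -/
def A (F : Type*) [Field F] (w : F) (hw : w ^ 3 = 1) : Matrix.SpecialLinearGroup (Fin 3) F :=
  ⟨!![1, 0, 0; 0, w, 0; 0, 0, w ^ 2], by rw [Matrix.det_fin_three]; simp; rw [← hw]; ring⟩

def P (F : Type*) [Field F] : Matrix.SpecialLinearGroup (Fin 3) F :=
  ⟨!![0, 1, 0; 0, 0, 1; 1, 0, 0], by rw [Matrix.det_fin_three]; simp⟩

def Z (F : Type*) [Field F] (w : F) (hw : w ^ 3 = 1) : Matrix.SpecialLinearGroup (Fin 3) F :=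
  ⟨!![w, 0, 0; 0, w, 0; 0, 0, w], by rw [Matrix.det_fin_three]; simp; rw [← hw]; ring⟩


/-- The special linear group SL(3, 4) has centre of order 3 and does not split over it: no subgroup is a complement to the centre (so SL(3, 4) is a non-split central extension of PSL(3, 4) by a group of order 3). -/
theorem result (F : Type*) [Field F] [Fintype F] (hF : Fintype.card F = 4) : Nat.card ↥(Subgroup.center (Matrix.SpecialLinearGroup (Fin 3) F)) = 3 ∧ ¬ ∃ K : Subgroup (Matrix.SpecialLinearGroup (Fin 3) F), Subgroup.IsComplement' (Subgroup.center (Matrix.SpecialLinearGroup (Fin 3) F)) K := by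
  classical
  have hu : Fintype.card Fˣ = 3 := by rw [Fintype.card_units, hF]
  have hw3 : ∀ w : F, w ≠ 0 → w ^ 3 = 1 := by
    intro w hw
    have := FiniteField.pow_card_sub_one_eq_one w hw
    rwa [hF] at this
  constructor
  · have e := Matrix.SpecialLinearGroup.center_equiv_rootsOfUnity (n := Fin 3) (R := F)
    rw [Nat.card_congr e.toEquiv]
    have : rootsOfUnity (max (Fintype.card (Fin 3)) 1) F = ⊤ := by
      rw [eq_top_iff]
      intro x _
      rw [mem_rootsOfUnity]
      have : max (Fintype.card (Fin 3)) 1 = Fintype.card Fˣ := by rw [hu]; simp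
      rw [this, pow_card_eq_one]
    rw [this, Nat.card_congr Subgroup.topEquiv.toEquiv, Nat.card_eq_fintype_card, hu]
  · rintro ⟨K, hK⟩
    -- pick w of order 3
    obtain ⟨w, hw1⟩ : ∃ w : Fˣ, w ≠ 1 := by
      have : Nontrivial Fˣ := by
        rw [← Fintype.one_lt_card_iff_nontrivial, hu]; norm_num
      exact exists_ne 1
    have hw : (w : F) ^ 3 = 1 := hw3 w w.ne_zero
    have hcomm : P F * A F w hw = Z F w hw * (A F w hw * P F) := by
      apply Subtype.ext
      simp only [Matrix.SpecialLinearGroup.coe_mul]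
      ext i j
      fin_cases i <;> fin_cases j <;> simp [P, A, Z, Matrix.mul_apply, Fin.sum_univ_three]
      · ring
      · rw [← hw]; ring
    have hZ : Z F w hw ∈ Subgroup.center (Matrix.SpecialLinearGroup (Fin 3) F) := by
      rw [Matrix.SpecialLinearGroup.mem_center_iff]
      refine ⟨(w : F), by simpa using hw, ?_⟩
      ext i j
      fin_cases i <;> fin_cases j <;> simp [Z, Matrix.scalar_apply]
    obtain ⟨⟨c1, k1⟩, h1⟩ := hK.2 (A F w hw)
    obtain ⟨⟨c2, k2⟩, h2⟩ := hK.2 (P F)
    simp only at h1 h2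
    have hc1 : ∀ x : Matrix.SpecialLinearGroup (Fin 3) F, x * c1 = c1 * x := Subgroup.mem_center_iff.mp c1.2
    have hc2 : ∀ x : Matrix.SpecialLinearGroup (Fin 3) F, x * c2 = c2 * x := Subgroup.mem_center_iff.mp c2.2
    have hz : ∀ x : Matrix.SpecialLinearGroup (Fin 3) F, x * Z F w hw = Z F w hw * x := Subgroup.mem_center_iff.mp hZ
    have h3 : Z F w hw = (k2 : Matrix.SpecialLinearGroup (Fin 3) F) * k1 * (k2 : Matrix.SpecialLinearGroup (Fin 3) F)⁻¹ * (k1 : Matrix.SpecialLinearGroup (Fin 3) F)⁻¹ := by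
      rw [← h1, ← h2] at hcomm
      have h4 : (c2 : Matrix.SpecialLinearGroup (Fin 3) F) * k2 * (c1 * k1) = c1 * (c2 * (k2 * k1)) := by
        rw [mul_assoc, ← mul_assoc (k2 : Matrix.SpecialLinearGroup (Fin 3) F), hc1, mul_assoc, ← mul_assoc (c2 : Matrix.SpecialLinearGroup (Fin 3) F), hc1]
        simp only [mul_assoc]
      have h5 : (c1 : Matrix.SpecialLinearGroup (Fin 3) F) * k1 * (c2 * k2) = c1 * (c2 * (k1 * k2)) := by
        rw [mul_assoc, ← mul_assoc (k1 : Matrix.SpecialLinearGroup (Fin 3) F), hc2, mul_assoc]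
      rw [h4, h5] at hcomm
      have h6 : (c1 : Matrix.SpecialLinearGroup (Fin 3) F) * (c2 * (k2 * k1)) = c1 * (c2 * (Z F w hw * (k1 * k2))) := by
        rw [hcomm, ← mul_assoc (Z F w hw), ← hz, mul_assoc, ← mul_assoc (Z F w hw), ← hz, mul_assoc]
      have h7 := mul_left_cancel (mul_left_cancel h6)
      rw [eq_mul_inv_iff_mul_eq, eq_mul_inv_iff_mul_eq]
      rw [mul_assoc, h7]
    have hZK : Z F w hw ∈ K := by
      rw [h3]
      exact K.mul_mem (K.mul_mem (K.mul_mem k2.2 k1.2) (K.inv_mem k2.2)) (K.inv_mem k1.2)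
    have hZ1 : Z F w hw = 1 := by
      have := hK.disjoint
      rw [Subgroup.disjoint_def] at this
      exact this hZ hZK
    apply hw1
    apply Units.ext
    have := congrArg (fun g : Matrix.SpecialLinearGroup (Fin 3) F => (g : Matrix (Fin 3) (Fin 3) F) 0 0) hZ1
    simpa [Z] using this

end Cfsg.Agent.S2738
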