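import Cfsg.Statements.S2739
import Cfsg.Agent.Lib.P34

set_option autoImplicit false
open scoped Pointwise
open Cfsg

namespace Cfsg.Agent.S2739

open Matrix CfsgLib.P34

theorem gen_of_card {G : Type*} [Group G] (X : Subgroup G) (hX : Nat.card X = 3) : ∃ x : G, x ^ 3 = 1 ∧ x ≠ 1 ∧ X = Subgroup.zpowers x := by
  haveI : Fact (Nat.Prime 3) := ⟨Nat.prime_three⟩
  haveI : Finite X := Nat.finite_of_card_ne_zero (by omega)
  haveI : Nontrivial X := Finite.one_lt_card_iff_nontrivial.1 (by omega)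
  obtain ⟨x, hx⟩ := exists_ne (1 : X)
  have h1 : Subgroup.zpowers x = ⊤ := by
    have h2 := orderOf_dvd_natCard x
    rw [hX] at h2
    have h3 : orderOf x = 3 := by
      rcases (Nat.dvd_prime Nat.prime_three).1 h2 with h | h
      · exact absurd (orderOf_eq_one_iff.1 h) hx
      · exact h
    apply Subgroup.eq_top_of_card_eq
    rw [Nat.card_zpowers, h3, hX]
  refine ⟨x, ?_, fun h => hx (Subtype.ext h), ?_⟩
  · have := pow_card_eq_one' (x := x)
    rw [hX] at this
    exact congrArg Subtype.val this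
  · have := congrArg (Subgroup.map X.subtype) h1
    rw [← MonoidHom.range_eq_map, Subgroup.range_subtype, MonoidHom.map_zpowers] at this
    exact this.symm

/-- In the projective special linear group PSL(3, 4) all subgroups of order 3 are conjugate. -/
theorem result (F : Type*) [Field F] [Fintype F] (hF : Fintype.card F = 4) (X Y : Subgroup (Matrix.ProjectiveSpecialLinearGroup (Fin 3) F)) (hX : Nat.card ↥X = 3) (hY : Nat.card ↥Y = 3) : ∃ g : Matrix.ProjectiveSpecialLinearGroup (Fin 3) F, MulAut.conj g • X = Y := by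
  obtain ⟨w, hw, hw1⟩ := exists_w hF
  obtain ⟨x, hx, hx1, rfl⟩ := gen_of_card X hX
  obtain ⟨y, hy, hy1, rfl⟩ := gen_of_card Y hY
  obtain ⟨g, hg⟩ := conjPSL (char_two hF) (cube hF) hw hw1 hx hx1
  obtain ⟨h, hh⟩ := conjPSL (char_two hF) (cube hF) hw hw1 hy hy1
  refine ⟨h * g⁻¹, ?_⟩
  have e1 : (MulAut.conj (h * g⁻¹)) x = y := by
    rw [MulAut.conj_apply]
    rw [← hh] at hg
    have : h * g⁻¹ * x * (h * g⁻¹)⁻¹ = h * (g⁻¹ * x * g) * h⁻¹ := by group
    rw [this, hg]; group
  have e2 := MonoidHom.map_zpowers (MulAut.conj (h * g⁻¹)).toMonoidHom x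
  refine Eq.trans ?_ (e2.trans (congrArg Subgroup.zpowers e1))
  rfl

end Cfsg.Agent.S2739
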