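import Cfsg.Statements.S2761
import Cfsg.Agent.Lib.H6Qd

set_option autoImplicit false
open Cfsg

set_option linter.style.haveILetI false
namespace Cfsg.Agent.S2761

/-- The group Qd(2), the natural semidirect product of an elementary abelian group of order 4 by SL₂(2) (realised as the affine subgroup of SL₃(2)), is isomorphic to the symmetric group of degree 4. -/
theorem result : Nonempty (↥(Cfsg.qd 2) ≃* Equiv.Perm (Fin 4)) := by
  haveI : Fact (Nat.Prime 2) := ⟨Nat.prime_two⟩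
  have hrow : ∀ M : ↥(Cfsg.qd 2), (M : Matrix.SpecialLinearGroup (Fin 3) (ZMod 2)) 2 0 = 0 ∧ (M : Matrix.SpecialLinearGroup (Fin 3) (ZMod 2)) 2 1 = 0 ∧ (M : Matrix.SpecialLinearGroup (Fin 3) (ZMod 2)) 2 2 = 1 := fun M => CfsgLib.ThmA.mem_qd_iff.1 M.2
  have hmul : ∀ (M N : ↥(Cfsg.qd 2)) (i j : Fin 3), ((M * N : ↥(Cfsg.qd 2)) : Matrix.SpecialLinearGroup (Fin 3) (ZMod 2)) i j =
      (M : Matrix.SpecialLinearGroup (Fin 3) (ZMod 2)) i 0 * (N : Matrix.SpecialLinearGroup (Fin 3) (ZMod 2)) 0 j + (M : Matrix.SpecialLinearGroup (Fin 3) (ZMod 2)) i 1 * (N : Matrix.SpecialLinearGroup (Fin 3) (ZMod 2)) 1 j + (M : Matrix.SpecialLinearGroup (Fin 3) (ZMod 2)) i 2 * (N : Matrix.SpecialLinearGroup (Fin 3) (ZMod 2)) 2 j := by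
    intro M N i j
    show (((M : Matrix.SpecialLinearGroup (Fin 3) (ZMod 2)) : Matrix (Fin 3) (Fin 3) (ZMod 2)) * ((N : Matrix.SpecialLinearGroup (Fin 3) (ZMod 2)) : Matrix (Fin 3) (Fin 3) (ZMod 2))) i j = _
    rw [Matrix.mul_apply, Fin.sum_univ_three]
  letI act : MulAction ↥(Cfsg.qd 2) (Fin 2 → ZMod 2) :=
    { smul := fun M w => ![(M : Matrix.SpecialLinearGroup (Fin 3) (ZMod 2)) 0 0 * w 0 + (M : Matrix.SpecialLinearGroup (Fin 3) (ZMod 2)) 0 1 * w 1 + (M : Matrix.SpecialLinearGroup (Fin 3) (ZMod 2)) 0 2,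
        (M : Matrix.SpecialLinearGroup (Fin 3) (ZMod 2)) 1 0 * w 0 + (M : Matrix.SpecialLinearGroup (Fin 3) (ZMod 2)) 1 1 * w 1 + (M : Matrix.SpecialLinearGroup (Fin 3) (ZMod 2)) 1 2]
      one_smul := by
        intro w
        funext i
        fin_cases i
        · show (1 : ZMod 2) * w 0 + 0 * w 1 + 0 = w 0
          ring
        · show (0 : ZMod 2) * w 0 + 1 * w 1 + 0 = w 1
          ring
      mul_smul := by
        intro M N w
        obtain ⟨h1, h2, h3⟩ := hrow N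
        funext i
        fin_cases i
        · show ((M * N : ↥(Cfsg.qd 2)) : Matrix.SpecialLinearGroup (Fin 3) (ZMod 2)) 0 0 * w 0 + ((M * N : ↥(Cfsg.qd 2)) : Matrix.SpecialLinearGroup (Fin 3) (ZMod 2)) 0 1 * w 1 + ((M * N : ↥(Cfsg.qd 2)) : Matrix.SpecialLinearGroup (Fin 3) (ZMod 2)) 0 2 =
            (M : Matrix.SpecialLinearGroup (Fin 3) (ZMod 2)) 0 0 * ((N : Matrix.SpecialLinearGroup (Fin 3) (ZMod 2)) 0 0 * w 0 + (N : Matrix.SpecialLinearGroup (Fin 3) (ZMod 2)) 0 1 * w 1 + (N : Matrix.SpecialLinearGroup (Fin 3) (ZMod 2)) 0 2) + (M : Matrix.SpecialLinearGroup (Fin 3) (ZMod 2)) 0 1 * ((N : Matrix.SpecialLinearGroup (Fin 3) (ZMod 2)) 1 0 * w 0 + (N : Matrix.SpecialLinearGroup (Fin 3) (ZMod 2)) 1 1 * w 1 + (N : Matrix.SpecialLinearGroup (Fin 3) (ZMod 2)) 1 2) + (M : Matrix.SpecialLinearGroup (Fin 3) (ZMod 2)) 0 2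
          rw [hmul, hmul, hmul, h1, h2, h3]; ring
        · show ((M * N : ↥(Cfsg.qd 2)) : Matrix.SpecialLinearGroup (Fin 3) (ZMod 2)) 1 0 * w 0 + ((M * N : ↥(Cfsg.qd 2)) : Matrix.SpecialLinearGroup (Fin 3) (ZMod 2)) 1 1 * w 1 + ((M * N : ↥(Cfsg.qd 2)) : Matrix.SpecialLinearGroup (Fin 3) (ZMod 2)) 1 2 =
            (M : Matrix.SpecialLinearGroup (Fin 3) (ZMod 2)) 1 0 * ((N : Matrix.SpecialLinearGroup (Fin 3) (ZMod 2)) 0 0 * w 0 + (N : Matrix.SpecialLinearGroup (Fin 3) (ZMod 2)) 0 1 * w 1 + (N : Matrix.SpecialLinearGroup (Fin 3) (ZMod 2)) 0 2) + (M : Matrix.SpecialLinearGroup (Fin 3) (ZMod 2)) 1 1 * ((N : Matrix.SpecialLinearGroup (Fin 3) (ZMod 2)) 1 0 * w 0 + (N : Matrix.SpecialLinearGroup (Fin 3) (ZMod 2)) 1 1 * w 1 + (N : Matrix.SpecialLinearGroup (Fin 3) (ZMod 2)) 1 2) + (M : Matrix.SpecialLinearGroup (Fin 3) (ZMod 2)) 1 2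
          rw [hmul, hmul, hmul, h1, h2, h3]; ring }
  have hs : ∀ (M : ↥(Cfsg.qd 2)) (w : Fin 2 → ZMod 2), (MulAction.toPermHom ↥(Cfsg.qd 2) (Fin 2 → ZMod 2) M) w = ![(M : Matrix.SpecialLinearGroup (Fin 3) (ZMod 2)) 0 0 * w 0 + (M : Matrix.SpecialLinearGroup (Fin 3) (ZMod 2)) 0 1 * w 1 + (M : Matrix.SpecialLinearGroup (Fin 3) (ZMod 2)) 0 2,
        (M : Matrix.SpecialLinearGroup (Fin 3) (ZMod 2)) 1 0 * w 0 + (M : Matrix.SpecialLinearGroup (Fin 3) (ZMod 2)) 1 1 * w 1 + (M : Matrix.SpecialLinearGroup (Fin 3) (ZMod 2)) 1 2] := fun M w => rfl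
  have hinj : Function.Injective (MulAction.toPermHom ↥(Cfsg.qd 2) (Fin 2 → ZMod 2)) := by
    rw [injective_iff_map_eq_one]
    intro M hM
    have h0 : ∀ w : Fin 2 → ZMod 2, ![(M : Matrix.SpecialLinearGroup (Fin 3) (ZMod 2)) 0 0 * w 0 + (M : Matrix.SpecialLinearGroup (Fin 3) (ZMod 2)) 0 1 * w 1 + (M : Matrix.SpecialLinearGroup (Fin 3) (ZMod 2)) 0 2,
        (M : Matrix.SpecialLinearGroup (Fin 3) (ZMod 2)) 1 0 * w 0 + (M : Matrix.SpecialLinearGroup (Fin 3) (ZMod 2)) 1 1 * w 1 + (M : Matrix.SpecialLinearGroup (Fin 3) (ZMod 2)) 1 2] = w := by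
      intro w; rw [← hs, hM]; rfl
    have a0 := congrFun (h0 ![0, 0]) 0
    have a1 := congrFun (h0 ![0, 0]) 1
    have b0 := congrFun (h0 ![1, 0]) 0
    have b1 := congrFun (h0 ![1, 0]) 1
    have c0 := congrFun (h0 ![0, 1]) 0
    have c1 := congrFun (h0 ![0, 1]) 1
    simp only [Matrix.cons_val_zero, Matrix.cons_val_one, mul_zero, mul_one, zero_add, add_zero] at a0 a1 b0 b1 c0 c1
    rw [a0, add_zero] at b0 c0
    rw [a1, add_zero] at b1 c1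
    obtain ⟨h1, h2, h3⟩ := hrow M
    apply Subtype.ext
    apply Subtype.ext
    ext i j
    fin_cases i <;> fin_cases j
    exacts [b0, c0, a0, b1, c1, a1, h1, h2, h3]
  have hcard : Nat.card ↥(Cfsg.qd 2) = Nat.card (Equiv.Perm (Fin 2 → ZMod 2)) := by
    rw [CfsgLib.H6Qd.qd_card, Nat.card_perm, Nat.card_fun, Nat.card_zmod, Nat.card_eq_fintype_card, Fintype.card_fin]
    rfl
  have hbij : Function.Bijective (MulAction.toPermHom ↥(Cfsg.qd 2) (Fin 2 → ZMod 2)) :=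
    (Nat.bijective_iff_injective_and_card _).2 ⟨hinj, hcard⟩
  have e : (Fin 2 → ZMod 2) ≃ Fin 4 := by
    apply Classical.choice
    rw [← Fintype.card_eq]
    rfl
  exact ⟨(MulEquiv.ofBijective _ hbij).trans (Equiv.permCongrHom e)⟩

end Cfsg.Agent.S2761
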