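import Cfsg.Statements.S2762
import Cfsg.Agent.Lib.H6QdF

set_option autoImplicit false
open Cfsg

set_option linter.style.haveILetI false
namespace Cfsg.Agent.S2762

/-- Structure of Qd over a finite field F of characteristic p (the affine subgroup of SL₃(F)): its largest normal p-subgroup is the group of translations (matrices with upper-left block the identity), the block-diagonal matrices form a complement isomorphic to SL₂(F), and the translation subgroup is a natural SL₂(F)-module for that complement. -/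
theorem result {F : Type*} [Field F] [Fintype F] {p : ℕ} [Fact p.Prime] [CharP F p] : (∀ M : ↥(Cfsg.qdOver F), M ∈ Cfsg.pCore p ↥(Cfsg.qdOver F) ↔ ((M : Matrix.SpecialLinearGroup (Fin 3) F) : Matrix (Fin 3) (Fin 3) F) 0 0 = 1 ∧ ((M : Matrix.SpecialLinearGroup (Fin 3) F) : Matrix (Fin 3) (Fin 3) F) 0 1 = 0 ∧ ((M : Matrix.SpecialLinearGroup (Fin 3) F) : Matrix (Fin 3) (Fin 3) F) 1 0 = 0 ∧ ((M : Matrix.SpecialLinearGroup (Fin 3) F) : Matrix (Fin 3) (Fin 3) F) 1 1 = 1) ∧ ∃ K : Subgroup ↥(Cfsg.qdOver F), (∀ M : ↥(Cfsg.qdOver F), M ∈ K ↔ ((M : Matrix.SpecialLinearGroup (Fin 3) F) : Matrix (Fin 3) (Fin 3) F) 0 2 = 0 ∧ ((M : Matrix.SpecialLinearGroup (Fin 3) F) : Matrix (Fin 3) (Fin 3) F) 1 2 = 0) ∧ K ⊓ Cfsg.pCore p ↥(Cfsg.qdOver F) = ⊥ ∧ K ⊔ Cfsg.pCore p ↥(Cfsg.qdOver F) = ⊤ ∧ Nonempty (↥K ≃* Matrix.SpecialLinearGroup (Fin 2) F) ∧ Cfsg.IsNaturalSL2Module F (Cfsg.pCore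 p ↥(Cfsg.qdOver F)) K := by
  haveI : Finite F := inferInstance
  haveI : Finite (Matrix.SpecialLinearGroup (Fin 3) F) := inferInstance
  have hpc : Cfsg.pCore p ↥(Cfsg.qdOver F) = CfsgLib.H6QdF.tr2 F := CfsgLib.H6QdF.pCore_eq
  rw [hpc]
  refine ⟨?_, CfsgLib.H6QdF.compl F, ?_, ?_, ?_, ⟨CfsgLib.H6QdF.complEquiv F⟩, ?_, ?_⟩
  · intro M
    obtain ⟨A, v, rfl⟩ := CfsgLib.H6QdF.qi_surj M
    change _ ↔ A 0 0 = 1 ∧ A 0 1 = 0 ∧ A 1 0 = 0 ∧ A 1 1 = 1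
    constructor
    · rintro ⟨w, hw⟩
      obtain ⟨rfl, -⟩ := CfsgLib.H6QdF.qi_inj hw
      exact ⟨rfl, rfl, rfl, rfl⟩
    · rintro ⟨h1, h2, h3, h4⟩
      have : A = 1 := CfsgLib.Dick.ext2 h1 h2 h3 h4
      exact ⟨v, by rw [this]⟩
  · intro M
    obtain ⟨A, v, rfl⟩ := CfsgLib.H6QdF.qi_surj M
    change _ ↔ v 0 = 0 ∧ v 1 = 0
    constructor
    · rintro ⟨w, hw⟩
      obtain ⟨-, rfl⟩ := CfsgLib.H6QdF.qi_inj hw
      exact ⟨rfl, rfl⟩
    · rintro ⟨h1, h2⟩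
      have : v = 0 := by funext i; fin_cases i; exacts [h1, h2]
      exact ⟨A, by rw [this]⟩
  · rw [eq_bot_iff]
    rintro _ ⟨⟨A, rfl⟩, ⟨v, hv⟩⟩
    obtain ⟨rfl, -⟩ := CfsgLib.H6QdF.qi_inj hv
    rw [Subgroup.mem_bot, CfsgLib.H6QdF.qi_one]
  · rw [eq_top_iff]
    intro M _
    obtain ⟨A, v, rfl⟩ := CfsgLib.H6QdF.qi_surj M
    have h1 : CfsgLib.H6QdF.qi A v = CfsgLib.H6QdF.qi 1 v * CfsgLib.H6QdF.qi A 0 := by
      rw [CfsgLib.H6QdF.qi_mul, one_mul, Matrix.mulVec_zero, add_zero]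
    rw [h1]
    exact mul_mem (Subgroup.mem_sup_right ⟨v, rfl⟩) (Subgroup.mem_sup_left ⟨A, rfl⟩)
  · intro x hx
    haveI := CfsgLib.H6QdF.tr2_normal (F := F)
    rw [Subgroup.normalizer_eq_top]
    exact Subgroup.mem_top x
  · refine ⟨(CfsgLib.H6QdF.complEquiv F).toMonoidHom, CfsgLib.H6QdF.trEquiv F, (CfsgLib.H6QdF.complEquiv F).surjective, ?_, ?_⟩
    · ext x
      rw [MonoidHom.mem_ker, Subgroup.mem_subgroupOf]
      have h0 : (CfsgLib.H6QdF.complEquiv F).toMonoidHom x = 1 ↔ x = 1 := by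
        rw [MulEquiv.coe_toMonoidHom, MulEquiv.map_eq_one_iff]
      rw [h0]
      constructor
      · rintro rfl; exact one_mem _
      · intro hx
        have h1 := CfsgLib.H6QdF.centralizer_tr2 (x := (x : ↥(Cfsg.qdOver F))) (fun y hy => (Subgroup.mem_centralizer_iff.1 hx y hy).symm)
        obtain ⟨A, hA⟩ := x.2
        rw [hA] at h1
        obtain ⟨v, hv⟩ := h1
        obtain ⟨rfl, -⟩ := CfsgLib.H6QdF.qi_inj hv
        apply Subtype.ext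
        rw [hA, CfsgLib.H6QdF.qi_one]; rfl
    · rintro ⟨l, hl⟩ ⟨v, hv⟩
      obtain ⟨A, rfl⟩ := id hl
      obtain ⟨w, rfl⟩ := id hv
      have h2 := CfsgLib.H6QdF.qi_conj A 0 w
      refine ⟨⟨CfsgLib.H6QdF.qi 1 ((A : Matrix (Fin 2) (Fin 2) F).mulVec w), ⟨_, rfl⟩⟩, h2.symm, ?_⟩
      have e1 : (CfsgLib.H6QdF.complEquiv F).toMonoidHom ⟨CfsgLib.H6QdF.qi A 0, hl⟩ = A := CfsgLib.H6QdF.complEquiv_apply A hl
      rw [e1, CfsgLib.H6QdF.trEquiv_apply w hv]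
      exact CfsgLib.H6QdF.trEquiv_apply _ _

end Cfsg.Agent.S2762
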