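import Cfsg.Statements.S2763
import Cfsg.Agent.Lib.H6Qd

set_option autoImplicit false
open Cfsg

set_option linter.style.haveILetI false
namespace Cfsg.Agent.S2763

/-- In the group Qd(p) (p prime; the natural semidirect product of an elementary abelian group of order p² by SL₂(p)), the normalizer of every nontrivial characteristic subgroup of a Sylow p-subgroup S equals the normalizer of S, which is a proper subgroup; in particular no such characteristic subgroup is normal. -/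
theorem result {p : ℕ} [Fact p.Prime] (S : Sylow p ↥(Cfsg.qd p)) (T : Subgroup ↥(S : Subgroup ↥(Cfsg.qd p))) (hT : T ≠ ⊥) (hTc : T.Characteristic) : Subgroup.normalizer ((T.map (S : Subgroup ↥(Cfsg.qd p)).subtype : Subgroup ↥(Cfsg.qd p)) : Set ↥(Cfsg.qd p)) = Subgroup.normalizer ((S : Subgroup ↥(Cfsg.qd p)) : Set ↥(Cfsg.qd p)) ∧ Subgroup.normalizer ((S : Subgroup ↥(Cfsg.qd p)) : Set ↥(Cfsg.qd p)) ≠ ⊤ := by
  haveI : Finite ↥(Cfsg.qd p) := CfsgLib.H6Qd.instFiniteSubtypeSpecialLinearGroupFinOfNatNatZModMemSubgroupQd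
  obtain ⟨g, hg⟩ := CfsgLib.H7Basic.exists_cj_sylow_eq (CfsgLib.H6Qd.TS (MulEquiv.refl ↥(Cfsg.qd p))) S
  have hS : (S : Subgroup ↥(Cfsg.qd p)) = CfsgLib.H6Qd.TY (MulAut.conj g) := by
    rw [← hg, CfsgLib.H6Qd.TS_coe]
    unfold CfsgLib.H6Qd.TY
    rw [Subgroup.map_map]
    congr 1
  have key : ∀ S' : Subgroup ↥(Cfsg.qd p), S' = CfsgLib.H6Qd.TY (MulAut.conj g) → ∀ T : Subgroup S', T ≠ ⊥ → T.Characteristic →
      Subgroup.normalizer ((T.map S'.subtype : Subgroup ↥(Cfsg.qd p)) : Set ↥(Cfsg.qd p)) = Subgroup.normalizer (S' : Set ↥(Cfsg.qd p)) ∧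
      Subgroup.normalizer (S' : Set ↥(Cfsg.qd p)) ≠ ⊤ := by
    rintro _ rfl T hT hTc
    refine ⟨le_antisymm ?_ ?_, ?_⟩
    · exact CfsgLib.H6Qd.char_normalizer (MulAut.conj g) T hT (Subgroup.characteristic_iff_map_eq.1 hTc _)
    · intro x hx
      rw [← CfsgLib.Core.map_conj_eq_iff] at hx ⊢
      let α : CfsgLib.H6Qd.TY (MulAut.conj g) ≃* CfsgLib.H6Qd.TY (MulAut.conj g) :=
        (MulEquiv.subgroupMap (MulAut.conj x) _).trans (MulEquiv.subgroupCongr hx)
      have h2 : T.map α.toMonoidHom = T := Subgroup.characteristic_iff_map_eq.1 hTc α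
      conv_rhs => rw [← h2]
      rw [Subgroup.map_map, Subgroup.map_map]
      congr 1
    · exact CfsgLib.H6Qd.normalizer_TY_ne_top _
  exact key S hS T hT hTc

end Cfsg.Agent.S2763
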