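import Cfsg.Statements.S3116
import Mathlib
import Cfsg.Agent.Lib.H7Npc

set_option autoImplicit false
open Cfsg

namespace Cfsg.Agent.S3116

/-- The automorphism group of a dihedral 2-group of order at least 8, or of a quasi-dihedral (semidihedral) 2-group of order at least 16, is a 2-group. -/
theorem result {X : Type*} [Group X] [Finite X] (h2 : IsPGroup 2 X)
    (h : (∃ n : ℕ, 4 ≤ n ∧ Nonempty (X ≃* DihedralGroup n)) ∨ Cfsg.IsQuasiDihedral X) : IsPGroup 2 (MulAut X) := by
  refine CfsgLib.H7Npc.isPGroup_mulAut ?_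
  intro φ m hm hodd
  rcases h with ⟨n, hn, ⟨e⟩⟩ | ⟨n, hn, hc, x, y, hx, hy, hxy⟩
  · have h1 : Nat.card X = 2 * n := by rw [Nat.card_congr e.toEquiv, DihedralGroup.nat_card]
    obtain ⟨k, hk⟩ := IsPGroup.iff_card.1 h2
    rw [hk] at h1
    have hk1 : 1 ≤ k := by
      rcases k with _ | k
      · rw [pow_zero] at h1; omega
      · omega
    refine CfsgLib.H7Npc.dihedral_fix (by omega) e (k := k - 1) ?_ hm hodd
    have : 2 ^ k = 2 * 2 ^ (k - 1) := by rw [← pow_succ']; congr 1; omega
    omega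
  · exact CfsgLib.H7Npc.quasi_fix hn hc hx hy hxy hm hodd

end Cfsg.Agent.S3116
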