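import Cfsg.Statements.S3374

set_option autoImplicit false
open Cfsg

namespace Cfsg.Agent.S3374

open scoped Pointwise
open Matrix

abbrev S5 := SpecialLinearGroup (Fin 2) (ZMod 5)
def tbl : List (ℕ × (ℕ × ℕ × ℕ × ℕ)) := [(45,(8,7,8,3)), (46,(9,3,5,3)), (47,(8,2,7,6)), (48,(4,3,5,4)), (49,(4,7,8,6)), (60,(0,7,3,0)), (61,(10,4,2,2)), (62,(4,10,0,3)), (63,(7,0,9,8)), (64,(1,1,8,9)), (90,(0,4,8,0)), (91,(10,10,3,2)), (92,(4,0,2,3)), (93,(7,1,0,8)), (94,(1,7,9,9)), (105,(3,4,3,8)), (106,(7,4,3,5)), (107,(7,8,6,7)), (108,(3,9,4,5)), (109,(2,8,6,8)), (126,(1,0,0,1)), (131,(3,5,2,0)), (136,(8,4,6,10)), (141,(10,7,5,8)), (146,(0,6,9,3)), (151,(0,1,10,3)), (157,(6,7,0,2)), (163,(7,9,1,3)), (169,(4,9,3,7)), (170,(5,7,8,7)), (176,(10,3,8,8)), (183,(4,5,9,6)), (185,(2,1,8,10)), (192,(2,9,4,2)), (199,(4,4,4,7)), (201,(8,8,3,10)), (209,(6,8,5,5)), (212,(10,5,1,5)), (215,(2,7,9,10)), (223,(7,5,4,3)), (226,(3,10,1,0)), (230,(3,8,6,9)), (239,(6,3,6,5)),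 (243,(4,1,1,6)), (247,(6,0,8,2)), (253,(10,1,9,1)), (258,(9,6,1,2)), (263,(9,8,9,2)), (268,(10,6,7,1)), (273,(6,1,7,5)), (278,(6,2,9,5)), (281,(2,0,3,6)), (289,(8,9,1,4)), (292,(10,8,4,0)), (295,(7,3,5,7)), (303,(10,2,10,1)), (309,(5,5,9,7)), (310,(3,0,9,4)), (316,(5,6,10,10)), (322,(10,9,6,0)), (328,(9,1,6,2)), (332,(0,2,5,10)), (336,(2,2,7,2)), (340,(3,1,0,4)), (349,(8,5,4,4)), (353,(9,5,10,2)), (355,(6,9,4,8)), (362,(0,3,7,10)), (369,(5,1,1,7)), (371,(2,4,0,6)), (377,(1,10,2,10)), (382,(5,10,4,6)), (387,(1,5,4,10)), (392,(2,3,2,9)), (397,(2,5,10,9)), (402,(2,6,1,9)), (409,(9,7,0,5)), (411,(6,10,10,4)), (418,(0,8,4,1)), (420,(5,2,7,3)), (427,(2,10,5,9)), (431,(3,6,7,7)), (435,(8,10,0,7)), (444,(9,9,4,9)), (448,(0,9,6,1)), (452,(1,9,1,10)), (458,(1,2,5,0)), (464,(6,5,1,1)), (465,(8,0,2,7)), (471,(6,6,2,4)), (477,(5,9,2,6)), (480,(4,8,6,4)), (488,(1,3,7,0)), (491,(3,2,10,7)), (499,(9,0,8,5)), (504,(10,0,0,10)), (509,(0,5,2,8)),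 (514,(1,4,6,3)), (519,(3,7,5,1)), (524,(8,6,9,0)), (529,(8,1,10,0)), (533,(5,0,3,9)), (537,(7,10,10,5)), (541,(5,8,5,6)), (545,(8,3,5,2)), (554,(3,3,8,1)), (557,(4,6,7,8)), (560,(9,4,2,1)), (568,(1,6,10,6)), (571,(5,3,6,6)), (579,(1,8,3,3)), (581,(7,7,7,4)), (588,(9,2,7,9)), (590,(9,10,3,1)), (597,(7,6,2,5)), (604,(0,10,1,8)), (605,(6,4,3,4)), (611,(7,2,8,4)), (617,(4,2,10,8)), (623,(5,4,0,9))]

def code (x : S5) : ℕ := (x.1 0 0).val * 125 + (x.1 0 1).val * 25 + (x.1 1 0).val * 5 + (x.1 1 1).val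

def f (x : S5) : Matrix (Fin 2) (Fin 2) (ZMod 11) :=
  match tbl.lookup (code x) with
  | some (a, b, c, d) => !![(a : ZMod 11), (b : ZMod 11); (c : ZMod 11), (d : ZMod 11)]
  | none => 1

def u : S5 := ⟨!![1, 1; 0, 1], by decide⟩
def l : S5 := ⟨!![1, 0; 1, 1], by decide⟩

set_option maxRecDepth 100000 in
theorem f_u : ∀ x : S5, f (x * u) = f x * f u := by decide +kernel
set_option maxRecDepth 100000 in
theorem f_l : ∀ x : S5, f (x * l) = f x * f l := by decide +kernel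
theorem f_one : f 1 = 1 := by decide +kernel
set_option maxRecDepth 100000 in
theorem gen : ∀ x : S5, ∃ a b c d : Fin 5, x = u ^ (a : ℕ) * l ^ (b : ℕ) * u ^ (c : ℕ) * l ^ (d : ℕ) := by decide +kernel
set_option maxRecDepth 100000 in
theorem f_det : ∀ x : S5, x ≠ 1 → (f x - 1).det ≠ 0 := by decide +kernel

theorem f_mul_pow (y : S5) (hy : ∀ x, f (x * y) = f x * f y) (n : ℕ) : ∀ x, f (x * y ^ n) = f x * f (y ^ n) := by
  induction n with
  | zero => intro x; rw [pow_zero, mul_one, f_one, mul_one]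
  | succ n ih => intro x; rw [pow_succ, ← mul_assoc, hy, ih, hy, mul_assoc]

theorem f_mul (x y : S5) : f (x * y) = f x * f y := by
  have h1 : ∀ y z : S5, (∀ x, f (x * y) = f x * f y) → (∀ x, f (x * z) = f x * f z) → ∀ x, f (x * (y * z)) = f x * f (y * z) := by
    intro y z hy hz x
    rw [← mul_assoc, hz, hy, hz, mul_assoc]
  obtain ⟨a, b, c, d, rfl⟩ := gen y
  exact h1 _ _ (h1 _ _ (h1 _ _ (f_mul_pow u f_u a) (f_mul_pow l f_l b)) (f_mul_pow u f_u c)) (f_mul_pow l f_l d) x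

def act : S5 →* MulAut (Multiplicative (Fin 2 → ZMod 11)) where
  toFun g := AddEquiv.toMultiplicative
    { toFun := fun v => f g *ᵥ v
      invFun := fun v => f g⁻¹ *ᵥ v
      left_inv := fun v => by
        simp only [mulVec_mulVec]
        rw [← f_mul, inv_mul_cancel, f_one, one_mulVec]
      right_inv := fun v => by
        simp only [mulVec_mulVec]
        rw [← f_mul, mul_inv_cancel, f_one, one_mulVec]
      map_add' := fun v w => by rw [mulVec_add] }
  map_one' := MulEquiv.ext fun v => by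
    change Multiplicative.ofAdd (f 1 *ᵥ (Multiplicative.toAdd v)) = v
    rw [f_one, one_mulVec]; rfl
  map_mul' g h := MulEquiv.ext fun v => by
    change Multiplicative.ofAdd (f (g * h) *ᵥ (Multiplicative.toAdd v)) =
      Multiplicative.ofAdd (f g *ᵥ (f h *ᵥ (Multiplicative.toAdd v)))
    rw [f_mul, mulVec_mulVec]

theorem fpf (g : S5) (hg : g ≠ 1) (v : Multiplicative (Fin 2 → ZMod 11)) (h : act g v = v) : v = 1 := by
  have h1 : f g *ᵥ (Multiplicative.toAdd v) = Multiplicative.toAdd v := h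
  have h2 : (f g - 1) *ᵥ (Multiplicative.toAdd v) = 0 := by
    rw [sub_mulVec, h1, one_mulVec, sub_self]
  haveI : Fact (Nat.Prime 11) := ⟨by norm_num⟩
  exact Matrix.eq_zero_of_mulVec_eq_zero (f_det g hg) h2

abbrev L := Multiplicative (Fin 2 → ZMod 11) ⋊[act] S5

instance : Finite (Multiplicative (Fin 2 → ZMod 11)) := inferInstanceAs (Finite (Fin 2 → ZMod 11))
instance : Finite L := Finite.of_equiv _ (SemidirectProduct.equivProd (φ := act)).symm

theorem one_ne11 : (1 : ZMod 11) ≠ 0 := by decide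
theorem u_ne : u ≠ 1 := by decide

/-- SL(2,5) occurs as a Frobenius complement: there is a finite group L with a subgroup H isomorphic to SL(2,5) which is a non-trivial proper subgroup meeting each conjugate gHg⁻¹ with g outside H trivially. -/
theorem result :
    ∃ (L : Type) (_ : Group L) (_ : Finite L) (H : Subgroup L),
      Cfsg.IsFrobeniusComplement H ∧ Nonempty (H ≃* Matrix.SpecialLinearGroup (Fin 2) (ZMod 5)) := by
  refine ⟨L, inferInstance, inferInstance, (SemidirectProduct.inr : S5 →* L).range, ⟨?_, ?_, ?_⟩, ⟨((MonoidHom.ofInjective (f := (SemidirectProduct.inr : S5 →* L)) SemidirectProduct.inr_injective)).symm⟩⟩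
  · intro h
    have : (SemidirectProduct.inr u : L) ∈ (SemidirectProduct.inr : S5 →* L).range := ⟨u, rfl⟩
    rw [h, Subgroup.mem_bot] at this
    exact u_ne (SemidirectProduct.inr_injective (this.trans (map_one _).symm))
  · intro h
    have : (SemidirectProduct.inl (Multiplicative.ofAdd (fun _ => (1 : ZMod 11))) : L) ∈ (SemidirectProduct.inr : S5 →* L).range := by
      rw [h]; exact Subgroup.mem_top _
    obtain ⟨x, hx⟩ := this
    have h1 := congrArg SemidirectProduct.left hx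
    rw [SemidirectProduct.left_inr, SemidirectProduct.left_inl] at h1
    have h2 := congrFun (congrArg Multiplicative.toAdd h1) 0
    exact one_ne11 h2.symm
  · intro g hg
    rw [eq_bot_iff]
    rintro x ⟨hx, hx'⟩
    obtain ⟨a, rfl⟩ := hx
    obtain ⟨_, ⟨b, rfl⟩, hb⟩ := hx'
    change g * SemidirectProduct.inr b * g⁻¹ = SemidirectProduct.inr a at hb
    rw [mul_inv_eq_iff_eq_mul] at hb
    rw [Subgroup.mem_bot]
    by_contra hne
    have hane : a ≠ 1 := by rintro rfl; exact hne (map_one _)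
    apply hg
    have h1 := congrArg SemidirectProduct.left hb
    rw [SemidirectProduct.mul_left, SemidirectProduct.mul_left, SemidirectProduct.left_inr, SemidirectProduct.left_inr,
      SemidirectProduct.right_inr, map_one, mul_one, one_mul] at h1
    have h2 : g.left = 1 := fpf a hane _ h1.symm
    refine ⟨g.right, ?_⟩
    ext
    · rw [SemidirectProduct.left_inr, h2]
    · rw [SemidirectProduct.right_inr]

end Cfsg.Agent.S3374
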