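import Cfsg.Statements.S3375

set_option autoImplicit false
open Cfsg

namespace Cfsg.Agent.S3375

theorem inv_part {H : Type*} [Group H] [Finite H] (γ : MulAut H) (hγ : ∀ x, γ (γ x) = x)
    (M : Subgroup H) (hidx : M.index = 2) (hinv : ∀ a, a ∈ M ↔ γ a ∈ M)
    (hfix : Nat.card {h : H // γ h = h} = 2) : ∀ a ∈ M, γ a = a⁻¹ := by
  classical
  have := Fintype.ofFinite H
  -- the map `h ↦ h⁻¹ γ h` has fibres of size two
  let f : H → H := fun h => h⁻¹ * γ h
  have hfM : ∀ h, f h ∈ M := by
    intro h
    rw [Subgroup.mul_mem_iff_of_index_two hidx, Subgroup.inv_mem_iff]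
    exact hinv h
  have hfi : ∀ h, γ (f h) = (f h)⁻¹ := by
    intro h
    change γ (h⁻¹ * γ h) = (h⁻¹ * γ h)⁻¹
    rw [map_mul, hγ, map_inv, mul_inv_rev, inv_inv]
  have hfib : ∀ y ∈ (Finset.univ.image f : Finset H), (Finset.univ.filter fun h => f h = y).card = 2 := by
    intro y hy
    obtain ⟨h0, -, rfl⟩ := Finset.mem_image.mp hy
    have e : {h : H // f h = f h0} ≃ {h : H // γ h = h} :=
      { toFun := fun h => ⟨h * h0⁻¹, by
          have h1 : (h : H)⁻¹ * γ h = h0⁻¹ * γ h0 := h.2
          rw [map_mul, map_inv]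
          have h2 : γ (h : H) = h * h0⁻¹ * γ h0 := by
            rw [mul_assoc, ← h1]; group
          rw [h2]; group⟩
        invFun := fun c => ⟨c * h0, by
          change (c * h0)⁻¹ * γ (c * h0) = h0⁻¹ * γ h0
          rw [map_mul, c.2]; group⟩
        left_inv := fun h => Subtype.ext (by simp)
        right_inv := fun c => Subtype.ext (by simp) }
    have h1 : Nat.card {h : H // f h = f h0} = 2 := by rw [Nat.card_congr e, hfix]
    rw [Nat.card_eq_fintype_card, Fintype.card_subtype] at h1
    exact h1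
  have h1 : Fintype.card H = (Finset.univ.image f).card * 2 := by
    rw [← Finset.card_univ, Finset.card_eq_sum_card_image f, Finset.sum_congr rfl hfib, Finset.sum_const, smul_eq_mul]
  have h2 : Finset.univ.image f ⊆ Finset.univ.filter (fun x => x ∈ M) := by
    intro y hy
    obtain ⟨h0, -, rfl⟩ := Finset.mem_image.mp hy
    simp [hfM h0]
  have h3 : (Finset.univ.filter (fun x => x ∈ M)).card * 2 = Fintype.card H := by
    have h4 := M.card_mul_index
    rw [hidx, Nat.card_eq_fintype_card (α := H)] at h4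
    rw [← h4]
    congr 1
    have h5 : Nat.card M = Nat.card {x : H // x ∈ M} := rfl
    rw [h5, Nat.card_eq_fintype_card, Fintype.card_subtype]
  have h4 : Finset.univ.image f = Finset.univ.filter (fun x => x ∈ M) :=
    Finset.eq_of_subset_of_card_le h2 (by omega)
  intro a ha
  have h5 : a ∈ Finset.univ.image f := by rw [h4]; simp [ha]
  obtain ⟨h0, -, rfl⟩ := Finset.mem_image.mp h5
  exact hfi h0

/-- Let γ be an automorphism of order 2 of a finite group H. (i) If γ fixes only the identity, then H is abelian and γ inverts every element. (ii) If γ has exactly two fixed points and H has a subgroup of index 2, then H has a γ-invariant abelian subgroup of index 2 on which γ acts by inversion. -/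
theorem result {H : Type*} [Group H] [Finite H] (γ : MulAut H) (hγ : orderOf γ = 2) :
    ((∀ h : H, γ h = h → h = 1) → (∀ a b : H, a * b = b * a) ∧ ∀ h : H, γ h = h⁻¹) ∧
    ((Nat.card {h : H // γ h = h} = 2 ∧ ∃ M : Subgroup H, M.index = 2) →
      ∃ A : Subgroup H, A.index = 2 ∧ IsMulCommutative A ∧ (∀ a ∈ A, γ a ∈ A) ∧ ∀ a ∈ A, γ a = a⁻¹) := by
  classical
  have hsq : γ ^ 2 = 1 := by rw [← hγ]; exact pow_orderOf_eq_one γ
  have hγγ : ∀ x, γ (γ x) = x := by
    intro x
    have h1 : (γ ^ 2) x = x := by rw [hsq]; rfl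
    rwa [sq, MulAut.mul_apply] at h1
  constructor
  · intro hfpf
    have h1 : MonoidHom.FixedPointFree (γ : H → H) := hfpf
    have h2 := h1.coe_eq_inv_of_involutive (hγγ)
    refine ⟨fun a b => h1.commute_all_of_involutive hγγ a b, fun h => congrFun h2 h⟩
  · rintro ⟨hfix, M, hM⟩
    have key : ∀ A : Subgroup H, A.index = 2 → (∀ a, a ∈ A ↔ γ a ∈ A) →
        ∃ A : Subgroup H, A.index = 2 ∧ IsMulCommutative A ∧ (∀ a ∈ A, γ a ∈ A) ∧ ∀ a ∈ A, γ a = a⁻¹ := by
      intro A hA hinv
      have h1 := inv_part γ hγγ A hA hinv hfix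
      refine ⟨A, hA, ⟨⟨?_⟩⟩, fun a ha => (hinv a).mp ha, h1⟩
      rintro ⟨a, ha⟩ ⟨b, hb⟩
      apply Subtype.ext
      change a * b = b * a
      have h2 := h1 _ (A.mul_mem ha hb)
      rw [map_mul, h1 a ha, h1 b hb, mul_inv_rev] at h2
      have h3 := congrArg (fun x => x⁻¹) h2
      simp only [mul_inv_rev, inv_inv] at h3
      exact h3.symm
    by_cases hinv : ∀ a, a ∈ M ↔ γ a ∈ M
    · exact key M hM hinv
    · push Not at hinv
      obtain ⟨a0, ha0⟩ := hinv
      have hmul : ∀ {x y : H}, x * y ∈ M ↔ (x ∈ M ↔ y ∈ M) := Subgroup.mul_mem_iff_of_index_two hM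
      let A : Subgroup H :=
        { carrier := {x | x ∈ M ↔ γ x ∈ M}
          one_mem' := by simp [M.one_mem]
          mul_mem' := by
            intro x y hx hy
            simp only [Set.mem_setOf_eq, map_mul, hmul] at *
            tauto
          inv_mem' := by
            intro x hx
            simp only [Set.mem_setOf_eq, map_inv, inv_mem_iff] at *
            exact hx }
      have hmA : ∀ {x : H}, x ∈ A ↔ (x ∈ M ↔ γ x ∈ M) := fun {x} => Iff.rfl
      apply key A
      · rw [Subgroup.index_eq_two_iff]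
        refine ⟨a0, fun b => ?_⟩
        rw [hmA, hmA, map_mul, hmul, hmul]
        rw [xor_iff_iff_not]
        tauto
      · intro a
        rw [hmA, hmA, hγγ]
        tauto

end Cfsg.Agent.S3375
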