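import Cfsg.Statements.S3379

set_option autoImplicit false
open Cfsg

namespace Cfsg.Agent.S3379

theorem comm_of_gens {Q : Type*} [Group Q] {a b : Q} (hab : a * b = b * a) (hcl : Subgroup.closure {a, b} = ⊤) :
    IsMulCommutative Q := by
  have h1 : ∀ g : Q, g * a = a * g ∧ g * b = b * g := by
    intro g
    have hg : g ∈ Subgroup.closure {a, b} := hcl ▸ Subgroup.mem_top g
    induction hg using Subgroup.closure_induction with
    | mem x hx =>
      rcases hx with rfl | hx
      · exact ⟨rfl, hab⟩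
      · rw [Set.mem_singleton_iff] at hx; subst hx; exact ⟨hab.symm, rfl⟩
    | one => simp
    | mul x y _ _ hx hy =>
      exact ⟨by rw [mul_assoc, hy.1, ← mul_assoc, hx.1, mul_assoc], by rw [mul_assoc, hy.2, ← mul_assoc, hx.2, mul_assoc]⟩
    | inv x _ hx =>
      exact ⟨by rw [inv_mul_eq_iff_eq_mul, ← mul_assoc, hx.1, mul_inv_cancel_right], by rw [inv_mul_eq_iff_eq_mul, ← mul_assoc, hx.2, mul_inv_cancel_right]⟩
  refine ⟨⟨fun g h => ?_⟩⟩
  have hg : h ∈ Subgroup.closure {a, b} := hcl ▸ Subgroup.mem_top h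
  induction hg using Subgroup.closure_induction with
  | mem x hx =>
    rcases hx with rfl | hx
    · exact (h1 g).1
    · rw [Set.mem_singleton_iff] at hx; subst hx; exact (h1 g).2
  | one => simp
  | mul x y _ _ hx hy => rw [← mul_assoc, hx, mul_assoc, hy, mul_assoc]
  | inv x _ hx => rw [eq_inv_mul_iff_mul_eq, ← mul_assoc, ← hx, mul_inv_cancel_right]

/-- Let G be a finite group all of whose Sylow subgroups are cyclic. Then G is generated by two elements x and y of coprime orders n and m with x⁻¹yx = y^r, where gcd(r − 1, m) = 1 and r^n ≡ 1 (mod m). -/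
theorem result {G : Type*} [Group G] [Finite G]
    (hZ : ∀ (p : ℕ) [Fact p.Prime] (P : Sylow p G), IsCyclic (P : Subgroup G)) :
    ∃ (x y : G) (n m r : ℕ), Subgroup.closure {x, y} = ⊤ ∧ orderOf x = n ∧ orderOf y = m ∧
      x⁻¹ * y * x = y ^ r ∧ Nat.Coprime (r - 1) m ∧ Nat.Coprime n m ∧ 1 ≤ r ∧ r ^ n % m = 1 % m := by
  classical
  haveI : IsZGroup G := (isZGroup_iff G).mpr fun p hp P => by
    haveI : Fact p.Prime := ⟨hp⟩
    exact hZ p P
  obtain ⟨C, hC⟩ : ∃ C, C = commutator G := ⟨_, rfl⟩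
  have hcyc : IsCyclic C := hC ▸ IsZGroup.isCyclic_commutator G
  have hcop : (Nat.card C).Coprime C.index := hC ▸ IsZGroup.coprime_commutator_index G
  haveI hCn : C.Normal := hC ▸ inferInstance
  obtain ⟨H, hH⟩ := Subgroup.exists_right_complement'_of_coprime hcop
  have e : G ⧸ C ≃* H := hH.symm.QuotientMulEquiv
  have hHcyc : IsCyclic H := by
    have h1 : IsCyclic (Abelianization G) := inferInstance
    subst hC
    exact @isCyclic_of_surjective _ _ _ _ _ h1 _ _ e.toMonoidHom e.surjective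
  obtain ⟨⟨y, hyC⟩, hy⟩ := hcyc.exists_generator
  obtain ⟨⟨x, hxH⟩, hx⟩ := hHcyc.exists_generator
  have hyg : ∀ c ∈ C, ∃ k : ℤ, y ^ k = c := by
    intro c hc
    obtain ⟨k, hk⟩ := hy ⟨c, hc⟩
    exact ⟨k, congrArg Subtype.val hk⟩
  have hxg : ∀ c ∈ H, ∃ k : ℤ, x ^ k = c := by
    intro c hc
    obtain ⟨k, hk⟩ := hx ⟨c, hc⟩
    exact ⟨k, congrArg Subtype.val hk⟩
  have hym : orderOf y = Nat.card C := by
    have := orderOf_eq_card_of_forall_mem_zpowers hy
    rwa [← Subgroup.orderOf_coe] at this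
  have hxn : orderOf x = Nat.card H := by
    have := orderOf_eq_card_of_forall_mem_zpowers hx
    rwa [← Subgroup.orderOf_coe] at this
  have hcl : Subgroup.closure {x, y} = ⊤ := by
    rw [eq_top_iff, ← hH.sup_eq_top]
    apply sup_le
    · intro c hc
      obtain ⟨k, rfl⟩ := hyg c hc
      have hy' : y ∈ Subgroup.closure {x, y} := Subgroup.subset_closure (by simp)
      exact Subgroup.zpow_mem _ hy' k
    · intro c hc
      obtain ⟨k, rfl⟩ := hxg c hc
      have hx' : x ∈ Subgroup.closure {x, y} := Subgroup.subset_closure (by simp)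
      exact Subgroup.zpow_mem _ hx' k
  -- the exponent r
  obtain ⟨r, hr1, hr⟩ : ∃ r : ℕ, 1 ≤ r ∧ x⁻¹ * y * x = y ^ r := by
    have h1 : x⁻¹ * y * x ∈ C := by
      have := hCn.conj_mem y hyC x⁻¹
      rwa [inv_inv] at this
    have h2 : (⟨x⁻¹ * y * x, h1⟩ : C) ∈ Submonoid.powers (⟨y, hyC⟩ : C) := mem_powers_iff_mem_zpowers.mpr (hy ⟨_, h1⟩)
    obtain ⟨r, hr'⟩ := h2
    have hr : y ^ r = x⁻¹ * y * x := congrArg Subtype.val hr'
    refine ⟨r + orderOf y, ?_, ?_⟩
    · have := orderOf_pos y; omega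
    · rw [pow_add, pow_orderOf_eq_one, mul_one]; exact hr.symm
  refine ⟨x, y, orderOf x, orderOf y, r, hcl, rfl, rfl, hr, ?_, ?_, hr1, ?_⟩
  · -- coprimality
    let D : Subgroup G := Subgroup.zpowers (y ^ (r - 1))
    have hDC : D ≤ C := by
      rw [Subgroup.zpowers_le]; exact C.pow_mem hyC _
    have hDn : D.Normal := by
      -- normalised by x and y
      have key : ∀ g : G, ∀ d ∈ D, g * d * g⁻¹ ∈ D := by
        intro g d hd
        have hyg' : g * y * g⁻¹ ∈ C := hCn.conj_mem y hyC g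
        obtain ⟨k, hk⟩ := hyg _ hyg'
        obtain ⟨j, rfl⟩ := hd
        refine ⟨k * j, ?_⟩
        change (y ^ (r - 1)) ^ (k * j) = g * (y ^ (r - 1)) ^ j * g⁻¹
        rw [← conj_zpow, ← conj_pow, ← hk, ← zpow_natCast, ← zpow_natCast, ← zpow_mul, ← zpow_mul, ← zpow_mul]
        congr 1; ring
      exact ⟨fun d hd g => key g d hd⟩
    have hab : IsMulCommutative (G ⧸ D) := by
      apply comm_of_gens (a := QuotientGroup.mk' D x) (b := QuotientGroup.mk' D y)
      · rw [← map_mul, ← map_mul]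
        apply Eq.symm
        rw [QuotientGroup.mk'_eq_mk']
        refine ⟨(y * x)⁻¹ * (x * y), ?_, by group⟩
        have e1 : y * x = x * y ^ r := by rw [← hr]; group
        have e2 : y ^ r = y * y ^ (r - 1) := by rw [← pow_succ']; congr 1; omega
        have e3 : (y * x)⁻¹ * (x * y) = (y ^ (r - 1))⁻¹ := by
          rw [e1, e2]; group
        rw [e3]
        exact D.inv_mem (Subgroup.mem_zpowers _)
      · have h1 := congrArg (Subgroup.map (QuotientGroup.mk' D)) hcl
        rw [MonoidHom.map_closure, Set.image_pair, Subgroup.map_top_of_surjective _ (QuotientGroup.mk'_surjective D)] at h1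
        exact h1
    have hCD : C ≤ D := hC ▸ Subgroup.Normal.quotient_commutative_iff_commutator_le.mp hab
    have h2 : D = C := le_antisymm hDC hCD
    have h3 : orderOf (y ^ (r - 1)) = orderOf y := by
      rw [hym, ← h2, Nat.card_zpowers]
    by_cases hr0 : r - 1 = 0
    · rw [hr0, pow_zero, orderOf_one] at h3
      rw [← h3]; exact Nat.coprime_one_right _
    · rw [orderOf_pow' y hr0] at h3
      have h4 : (orderOf y).gcd (r - 1) = 1 := by
        have h5 := Nat.div_mul_cancel (Nat.gcd_dvd_left (orderOf y) (r - 1))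
        rw [h3] at h5
        exact (Nat.mul_eq_left (orderOf_pos y).ne').mp h5
      exact Nat.Coprime.symm h4
  · rw [hym, hxn]
    have : C.index = Nat.card H := hH.symm.index_eq_card
    rw [← this]; exact hcop.symm
  · have h1 : ∀ k : ℕ, (x ^ k)⁻¹ * y * x ^ k = y ^ r ^ k := by
      intro k
      induction k with
      | zero => simp
      | succ k ih =>
        rw [pow_succ r, pow_mul, ← ih]
        have : (x ^ (k + 1))⁻¹ * y * x ^ (k + 1) = (x ^ k)⁻¹ * (x⁻¹ * y * x) * x ^ k := by
          rw [pow_succ']; group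
        rw [this, hr]
        have h2 : ∀ j : ℕ, (x ^ k)⁻¹ * y ^ j * x ^ k = ((x ^ k)⁻¹ * y * x ^ k) ^ j := by
          intro j
          have := (conj_pow (i := j) (a := (x ^ k)⁻¹) (b := y)).symm
          rwa [inv_inv] at this
        exact h2 r
    have h2 := h1 (orderOf x)
    rw [pow_orderOf_eq_one] at h2
    have h3 : y ^ 1 = y ^ r ^ orderOf x := by rw [← h2]; group
    exact (pow_eq_pow_iff_modEq.mp h3).symm

end Cfsg.Agent.S3379
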