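import Cfsg.Statements.S3383
import Cfsg.Agent.Lib.FrobThm

set_option autoImplicit false
open Cfsg

namespace Cfsg.Agent.S3383

open scoped Pointwise

/-- Let H be a Frobenius complement in a finite group L and K the Frobenius kernel (as a subgroup). Then K is characteristic in L, and every normal subgroup of L either contains K or is contained in K. -/
theorem result {L : Type*} [Group L] [Finite L]
    (H : Subgroup L) (hH : Cfsg.IsFrobeniusComplement H)
    (K : Subgroup L) (hK : (K : Set L) = Cfsg.frobeniusKernel H) :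
    K.Characteristic ∧ ∀ N : Subgroup L, N.Normal → K ≤ N ∨ N ≤ K := by
  classical
  obtain ⟨K', hK', hKn, hc⟩ := CfsgLib.FrobThm.frobenius_theorem H hH
  have hKK : K' = K := SetLike.coe_injective (hK'.trans hK.symm)
  subst hKK
  have key : ∀ N : Subgroup L, N.Normal → K' ≤ N ∨ N ≤ K' := by
    intro N hN
    by_cases hle : N ≤ K'
    · exact Or.inr hle
    left
    obtain ⟨x, hxN, hxK⟩ := SetLike.not_le_iff_exists.mp hle
    have hx1 : x ≠ 1 := by rintro rfl; exact hxK K'.one_mem
    have hx2 : ∃ g : L, x ∈ MulAut.conj g • H := by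
      by_contra hcon
      push Not at hcon
      apply hxK
      have : x ∈ (K' : Set L) := by
        rw [hK]; exact Or.inr hcon
      exact this
    obtain ⟨g, hg⟩ := hx2
    rw [CfsgLib.FrobThm.mem_conj_iff] at hg
    obtain ⟨h, hh⟩ : ∃ h, h = g⁻¹ * x * g := ⟨_, rfl⟩
    rw [← hh] at hg
    have hhN : h ∈ N := by
      rw [hh]
      have := hN.conj_mem x hxN g⁻¹
      rwa [inv_inv] at this
    have hh1 : h ≠ 1 := by
      intro h1
      rw [h1] at hh
      apply hx1
      have : x = g * (g⁻¹ * x * g) * g⁻¹ := by group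
      rw [this, ← hh]; group
    have hcent : ∀ k ∈ K', h * k = k * h → k = 1 := by
      intro k hk hkh
      have h3 : k⁻¹ * h * k = h := by
        rw [mul_assoc, hkh, inv_mul_cancel_left]
      have h4 : k ∈ H := CfsgLib.FrobThm.mem_of_conj hH hg hh1 (by rw [h3]; exact hg)
      have h5 : k ∈ K' ⊓ H := ⟨hk, h4⟩
      rwa [hc.disjoint.eq_bot, Subgroup.mem_bot] at h5
    let f : K' → K' := fun k => ⟨h⁻¹ * (k : L)⁻¹ * h * k, by
      have : h⁻¹ * (k : L)⁻¹ * h ∈ K' := by
        have := hKn.conj_mem (k : L)⁻¹ (K'.inv_mem k.2) h⁻¹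
        rwa [inv_inv] at this
      exact K'.mul_mem this k.2⟩
    have hfi : Function.Injective f := by
      intro a b hab
      have h1 : h⁻¹ * (a : L)⁻¹ * h * a = h⁻¹ * (b : L)⁻¹ * h * b := congrArg Subtype.val hab
      have h2 : (b : L) * (a : L)⁻¹ = 1 := by
        apply hcent _ (K'.mul_mem b.2 (K'.inv_mem a.2))
        have e1 : (a : L)⁻¹ * h * a = (b : L)⁻¹ * h * b := by
          have := congrArg (fun t => h * t) h1
          simp only [← mul_assoc, mul_inv_cancel, one_mul] at this
          exact this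
        calc h * ((b : L) * (a : L)⁻¹) = b * ((b : L)⁻¹ * h * b) * (a : L)⁻¹ := by group
          _ = b * ((a : L)⁻¹ * h * a) * (a : L)⁻¹ := by rw [e1]
          _ = b * (a : L)⁻¹ * h := by group
      exact Subtype.ext (mul_inv_eq_one.mp h2).symm
    have hfs : Function.Surjective f := Finite.surjective_of_injective hfi
    intro y hy
    obtain ⟨k, hk⟩ := hfs ⟨y, hy⟩
    have hk' : h⁻¹ * (k : L)⁻¹ * h * k = y := congrArg Subtype.val hk
    rw [← hk']
    have e1 : h⁻¹ * (k : L)⁻¹ * h * k = h⁻¹ * ((k : L)⁻¹ * h * (k : L)⁻¹⁻¹) := by group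
    rw [e1]
    exact N.mul_mem (N.inv_mem hhN) (hN.conj_mem h hhN _)
  refine ⟨?_, key⟩
  rw [Subgroup.characteristic_iff_map_eq]
  intro φ
  have hn : (K'.map φ.toMonoidHom).Normal := hKn.map φ.toMonoidHom φ.surjective
  have hcard : Nat.card (K'.map φ.toMonoidHom) = Nat.card K' :=
    Subgroup.card_map_of_injective φ.injective
  rcases key _ hn with h | h
  · exact (Subgroup.eq_of_le_of_card_ge h hcard.le).symm
  · exact Subgroup.eq_of_le_of_card_ge h hcard.ge

end Cfsg.Agent.S3383
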