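import Cfsg.Statements.S3704

set_option autoImplicit false
open Cfsg

namespace Cfsg.Agent.S3704

open MulAction

section
variable {G Ω : Type*} [Group G] [MulAction G Ω] (H : Subgroup G)

noncomputable def color (x : G ⧸ H) (α : Ω) : orbitRel.Quotient H Ω :=
  Quotient.mk _ ((x.out)⁻¹ • α)

theorem color_mk (g : G) (α : Ω) : color H (g : G ⧸ H) α = Quotient.mk _ (g⁻¹ • α) := by
  unfold color
  apply Quotient.sound
  change (orbitRel H Ω).r _ _
  rw [orbitRel_apply]
  obtain ⟨h, hh⟩ := QuotientGroup.mk_out_eq_mul H g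
  rw [hh]
  refine ⟨h⁻¹, ?_⟩
  change (((h : H)⁻¹ : H) : G) • g⁻¹ • α = (g * h)⁻¹ • α
  rw [mul_inv_rev, smul_smul]; rfl

theorem color_smul (g : G) (x : G ⧸ H) (α : Ω) : color H (g • x) (g • α) = color H x α := by
  obtain ⟨y, rfl⟩ := QuotientGroup.mk_surjective x
  change color H ((g * y : G) : G ⧸ H) (g • α) = _
  rw [color_mk, color_mk, mul_inv_rev, smul_smul, mul_assoc, inv_mul_cancel, mul_one]

theorem exists_color (htr : IsPretransitive G Ω) (q : orbitRel.Quotient H Ω) (α : Ω) : ∃ x : G ⧸ H, color H x α = q := by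
  obtain ⟨β, rfl⟩ := Quotient.exists_rep q
  obtain ⟨g, hg⟩ := htr.exists_smul_eq β α
  exact ⟨(g : G ⧸ H), by rw [color_mk, ← hg, inv_smul_smul]⟩
end

theorem key {Ω Q : Type*} [Fintype Ω] [DecidableEq Ω] [DecidableEq Q] (c : Ω → Ω → Q) (hne : ∀ q α, ∃ x, c x α = q) (hne' : ∀ q x, ∃ α, c x α = q)
    (h2 : ∀ q r α β γ δ, α ≠ β → γ ≠ δ → (∑ x, (if c x α = q then (1 : ℚ) else 0) * (if c x β = r then 1 else 0)) =
      ∑ x, (if c x γ = q then (1 : ℚ) else 0) * (if c x δ = r then 1 else 0))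
    (h1 : ∀ q α β, (∑ x, (if c x α = q then (1 : ℚ) else 0)) = ∑ x, (if c x β = q then (1 : ℚ) else 0))
    {q r s : Q} (hqr : q ≠ r) (hqs : q ≠ s) (hrs : r ≠ s) (α0 β0 : Ω) (h0 : α0 ≠ β0) : False := by
  -- matrices
  let M : Q → Matrix Ω Ω ℚ := fun q => Matrix.of fun x α => if c x α = q then 1 else 0
  let J : Matrix Ω Ω ℚ := Matrix.of fun _ _ => 1
  have hM : ∀ q x α, M q x α = if c x α = q then 1 else 0 := fun _ _ _ => rfl
  obtain ⟨l, hl⟩ : ∃ l, l = ∑ x, (if c x α0 = q then (1 : ℚ) else 0) * (if c x β0 = q then 1 else 0) := ⟨_, rfl⟩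
  obtain ⟨d, hd⟩ : ∃ d, d = ∑ x, (if c x α0 = q then (1 : ℚ) else 0) * (if c x β0 = r then 1 else 0) := ⟨_, rfl⟩
  obtain ⟨k, hk⟩ : ∃ k, k = ∑ x, (if c x α0 = q then (1 : ℚ) else 0) := ⟨_, rfl⟩
  have hMM : (M q).transpose * M q = (k - l) • (1 : Matrix Ω Ω ℚ) + l • J := by
    ext α β
    rw [Matrix.mul_apply, Matrix.add_apply, Matrix.smul_apply, Matrix.smul_apply]
    simp only [Matrix.transpose_apply, hM]
    by_cases h : α = β
    · subst h
      have e1 : ∀ x, (if c x α = q then (1 : ℚ) else 0) * (if c x α = q then 1 else 0) = if c x α = q then 1 else 0 := by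
        intro x; split_ifs <;> norm_num
      rw [Finset.sum_congr rfl (fun x _ => e1 x), h1 q α α0, ← hk, Matrix.one_apply_eq]
      simp [J]
    · rw [h2 q q α β α0 β0 h h0, ← hl, Matrix.one_apply_ne h]
      simp [J]
  have hMr : (M q).transpose * M r = (-d) • (1 : Matrix Ω Ω ℚ) + d • J := by
    ext α β
    rw [Matrix.mul_apply, Matrix.add_apply, Matrix.smul_apply, Matrix.smul_apply]
    simp only [Matrix.transpose_apply, hM]
    by_cases h : α = β
    · subst h
      have e1 : ∀ x, (if c x α = q then (1 : ℚ) else 0) * (if c x α = r then 1 else 0) = 0 := by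
        intro x
        by_cases h5 : c x α = q
        · rw [if_neg (show ¬ c x α = r from fun h6 => hqr (h5.symm.trans h6)), mul_zero]
        · rw [if_neg h5, zero_mul]
      rw [Finset.sum_congr rfl (fun x _ => e1 x), Finset.sum_const_zero, Matrix.one_apply_eq]
      simp [J]
    · rw [h2 q r α β α0 β0 h h0, ← hd, Matrix.one_apply_ne h]
      simp [J]
  have hMJ : (M q).transpose * J = k • J := by
    ext α β
    rw [Matrix.mul_apply, Matrix.smul_apply]
    simp only [Matrix.transpose_apply, hM]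
    have : ∀ x, (if c x α = q then (1 : ℚ) else 0) * J x β = if c x α = q then 1 else 0 := fun x => mul_one _
    rw [Finset.sum_congr rfl (fun x _ => this x), h1 q α α0, ← hk]
    simp [J]
  have hk0 : 0 < k := by
    obtain ⟨x, hx⟩ := hne q α0
    rw [hk]
    apply Finset.sum_pos'
    · intro i _; split_ifs <;> norm_num
    · exact ⟨x, Finset.mem_univ _, by rw [if_pos hx]; norm_num⟩
  have hl0 : 0 ≤ l := by
    rw [hl]
    apply Finset.sum_nonneg
    intro i _; split_ifs <;> norm_num
  have hkl : 0 < k - l := by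
    obtain ⟨x, hx⟩ := hne q α0
    obtain ⟨β, hβ⟩ := hne' r x
    have hab : α0 ≠ β := by
      rintro rfl
      exact hqr (hx.symm.trans hβ)
    rw [hl, h2 q q α0 β0 α0 β h0 hab, hk, ← Finset.sum_sub_distrib]
    apply Finset.sum_pos'
    · intro i _; split_ifs <;> norm_num
    · exact ⟨x, Finset.mem_univ _, by rw [if_pos hx, if_neg (show ¬ c x β = q from fun h => hqr (h.symm.trans hβ))]; norm_num⟩
  obtain ⟨n, hn⟩ : ∃ n : ℚ, n = (Fintype.card Ω : ℚ) := ⟨_, rfl⟩
  have hn0 : 0 ≤ n := by rw [hn]; exact Nat.cast_nonneg _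
  have hJJ : J * J = n • J := by
    ext α β
    rw [Matrix.mul_apply, Matrix.smul_apply]
    simp [J, hn]
  obtain ⟨a, ha⟩ : ∃ a, a = k - l := ⟨_, rfl⟩
  rw [← ha] at hkl hMM
  have hanl : 0 < a + n * l := by positivity
  obtain ⟨t, ht⟩ : ∃ t, t = l / (a * (a + n * l)) := ⟨_, rfl⟩
  obtain ⟨a', ha'⟩ : ∃ a', a' = a⁻¹ := ⟨_, rfl⟩
  obtain ⟨u, hu⟩ : ∃ u, u = -t := ⟨_, rfl⟩
  have e1 : a * a' = 1 := by rw [ha']; exact mul_inv_cancel₀ hkl.ne'
  have e2 : a * u + (l * a' + l * u * n) = 0 := by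
    rw [hu, ht, ha']
    field_simp
    ring
  have hinv : (M q).transpose * (M q * (a' • (1 : Matrix Ω Ω ℚ) + u • J)) = 1 := by
    rw [← mul_assoc, hMM]
    ext α β
    have h5 : ((a • (1 : Matrix Ω Ω ℚ) + l • J) * (a' • (1 : Matrix Ω Ω ℚ) + u • J)) = (a * a') • (1 : Matrix Ω Ω ℚ) + (a * u + (l * a' + l * u * n)) • J := by
      rw [add_mul, mul_add, mul_add, smul_mul_smul_comm, smul_mul_smul_comm, smul_mul_smul_comm, smul_mul_smul_comm,
        one_mul, one_mul, mul_one, hJJ, smul_smul, add_smul, add_smul, add_assoc]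
    rw [h5, e1, e2, one_smul, zero_smul, add_zero]
  have hinv' := mul_eq_one_comm.mp hinv
  have hzero : M r - (-(d / a)) • M q - ((d + d / a * l) / k) • J = 0 := by
    have h3 : (M q).transpose * (M r - (-(d / a)) • M q - ((d + d / a * l) / k) • J) = 0 := by
      rw [mul_sub, mul_sub, Matrix.mul_smul, Matrix.mul_smul, hMr, hMM, hMJ]
      ext α β
      simp only [Matrix.sub_apply, Matrix.add_apply, Matrix.smul_apply, smul_eq_mul, Matrix.zero_apply]
      field_simp
      ring
    have h4 := congrArg (fun X => (M q * (a' • (1 : Matrix Ω Ω ℚ) + u • J)) * X) h3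
    simp only [mul_zero] at h4
    rwa [← mul_assoc, hinv', one_mul] at h4
  obtain ⟨x, hx⟩ := hne q α0
  obtain ⟨β, hβ⟩ := hne' r x
  obtain ⟨γ, hγ⟩ := hne' s x
  have h5 := congrFun (congrFun hzero x) β
  have h6 := congrFun (congrFun hzero x) γ
  simp only [Matrix.sub_apply, Matrix.smul_apply, smul_eq_mul, Matrix.zero_apply, hM, J, Matrix.of_apply, hβ, hγ,
    if_neg (Ne.symm hqr), if_neg (Ne.symm hqs), if_neg (Ne.symm hrs), if_true, mul_zero, mul_one, sub_zero, zero_sub] at h5 h6
  rw [neg_eq_zero] at h6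
  rw [h6] at h5
  norm_num at h5

/-- Let G be a finite group acting faithfully and 2-transitively on a finite set Ω of size n, and let H be a subgroup of index n in G which is not transitive on Ω and fixes no point of Ω. Then H has exactly two orbits on Ω. -/
theorem result {G Ω : Type*} [Group G] [Finite G] [MulAction G Ω] [FaithfulSMul G Ω] [Finite Ω] (h2 : MulAction.IsMultiplyPretransitive G Ω 2) (H : Subgroup G) (hidx : H.index = Nat.card Ω) (hnt : ¬ MulAction.IsPretransitive H Ω) (hfix : ∀ a : Ω, ∃ h : H, h • a ≠ a) : Nat.card (MulAction.orbitRel.Quotient H Ω) = 2 := by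
  classical
  have := Fintype.ofFinite Ω
  have htr : IsPretransitive G Ω := MulAction.isPretransitive_of_is_two_pretransitive
  have h2' : ∀ {a b c d : Ω}, a ≠ b → c ≠ d → ∃ g : G, g • a = c ∧ g • b = d := MulAction.is_two_pretransitive_iff.mp h2
  haveI : Fintype (G ⧸ H) := Fintype.ofFinite _
  -- two distinct colours
  have hcards : Fintype.card (G ⧸ H) = Fintype.card Ω := by
    rw [← Nat.card_eq_fintype_card, ← Nat.card_eq_fintype_card, ← hidx]; rfl
  obtain ⟨e⟩ : Nonempty (Ω ≃ G ⧸ H) := ⟨(Fintype.equivOfCardEq hcards.symm)⟩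
  haveI : Finite (orbitRel.Quotient H Ω) := Quotient.finite _
  haveI := Fintype.ofFinite (orbitRel.Quotient H Ω)
  rw [Nat.card_eq_fintype_card]
  apply le_antisymm
  · by_contra hcon
    push Not at hcon
    obtain ⟨q, r, s, hqr, hqs, hrs⟩ := Fintype.two_lt_card_iff.mp hcon
    obtain ⟨α0, rfl⟩ := Quotient.exists_rep q
    obtain ⟨β0, hβ0⟩ := Quotient.exists_rep r
    have h0 : α0 ≠ β0 := by
      rintro rfl
      exact hqr hβ0
    refine key (fun ω α => color H (e ω) α) ?_ ?_ ?_ ?_ hqr hqs hrs α0 β0 h0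
    · intro q α
      obtain ⟨x, hx⟩ := exists_color H htr q α
      exact ⟨e.symm x, by simpa using hx⟩
    · intro q x
      obtain ⟨y, hy⟩ := QuotientGroup.mk_surjective (e x)
      obtain ⟨β, rfl⟩ := Quotient.exists_rep q
      refine ⟨y • β, ?_⟩
      rw [← hy]
      change color H ((y : G) : G ⧸ H) (y • β) = _
      rw [color_mk, inv_smul_smul]
    · intro q r α β γ δ hαβ hγδ
      obtain ⟨g, rfl, rfl⟩ := h2' hαβ hγδ
      rw [e.sum_comp (fun x => (if color H x α = q then (1 : ℚ) else 0) * (if color H x β = r then 1 else 0)),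
        e.sum_comp (fun x => (if color H x (g • α) = q then (1 : ℚ) else 0) * (if color H x (g • β) = r then 1 else 0)),
        ← Equiv.sum_comp (MulAction.toPerm g : Equiv.Perm (G ⧸ H)) (fun x => (if color H x (g • α) = q then (1 : ℚ) else 0) * (if color H x (g • β) = r then 1 else 0))]
      apply Finset.sum_congr rfl
      intro x _
      rw [MulAction.toPerm_apply, color_smul, color_smul]
    · intro q α β
      obtain ⟨g, rfl⟩ := htr.exists_smul_eq α β
      rw [e.sum_comp (fun x => (if color H x α = q then (1 : ℚ) else 0)),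
        e.sum_comp (fun x => (if color H x (g • α) = q then (1 : ℚ) else 0)),
        ← Equiv.sum_comp (MulAction.toPerm g : Equiv.Perm (G ⧸ H)) (fun x => (if color H x (g • α) = q then (1 : ℚ) else 0))]
      apply Finset.sum_congr rfl
      intro x _
      rw [MulAction.toPerm_apply, color_smul]
  · by_contra hcon
    push Not at hcon
    apply hnt
    have h1 : Fintype.card (orbitRel.Quotient H Ω) ≤ 1 := by omega
    rw [Fintype.card_le_one_iff] at h1
    constructor
    intro a b
    have h3 := h1 (Quotient.mk _ b) (Quotient.mk _ a)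
    have h4 := Quotient.exact h3
    change (orbitRel H Ω).r _ _ at h4
    rw [orbitRel_apply] at h4
    exact h4

end Cfsg.Agent.S3704
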