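import Cfsg.Statements.S3733
import Mathlib

set_option autoImplicit false
open Cfsg

namespace Cfsg.Agent.S3733

/-- Let A and V be subgroups of a finite group with V abelian and nontrivial and A normalizing V. Suppose a nonempty finite family of proper subgroups of A partitions A: every non-identity element of A lies in exactly one member. If the number of members minus one is coprime to the order of V, then some member B of the family has a non-identity fixed point on V, that is V ∩ C(B) ≠ 1. -/
theorem result {G : Type*} [Group G] [Finite G] (A V : Subgroup G) (hVab : IsMulCommutative V) (hV : V ≠ ⊥) (hAV : A ≤ Subgroup.normalizer (V : Set G)) (𝒜 : Finset (Subgroup G)) (hne : 𝒜.Nonempty) (hprop : ∀ B ∈ 𝒜, B < A) (hpart : ∀ a ∈ A, a ≠ 1 → ∃! B, B ∈ 𝒜 ∧ a ∈ B) (hk : (𝒜.card - 1).Coprime (Nat.card V)) : ∃ B ∈ 𝒜, V ⊓ Subgroup.centralizer (B : Set G) ≠ ⊥ := by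
  classical
  have hcomm : ∀ a b : V, a * b = b * a := hVab.is_comm.comm
  let _ : CommGroup V := { (inferInstance : Group V) with mul_comm := hcomm }
  have := Fintype.ofFinite A
  by_contra hcon
  push Not at hcon
  have hconj : ∀ (a : A) (v : V), (a : G) * v * (a : G)⁻¹ ∈ V := fun a v => (Subgroup.mem_normalizer_iff.1 (hAV a.2) v).1 v.2
  let act : A → V → V := fun a v => ⟨_, hconj a v⟩
  have hact : ∀ (a b : A) (v : V), act a (act b v) = act (a * b) v := by
    intro a b v
    apply Subtype.ext
    change (a : G) * ((b : G) * v * (b : G)⁻¹) * (a : G)⁻¹ = ((a : G) * b) * v * ((a : G) * b)⁻¹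
    group
  have hactm : ∀ (a : A) (u v : V), act a (u * v) = act a u * act a v := by
    intro a u v
    apply Subtype.ext
    change (a : G) * ((u : G) * v) * (a : G)⁻¹ = ((a : G) * u * (a : G)⁻¹) * ((a : G) * v * (a : G)⁻¹)
    group
  let actHom : A → (V →* V) := fun a => MonoidHom.mk' (act a) (hactm a)
  have hfix : ∀ B ∈ 𝒜, ∀ v : V, (∀ b : A, (b : G) ∈ B → act b v = v) → v = 1 := by
    intro B hB v hv
    have h1 : (v : G) ∈ V ⊓ Subgroup.centralizer (B : Set G) := by
      refine Subgroup.mem_inf.2 ⟨v.2, ?_⟩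
      rw [Subgroup.mem_centralizer_iff]
      intro b hb
      have h2 := congrArg Subtype.val (hv ⟨b, (hprop B hB).le hb⟩ hb)
      have h3 : b * (v : G) * b⁻¹ = v := h2
      rw [mul_inv_eq_iff_eq_mul] at h3
      exact h3
    rw [hcon B hB, Subgroup.mem_bot] at h1
    exact Subtype.ext h1
  have hN : ∀ B ∈ 𝒜, ∀ v : V, ∏ a ∈ Finset.univ.filter (fun a : A => (a : G) ∈ B), act a v = 1 := by
    intro B hB v
    apply hfix B hB
    intro b hb
    change actHom b (∏ a ∈ Finset.univ.filter (fun a : A => (a : G) ∈ B), act a v) = _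
    rw [map_prod]
    refine Finset.prod_bij' (fun a _ => b * a) (fun a _ => b⁻¹ * a) ?_ ?_ ?_ ?_ ?_
    · intro a ha
      simp only [Finset.mem_filter, Finset.mem_univ, true_and] at ha ⊢
      exact B.mul_mem hb ha
    · intro a ha
      simp only [Finset.mem_filter, Finset.mem_univ, true_and] at ha ⊢
      exact B.mul_mem (B.inv_mem hb) ha
    · intro a _; group
    · intro a _; group
    · intro a _
      exact hact b a v
  have hNA : ∀ v : V, ∏ a : A, act a v = 1 := by
    intro v
    obtain ⟨B, hB⟩ := hne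
    apply hfix B hB
    intro b hb
    change actHom b (∏ a : A, act a v) = _
    rw [map_prod]
    refine Finset.prod_bij' (fun a _ => b * a) (fun a _ => b⁻¹ * a) ?_ ?_ ?_ ?_ ?_
    · intro a _; exact Finset.mem_univ _
    · intro a _; exact Finset.mem_univ _
    · intro a _; group
    · intro a _; group
    · intro a _
      exact hact b a v
  have hmain : ∀ v : V, v ^ (𝒜.card - 1) = 1 := by
    intro v
    have h1 : ∏ B ∈ 𝒜, ∏ a ∈ Finset.univ.filter (fun a : A => (a : G) ∈ B), act a v = 1 :=
      Finset.prod_eq_one (fun B hB => hN B hB v)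
    have h2 : ∏ B ∈ 𝒜, ∏ a ∈ Finset.univ.filter (fun a : A => (a : G) ∈ B), act a v =
        ∏ a : A, ∏ B ∈ 𝒜.filter (fun B => (a : G) ∈ B), act a v := by
      simp_rw [Finset.prod_filter]
      exact Finset.prod_comm
    rw [h2] at h1
    simp only [Finset.prod_const] at h1
    have h3 : ∀ a : A, a ≠ 1 → (𝒜.filter (fun B => (a : G) ∈ B)).card = 1 := by
      intro a ha
      rw [Finset.card_eq_one]
      obtain ⟨B, ⟨hB1, hB2⟩, hB3⟩ := hpart a a.2 (fun h => ha (Subtype.ext h))
      refine ⟨B, ?_⟩
      ext C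
      simp only [Finset.mem_filter, Finset.mem_singleton]
      constructor
      · rintro ⟨h1, h2⟩
        exact hB3 C ⟨h1, h2⟩
      · rintro rfl
        exact ⟨hB1, hB2⟩
    have h4 : (𝒜.filter (fun B => ((1 : A) : G) ∈ B)) = 𝒜 := by
      apply Finset.filter_true_of_mem
      intro B _
      exact B.one_mem
    rw [← Finset.mul_prod_erase Finset.univ _ (Finset.mem_univ (1 : A)), h4] at h1
    have h5 : ∏ a ∈ Finset.univ.erase (1 : A), act a v ^ (𝒜.filter (fun B => (a : G) ∈ B)).card =
        ∏ a ∈ Finset.univ.erase (1 : A), act a v := by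
      apply Finset.prod_congr rfl
      intro a ha
      rw [h3 a (Finset.ne_of_mem_erase ha), pow_one]
    rw [h5] at h1
    have h6 := hNA v
    rw [← Finset.mul_prod_erase Finset.univ _ (Finset.mem_univ (1 : A))] at h6
    have h7 : act 1 v = v := by
      apply Subtype.ext
      change ((1 : A) : G) * v * ((1 : A) : G)⁻¹ = v
      simp
    rw [h7] at h1 h6
    have h8 : 𝒜.card = (𝒜.card - 1) + 1 := by
      have := hne.card_pos
      omega
    rw [h8, pow_succ, mul_assoc, h6, mul_one] at h1
    exact h1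
  apply hV
  rw [eq_bot_iff]
  intro v hv
  have h1 : orderOf (⟨v, hv⟩ : V) ∣ 𝒜.card - 1 := orderOf_dvd_of_pow_eq_one (hmain ⟨v, hv⟩)
  have h2 : orderOf (⟨v, hv⟩ : V) ∣ Nat.card V := orderOf_dvd_natCard _
  have h3 := Nat.dvd_gcd h1 h2
  rw [hk, Nat.dvd_one, orderOf_eq_one_iff] at h3
  exact congrArg Subtype.val h3

end Cfsg.Agent.S3733
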