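import Cfsg.Statements.S3734
import Mathlib
import Cfsg.Agent.Lib.H3CopHall
import Cfsg.Agent.Lib.CoprimeGen

set_option autoImplicit false
open Cfsg

open scoped Pointwise
open scoped commutatorElement
set_option linter.style.haveILetI false
namespace Cfsg.Agent.S3734

open Subgroup CfsgLib.H3CopHall CfsgLib.Coprime
open scoped Pointwise commutatorElement
universe u

theorem sub0 {Y : Type u} [Group Y] [Finite Y] (A G : Subgroup Y) (hG : G.Normal) (htop : G ⊔ A = ⊤)
    (hA : ∀ a ∈ A, ∀ b ∈ A, a * b = b * a) (hcop : (Nat.card A).Coprime (Nat.card G))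
    (hnc : ∀ a ∈ A, ∃ x ∈ A, ∀ k : ℤ, ∃ g ∈ G, ¬ (x * a ^ k) * g = g * (x * a ^ k)) (T : Subgroup Y)
    (hT : ∀ a ∈ A, a ∉ centralizer (G : Set Y) → G ⊓ centralizer {a} ≤ T) : G ≤ T := by
  set Z : Subgroup Y := A ⊓ centralizer (G : Set Y) with hZ
  have hZc : ∀ z ∈ Z, ∀ y : Y, y * z = z * y := by
    intro z hz y
    obtain ⟨hz1, hz2⟩ := mem_inf.1 hz
    have h1 : G ⊔ A ≤ centralizer {z} := by
      refine sup_le ?_ ?_
      · intro g hg
        rw [mem_centralizer_iff]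
        rintro w hw
        rw [Set.mem_singleton_iff] at hw; subst hw
        exact (mem_centralizer_iff.1 hz2 g hg).symm
      · intro g hg
        rw [mem_centralizer_iff]
        rintro w hw
        rw [Set.mem_singleton_iff] at hw; subst hw
        exact hA _ hz1 _ hg
    rw [htop] at h1
    exact (mem_centralizer_iff.1 (h1 (mem_top y)) z rfl).symm
  haveI hZn : Z.Normal := ⟨fun z hz y => by rw [hZc z hz y, mul_inv_cancel_right]; exact hz⟩
  set f := QuotientGroup.mk' Z with hf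
  have hfs : Function.Surjective f := QuotientGroup.mk'_surjective Z
  have hAG : A ⊓ G = ⊥ := by
    rw [eq_bot_iff]
    intro x hx
    rw [mem_bot]
    obtain ⟨h1, h2⟩ := mem_inf.1 hx
    have h3 : orderOf x ∣ Nat.card A := by rw [← Subgroup.orderOf_mk x h1]; exact orderOf_dvd_natCard _
    have h4 : orderOf x ∣ Nat.card G := by rw [← Subgroup.orderOf_mk x h2]; exact orderOf_dvd_natCard _
    exact orderOf_eq_one_iff.1 (Nat.eq_one_of_dvd_coprimes hcop h3 h4)
  have hcgen := le_cgen_of_not_isCyclic (A := A.map f) (K := G.map f) ?_ ?_ ?_ ?_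
  · have h1 : cgen (A.map f) (G.map f) ≤ (T ⊓ G).map f := by
      refine iSup₂_le ?_
      rintro _ ⟨⟨a, ha, rfl⟩, ha1⟩ _ ⟨⟨g, hg, rfl⟩, hc⟩
      have h2 : f (g * a * g⁻¹ * a⁻¹) = 1 := by
        have := mem_centralizer_iff.1 hc (f a) rfl
        rw [map_mul, map_mul, map_mul, ← this, map_inv, map_inv]; group
      have h3 : g * a * g⁻¹ * a⁻¹ ∈ Z := (CfsgLib.Core2.mk_eq_one_iff Z _).1 h2
      have h4 : g * a * g⁻¹ * a⁻¹ ∈ G := by
        have : g * a * g⁻¹ * a⁻¹ = g * (a * g⁻¹ * a⁻¹) := by group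
        rw [this]
        exact G.mul_mem hg (hG.conj_mem _ (G.inv_mem hg) _)
      have h5 : g * a * g⁻¹ * a⁻¹ ∈ A ⊓ G := mem_inf.2 ⟨(mem_inf.1 h3).1, h4⟩
      rw [hAG, mem_bot, mul_inv_eq_one, mul_inv_eq_iff_eq_mul] at h5
      have h6 : a ∉ centralizer (G : Set Y) := by
        intro h7
        exact ha1 ((CfsgLib.Core2.mk_eq_one_iff Z a).2 (mem_inf.2 ⟨ha, h7⟩))
      refine ⟨g, mem_inf.2 ⟨hT a ha h6 (mem_inf.2 ⟨hg, ?_⟩), hg⟩, rfl⟩
      rw [mem_centralizer_iff]
      rintro w hw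
      rw [Set.mem_singleton_iff] at hw; subst hw
      exact h5.symm
    intro g hg
    obtain ⟨t, ht, htg⟩ := h1 (hcgen ⟨g, hg, rfl⟩)
    obtain ⟨ht1, ht2⟩ := mem_inf.1 ht
    have h2 : t⁻¹ * g ∈ Z := QuotientGroup.eq.1 htg
    have h3 : t⁻¹ * g ∈ A ⊓ G := mem_inf.2 ⟨(mem_inf.1 h2).1, G.mul_mem (G.inv_mem ht2) hg⟩
    rw [hAG, mem_bot, inv_mul_eq_one] at h3
    rw [← h3]; exact ht1
  · refine ⟨⟨?_⟩⟩
    rintro ⟨_, ⟨x, hx, rfl⟩⟩ ⟨_, ⟨y, hy, rfl⟩⟩
    apply Subtype.ext
    show f x * f y = f y * f x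
    rw [← map_mul, hA x hx y hy, map_mul]
  · intro hcyc
    obtain ⟨⟨_, ⟨a, ha, rfl⟩⟩, hgen⟩ := hcyc.exists_generator
    obtain ⟨x, hx, hxk⟩ := hnc a ha
    obtain ⟨k, hk⟩ := mem_zpowers_iff.1 (hgen ⟨f x, ⟨x, hx, rfl⟩⟩)
    have hk' : f a ^ k = f x := congrArg Subtype.val hk
    obtain ⟨g, hg, hgn⟩ := hxk (-k)
    apply hgn
    have h1 : x * a ^ (-k) ∈ Z := by
      rw [← CfsgLib.Core2.mk_eq_one_iff Z]
      show f (x * a ^ (-k)) = 1
      rw [map_mul, map_zpow, ← hk', zpow_neg, mul_inv_cancel]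
    exact (hZc _ h1 g).symm
  · have : A ≤ normalizer (G : Set Y) := by rw [normalizer_eq_top_iff.2 hG]; exact le_top
    exact (Subgroup.map_mono this).trans (le_normalizer_map f)
  · exact (hcop.coprime_dvd_left (card_map_dvd f (H := A))).coprime_dvd_right (card_map_dvd f (H := G))

theorem sub1 {X : Type u} [Group X] [Finite X] (A G : Subgroup X) (hAG : A ≤ normalizer (G : Set X))
    (hA : ∀ a ∈ A, ∀ b ∈ A, a * b = b * a) (hcop : (Nat.card A).Coprime (Nat.card G))
    (hnc : ∀ a ∈ A, ∃ x ∈ A, ∀ k : ℤ, ∃ g ∈ G, ¬ (x * a ^ k) * g = g * (x * a ^ k)) (T : Subgroup X)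
    (hT : ∀ a ∈ A, a ∉ centralizer (G : Set X) → G ⊓ centralizer {a} ≤ T) : G ≤ T := by
  set Y : Subgroup X := G ⊔ A with hY
  have hKY : G ≤ Y := le_sup_left
  have hAY : A ≤ Y := le_sup_right
  have h := sub0 (A.subgroupOf Y) (G.subgroupOf Y) (normal_subgroupOf_sup hAG) ?_ ?_ ?_ ?_ (T.subgroupOf Y) ?_
  · intro x hx
    exact h (show (⟨x, hKY hx⟩ : Y) ∈ G.subgroupOf Y from hx)
  · rw [← subgroupOf_sup hKY hAY, subgroupOf_self]
  · intro a ha b hb
    exact Subtype.ext (hA a ha b hb)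
  · rw [CfsgLib.SZ.card_subgroupOf hAY, CfsgLib.SZ.card_subgroupOf hKY]; exact hcop
  · intro a ha
    obtain ⟨x, hx, hxk⟩ := hnc a ha
    refine ⟨⟨x, hAY hx⟩, hx, fun k => ?_⟩
    obtain ⟨g, hg, hgn⟩ := hxk k
    exact ⟨⟨g, hKY hg⟩, hg, fun h => hgn (congrArg Subtype.val h)⟩
  · intro a ha hac
    rintro y hy
    obtain ⟨hy1, hy2⟩ := mem_inf.1 hy
    refine hT a ha ?_ (mem_inf.2 ⟨hy1, ?_⟩)
    · intro h
      apply hac
      rw [mem_centralizer_iff] at h ⊢
      intro g hg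
      exact Subtype.ext (h g hg)
    · rw [mem_centralizer_iff]
      rintro w hw
      rw [Set.mem_singleton_iff] at hw; subst hw
      exact congrArg Subtype.val (mem_centralizer_iff.1 hy2 a rfl)

theorem part1 {X : Type u} [Group X] [Finite X] (A : Subgroup X) (hA : ∀ a ∈ A, ∀ b ∈ A, a * b = b * a) (n : ℕ) :
    ∀ G : Subgroup X, Nat.card G = n → A ≤ normalizer (G : Set X) → (Nat.card A).Coprime (Nat.card G) →
    G ≤ ⨆ B ∈ {B : Subgroup X | B ≤ A ∧ ∃ a ∈ A, B ⊔ Subgroup.zpowers a = A}, G ⊓ Subgroup.centralizer (B : Set X) := by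
  induction n using Nat.strong_induction_on with
  | _ n ih =>
  intro G hn hAG hcop
  by_cases hc : ∃ a ∈ A, ∀ x ∈ A, ∃ k : ℤ, ∀ g ∈ G, (x * a ^ k) * g = g * (x * a ^ k)
  · obtain ⟨a, ha, hak⟩ := hc
    have hB : A ⊓ centralizer (G : Set X) ∈ {B : Subgroup X | B ≤ A ∧ ∃ a ∈ A, B ⊔ Subgroup.zpowers a = A} := by
      refine ⟨inf_le_left, a, ha, le_antisymm (sup_le inf_le_left (zpowers_le.2 ha)) ?_⟩
      intro x hx
      obtain ⟨k, hk⟩ := hak x hx
      have h1 : x * a ^ k ∈ A ⊓ centralizer (G : Set X) := by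
        refine mem_inf.2 ⟨A.mul_mem hx (A.zpow_mem ha k), ?_⟩
        rw [mem_centralizer_iff]
        intro g hg
        exact (hk g hg).symm
      have h2 : x = (x * a ^ k) * a ^ (-k) := by rw [zpow_neg, mul_inv_cancel_right]
      rw [h2]
      exact mul_mem (mem_sup_left h1) (mem_sup_right (zpow_mem (mem_zpowers a) _))
    refine le_trans ?_ (le_iSup₂ (f := fun B (_ : B ∈ {B : Subgroup X | B ≤ A ∧ ∃ a ∈ A, B ⊔ Subgroup.zpowers a = A}) => G ⊓ Subgroup.centralizer (B : Set X)) _ hB)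
    refine le_inf le_rfl ?_
    intro g hg
    rw [mem_centralizer_iff]
    intro z hz
    exact (mem_centralizer_iff.1 (mem_inf.1 hz).2 g hg).symm
  · push Not at hc
    refine sub1 A G hAG hA hcop hc _ ?_
    intro a ha hac
    have hlt : Nat.card (G ⊓ centralizer {a} : Subgroup X) < n := by
      rw [← hn]
      refine lt_of_le_of_ne (card_le_of_le inf_le_left) ?_
      intro h
      apply hac
      have h1 : G ⊓ centralizer {a} = G := eq_of_le_of_card_ge inf_le_left h.ge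
      rw [mem_centralizer_iff]
      intro g hg
      have hg' : g ∈ G := hg
      rw [← h1] at hg'
      exact (mem_centralizer_iff.1 (mem_inf.1 hg').2 a rfl).symm
    have hnorm : A ≤ normalizer ((G ⊓ centralizer {a} : Subgroup X) : Set X) := by
      refine le_normalizer_inf hAG ?_
      intro b hb
      rw [mem_normalizer_iff]
      intro x
      rw [mem_centralizer_singleton_iff, mem_centralizer_singleton_iff]
      have hab := hA a ha b hb
      have hab' : a * b⁻¹ = b⁻¹ * a := by rw [eq_inv_mul_iff_mul_eq, ← mul_assoc, ← hab, mul_inv_cancel_right]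
      constructor
      · intro h
        calc b * x * b⁻¹ * a = b * (x * a) * b⁻¹ := by rw [mul_assoc (b * x), ← hab']; group
          _ = b * (a * x) * b⁻¹ := by rw [h]
          _ = (a * b) * x * b⁻¹ := by rw [hab]; group
          _ = _ := by group
      · intro h
        have h2 : b⁻¹ * (b * x * b⁻¹ * a) * b = b⁻¹ * (a * (b * x * b⁻¹)) * b := by rw [h]
        have h3 : b⁻¹ * (b * x * b⁻¹ * a) * b = x * a := by
          calc b⁻¹ * (b * x * b⁻¹ * a) * b = x * (b⁻¹ * a) * b := by group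
            _ = x * (a * b⁻¹) * b := by rw [hab']
            _ = _ := by group
        have h4 : b⁻¹ * (a * (b * x * b⁻¹)) * b = a * x := by
          calc b⁻¹ * (a * (b * x * b⁻¹)) * b = (b⁻¹ * a) * b * x := by group
            _ = (a * b⁻¹) * b * x := by rw [hab']
            _ = _ := by group
        rw [h3, h4] at h2
        exact h2
    refine (ih _ hlt _ rfl hnorm (hcop.coprime_dvd_right (card_dvd_of_le inf_le_left))).trans ?_
    exact iSup₂_mono (fun B _ => inf_le_inf_right _ inf_le_left)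


/-- Let A and G be subgroups of a finite group with A abelian, A normalizing G and the orders of A and G coprime. Then G is generated by the fixed-point subgroups C_G(B) of those subgroups B of A for which A/B is cyclic (that is, A = ⟨B, a⟩ for some a), and [G, A] is generated by the commutator subgroups [C_G(B), A] over the same subgroups B. -/
theorem result {X : Type*} [Group X] [Finite X] (A G : Subgroup X) (hAab : IsMulCommutative A) (hAG : A ≤ Subgroup.normalizer (G : Set X)) (hcop : (Nat.card A).Coprime (Nat.card G)) : (⨆ B ∈ {B : Subgroup X | B ≤ A ∧ ∃ a ∈ A, B ⊔ Subgroup.zpowers a = A}, G ⊓ Subgroup.centralizer (B : Set X)) = G ∧ (⨆ B ∈ {B : Subgroup X | B ≤ A ∧ ∃ a ∈ A, B ⊔ Subgroup.zpowers a = A}, ⁅G ⊓ Subgroup.centralizer (B : Set X), A⁆) = ⁅G, A⁆ := by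
  have hA : ∀ a ∈ A, ∀ b ∈ A, a * b = b * a := fun a ha b hb => congrArg Subtype.val (hAab.is_comm.comm ⟨a, ha⟩ ⟨b, hb⟩)
  have h1 : (⨆ B ∈ {B : Subgroup X | B ≤ A ∧ ∃ a ∈ A, B ⊔ Subgroup.zpowers a = A}, G ⊓ Subgroup.centralizer (B : Set X)) = G := by
    apply le_antisymm
    · exact iSup₂_le (fun B _ => inf_le_left)
    · exact part1 A hA _ G rfl hAG hcop
  refine ⟨h1, ?_⟩
  apply le_antisymm
  · exact iSup₂_le (fun B _ => commutator_mono inf_le_left le_rfl)
  set H : Subgroup X := ⨆ B ∈ {B : Subgroup X | B ≤ A ∧ ∃ a ∈ A, B ⊔ Subgroup.zpowers a = A}, ⁅G ⊓ Subgroup.centralizer (B : Set X), A⁆ with hH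
  set C : Subgroup X := G ⊓ centralizer (A : Set X) with hC
  have hCB : ∀ B : Subgroup X, B ≤ A → A ≤ normalizer ((G ⊓ Subgroup.centralizer (B : Set X) : Subgroup X) : Set X) := by
    intro B hB
    refine le_normalizer_inf hAG ?_
    intro a ha
    rw [mem_normalizer_iff]
    have key : ∀ a ∈ A, ∀ x, x ∈ centralizer (B : Set X) → a * x * a⁻¹ ∈ centralizer (B : Set X) := by
      intro a ha x hx
      rw [mem_centralizer_iff] at hx ⊢
      intro b hb
      have hab := hA a ha b (hB hb)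
      have hx' := hx b hb
      calc b * (a * x * a⁻¹) = (b * a) * x * a⁻¹ := by group
        _ = a * (b * x) * a⁻¹ := by rw [← hab]; group
        _ = a * (x * b) * a⁻¹ := by rw [hx']
        _ = a * x * a⁻¹ * (a * b) * a⁻¹ := by group
        _ = a * x * a⁻¹ * (b * a) * a⁻¹ := by rw [hab]
        _ = _ := by group
    intro x
    constructor
    · exact key a ha x
    · intro h
      have := key a⁻¹ (A.inv_mem ha) _ h
      have e : a⁻¹ * (a * x * a⁻¹) * a⁻¹⁻¹ = x := by group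
      rwa [e] at this
  have hsplit : ∀ B ∈ {B : Subgroup X | B ≤ A ∧ ∃ a ∈ A, B ⊔ Subgroup.zpowers a = A}, G ⊓ centralizer (B : Set X) ≤ H ⊔ C := by
    intro B hB
    have hact : CopAct A (G ⊓ centralizer (B : Set X)) :=
      ⟨hCB B hB.1, hcop.coprime_dvd_right (card_dvd_of_le inf_le_left), Or.inl (Group.isSolvable_of_comm hAab.is_comm.comm)⟩
    rw [← hact.commutator_sup]
    refine sup_le_sup ?_ ?_
    · exact le_iSup₂ (f := fun B (_ : B ∈ {B : Subgroup X | B ≤ A ∧ ∃ a ∈ A, B ⊔ Subgroup.zpowers a = A}) => ⁅G ⊓ Subgroup.centralizer (B : Set X), A⁆) B hB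
    · exact inf_le_inf_right _ inf_le_left
  have hG : G ≤ H ⊔ C := by
    rw [← h1]; exact iSup₂_le hsplit
  -- A and C normalize H
  have hnorm : ∀ x : X, (∀ B ∈ {B : Subgroup X | B ≤ A ∧ ∃ a ∈ A, B ⊔ Subgroup.zpowers a = A}, MulAut.conj x • (G ⊓ centralizer (B : Set X)) = G ⊓ centralizer (B : Set X)) →
      MulAut.conj x • A = A → MulAut.conj x • H = H := by
    intro x hx hxA
    rw [hH, ← CfsgLib.SZ.map_conj_eq, Subgroup.map_iSup]
    refine iSup_congr (fun B => ?_)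
    rw [Subgroup.map_iSup]
    refine iSup_congr (fun hB => ?_)
    rw [CfsgLib.SZ.map_conj_eq]
    have : MulAut.conj x • ⁅G ⊓ centralizer (B : Set X), A⁆ = ⁅MulAut.conj x • (G ⊓ centralizer (B : Set X)), MulAut.conj x • A⁆ := map_commutator _ _ _
    rw [this, hx B hB, hxA]
  have hAH : A ≤ normalizer (H : Set X) := by
    intro a ha
    rw [CfsgLib.H3Misc.mem_normalizer_iff_smul]
    refine hnorm a (fun B hB => CfsgLib.H3Misc.mem_normalizer_iff_smul.1 (hCB B hB.1 ha)) (CfsgLib.H3Misc.mem_normalizer_iff_smul.1 (le_normalizer ha))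
  have hCH : C ≤ normalizer (H : Set X) := by
    intro c hc
    obtain ⟨hc1, hc2⟩ := mem_inf.1 hc
    rw [CfsgLib.H3Misc.mem_normalizer_iff_smul]
    refine hnorm c (fun B hB => CfsgLib.H3Misc.mem_normalizer_iff_smul.1 (le_normalizer (mem_inf.2 ⟨hc1, ?_⟩))) (CfsgLib.H3Misc.mem_normalizer_iff_smul.1 (centralizer_le_normalizer _ hc2))
    exact centralizer_le hB.1 hc2
  rw [commutator_le]
  intro g hg a ha
  have hg2 := hG hg
  obtain ⟨h, hh, c, hc, rfl⟩ := (mem_sup_iff hCH g).1 hg2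
  have hca : a * c = c * a := mem_centralizer_iff.1 (mem_inf.1 hc).2 a ha
  have e : ⁅h * c, a⁆ = h * (a * h⁻¹ * a⁻¹) := by
    rw [commutatorElement_def]
    calc h * c * a * (h * c)⁻¹ * a⁻¹ = h * (c * a) * c⁻¹ * h⁻¹ * a⁻¹ := by group
      _ = h * (a * c) * c⁻¹ * h⁻¹ * a⁻¹ := by rw [hca]
      _ = _ := by group
  rw [e]
  exact H.mul_mem hh ((mem_normalizer_iff.1 (hAH ha) _).1 (H.inv_mem hh))

end Cfsg.Agent.S3734
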