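import Cfsg.Statements.S3735
import Mathlib
import Cfsg.Agent.Lib.H7Basic
import Cfsg.Agent.Lib.Coprime

set_option autoImplicit false
open Cfsg

namespace Cfsg.Agent.S3735

/-- Clifford's Theorem for actions on finite abelian groups, first part. Let H and V be subgroups of a finite group with V abelian and H normalizing V, and let A be a normal subgroup of H. If every H-invariant subgroup of V has an H-invariant complement in V, then every A-invariant subgroup of V has an A-invariant complement in V. -/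
theorem result {G : Type*} [Group G] [Finite G] (H A V : Subgroup G) (hVab : IsMulCommutative V) (hHV : H ≤ Subgroup.normalizer (V : Set G)) (hAH : A ≤ H) (hAn : H ≤ Subgroup.normalizer (A : Set G)) (hss : ∀ U : Subgroup G, U ≤ V → H ≤ Subgroup.normalizer (U : Set G) → ∃ W : Subgroup G, W ≤ V ∧ H ≤ Subgroup.normalizer (W : Set G) ∧ U ⊓ W = ⊥ ∧ U ⊔ W = V) (U : Subgroup G) (hUV : U ≤ V) (hAU : A ≤ Subgroup.normalizer (U : Set G)) : ∃ W : Subgroup G, W ≤ V ∧ A ≤ Subgroup.normalizer (W : Set G) ∧ U ⊓ W = ⊥ ∧ U ⊔ W = V := by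
  open Subgroup CfsgLib.H7Basic in
  classical
  let Min : Subgroup G → Prop := fun T => T ≤ V ∧ T ≠ ⊥ ∧ A ≤ normalizer (T : Set G) ∧ ∀ T' : Subgroup G, T' ≤ T → T' ≠ ⊥ → A ≤ normalizer (T' : Set G) → T' = T
  have hex : ∀ W : Subgroup G, W ≤ V → W ≠ ⊥ → A ≤ normalizer (W : Set G) → ∃ T, Min T ∧ T ≤ W := by
    intro W hWV hW hAW
    obtain ⟨T, hT, hmin⟩ := Set.Finite.exists_minimal (s := {T : Subgroup G | T ≤ W ∧ T ≠ ⊥ ∧ A ≤ normalizer (T : Set G)}) (Set.toFinite _) ⟨W, le_rfl, hW, hAW⟩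
    refine ⟨T, ⟨hT.1.trans hWV, hT.2.1, hT.2.2, ?_⟩, hT.1⟩
    intro T' h1 h2 h3
    exact le_antisymm h1 (hmin ⟨h1.trans hT.1, h2, h3⟩ h1)
  have hcomm : ∀ x ∈ V, ∀ y ∈ V, x * y = y * x := fun x hx y hy => congrArg Subtype.val (hVab.is_comm.comm ⟨x, hx⟩ ⟨y, hy⟩)
  have hnorm : ∀ X Y : Subgroup G, X ≤ V → Y ≤ V → X ≤ normalizer (Y : Set G) := by
    intro X Y hX hY x hx
    apply mem_normalizer_of_conj_mem
    intro y hy
    rw [hcomm x (hX hx) y (hY hy), mul_assoc, mul_inv_cancel, mul_one]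
    exact hy
  set S : Subgroup G := sSup {T | Min T} with hS
  have hSV : S ≤ V := sSup_le (fun T hT => hT.1)
  have hHS : H ≤ normalizer (S : Set G) := by
    intro h hh
    apply mem_normalizer_of_cj_le
    rw [Subgroup.map_le_iff_le_comap]
    apply sSup_le
    intro T hT
    rw [← Subgroup.map_le_iff_le_comap]
    apply le_sSup
    refine ⟨?_, ?_, ?_, ?_⟩
    · rw [← cj_eq_self_iff.2 (hHV hh)]; exact cj_le_cj.2 hT.1
    · intro h0; exact hT.2.1 (cj_eq_bot.1 h0)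
    · rw [← cj_normalizer, ← cj_eq_self_iff.2 (hAn hh)]
      exact cj_le_cj.2 hT.2.2.1
    · intro T' h1 h2 h3
      have h4 : T'.map (MulAut.conj h⁻¹).toMonoidHom = T := by
        apply hT.2.2.2
        · rw [cj_le_iff, inv_inv]; exact h1
        · intro h0; exact h2 (cj_eq_bot.1 h0)
        · have h5 : h⁻¹ ∈ normalizer (A : Set G) := hAn (H.inv_mem hh)
          rw [← cj_normalizer, ← cj_eq_self_iff.2 h5]
          exact cj_le_cj.2 h3
      rw [← h4, cj_cj, mul_inv_cancel, cj_one]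
  obtain ⟨W, hWV, hHW, hSW, hSWV⟩ := hss S hSV hHS
  have hWbot : W = ⊥ := by
    by_contra hW
    obtain ⟨T, hT, hTW⟩ := hex W hWV hW (hAH.trans hHW)
    apply hT.2.1
    rw [eq_bot_iff, ← hSW]
    exact le_inf (le_sSup hT) hTW
  have hSeq : S = V := by rw [← hSWV, hWbot, sup_bot_eq]
  obtain ⟨W', hW', hmax⟩ := Set.Finite.exists_maximal (s := {W : Subgroup G | W ≤ V ∧ A ≤ normalizer (W : Set G) ∧ U ⊓ W = ⊥}) (Set.toFinite _) ⟨⊥, bot_le, by
    intro a _
    rw [mem_normalizer_iff]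
    intro h
    rw [mem_bot, mem_bot, mul_inv_eq_one, mul_eq_left], inf_bot_eq _⟩
  refine ⟨W', hW'.1, hW'.2.1, hW'.2.2, ?_⟩
  apply le_antisymm (sup_le hUV hW'.1)
  rw [← hSeq]
  apply sSup_le
  intro T hT
  by_contra hTn
  have hAUW : A ≤ normalizer ((U ⊔ W' : Subgroup G) : Set G) := by
    intro a ha
    apply mem_normalizer_of_cj_le
    rw [cj_sup, cj_eq_self_iff.2 (hAU ha), cj_eq_self_iff.2 (hW'.2.1 ha)]
  have h1 : T ⊓ (U ⊔ W') = ⊥ := by
    by_contra h2
    have h3 := hT.2.2.2 (T ⊓ (U ⊔ W')) inf_le_left h2 (by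
      intro a ha
      apply mem_normalizer_of_cj_le
      rw [cj_inf, cj_eq_self_iff.2 (hT.2.2.1 ha), cj_eq_self_iff.2 (hAUW ha)])
    exact hTn (by rw [← h3]; exact inf_le_right)
  have h2 : W' ⊔ T ≤ W' := by
    apply hmax
    · refine ⟨sup_le hW'.1 hT.1, ?_, ?_⟩
      · intro a ha
        apply mem_normalizer_of_cj_le
        rw [cj_sup, cj_eq_self_iff.2 (hW'.2.1 ha), cj_eq_self_iff.2 (hT.2.2.1 ha)]
      · rw [eq_bot_iff]
        intro x hx
        obtain ⟨hxU, hxWT⟩ := mem_inf.1 hx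
        obtain ⟨w, hw, t, ht, rfl⟩ := (CfsgLib.Coprime.mem_sup_iff (hnorm T W' hT.1 hW'.1) x).1 hxWT
        have h3 : t ∈ T ⊓ (U ⊔ W') := by
          refine mem_inf.2 ⟨ht, ?_⟩
          have : t = w⁻¹ * (w * t) := by group
          rw [this]
          exact mul_mem (mem_sup_right (inv_mem hw)) (mem_sup_left hxU)
        rw [h1, mem_bot] at h3
        rw [h3, mul_one] at hxU ⊢
        rw [← hW'.2.2]
        exact mem_inf.2 ⟨hxU, hw⟩
    · exact le_sup_left
  exact hTn ((le_sup_right.trans h2).trans le_sup_right)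

end Cfsg.Agent.S3735
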