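import Cfsg.Statements.S3736
import Mathlib
import Cfsg.Agent.Lib.H3CopHall
import Cfsg.Agent.Lib.Coprime2
import Cfsg.Agent.Lib.PG4
import Cfsg.Agent.Lib.PG2
import Cfsg.Agent.Lib.H3ZAct
import Cfsg.Agent.Lib.PGrp

set_option autoImplicit false
open Cfsg

open scoped Pointwise
open scoped commutatorElement
namespace Cfsg.Agent.S3736

open Subgroup CfsgLib.H3CopHall CfsgLib.Coprime
open scoped Pointwise commutatorElement


/-- The Hall–Higman reduction for a minimal non-trivial action. Let B, A and P be subgroups of a finite group with P a p-group, B normalizing P, and A a normal subgroup of B of order prime to p. Suppose A does not centralize P but centralizes every proper B-invariant subgroup of P. Then [P, A] = P; P is elementary abelian or special; B acts irreducibly on P/Φ(P), that is, the only B-invariant subgroups of P containing Φ(P) are Φ(P) and P; and if p is odd then every element of P has order dividing p. -/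
theorem result {X : Type*} [Group X] [Finite X] {p : ℕ} [Fact p.Prime] (B A P : Subgroup X) (hP : IsPGroup p P) (hBP : B ≤ Subgroup.normalizer (P : Set X)) (hAB : A ≤ B) (hAn : B ≤ Subgroup.normalizer (A : Set X)) (hAp : (Nat.card A).Coprime p) (hnt : ⁅P, A⁆ ≠ ⊥) (hmin : ∀ U : Subgroup X, U < P → B ≤ Subgroup.normalizer (U : Set X) → ⁅U, A⁆ = ⊥) : ⁅P, A⁆ = P ∧ (Cfsg.IsElementaryAbelian p P ∨ Cfsg.IsSpecial p ↥P) ∧ (∀ U : Subgroup X, (frattini ↥P).map P.subtype ≤ U → U ≤ P → B ≤ Subgroup.normalizer (U : Set X) → U = (frattini ↥P).map P.subtype ∨ U = P) ∧ (p ≠ 2 → ∀ x ∈ P, x ^ p = 1) := by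
  classical
  have hp : p.Prime := Fact.out
  have hAP : A ≤ normalizer (P : Set X) := hAB.trans hBP
  obtain ⟨n, hn⟩ := IsPGroup.iff_card.1 hP
  have hcop : (Nat.card A).Coprime (Nat.card P) := by rw [hn]; exact Nat.Coprime.pow_right _ hAp
  have hPnil : Group.IsNilpotent P := hP.isNilpotent
  have hact : CopAct A P := ⟨hAP, hcop, Or.inr inferInstance⟩
  have hBcomm : B ≤ normalizer ((⁅P, A⁆ : Subgroup X) : Set X) := by
    intro b hb
    rw [CfsgLib.H3Misc.mem_normalizer_iff_smul]
    have : MulAut.conj b • ⁅P, A⁆ = ⁅MulAut.conj b • P, MulAut.conj b • A⁆ := map_commutator _ _ _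
    rw [this, CfsgLib.H3Misc.mem_normalizer_iff_smul.1 (hBP hb), CfsgLib.H3Misc.mem_normalizer_iff_smul.1 (hAn hb)]
  have h1 : ⁅P, A⁆ = P := by
    by_contra hne
    have h2 := hmin ⁅P, A⁆ (lt_of_le_of_ne (commutator_le_of_le_normalizer hAP) hne) hBcomm
    rw [hact.commutator_commutator] at h2
    exact hnt h2
  have hfix : ∀ U : Subgroup X, U < P → B ≤ normalizer (U : Set X) → ∀ a ∈ A, ∀ u ∈ U, a * u = u * a := by
    intro U hU hBU a ha u hu
    have h2 := commutator_eq_bot_iff_le_centralizer.1 (hmin U hU hBU)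
    exact (mem_centralizer_iff.1 (h2 hu) a ha)
  have hBchar : ∀ D : Subgroup P, D.Characteristic → B ≤ normalizer ((D.map P.subtype : Subgroup X) : Set X) := by
    intro D hD
    exact hBP.trans (CfsgLib.H3ZAct.normalizer_le_of_char D)
  have hnotcent : ¬ A ≤ centralizer (P : Set X) := by
    intro h2
    apply hnt
    rw [commutator_eq_bot_iff_le_centralizer]
    intro x hx
    rw [mem_centralizer_iff]
    intro a ha
    exact (mem_centralizer_iff.1 (h2 ha) x hx).symm
  have hlt : ∀ D : Subgroup P, D ≠ ⊤ → D.map P.subtype < P := by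
    intro D hD
    refine lt_of_le_of_ne (map_subtype_le D) ?_
    intro h2
    apply hD
    apply Subgroup.map_injective P.subtype_injective
    rw [h2, ← MonoidHom.range_eq_map, range_subtype]
  have hfr : (frattini P).map P.subtype = (frattini P).map P.subtype := rfl
  refine ⟨h1, ?_⟩
  by_cases hPab : IsMulCommutative P
  · have hexp : ∀ x ∈ P, x ^ p = 1 := by
      -- the subgroup of elements of order dividing p
      let D : Subgroup P := {
        carrier := {x | x ^ p = 1}
        mul_mem' := by
          intro a b ha hb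
          have : a * b = b * a := hPab.is_comm.comm a b
          show (a * b) ^ p = 1
          rw [(show Commute a b from this).mul_pow, ha, hb, one_mul]
        one_mem' := one_pow _
        inv_mem' := by
          intro a ha
          show a⁻¹ ^ p = 1
          rw [inv_pow, ha, inv_one] }
      have hDc : D.Characteristic := by
        rw [characteristic_iff_map_le]
        rintro φ _ ⟨x, hx, rfl⟩
        show (φ x) ^ p = 1
        rw [← map_pow, hx, map_one]
      by_cases hD : D = ⊤
      · intro x hx
        have : (⟨x, hx⟩ : P) ∈ D := by rw [hD]; trivial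
        exact congrArg Subtype.val this
      · exfalso
        apply hnotcent
        refine le_centralizer_of_abelian_prime hPab hAP hcop ?_
        intro v hv hvp a ha
        have h3 : orderOf v = p := by
          obtain ⟨k, hk⟩ := IsPGroup.iff_orderOf.1 hP ⟨v, hv⟩
          rw [Subgroup.orderOf_mk] at hk
          rw [hk] at hvp
          have hk1 := (Nat.Prime.eq_one_of_pow hvp)
          rw [hk, hk1, pow_one]
        refine hfix _ (hlt D hD) (hBchar D hDc) a ha v ⟨⟨v, hv⟩, ?_, rfl⟩
        show (⟨v, hv⟩ : P) ^ p = 1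
        apply Subtype.ext
        show v ^ p = 1
        rw [← h3, pow_orderOf_eq_one]
    refine ⟨Or.inl ⟨hPab, hexp⟩, ?_, fun _ => hexp⟩
    intro U hU1 hU2 hU3
    by_cases hUP : U = P
    · exact Or.inr hUP
    · left
      have h2 := inf_commutator_eq_bot_of_abelian hPab hAP hcop
      rw [h1] at h2
      have h3 : U ≤ (P ⊓ centralizer (A : Set X)) ⊓ P := by
        refine le_inf (le_inf hU2 ?_) hU2
        intro u hu
        rw [mem_centralizer_iff]
        intro a ha
        exact hfix U (lt_of_le_of_ne hU2 hUP) hU3 a ha u hu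
      rw [h2, le_bot_iff] at h3
      apply le_antisymm _ hU1
      rw [h3]; exact bot_le
  · -- the special case
    set N := normalizer (P : Set X) with hN
    set A' : Subgroup (MulAut P) := (A.subgroupOf N).map P.normalizerMonoidHom with hA'
    have hA'c : Nat.Coprime (Nat.card A') p := by
      refine hAp.coprime_dvd_left ?_
      rw [← CfsgLib.SZ.card_subgroupOf hAP]
      exact card_map_dvd _ P.normalizerMonoidHom
    have hA'mem : ∀ a ∈ A, ∃ a' ∈ A', ∀ x : P, ((a' x : P) : X) = a * x * a⁻¹ := by
      intro a ha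
      exact ⟨P.normalizerMonoidHom ⟨a, hAP ha⟩, ⟨⟨a, hAP ha⟩, ha, rfl⟩, fun x => rfl⟩
    have hA'mem2 : ∀ a' ∈ A', ∃ a ∈ A, ∀ x : P, ((a' x : P) : X) = a * x * a⁻¹ := by
      rintro _ ⟨⟨a, haN⟩, ha, rfl⟩
      exact ⟨a, ha, fun x => rfl⟩
    have hgen : Subgroup.closure {x : P | ∃ g : P, ∃ a ∈ A', x = g⁻¹ * a g} = ⊤ := by
      rw [eq_top_iff]
      have h2 : ⁅P, A⁆ ≤ (Subgroup.closure {x : P | ∃ g : P, ∃ a ∈ A', x = g⁻¹ * a g}).map P.subtype := by
        rw [commutator_le]
        intro g hg a ha
        obtain ⟨a', ha', h3⟩ := hA'mem a ha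
        refine ⟨(⟨g, hg⟩ : P) * a' (⟨g, hg⟩ : P)⁻¹, ?_, ?_⟩
        · apply Subgroup.subset_closure
          exact ⟨(⟨g, hg⟩ : P)⁻¹, a', ha', by rw [inv_inv]⟩
        · show g * ((a' (⟨g, hg⟩ : P)⁻¹ : P) : X) = _
          rw [h3, commutatorElement_def]
          show g * (a * g⁻¹ * a⁻¹) = _
          group
      rw [h1] at h2
      intro x _
      obtain ⟨y, hy, hyx⟩ := h2 x.2
      have : y = x := Subtype.ext hyx
      rw [← this]; exact hy
    have hchar : ∀ H : Subgroup P, H.Characteristic → IsMulCommutative H → ∀ a ∈ A', ∀ h ∈ H, a h = h := by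
      intro H hH hHc a' ha' h hh
      obtain ⟨a, ha, h3⟩ := hA'mem2 a' ha'
      have hne : H ≠ ⊤ := by
        rintro rfl
        apply hPab
        refine ⟨⟨fun x y => ?_⟩⟩
        exact congrArg Subtype.val (hHc.is_comm.comm ⟨x, mem_top x⟩ ⟨y, mem_top y⟩)
      have h4 := hfix _ (hlt H hne) (hBchar H hH) a ha h ⟨h, hh, rfl⟩
      apply Subtype.ext
      rw [h3, h4, mul_inv_cancel_right]
    obtain ⟨hsp, hcen⟩ := CfsgLib.PG4.aut_special hP A' hA'c hgen hchar
    refine ⟨Or.inr hsp, ?_, ?_⟩
    · intro U hU1 hU2 hU3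
      by_cases hUP : U = P
      · exact Or.inr hUP
      · left
        apply le_antisymm _ hU1
        intro u hu
        refine ⟨⟨u, hU2 hu⟩, ?_, rfl⟩
        rw [SetLike.mem_coe, hsp.2.1, hcen]
        intro a' ha'
        obtain ⟨a, ha, h3⟩ := hA'mem2 a' ha'
        apply Subtype.ext
        rw [h3]
        show a * u * a⁻¹ = u
        rw [hfix U (lt_of_le_of_ne hU2 hUP) hU3 a ha u hu, mul_inv_cancel_right]
    · intro hp2
      have hcomm : ∀ u v : P, v * u * v⁻¹ * u⁻¹ ∈ center P := by
        intro u v
        rw [← hsp.2.2]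
        have := commutator_mem_commutator (G := P) (H₁ := ⊤) (H₂ := ⊤) (mem_top v) (mem_top u)
        rw [commutatorElement_def] at this
        exact this
      have hcm : ∀ u v w : P, Commute (v * u * v⁻¹ * u⁻¹) w := fun u v w => (mem_center_iff.1 (hcomm u v) w).symm
      let D : Subgroup P := {
        carrier := {x | x ^ p = 1}
        mul_mem' := by
          intro u v hu hv
          show (u * v) ^ p = 1
          rw [CfsgLib.PGrp.mul_pow_prime_of_class_two hp2 (hcm u v u) (hcm u v v) ?_, hu, hv, one_mul]
          have hz : ∀ k : ℕ, v ^ k * u * (v ^ k)⁻¹ = (v * u * v⁻¹ * u⁻¹) ^ k * u := by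
            intro k
            induction k with
            | zero => simp
            | succ k ih =>
              have e : v ^ (k + 1) * u * (v ^ (k + 1))⁻¹ = v * (v ^ k * u * (v ^ k)⁻¹) * v⁻¹ := by
                rw [pow_succ']; simp only [mul_inv_rev]; group
              rw [e, ih]
              have e2 := ((hcm u v v).pow_left k).eq
              calc v * ((v * u * v⁻¹ * u⁻¹) ^ k * u) * v⁻¹ = (v * (v * u * v⁻¹ * u⁻¹) ^ k) * u * v⁻¹ := by group
                _ = (v * u * v⁻¹ * u⁻¹) ^ k * (v * u * v⁻¹ * u⁻¹) * u := by rw [← e2]; group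
                _ = _ := by rw [← pow_succ]
          have h2 := hz p
          have hv' : v ^ p = 1 := hv
          rw [hv', one_mul, inv_one, mul_one] at h2
          exact (mul_eq_right.1 h2.symm)
        one_mem' := one_pow _
        inv_mem' := by
          intro a ha
          show a⁻¹ ^ p = 1
          rw [inv_pow, ha, inv_one] }
      have hDc : D.Characteristic := by
        rw [characteristic_iff_map_le]
        rintro φ _ ⟨x, hx, rfl⟩
        show (φ x) ^ p = 1
        rw [← map_pow, hx, map_one]
      by_cases hD : D = ⊤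
      · intro x hx
        have : (⟨x, hx⟩ : P) ∈ D := by rw [hD]; trivial
        exact congrArg Subtype.val this
      · exfalso
        apply hnotcent
        intro a ha
        obtain ⟨a', ha', h3⟩ := hA'mem a ha
        have h4 : a' = 1 := by
          refine CfsgLib.PG2.aut_eq_one_of_trivial_on_omega hp2 hP a' ?_ ?_
          · refine hA'c.coprime_dvd_left ?_
            rw [← Subgroup.orderOf_mk a' ha']; exact orderOf_dvd_natCard _
          · intro x hx
            apply Subtype.ext
            rw [h3, hfix _ (hlt D hD) (hBchar D hDc) a ha x ⟨x, hx, rfl⟩, mul_inv_cancel_right]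
        rw [mem_centralizer_iff]
        intro x hx
        have h5 := h3 ⟨x, hx⟩
        rw [h4] at h5
        have h6 : x = a * x * a⁻¹ := h5
        rw [eq_mul_inv_iff_mul_eq] at h6
        exact h6

end Cfsg.Agent.S3736
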