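import Cfsg.Statements.S3737
import Mathlib
import Cfsg.Agent.Lib.H3Baer
import Cfsg.Agent.Lib.PG2
import Cfsg.Agent.Lib.H3ZAct

set_option autoImplicit false
open Cfsg

open scoped commutatorElement
set_option linter.style.haveILetI false
namespace Cfsg.Agent.S3737

open Subgroup CfsgLib.H3Baer
open scoped commutatorElement


/-- Thompson's strengthening of the P × Q lemma for odd primes. Let p be an odd prime and let P, Q and G be subgroups of a finite group with P a p-group, Q of order prime to p and normalized by P, and G a p-group normalized by both P and Q. If every element of G centralized by P is centralized by Q, then Q centralizes G. -/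
theorem result {X : Type*} [Group X] [Finite X] {p : ℕ} [Fact p.Prime] (hp : p ≠ 2) (P Q G : Subgroup X) (hP : IsPGroup p P) (hQ : (Nat.card Q).Coprime p) (hPQ : P ≤ Subgroup.normalizer (Q : Set X)) (hG : IsPGroup p G) (hPG : P ≤ Subgroup.normalizer (G : Set X)) (hQG : Q ≤ Subgroup.normalizer (G : Set X)) (hC : G ⊓ Subgroup.centralizer (P : Set X) ≤ Subgroup.centralizer (Q : Set X)) : Q ≤ Subgroup.centralizer (G : Set X) := by
  classical
  obtain ⟨H, hHc, h1, h2, h3⟩ := CfsgLib.PG2.exists_critical hG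
  haveI := hHc
  haveI hHn : H.Normal := inferInstance
  set H' : Subgroup X := H.map G.subtype with hH'
  have hNH : normalizer (G : Set X) ≤ normalizer (H' : Set X) := CfsgLib.H3ZAct.normalizer_le_of_char H
  have hPH : P ≤ normalizer (H' : Set X) := hPG.trans hNH
  have hQH : Q ≤ normalizer (H' : Set X) := hQG.trans hNH
  have hH'p : IsPGroup p H' := (hG.to_subgroup H).map _
  have hc : ∀ x y z : H', Commute (kom x y) z := by
    rintro ⟨_, ⟨x, hx, rfl⟩⟩ ⟨_, ⟨y, hy, rfl⟩⟩ ⟨_, ⟨z, hz, rfl⟩⟩
    have h4 : ⁅y, x⁆ ∈ ⁅H, (⊤ : Subgroup G)⁆ := commutator_mem_commutator hy (mem_top x)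
    have h5 := mem_centralizer_iff.1 (mem_inf.1 (h2 h4)).2 z hz
    apply Subtype.ext
    have h6 := congrArg Subtype.val h5
    rw [commutatorElement_def] at h6
    exact h6.symm
  have hcent : ∀ q ∈ Q, ∀ v ∈ H', q * v * q⁻¹ = v := by
    have h := avg_class_two (P := P) (Q := Q) hp hH'p hc hP hQ (H'.normalizerMonoidHom.comp (inclusion hPH)) (H'.normalizerMonoidHom.comp (inclusion hQH))
      (fun g => (Q.normalizerMonoidHom ⟨g, hPQ g.2⟩).toEquiv) ?_ ?_
    · intro q hq v hv
      exact congrArg Subtype.val (h ⟨q, hq⟩ ⟨v, hv⟩)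
    · intro g q v
      apply Subtype.ext
      show (g : X) * (q * v * (q : X)⁻¹) * (g : X)⁻¹ = ((g : X) * q * (g : X)⁻¹) * ((g : X) * v * (g : X)⁻¹) * ((g : X) * q * (g : X)⁻¹)⁻¹
      group
    · intro v hv q
      apply Subtype.ext
      show (q : X) * v * (q : X)⁻¹ = v
      have hvG : (v : X) ∈ G := map_subtype_le H v.2
      have h4 : (v : X) ∈ centralizer (P : Set X) := by
        rw [mem_centralizer_iff]
        intro g hg
        have h5 : g * (v : X) * g⁻¹ = v := congrArg Subtype.val (hv ⟨g, hg⟩)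
        rw [mul_inv_eq_iff_eq_mul] at h5
        exact h5
      have h5 := mem_centralizer_iff.1 (hC (mem_inf.2 ⟨hvG, h4⟩)) q q.2
      rw [h5, mul_inv_cancel_right]
  intro q hq
  have h4 : G.normalizerMonoidHom ⟨q, hQG hq⟩ = 1 := by
    refine CfsgLib.PG2.aut_eq_one_of_trivial_on hG H h3 _ ?_ ?_
    · have h5 : orderOf (G.normalizerMonoidHom ⟨q, hQG hq⟩) ∣ orderOf (⟨q, hQG hq⟩ : normalizer (G : Set X)) := orderOf_map_dvd _ _
      rw [Subgroup.orderOf_mk] at h5
      have h6 : orderOf q ∣ Nat.card Q := by rw [← Subgroup.orderOf_mk q hq]; exact orderOf_dvd_natCard _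
      exact hQ.coprime_dvd_left (h5.trans h6)
    · intro x hx
      apply Subtype.ext
      exact hcent q hq x ⟨x, hx, rfl⟩
  rw [mem_centralizer_iff]
  intro x hx
  have h5 := congrArg (fun f : MulAut G => ((f ⟨x, hx⟩ : G) : X)) h4
  have h6 : q * x * q⁻¹ = x := h5
  rw [mul_inv_eq_iff_eq_mul] at h6
  exact h6.symm

end Cfsg.Agent.S3737
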