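import Cfsg.Statements.S3741
import Mathlib
import Cfsg.Agent.Lib.PGrp

set_option autoImplicit false
open Cfsg

namespace Cfsg.Agent.S3741

open CfsgLib.PGrp Subgroup in
theorem cen {G : Type*} [Group G] [Finite G] {p : ℕ} [hp : Fact p.Prime] (hG : IsPGroup p G) {Z A : Subgroup G}
    (hZA : Z ≤ A) (hZ : Nat.card Z = p) (hn : ∀ z ∈ Z, ∀ a ∈ A, a * z * a⁻¹ ∈ Z) : ∀ z ∈ Z, ∀ a ∈ A, z * a = a * z := by
  have h1 : (Z.subgroupOf A).Normal := by
    constructor
    intro z hz a
    rw [mem_subgroupOf] at hz ⊢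
    exact hn z hz a a.2
  have h2 : Nat.card (Z.subgroupOf A) = p := by
    rw [← hZ]; exact Nat.card_congr (subgroupOfEquivOfLe hZA).toEquiv
  have h3 := le_center_of_card_eq_prime (hG.to_subgroup A) h1 h2
  intro z hz a ha
  have h4 : (⟨z, hZA hz⟩ : A) ∈ Z.subgroupOf A := hz
  exact (congrArg Subtype.val (mem_center_iff.1 (h3 h4) ⟨a, ha⟩)).symm


/-- Let A and B be subgroups of a finite p-group with [A, B] ≤ A ∩ B and [A, B] of order at most p. Then |A : C_A(B)| = |B : C_B(A)|. -/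
theorem result {G : Type*} [Group G] [Finite G] {p : ℕ} [Fact p.Prime] (hG : IsPGroup p G) (A B : Subgroup G) (hAB : ⁅A, B⁆ ≤ A ⊓ B) (hcard : Nat.card ↥⁅A, B⁆ ≤ p) : (A ⊓ Subgroup.centralizer (B : Set G)).relIndex A = (B ⊓ Subgroup.centralizer (A : Set G)).relIndex B := by
  rw [Subgroup.inf_relIndex_left, Subgroup.inf_relIndex_left]
  have hZA : ⁅A, B⁆ ≤ A := hAB.trans inf_le_left
  have hZB : ⁅A, B⁆ ≤ B := hAB.trans inf_le_right
  obtain ⟨k, hk⟩ := IsPGroup.iff_card.1 (hG.to_subgroup ⁅A, B⁆)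
  have hp := (Fact.out : p.Prime)
  have hk1 : k ≤ 1 := by
    rw [hk] at hcard
    by_contra hlt
    have h9 : p ^ 1 < p ^ k := Nat.pow_lt_pow_right hp.one_lt (by omega)
    rw [pow_one] at h9
    omega
  rcases Nat.lt_or_ge k 1 with h0 | h1
  · have h0 : k = 0 := by omega
    rw [h0, pow_zero, Subgroup.card_eq_one] at hk
    have h1 : A ≤ Subgroup.centralizer (B : Set G) := Subgroup.commutator_eq_bot_iff_le_centralizer.1 hk
    have h2 : B ≤ Subgroup.centralizer (A : Set G) := by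
      rw [Subgroup.commutator_comm] at hk
      exact Subgroup.commutator_eq_bot_iff_le_centralizer.1 hk
    rw [Subgroup.relIndex_eq_one.2 h1, Subgroup.relIndex_eq_one.2 h2]
  · have hk' : k = 1 := by omega
    rw [hk', pow_one] at hk
    have hA : ∀ z ∈ ⁅A, B⁆, ∀ a ∈ A, z * a = a * z := by
      apply cen hG hZA hk
      intro z hz a ha
      have : a * z * a⁻¹ = (a * z * a⁻¹ * z⁻¹) * z := by group
      rw [this]
      exact mul_mem (Subgroup.commutator_mem_commutator ha (hZB hz)) hz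
    have hB : ∀ z ∈ ⁅A, B⁆, ∀ a ∈ B, z * a = a * z := by
      apply cen hG hZB hk
      intro z hz a ha
      have : a * z * a⁻¹ = (z * a * z⁻¹ * a⁻¹)⁻¹ * z := by group
      rw [this]
      exact mul_mem (inv_mem (Subgroup.commutator_mem_commutator (hZA hz) ha)) hz
    exact CfsgLib.PGrp.relIndex_centralizer_eq hA hB hk (fun z hz w hw => hA z hz w (hZA hw))

end Cfsg.Agent.S3741
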