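import Cfsg.Statements.S3745
import Mathlib
import Cfsg.Agent.Lib.H3CopHall

set_option autoImplicit false
open Cfsg

namespace Cfsg.Agent.S3745

open Subgroup CfsgLib.H3CopHall CfsgLib.Coprime
open scoped Pointwise
universe u

theorem hall_iff {X : Type u} [Group X] [Finite X] {π : Set ℕ} {G : Subgroup X} {m k : ℕ} (hG : Nat.card G = m * k)
    (hm : ∀ p : ℕ, p.Prime → p ∣ m → p ∈ π) (hk : ∀ p : ℕ, p.Prime → p ∣ k → p ∉ π) (H : Subgroup X) :
    Cfsg.IsPiHallOf π H G ↔ H ≤ G ∧ Nat.card H = m := by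
  constructor
  · rintro ⟨h1, h2, h3⟩
    refine ⟨h1, ?_⟩
    have h4 : Nat.card H * H.relIndex G = m * k := by
      rw [← hG]; exact card_mul_relIndex h1
    have h5 : (Nat.card H).Coprime k := coprime_of_pi h2 hk
    have h6 : m.Coprime (H.relIndex G) := coprime_of_pi hm (fun p hp hpd hpπ => h3 p hp hpπ hpd)
    exact Nat.dvd_antisymm (h5.dvd_of_dvd_mul_right (Dvd.intro _ h4)) (h6.dvd_of_dvd_mul_right (Dvd.intro _ h4.symm))
  · rintro ⟨h1, h2⟩
    refine ⟨h1, by rw [h2]; exact hm, ?_⟩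
    have h4 : Nat.card H * H.relIndex G = m * k := by
      rw [← hG]; exact card_mul_relIndex h1
    have h5 : H.relIndex G = k := by
      rw [h2] at h4
      refine Nat.eq_of_mul_eq_mul_left ?_ h4
      rw [← h2]; exact Nat.card_pos
    rw [h5]
    exact fun p hp hpπ hpd => hk p hp hpd hpπ


/-- Coprime action on a solvable group and Hall subgroups. Let A and G be subgroups of a finite group with A normalizing G, the orders of A and G coprime, and G solvable, and let π be a set of primes. Then (a) G has an A-invariant Hall π-subgroup; (b) any two A-invariant Hall π-subgroups of G are conjugate by an element of C_G(A); (c) every A-invariant π-subgroup of G lies in an A-invariant Hall π-subgroup of G. -/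
theorem result {X : Type*} [Group X] [Finite X] (A G : Subgroup X) (hAG : A ≤ Subgroup.normalizer (G : Set X)) (hcop : (Nat.card A).Coprime (Nat.card G)) (hsolv : Group.IsSolvable G) (π : Set ℕ) : (∃ H : Subgroup X, Cfsg.IsPiHallOf π H G ∧ A ≤ Subgroup.normalizer (H : Set X)) ∧ (∀ H₁ H₂ : Subgroup X, Cfsg.IsPiHallOf π H₁ G → A ≤ Subgroup.normalizer (H₁ : Set X) → Cfsg.IsPiHallOf π H₂ G → A ≤ Subgroup.normalizer (H₂ : Set X) → ∃ c ∈ G ⊓ Subgroup.centralizer (A : Set X), H₂ = H₁.map (MulAut.conj c).toMonoidHom) ∧ (∀ U : Subgroup X, U ≤ G → A ≤ Subgroup.normalizer (U : Set X) → (∀ p : ℕ, p.Prime → p ∣ Nat.card U → p ∈ π) → ∃ H : Subgroup X, Cfsg.IsPiHallOf π H G ∧ A ≤ Subgroup.normalizer (H : Set X) ∧ U ≤ H) := by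
  obtain ⟨m, k, hmk, hm, hk⟩ := exists_pi_part π (Nat.card G) Nat.card_pos.ne'
  have hco : m.Coprime k := coprime_of_pi hm hk
  have hact : CopAct A G := ⟨hAG, hcop, Or.inr hsolv⟩
  simp only [hall_iff hmk hm hk]
  refine ⟨?_, ?_, ?_⟩
  · obtain ⟨H, h1, h2, h3⟩ := exists_inv hact hsolv hmk hco
    exact ⟨H, ⟨h1, h2⟩, h3⟩
  · rintro H₁ H₂ ⟨h1, h2⟩ h3 ⟨h4, h5⟩ h6
    obtain ⟨c, hc, hcc⟩ := conj_inv hact hsolv hmk hco h1 h2 h3 h4 h5 h6
    exact ⟨c, hc, hcc.symm⟩
  · intro U hU hUA hUp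
    obtain ⟨H, h1, h2, h3, h4⟩ := exists_ge hact hsolv hmk hco hU hUA (coprime_of_pi hUp hk)
    exact ⟨H, ⟨h1, h2⟩, h3, h4⟩

end Cfsg.Agent.S3745
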