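import Cfsg.Statements.S3747
import Mathlib
import Cfsg.Agent.Lib.Comp2

set_option autoImplicit false
open Cfsg

set_option linter.style.haveILetI false
namespace Cfsg.Agent.S3747

open Subgroup CfsgLib.Comp in
theorem part_a {G : Type*} [Group G] [Finite G] : (∀ K : Subgroup G, Cfsg.IsComponent K → Subgroup.center ↥K = ⊥ → (Subgroup.normalClosure (K : Set G) ≠ ⊥ ∧ ∀ N : Subgroup G, N.Normal → N ≤ Subgroup.normalClosure (K : Set G) → N = ⊥ ∨ N = Subgroup.normalClosure (K : Set G))) := by
  intro K hK hc
  constructor
  · intro h
    apply component_ne_bot hK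
    rw [eq_bot_iff, ← h]
    exact le_normalClosure
  · intro N hN hNM
    set S : Set (Subgroup G) := Set.range (fun g : G => K.map (MulAut.conj g).toMonoidHom) with hS
    have hSc : ∀ L ∈ S, Cfsg.IsComponent L := by
      rintro _ ⟨g, rfl⟩
      exact conj_component hK g
    have hSz : ∀ L ∈ S, center L = ⊥ := by
      rintro _ ⟨g, rfl⟩
      let e := equivMapOfInjective K (MulAut.conj g).toMonoidHom (MulAut.conj g).injective
      rw [eq_bot_iff]
      intro x hx
      have h1 : e.symm x ∈ center K := by
        rw [mem_center_iff] at hx ⊢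
        intro y
        apply e.injective
        rw [map_mul, map_mul, e.apply_symm_apply, hx]
      rw [hc, mem_bot] at h1
      rw [mem_bot, ← e.apply_symm_apply x, h1, map_one]
    have hM : normalClosure (K : Set G) = sSup S := by
      apply le_antisymm
      · haveI : (sSup S).Normal := by
          constructor
          intro x hx g
          have h1 : sSup S ≤ (sSup S).comap (MulAut.conj g).toMonoidHom := by
            apply sSup_le
            rintro _ ⟨h, rfl⟩
            rw [← map_le_iff_le_comap]
            apply le_sSup
            exact ⟨g * h, (CfsgLib.H7Basic.cj_cj g h K).symm⟩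
          exact h1 hx
        apply normalClosure_le_normal
        have : K ≤ sSup S := le_sSup ⟨1, CfsgLib.H7Basic.cj_one K⟩
        exact this
      · apply sSup_le
        rintro _ ⟨g, rfl⟩
        rintro _ ⟨k, hk, rfl⟩
        exact (inferInstance : (normalClosure (K : Set G)).Normal).conj_mem k (subset_normalClosure hk) g
    by_cases hKN : ∃ L ∈ S, L ≤ N
    · right
      obtain ⟨_, ⟨g, rfl⟩, hg⟩ := hKN
      apply le_antisymm hNM
      apply normalClosure_le_normal
      intro k hk
      have h1 : g * k * g⁻¹ ∈ N := hg ⟨k, hk, rfl⟩
      have h2 := hN.conj_mem _ h1 g⁻¹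
      have h3 : g⁻¹ * (g * k * g⁻¹) * g⁻¹⁻¹ = k := by group
      rwa [h3] at h2
    · left
      push Not at hKN
      have h1 : N ≤ centralizer ((sSup S : Subgroup G) : Set G) := by
        rw [← commutator_eq_bot_iff_le_centralizer, commutator_comm, commutator_eq_bot_iff_le_centralizer]
        apply sSup_le
        intro L hL
        rw [← commutator_eq_bot_iff_le_centralizer]
        exact (le_or_comm_normal (hSc L hL) N hN).resolve_left (hKN L hL)
      rw [eq_bot_iff, ← inf_centralizer_eq_bot S (Set.toFinite _) hSc hSz]
      exact le_inf (hM ▸ hNM) h1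


/-- Let G be a finite group. (a) If K is a component of G with trivial centre, then the normal closure of K in G is a minimal normal subgroup of G. (b) If the Fitting subgroup of G is trivial, then the layer E(G) is generated by the minimal normal subgroups of G. -/
theorem result {G : Type*} [Group G] [Finite G] : (∀ K : Subgroup G, Cfsg.IsComponent K → Subgroup.center ↥K = ⊥ → (Subgroup.normalClosure (K : Set G) ≠ ⊥ ∧ ∀ N : Subgroup G, N.Normal → N ≤ Subgroup.normalClosure (K : Set G) → N = ⊥ ∨ N = Subgroup.normalClosure (K : Set G))) ∧ (Cfsg.fittingSubgroup G = ⊥ → sSup {N : Subgroup G | N ≠ ⊥ ∧ N.Normal ∧ ∀ N' : Subgroup G, N'.Normal → N' ≤ N → N' = ⊥ ∨ N' = N} = Cfsg.layer G) := by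
  open Subgroup CfsgLib.Comp in
  refine ⟨part_a, ?_⟩
  intro hF
  have hgfs : Cfsg.generalizedFittingSubgroup G = Cfsg.layer G := by
    unfold Cfsg.generalizedFittingSubgroup
    rw [hF, sup_bot_eq]
  apply le_antisymm
  · apply sSup_le
    rintro N ⟨hN, hNn, hmin⟩
    rcases hmin (N ⊓ Cfsg.layer G) inferInstance inf_le_left with h1 | h1
    · exfalso
      have h2 : N ≤ centralizer (Cfsg.generalizedFittingSubgroup G : Set G) := by
        rw [← commutator_eq_bot_iff_le_centralizer, eq_bot_iff, hgfs, ← h1]
        exact commutator_le_inf _ _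
      have h3 := h2.trans centralizer_gfs_le
      rw [hgfs] at h3
      rw [inf_eq_left.2 h3] at h1
      exact hN h1
    · rw [← h1]; exact inf_le_right
  · apply sSup_le
    intro K hK
    have hc : center K = ⊥ := by
      have h1 : (center K).map K.subtype ≤ (center (Cfsg.layer G)).map (Cfsg.layer G).subtype := by
        rintro _ ⟨⟨x, hx⟩, hxc, rfl⟩
        refine ⟨⟨x, component_le_layer hK hx⟩, ?_, rfl⟩
        rw [SetLike.mem_coe, mem_center_iff] at hxc ⊢
        have h2 : Cfsg.layer G ≤ centralizer ({x} : Set G) := by
          apply sSup_le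
          intro L hL
          rcases eq_or_comm hL hK with h3 | h3
          · rw [h3]
            intro y hy
            rw [mem_centralizer_singleton_iff]
            exact congrArg Subtype.val (hxc ⟨y, hy⟩)
          · rw [comm_iff] at h3
            intro y hy
            rw [mem_centralizer_singleton_iff]
            exact h3 y hy x hx
        rintro ⟨y, hy⟩
        exact Subtype.ext (mem_centralizer_singleton_iff.1 (h2 hy))
      have h2 : (center (Cfsg.layer G)).map (Cfsg.layer G).subtype ≤ Cfsg.fittingSubgroup G := by
        apply CfsgLib.Core.le_fitting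
        · infer_instance
        · have : Group.IsNilpotent (center (Cfsg.layer G)) := CfsgLib.Core2.nilpotent_of_comm (fun a b => Subtype.ext (mem_center_iff.1 b.2 a))
          exact (Group.isNilpotent_congr (equivMapOfInjective _ _ (Cfsg.layer G).subtype_injective)).1 this
      rw [hF] at h2
      have h3 := h1.trans h2
      rw [← le_bot_iff, ← map_le_map_iff_of_injective K.subtype_injective, Subgroup.map_bot]
      exact h3
    obtain ⟨h1, h2⟩ := part_a K hK hc
    exact le_normalClosure.trans (le_sSup ⟨h1, inferInstance, h2⟩)

end Cfsg.Agent.S3747
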