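import Cfsg.Statements.S3748
import Mathlib
import Cfsg.Agent.Lib.Comp2
import Cfsg.Agent.Lib.Subnorm
import Cfsg.Agent.Lib.PG

set_option autoImplicit false
open Cfsg

set_option linter.style.haveILetI false
namespace Cfsg.Agent.S3748

/-- Call a proper subgroup M of G primitive when M = N_G(N) for every non-trivial normal subgroup N of M. If M is a primitive subgroup of the finite group G, then no non-trivial subnormal subgroup of G is contained in M; in particular M ∩ F(G) = 1. -/
theorem result {G : Type*} [Group G] [Finite G] (M : Subgroup G) (hM : M ≠ ⊤) (hprim : ∀ N : Subgroup G, N ≤ M → M ≤ Subgroup.normalizer (N : Set G) → N ≠ ⊥ → Subgroup.normalizer (N : Set G) = M) : (∀ L : Subgroup G, L.IsSubnormal → L ≤ M → L = ⊥) ∧ M ⊓ Cfsg.fittingSubgroup G = ⊥ := by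
  open Subgroup CfsgLib.Comp in
  have key : ∀ L : Subgroup G, L.IsSubnormal → L ≤ M → L = ⊥ := by
    intro L0 hL0 hL0M
    by_contra hne
    obtain ⟨L, ⟨hLs, hLM, hL0L⟩, hmax⟩ := Set.Finite.exists_maximal (s := {L : Subgroup G | L.IsSubnormal ∧ L ≤ M ∧ L0 ≤ L}) (Set.toFinite _) ⟨L0, hL0, hL0M, le_rfl⟩
    have hLne : L ≠ ⊥ := fun h => hne (eq_bot_iff.2 (h ▸ hL0L))
    have hmax' : ∀ L' : Subgroup G, L'.IsSubnormal → L' ≤ M → L' ≤ L := by
      intro L' h1 h2
      exact le_sup_right.trans (hmax ⟨CfsgLib.Subnorm.sup_isSubnormal hLs h1, sup_le hLM h2, hL0L.trans le_sup_left⟩ le_sup_left)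
    have hMn : M ≤ normalizer (L : Set G) := by
      intro m hm
      apply CfsgLib.H7Basic.mem_normalizer_of_cj_le
      apply hmax'
      · exact hLs.map (MulAut.conj m).surjective
      · rw [← CfsgLib.H7Basic.cj_eq_of_mem hm]
        exact CfsgLib.H7Basic.cj_le_cj.2 hLM
    have hN := hprim L hLM hMn hLne
    rcases (Subgroup.IsSubnormal.iff_eq_top_or_exists).1 hLs with h1 | ⟨K, hLK, hKs, hKn⟩
    · exact hM (top_le_iff.1 (h1 ▸ hLM))
    · have h2 : K ≤ M := by
        rw [← hN]
        exact (normal_subgroupOf_iff_le_normalizer hLK.le).1 hKn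
      exact hLK.not_ge (hmax' K hKs h2)
  refine ⟨key, ?_⟩
  apply key _ _ inf_le_left
  haveI := CfsgLib.Core.fitting_normal G
  refine Subgroup.IsSubnormal.trans (K := Cfsg.fittingSubgroup G) inf_le_right ?_ (CfsgLib.Core.fitting_normal G).isSubnormal
  exact CfsgLib.PG.isSubnormal_of_nilpotent (CfsgLib.Core.fitting_nilpotent G) _

end Cfsg.Agent.S3748
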