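import Cfsg.Statements.S3749
import Mathlib
import Cfsg.Agent.Lib.Comp2
import Cfsg.Agent.Lib.Coprime
import Cfsg.Agent.Lib.SylowIn

set_option autoImplicit false
open Cfsg

open scoped Pointwise
set_option linter.style.haveILetI false
namespace Cfsg.Agent.S3749

/-- Call a proper subgroup M of G primitive when M = N_G(N) for every non-trivial normal subgroup N of M. Let M be a primitive subgroup of the finite group G, p a prime with O_p(M) ≠ 1, and N a normal subgroup of G with M ∩ N = 1. Then p does not divide the order of N; for every prime q there is exactly one Sylow q-subgroup of N normalized by M; and if the order of N has at least two prime divisors then M is not a maximal subgroup of G. -/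
theorem result {G : Type*} [Group G] [Finite G] (M : Subgroup G) (hM : M ≠ ⊤) (hprim : ∀ N : Subgroup G, N ≤ M → M ≤ Subgroup.normalizer (N : Set G) → N ≠ ⊥ → Subgroup.normalizer (N : Set G) = M) {p : ℕ} [Fact p.Prime] (hOp : Cfsg.pCore p ↥M ≠ ⊥) (N : Subgroup G) [N.Normal] (hMN : M ⊓ N = ⊥) : ¬ p ∣ Nat.card N ∧ (∀ q : ℕ, [Fact q.Prime] → ∃! Q : Sylow q ↥N, M ≤ Subgroup.normalizer ((Q : Subgroup ↥N).map N.subtype : Set G)) ∧ ((∃ q r : ℕ, q.Prime ∧ r.Prime ∧ q ≠ r ∧ q ∣ Nat.card N ∧ r ∣ Nat.card N) → ¬ IsCoatom M) := by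
  open Subgroup CfsgLib.Comp CfsgLib.H7Basic in
  have hpp : p.Prime := Fact.out
  set P := (Cfsg.pCore p M).map M.subtype with hP
  have hPM : P ≤ M := map_subtype_le _
  haveI := CfsgLib.Core.pCore_normal p M
  have hMP : M ≤ normalizer (P : Set G) := by
    rw [← normal_subgroupOf_iff_le_normalizer hPM]
    have : P.subgroupOf M = Cfsg.pCore p M := by
      rw [hP, subgroupOf, comap_map_eq_self_of_injective M.subtype_injective]
    rw [this]; infer_instance
  have hPne : P ≠ ⊥ := by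
    intro h
    apply hOp
    rw [hP, Subgroup.map_eq_bot_iff] at h
    rw [eq_bot_iff]
    intro x hx
    have := h hx
    rw [MonoidHom.mem_ker] at this
    exact Subtype.ext this
  have hNP := hprim P hPM hMP hPne
  have hPp : IsPGroup p P := (CfsgLib.Core.pCore_isPGroup p M).map M.subtype
  have hC : ∀ x ∈ N, (∀ y ∈ P, y * x = x * y) → x = 1 := by
    intro x hx h
    have h1 : x ∈ M ⊓ N := by
      refine ⟨?_, hx⟩
      rw [← hNP]
      exact centralizer_le_normalizer _ (mem_centralizer_iff.2 h)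
    rw [hMN, mem_bot] at h1
    exact h1
  have hpN : ¬ p ∣ Nat.card N := by
    intro hdvd
    obtain ⟨T, hPT, hT⟩ := CfsgLib.SylowIn.exists_isSylowIn_ge (p := p) (le_sup_right : P ≤ N ⊔ P) hPp
    have hS := hT.inf_normal (N := N) le_sup_left (by intro x _; rw [normalizer_eq_top_iff.2 (inferInstance : N.Normal)]; trivial)
    have hSne : T ⊓ N ≠ ⊥ := by
      intro h
      obtain ⟨⟨x, hxN⟩, hx⟩ := exists_prime_orderOf_dvd_card' p hdvd
      rw [Subgroup.orderOf_mk] at hx
      have h1 := hS.2.2 (zpowers x) (by rw [zpowers_le]; exact hxN) (IsPGroup.of_card (n := 1) (by rw [Nat.card_zpowers, hx, pow_one]))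
      rw [h, Subgroup.card_bot, Nat.card_zpowers, hx] at h1
      exact absurd h1 (not_le.2 hpp.one_lt)
    obtain ⟨z, hz, hz1, hzP⟩ := exists_mem_center_of_normalized hPp (hT.2.1.to_le inf_le_left : IsPGroup p (T ⊓ N : Subgroup G)) (by
      intro x hx w hw
      exact mem_inf.2 ⟨mul_mem (mul_mem (hPT hx) hw.1) (inv_mem (hPT hx)), (inferInstance : N.Normal).conj_mem w hw.2 x⟩) hSne
    exact hz1 (hC z hz.2 hzP)
  have hcop : (Nat.card P).Coprime (Nat.card N) := by
    obtain ⟨k, hk⟩ := IsPGroup.iff_card.1 hPp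
    rw [hk]
    exact Nat.Coprime.pow_left k ((Nat.Prime.coprime_iff_not_dvd hpp).2 hpN)
  have hcopact : CfsgLib.Coprime.CopAct P N := by
    refine ⟨?_, hcop, ?_⟩
    · intro x _; rw [normalizer_eq_top_iff.2 (inferInstance : N.Normal)]; trivial
    · left
      haveI := hPp.isNilpotent
      infer_instance
  have huniq : ∀ q : ℕ, [Fact q.Prime] → ∀ Q R : Subgroup G, CfsgLib.Coprime.IsSyl q Q N → CfsgLib.Coprime.IsSyl q R N → P ≤ normalizer (Q : Set G) → P ≤ normalizer (R : Set G) → Q = R := by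
    intro q _ Q R hQ hR hPQ hPR
    obtain ⟨k, hk, hkQ⟩ := hcopact.conj_isSyl hQ hR hPQ hPR
    have hk1 : k = 1 := hC k hk.1 (mem_centralizer_iff.1 hk.2)
    rw [hk1, map_one, one_smul] at hkQ
    exact hkQ
  have hex : ∀ q : ℕ, [Fact q.Prime] → ∃ Q : Subgroup G, CfsgLib.Coprime.IsSyl q Q N ∧ M ≤ normalizer (Q : Set G) := by
    intro q _
    obtain ⟨Q, hQ, hPQ⟩ := hcopact.exists_isSyl q
    refine ⟨Q, hQ, ?_⟩
    intro m hm
    rw [← cj_eq_self_iff]
    symm
    apply huniq q Q _ hQ _ hPQ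
    · rw [← cj_normalizer]
      have h1 := cj_eq_self_iff.2 (hMP hm)
      conv_lhs => rw [← h1]
      exact cj_le_cj.2 hPQ
    · have h1 : MulAut.conj m • N = N := cj_normal m N
      exact hQ.conj_iff h1
  refine ⟨hpN, ?_, ?_⟩
  · intro q _
    obtain ⟨Q, hQ, hMQ⟩ := hex q
    refine ⟨hQ.toSylow, ?_, ?_⟩
    · change M ≤ normalizer ((((hQ.toSylow : Sylow q N) : Subgroup N).map N.subtype : Subgroup G) : Set G)
      rw [hQ.toSylow_map]; exact hMQ
    · intro R hR
      have h1 := huniq q _ _ (CfsgLib.Coprime.isSyl_of_sylow R) hQ (hPM.trans hR) (hPM.trans hMQ)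
      apply Sylow.ext
      apply map_injective N.subtype_injective
      rw [h1, hQ.toSylow_map]
  · rintro ⟨q, r, hq, hr, hqr, hqN, hrN⟩ hco
    haveI : Fact q.Prime := ⟨hq⟩
    obtain ⟨Q, hQ, hMQ⟩ := hex q
    have hQne : Q ≠ ⊥ := by
      intro h
      obtain ⟨⟨x, hxN⟩, hx⟩ := exists_prime_orderOf_dvd_card' q hqN
      rw [Subgroup.orderOf_mk] at hx
      obtain ⟨R, hR, hxR⟩ := CfsgLib.Coprime.exists_isSyl_ge (p := q) (U := zpowers x) (K := N) (by rw [zpowers_le]; exact hxN) (IsPGroup.of_card (n := 1) (by rw [Nat.card_zpowers, hx, pow_one]))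
      obtain ⟨k, -, hk⟩ := hQ.exists_conj hR
      have h2 : R = ⊥ := by
        rw [← hk, h]
        exact cj_bot k
      rw [h2, le_bot_iff, zpowers_eq_bot] at hxR
      rw [hxR, orderOf_one] at hx
      exact hq.ne_one hx.symm
    have hQN : Q ≤ N := hQ.1
    have hQM : ¬ Q ≤ M := by
      intro h
      apply hQne
      rw [eq_bot_iff, ← hMN]
      exact le_inf h hQN
    have htop : M ⊔ Q = ⊤ := hco.2 _ (lt_of_le_of_ne le_sup_left (fun h => hQM (h ▸ le_sup_right)))
    -- N = Q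
    have hNQ : N ≤ Q := by
      intro x hx
      have h1 : x ∈ Q ⊔ M := by rw [sup_comm, htop]; trivial
      obtain ⟨y, hy, m, hm, rfl⟩ := (CfsgLib.Coprime.mem_sup_iff hMQ x).1 h1
      have h2 : m ∈ M ⊓ N := ⟨hm, (mul_mem_cancel_left (hQN hy)).1 hx⟩
      rw [hMN, mem_bot] at h2
      rw [h2, mul_one]; exact hy
    have h3 : IsPGroup q N := hQ.isPGroup.to_le hNQ
    obtain ⟨k, hk⟩ := IsPGroup.iff_card.1 h3
    rw [hk] at hrN
    exact hqr ((Nat.prime_dvd_prime_iff_eq hr hq).1 (hr.dvd_of_dvd_pow hrN)).symm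

end Cfsg.Agent.S3749
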