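import Cfsg.Statements.S3750
import Mathlib
import Cfsg.Agent.Lib.Comp2
import Cfsg.Agent.S3747
import Cfsg.Agent.S3748

set_option autoImplicit false
open Cfsg

set_option linter.style.haveILetI false
namespace Cfsg.Agent.S3750

/-- Call a proper subgroup M of G primitive when M = N_G(N) for every non-trivial normal subgroup N of M. Let M be a primitive subgroup of the finite group G and N a normal subgroup of G with M ∩ F*(N) ≠ 1. Then F(G) = 1 and F*(N) = F*(G) = E(G); in particular every minimal normal subgroup of G is contained in N. -/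
theorem result {G : Type*} [Group G] [Finite G] (M : Subgroup G) (hM : M ≠ ⊤) (hprim : ∀ N : Subgroup G, N ≤ M → M ≤ Subgroup.normalizer (N : Set G) → N ≠ ⊥ → Subgroup.normalizer (N : Set G) = M) (N : Subgroup G) [N.Normal] (hMF : M ⊓ (Cfsg.generalizedFittingSubgroup ↥N).map N.subtype ≠ ⊥) : Cfsg.fittingSubgroup G = ⊥ ∧ (Cfsg.generalizedFittingSubgroup ↥N).map N.subtype = Cfsg.generalizedFittingSubgroup G ∧ Cfsg.generalizedFittingSubgroup G = Cfsg.layer G ∧ ∀ K : Subgroup G, K.Normal → K ≠ ⊥ → (∀ K' : Subgroup G, K'.Normal → K' ≤ K → K' = ⊥ ∨ K' = K) → K ≤ N := by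
  open Subgroup CfsgLib.Comp in
  obtain ⟨hsub, hMFG⟩ := Cfsg.Agent.S3748.result M hM hprim
  set F := (Cfsg.generalizedFittingSubgroup N).map N.subtype with hF
  haveI : (Cfsg.generalizedFittingSubgroup N).Characteristic := gfs_characteristic
  have hFn : F.Normal := by rw [hF]; infer_instance
  have hFle : F ≤ Cfsg.generalizedFittingSubgroup G := gfs_map_le (inferInstance : N.Normal).isSubnormal
  have hFN : F ≤ N := map_subtype_le _
  set A := M ⊓ F with hA
  have hMA : M ≤ normalizer (A : Set G) := by
    intro m hm
    apply CfsgLib.H7Basic.mem_normalizer_of_conj_mem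
    intro a ha
    exact mem_inf.2 ⟨mul_mem (mul_mem hm ha.1) (inv_mem hm), hFn.conj_mem a ha.2 m⟩
  have hNA := hprim A inf_le_left hMA hMF
  have hcent : ∀ X : Subgroup G, X ≤ centralizer (A : Set G) → X ≤ M := fun X hX => by
    rw [← hNA]; exact hX.trans (centralizer_le_normalizer _)
  -- components in N
  have hcomp : ∀ K : Subgroup G, Cfsg.IsComponent K → K ≤ N := by
    intro K hK
    rcases le_or_comm_normal hK N inferInstance with h | h
    · exact h
    · exfalso
      apply component_ne_bot hK
      apply hsub K hK.1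
      apply hcent
      rw [← commutator_eq_bot_iff_le_centralizer, eq_bot_iff, ← h]
      exact commutator_mono le_rfl (inf_le_right.trans hFN)
  have hlayer : Cfsg.layer G ≤ F := by
    have h1 : Cfsg.layer G ≤ (Cfsg.layer N).map N.subtype := by
      rw [layer_map_eq (inferInstance : N.Normal).isSubnormal]
      apply sSup_le
      intro K hK
      exact le_sSup ⟨hK, hcomp K hK⟩
    exact h1.trans (map_mono layer_le_gfs)
  have hFG : Cfsg.fittingSubgroup G = ⊥ := by
    by_contra hne
    haveI := CfsgLib.Core.fitting_normal G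
    haveI := CfsgLib.Core.fitting_characteristic G
    haveI : Nontrivial (Cfsg.fittingSubgroup G) := (nontrivial_iff_ne_bot _).2 hne
    haveI := CfsgLib.Core.fitting_nilpotent G
    set Z := (center (Cfsg.fittingSubgroup G)).map (Cfsg.fittingSubgroup G).subtype with hZ
    have hZn : Z.Normal := by rw [hZ]; infer_instance
    have hZ1 : Z = ⊥ := by
      apply hsub Z hZn.isSubnormal
      apply hcent
      have h1 : Cfsg.generalizedFittingSubgroup G ≤ centralizer (Z : Set G) := by
        apply sup_le
        · rw [← commutator_eq_bot_iff_le_centralizer, eq_bot_iff, ← layer_comm_fitting (G := G)]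
          exact commutator_mono le_rfl (map_subtype_le _)
        · intro x hx
          rw [mem_centralizer_iff]
          rintro _ ⟨z, hz, rfl⟩
          exact (congrArg Subtype.val (mem_center_iff.1 hz ⟨x, hx⟩)).symm
      rw [← commutator_eq_bot_iff_le_centralizer, commutator_comm, commutator_eq_bot_iff_le_centralizer]
      exact (inf_le_right.trans hFle).trans h1
    rw [hZ, Subgroup.map_eq_bot_iff] at hZ1
    have h2 : center (Cfsg.fittingSubgroup G) ≠ ⊥ := Group.IsNilpotent.center_ne_bot _
    apply h2
    rw [eq_bot_iff]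
    intro x hx
    have := hZ1 hx
    rw [MonoidHom.mem_ker] at this
    exact Subtype.ext this
  have hgfs : Cfsg.generalizedFittingSubgroup G = Cfsg.layer G := by
    unfold Cfsg.generalizedFittingSubgroup
    rw [hFG, sup_bot_eq]
  refine ⟨hFG, le_antisymm hFle (hgfs ▸ hlayer), hgfs, ?_⟩
  intro K hK hK1 hKmin
  have h1 := (Cfsg.Agent.S3747.result (G := G)).2 hFG
  have h2 : K ≤ Cfsg.layer G := by
    rw [← h1]
    exact le_sSup ⟨hK1, hK, hKmin⟩
  exact h2.trans (hlayer.trans hFN)

end Cfsg.Agent.S3750
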