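import Cfsg.Statements.S3760
import Mathlib
import Cfsg.Agent.Lib.Core

set_option autoImplicit false
open Cfsg

namespace Cfsg.Agent.S3760

open CfsgLib.Core


/-- Let the group G act transitively on a set X, let x ∈ X with stabilizer H = G_x, and let K ≤ H. Then N_G(K) acts transitively on the set of fixed points of K if and only if every G-conjugate of K contained in H is already an H-conjugate of K. -/
theorem result {G : Type*} [Group G] {X : Type*} [MulAction G X] (htrans : ∀ a b : X, ∃ g : G, g • a = b) (x : X) (K : Subgroup G) (hK : K ≤ MulAction.stabilizer G x) : (∀ a b : X, (∀ k ∈ K, k • a = a) → (∀ k ∈ K, k • b = b) → ∃ g ∈ Subgroup.normalizer (K : Set G), g • a = b) ↔ ∀ g : G, K.map (MulAut.conj g).toMonoidHom ≤ MulAction.stabilizer G x → ∃ h ∈ MulAction.stabilizer G x, K.map (MulAut.conj g).toMonoidHom = K.map (MulAut.conj h).toMonoidHom := by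
  constructor
  · intro h g hg
    have h1 : ∀ k ∈ K, k • (g⁻¹ • x) = g⁻¹ • x := by
      intro k hk
      have h2 : g * k * g⁻¹ ∈ MulAction.stabilizer G x := hg ⟨k, hk, rfl⟩
      rw [MulAction.mem_stabilizer_iff] at h2
      calc k • (g⁻¹ • x) = g⁻¹ • ((g * k * g⁻¹) • x) := by simp only [← mul_smul]; group
        _ = g⁻¹ • x := by rw [h2]
    obtain ⟨n, hn, hnx⟩ := h (g⁻¹ • x) x h1 (fun k hk => hK hk)
    refine ⟨g * n⁻¹, ?_, ?_⟩
    · rw [MulAction.mem_stabilizer_iff]
      conv_lhs => rw [← hnx]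
      simp only [← mul_smul]
      have : g * n⁻¹ * (n * g⁻¹) = 1 := by group
      rw [this, one_smul]
    · rw [map_conj_eq_map_conj_iff, map_conj_eq_iff]
      have : (g * n⁻¹)⁻¹ * g = n := by group
      rwa [this]
  · intro h
    have key : ∀ a : X, (∀ k ∈ K, k • a = a) → ∃ n ∈ Subgroup.normalizer (K : Set G), n • a = x := by
      intro a ha
      obtain ⟨g, hg⟩ := htrans a x
      have h1 : K.map (MulAut.conj g).toMonoidHom ≤ MulAction.stabilizer G x := by
        rintro _ ⟨k, hk, rfl⟩
        rw [MulAction.mem_stabilizer_iff]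
        change (g * k * g⁻¹) • x = x
        rw [← hg]
        simp only [← mul_smul]
        have : g * k * g⁻¹ * g = g * k := by group
        rw [this, mul_smul, ha k hk]
      obtain ⟨u, hu, hgu⟩ := h g h1
      refine ⟨u⁻¹ * g, ?_, ?_⟩
      · rwa [map_conj_eq_map_conj_iff, map_conj_eq_iff] at hgu
      · rw [mul_smul, hg]
        exact inv_mem hu
    intro a b ha hb
    obtain ⟨n, hn, hna⟩ := key a ha
    obtain ⟨m, hm, hmb⟩ := key b hb
    refine ⟨m⁻¹ * n, mul_mem (inv_mem hm) hn, ?_⟩
    rw [mul_smul, hna, inv_smul_eq_iff, hmb]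

end Cfsg.Agent.S3760
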