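import Cfsg.Statements.S3766
import Mathlib
import Cfsg.Agent.Lib.Core
import Cfsg.Agent.Lib.Core2
import Cfsg.Agent.Lib.H3Nil
import Cfsg.Agent.Lib.SolvStr

set_option autoImplicit false
open Cfsg

set_option linter.style.haveILetI false
namespace Cfsg.Agent.S3766

open Subgroup
universe u

def IsCF {G : Type*} [Group G] (U V : Subgroup G) : Prop :=
  U.Normal ∧ V.Normal ∧ V < U ∧ ∀ W : Subgroup G, W.Normal → V ≤ W → W ≤ U → W = V ∨ W = U

/-- the Fitting subgroup centralizes every chief factor -/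
theorem fit_cent {G : Type u} [Group G] [Finite G] {g : G} (hg : g ∈ Cfsg.fittingSubgroup G) {U V : Subgroup G}
    (h : IsCF U V) : ∀ u ∈ U, u * g * u⁻¹ * g⁻¹ ∈ V := by
  obtain ⟨hU, hV, hlt, hmin⟩ := h
  intro u hu
  have hFn := CfsgLib.Core.fitting_normal G
  set f := QuotientGroup.mk' V with hf
  have hfs := QuotientGroup.mk'_surjective V
  have hM : (U.map f).Normal := hU.map f hfs
  have h1 : Cfsg.fittingSubgroup (G ⧸ V) ≤ centralizer (U.map f : Set (G ⧸ V)) := by
    refine CfsgLib.SolvStr.fitting_le_centralizer (U.map f) ?_ ?_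
    · intro h0
      rw [Subgroup.map_eq_bot_iff, QuotientGroup.ker_mk'] at h0
      exact absurd hlt (not_lt_of_ge h0)
    · intro K hK hKU
      have h2 := hmin (K.comap f) (hK.comap f) (CfsgLib.Core2.le_comap_mk V K) (by
        intro x hx
        obtain ⟨y, hy, hxy⟩ := hKU hx
        have : y⁻¹ * x ∈ V := QuotientGroup.eq.1 hxy
        have h3 := U.mul_mem hy (hlt.le this)
        rwa [mul_inv_cancel_left] at h3)
      rcases h2 with h2 | h2
      · left
        rw [eq_bot_iff]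
        intro x hx
        obtain ⟨y, rfl⟩ := hfs x
        have hy : y ∈ K.comap f := hx
        rw [h2] at hy
        rw [mem_bot]
        exact (CfsgLib.Core2.mk_eq_one_iff V y).2 hy
      · right
        rw [← h2, map_comap_eq_self_of_surjective hfs]
  have h2 : (Cfsg.fittingSubgroup G).map f ≤ Cfsg.fittingSubgroup (G ⧸ V) := by
    refine CfsgLib.Core.le_fitting (hFn.map f hfs) ?_
    have := CfsgLib.Core.fitting_nilpotent G
    exact Group.nilpotent_of_surjective (f.subgroupMap _) (f.subgroupMap_surjective _)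
  have h3 := mem_centralizer_iff.1 (h1 (h2 ⟨g, hg, rfl⟩)) (f u) ⟨u, hu, rfl⟩
  rw [← CfsgLib.Core2.mk_eq_one_iff V]
  show f (u * g * u⁻¹ * g⁻¹) = 1
  rw [map_mul, map_mul, map_mul, h3, map_inv, map_inv]; group

/-- an element of order prime to `|W|` centralizing all chief factors below the normal subgroup `W` centralizes `W` -/
theorem cent_of_cf (n : ℕ) : ∀ {G : Type u} [Group G] [Finite G] {x : G} (W : Subgroup G), W.Normal → Nat.card W = n → (orderOf x).Coprime (Nat.card W) →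
    (∀ U V : Subgroup G, IsCF U V → U ≤ W → ∀ u ∈ U, u * x * u⁻¹ * x⁻¹ ∈ V) → ∀ w ∈ W, x * w = w * x := by
  induction n using Nat.strong_induction_on with
  | _ n ih =>
  intro G _ _ x W hW hn hc h
  by_cases hbot : W = ⊥
  · intro w hw
    rw [hbot, mem_bot] at hw; rw [hw]; simp
  · obtain ⟨V, hV⟩ := (Set.toFinite {V : Subgroup G | V.Normal ∧ V < W}).exists_maximal ⟨⊥, inferInstanceAs (⊥ : Subgroup G).Normal, bot_lt_iff_ne_bot.2 hbot⟩
    obtain ⟨hVn, hVW⟩ := hV.1
    have hcf : IsCF W V := by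
      refine ⟨hW, hVn, hVW, fun L hL hVL hLW => ?_⟩
      by_cases hLW2 : L = W
      · exact Or.inr hLW2
      · left
        exact le_antisymm (hV.2 ⟨hL, lt_of_le_of_ne hLW hLW2⟩ hVL) hVL
    have hcard : Nat.card V < n := by
      rw [← hn]
      refine lt_of_le_of_ne (card_le_of_le hVW.le) ?_
      intro h2
      exact hVW.ne (eq_of_le_of_card_ge hVW.le h2.ge)
    have h1 := ih _ hcard (x := x) V hVn rfl (Nat.Coprime.coprime_dvd_right (card_dvd_of_le hVW.le) hc) (fun U V' h2 h3 => h U V' h2 (h3.trans hVW.le))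
    refine CfsgLib.H3Nil.commute_of_stable hVW.le (Nat.Coprime.coprime_dvd_right (card_dvd_of_le hVW.le) hc) ?_ h1
    intro w hw
    have h2 := h W V hcf le_rfl w hw
    have h3 := V.inv_mem h2
    have e : (w * x * w⁻¹ * x⁻¹)⁻¹ = x * w * x⁻¹ * w⁻¹ := by group
    rwa [e] at h3


/-- Let G be a finite solvable group and N a normal subgroup of G. Call a pair V < U of normal subgroups of G a chief factor of G when no normal subgroup of G lies strictly between them; an element g centralizes the chief factor U/V when u g u⁻¹ g⁻¹ ∈ V for all u ∈ U. Then an element of G lies in the Fitting subgroup F(N) if and only if it lies in N and centralizes every chief factor of G; and also if and only if it lies in N and centralizes every chief factor U/V of G with U ≤ F(N). -/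
theorem result {G : Type*} [Group G] [Finite G] (hG : Group.IsSolvable G) (N : Subgroup G) [N.Normal] (g : G) : (g ∈ (Cfsg.fittingSubgroup ↥N).map N.subtype ↔ g ∈ N ∧ ∀ U V : Subgroup G, (U.Normal ∧ V.Normal ∧ V < U ∧ ∀ W : Subgroup G, W.Normal → V ≤ W → W ≤ U → W = V ∨ W = U) → ∀ u ∈ U, u * g * u⁻¹ * g⁻¹ ∈ V) ∧ (g ∈ (Cfsg.fittingSubgroup ↥N).map N.subtype ↔ g ∈ N ∧ ∀ U V : Subgroup G, (U.Normal ∧ V.Normal ∧ V < U ∧ ∀ W : Subgroup G, W.Normal → V ≤ W → W ≤ U → W = V ∨ W = U) → U ≤ (Cfsg.fittingSubgroup ↥N).map N.subtype → ∀ u ∈ U, u * g * u⁻¹ * g⁻¹ ∈ V) := by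
  have hFN : ((Cfsg.fittingSubgroup ↥N).map N.subtype).Normal := by
    have := CfsgLib.Core.fitting_characteristic ↥N
    infer_instance
  have hsub : (Cfsg.fittingSubgroup ↥N).map N.subtype ≤ Cfsg.fittingSubgroup G := by
    refine CfsgLib.Core.le_fitting hFN ?_
    have := CfsgLib.Core.fitting_nilpotent ↥N
    exact Group.nilpotent_of_surjective (N.subtype.subgroupMap _) (N.subtype.subgroupMap_surjective _)
  have hfwd : g ∈ (Cfsg.fittingSubgroup ↥N).map N.subtype → g ∈ N ∧ ∀ U V : Subgroup G, (U.Normal ∧ V.Normal ∧ V < U ∧ ∀ W : Subgroup G, W.Normal → V ≤ W → W ≤ U → W = V ∨ W = U) → ∀ u ∈ U, u * g * u⁻¹ * g⁻¹ ∈ V := by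
    intro hg
    refine ⟨?_, fun U V hUV => fit_cent (hsub hg) hUV⟩
    obtain ⟨y, _, rfl⟩ := hg
    exact y.2
  have hbwd : (g ∈ N ∧ ∀ U V : Subgroup G, (U.Normal ∧ V.Normal ∧ V < U ∧ ∀ W : Subgroup G, W.Normal → V ≤ W → W ≤ U → W = V ∨ W = U) → U ≤ (Cfsg.fittingSubgroup ↥N).map N.subtype → ∀ u ∈ U, u * g * u⁻¹ * g⁻¹ ∈ V) → g ∈ (Cfsg.fittingSubgroup ↥N).map N.subtype := by
    rintro ⟨hgN, hg⟩
    let C : Subgroup N := {
      carrier := {x | ∀ U V : Subgroup G, IsCF U V → U ≤ (Cfsg.fittingSubgroup ↥N).map N.subtype → ∀ u ∈ U, u * x * u⁻¹ * (x : G)⁻¹ ∈ V}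
      mul_mem' := by
        intro a b ha hb U V hUV hU u hu
        have h1 := ha U V hUV hU u hu
        have h2 := hb U V hUV hU u hu
        have hVn := hUV.2.1
        have h3 := V.mul_mem h1 (hVn.conj_mem _ h2 (a : G))
        have e : (u * a * u⁻¹ * (a : G)⁻¹) * (a * (u * b * u⁻¹ * (b : G)⁻¹) * (a : G)⁻¹) = u * (a * b : N) * u⁻¹ * ((a * b : N) : G)⁻¹ := by
          simp only [Subgroup.coe_mul, mul_inv_rev]; group
        rwa [e] at h3
      one_mem' := by
        intro U V _ _ u _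
        simp
      inv_mem' := by
        intro a ha U V hUV hU u hu
        have h1 := ha U V hUV hU u hu
        have hVn := hUV.2.1
        have h3 := hVn.conj_mem _ (V.inv_mem h1) (a : G)⁻¹
        have e : (a : G)⁻¹ * (u * a * u⁻¹ * (a : G)⁻¹)⁻¹ * ((a : G)⁻¹)⁻¹ = u * (a : G)⁻¹ * u⁻¹ * a := by group
        rw [e] at h3
        show u * ((a⁻¹ : N) : G) * u⁻¹ * ((a⁻¹ : N) : G)⁻¹ ∈ V
        rw [Subgroup.coe_inv, inv_inv]
        exact h3 }
    have hCn : C.Normal := by
      constructor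
      intro c hc a U V hUV hU u hu
      have hVn := hUV.2.1
      have hUn := hUV.1
      have h1 : (a : G)⁻¹ * u * a ∈ U := by
        have := hUn.conj_mem u hu (a : G)⁻¹
        rwa [inv_inv] at this
      have h2 := hc U V hUV hU _ h1
      have h3 := hVn.conj_mem _ h2 (a : G)
      have e : (a : G) * ((a : G)⁻¹ * u * a * c * ((a : G)⁻¹ * u * a)⁻¹ * (c : G)⁻¹) * (a : G)⁻¹ = u * ((a * c * a⁻¹ : N) : G) * u⁻¹ * ((a * c * a⁻¹ : N) : G)⁻¹ := by
        simp only [Subgroup.coe_mul, Subgroup.coe_inv, mul_inv_rev, inv_inv]; group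
      rw [e] at h3
      exact h3
    have hNs : Group.IsSolvable N := by infer_instance
    have hle : C ≤ Cfsg.fittingSubgroup N := by
      refine CfsgLib.H3Nil.le_fitting_of_centralize hNs C hCn ?_
      rintro p q hp hq hpq x hx ⟨j, hj⟩ y hy
      haveI : Fact q.Prime := ⟨hq⟩
      have hWn : ((Cfsg.pCore q N).map N.subtype).Normal := by
        have := CfsgLib.Core.pCore_characteristic q N
        infer_instance
      have hWc : (orderOf (x : G)).Coprime (Nat.card ((Cfsg.pCore q N).map N.subtype)) := by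
        have h1 : IsPGroup q ((Cfsg.pCore q N).map N.subtype) := (CfsgLib.Core.pCore_isPGroup q N).map _
        obtain ⟨k, hk⟩ := IsPGroup.iff_card.1 h1
        rw [hk, Subgroup.orderOf_coe, hj]
        exact Nat.Coprime.pow _ _ ((Nat.coprime_primes hp hq).2 hpq)
      have hWF : (Cfsg.pCore q N).map N.subtype ≤ (Cfsg.fittingSubgroup ↥N).map N.subtype := Subgroup.map_mono (CfsgLib.Core.pCore_le_fitting q N)
      have h2 := cent_of_cf _ (x := (x : G)) ((Cfsg.pCore q N).map N.subtype) hWn rfl hWc (fun U V hUV hU => hx U V hUV (hU.trans hWF)) (y : G) ⟨y, hy, rfl⟩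
      exact Subtype.ext h2
    exact ⟨⟨g, hgN⟩, hle (show (⟨g, hgN⟩ : N) ∈ C from fun U V hUV hU => hg U V hUV hU), rfl⟩
  refine ⟨⟨hfwd, fun h => hbwd ⟨h.1, fun U V hUV _ => h.2 U V hUV⟩⟩, ⟨fun h => ⟨(hfwd h).1, fun U V hUV _ => (hfwd h).2 U V hUV⟩, hbwd⟩⟩

end Cfsg.Agent.S3766
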