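import Cfsg.Statements.S3771
import Mathlib
import Cfsg.Agent.Lib.PGrp

set_option autoImplicit false
open Cfsg

namespace Cfsg.Agent.S3771

/-- Let p be a prime and R a finite p-group of p-rank at most 2 (no elementary abelian subgroup of order p³) in which every element has order dividing p. Then R has order at most p³. -/
theorem result {R : Type*} [Group R] [Finite R] {p : ℕ} [Fact p.Prime] (hR : IsPGroup p R) (hrank : Cfsg.PRankLE p 2 R) (hexp : ∀ x : R, x ^ p = 1) : Nat.card R ≤ p ^ 3 := by
  open CfsgLib.Core CfsgLib.PGrp Subgroup in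
  have hp := (Fact.out : p.Prime)
  obtain ⟨A, hA1, -, hA3, hA4⟩ := exists_normal_self_centralizing hR (⊥ : Subgroup R) normal_bot inferInstance
  have h1 : Nat.card A ≤ p ^ 2 := hrank A hA3 (fun a _ => hexp a)
  obtain ⟨k, hk⟩ := IsPGroup.iff_card.1 (hR.to_subgroup A)
  have hk2 : k ≤ 2 := by
    rw [hk] at h1
    exact (Nat.pow_le_pow_iff_right hp.one_lt).1 h1
  have h2 := Subgroup.card_mul_index A
  rcases Nat.lt_or_ge k 2 with h | h
  · -- A central
    have hAZ : A ≤ center R := by
      interval_cases k
      · rw [pow_zero, Subgroup.card_eq_one] at hk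
        rw [hk]; exact bot_le
      · exact le_center_of_card_eq_prime hR hA1 (by rw [hk, pow_one])
    have hAT : A = ⊤ := by
      rw [← top_le_iff, ← hA4]
      intro x _
      rw [mem_centralizer_iff]
      intro a ha
      exact ((mem_center_iff.1 (hAZ ha)) x).symm
    rw [hAT, Subgroup.card_top] at hk
    rw [hk]
    exact Nat.pow_le_pow_right hp.pos (by omega)
  · have hk' : k = 2 := by omega
    rw [hk'] at hk
    have h3 := index_centralizer_dvd hR hA1 hk
    rw [hA4] at h3
    have h4 := Nat.le_of_dvd hp.pos h3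
    rw [← h2, hk]
    calc p ^ 2 * A.index ≤ p ^ 2 * p := Nat.mul_le_mul_left _ h4
      _ = p ^ 3 := by ring

end Cfsg.Agent.S3771
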