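import Cfsg.Statements.S3773
import Mathlib
import Cfsg.Agent.Lib.PG2
import Cfsg.Agent.Lib.PGrp
import Cfsg.Agent.Lib.H7Q4

set_option autoImplicit false
open Cfsg

open scoped commutatorElement
set_option linter.style.haveILetI false
namespace Cfsg.Agent.S3773

theorem card_mul_relIndex' {K : Type*} [Group K] [Finite K] {A B : Subgroup K} (h : A ≤ B) :
    Nat.card A * A.relIndex B = Nat.card B := by
  have := Subgroup.card_mul_index (A.subgroupOf B)
  rwa [Nat.card_congr (Subgroup.subgroupOfEquivOfLe h).toEquiv] at this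

open Subgroup in
theorem bound' {K : Type*} [Group K] [Finite K] (V U W : Subgroup K) (hVU : V ≤ U) (hUW : U ≤ W) (hWc : W ≤ center K)
    (hW2 : ∀ w ∈ W, w ^ 2 ∈ V) (hsq : ∀ x : K, x ^ 2 ∈ U) (hW : ∀ x : K, x ^ 2 ∈ V → x ∈ W) :
    W.index ≤ V.relIndex U ^ 2 := by
  haveI : V.Normal := ⟨fun v hv g => by
    rw [(mem_center_iff.1 (hWc (hUW (hVU hv)))) g, mul_inv_cancel_right]; exact hv⟩
  have hker : (QuotientGroup.mk' V).ker = V := QuotientGroup.ker_mk' V
  have hsur : Function.Surjective (QuotientGroup.mk' V) := QuotientGroup.mk'_surjective V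
  have hcom : Subgroup.comap (QuotientGroup.mk' V) (W.map (QuotientGroup.mk' V)) = W := by
    rw [Subgroup.comap_map_eq, hker]
    exact sup_eq_left.2 (hVU.trans hUW)
  have h := CfsgLib.H7Q2.bound (K := K ⧸ V) (W.map (QuotientGroup.mk' V)) (U.map (QuotientGroup.mk' V))
    (by
      rintro _ ⟨w, hw, rfl⟩
      rw [mem_center_iff]
      intro g
      obtain ⟨g, rfl⟩ := hsur g
      rw [← map_mul, ← map_mul, (mem_center_iff.1 (hWc hw)) g])
    (Subgroup.map_mono hUW)
    (by
      rintro _ ⟨w, hw, rfl⟩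
      rw [← map_pow]
      exact (QuotientGroup.eq_one_iff _).2 (hW2 w hw))
    (by
      intro x
      obtain ⟨x, rfl⟩ := hsur x
      rw [← map_pow]
      exact ⟨_, hsq x, rfl⟩)
    (by
      intro x hx
      obtain ⟨x, rfl⟩ := hsur x
      rw [← map_pow] at hx
      exact ⟨x, hW x ((QuotientGroup.eq_one_iff _).1 hx), rfl⟩)
  have h1 : (W.map (QuotientGroup.mk' V)).index = W.index := by
    conv_rhs => rw [← hcom]
    rw [Subgroup.index_comap_of_surjective _ hsur]
  have h2 : Nat.card (U.map (QuotientGroup.mk' V)) = V.relIndex U := by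
    have := Subgroup.relIndex_ker (QuotientGroup.mk' V) (K := U)
    rw [hker] at this
    exact this.symm
  rw [h1, h2] at h
  exact h


/-- Let G be a finite 2-group of nilpotency class at most 2 and exponent dividing 4 in which the elements x with x² = 1 form a subgroup N. Then |G| ≤ |N|³, and |G| < |N|³ unless G is special. -/
theorem result {G : Type*} [Group G] [Finite G] (hG : IsPGroup 2 G) (hcl : (⊤ : Subgroup G).lowerCentralSeries 2 = ⊥) (hexp : ∀ x : G, x ^ 4 = 1) (hN : ∀ x y : G, x ^ 2 = 1 → y ^ 2 = 1 → (x * y) ^ 2 = 1) : Nat.card G ≤ Nat.card {x : G // x ^ 2 = 1} ^ 3 ∧ (¬ Cfsg.IsSpecial 2 G → Nat.card G < Nat.card {x : G // x ^ 2 = 1} ^ 3) := by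
  classical
  haveI : Fact (Nat.Prime 2) := ⟨Nat.prime_two⟩
  have hlc : ∀ x y : G, ⁅x, y⁆ ∈ Subgroup.center G := CfsgLib.H7Q2.comm_center_of hcl
  have hsqc : ∀ x : G, x ^ 2 ∈ Subgroup.center G := by
    intro x
    rw [Subgroup.mem_center_iff]
    intro g
    exact (CfsgLib.H7Q2.sq_facts hlc hexp x g).2.symm
  have hcom2 : ∀ x y : G, ⁅x, y⁆ ^ 2 = 1 := fun x y => (CfsgLib.H7Q2.sq_facts hlc hexp x y).1
  let N : Subgroup G :=
    { carrier := {z : G | z ^ 2 = 1}
      one_mem' := one_pow 2
      mul_mem' := fun {a b} ha hb => hN a b ha hb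
      inv_mem' := by
        intro a ha
        show (a⁻¹) ^ 2 = 1
        have ha' : a ^ 2 = 1 := ha
        rw [inv_pow, ha', inv_one] }
  have hNm : ∀ x : G, x ∈ N ↔ x ^ 2 = 1 := fun x => Iff.rfl
  have hNc : Nat.card {x : G // x ^ 2 = 1} = Nat.card N := rfl
  rw [hNc]
  set W : Subgroup G := N ⊓ Subgroup.center G with hWdef
  have hsqW : ∀ x : G, x ^ 2 ∈ W := fun x => ⟨(hNm _).2 (by rw [← pow_mul]; exact hexp x), hsqc x⟩
  have hcomW : ∀ x y : G, ⁅x, y⁆ ∈ W := fun x y => ⟨(hNm _).2 (hcom2 x y), hlc x y⟩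
  -- complement
  obtain ⟨K, hWK, hKN, hKG⟩ : ∃ K : Subgroup G, W ≤ K ∧ K ⊓ N ≤ W ∧ ∀ g : G, ∃ k ∈ K, ∃ n ∈ N, g = k * n := by
    have hwf := (wellFounded_gt : WellFounded ((· > ·) : Subgroup G → Subgroup G → Prop))
    obtain ⟨K, ⟨hWK, hKN⟩, hmax⟩ := hwf.has_min {K : Subgroup G | W ≤ K ∧ K ⊓ N ≤ W} ⟨W, le_refl W, inf_le_left⟩
    refine ⟨K, hWK, hKN, ?_⟩
    intro g
    by_contra hcon
    push Not at hcon
    have hgK : g ∉ K := fun h => hcon g h 1 N.one_mem (by rw [mul_one])
    have hsub : ∀ k ∈ K, g * k * g⁻¹ ∈ K := by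
      intro k hk
      have h1 : g * k * g⁻¹ = ⁅g, k⁆ * k := by rw [commutatorElement_def]; group
      rw [h1]
      exact K.mul_mem (hWK (hcomW g k)) hk
    have hsub' : ∀ k ∈ K, g⁻¹ * k * g ∈ K := by
      intro k hk
      have h1 : g⁻¹ * k * g = ⁅g⁻¹, k⁆ * k := by rw [commutatorElement_def]; group
      rw [h1]
      exact K.mul_mem (hWK (hcomW g⁻¹ k)) hk
    have hgg : g * g ∈ K := by rw [← pow_two]; exact hWK (hsqW g)
    let K' : Subgroup G :=
      { carrier := {x : G | x ∈ K ∨ x * g ∈ K}
        one_mem' := Or.inl K.one_mem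
        mul_mem' := by
          rintro a b (ha | ha) (hb | hb)
          · exact Or.inl (K.mul_mem ha hb)
          · right; rw [mul_assoc]; exact K.mul_mem ha hb
          · right
            have h1 : a * b * g = (a * g) * (g⁻¹ * b * g) := by group
            rw [h1]; exact K.mul_mem ha (hsub' b hb)
          · left
            have h1 : a * b = (a * g) * (g⁻¹ * (b * g) * g) * (g * g)⁻¹ := by group
            rw [h1]
            exact K.mul_mem (K.mul_mem ha (hsub' _ hb)) (K.inv_mem hgg)
        inv_mem' := by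
          rintro a (ha | ha)
          · exact Or.inl (K.inv_mem ha)
          · right
            have h1 : a⁻¹ * g = g * (a * g)⁻¹ * g⁻¹ * (g * g) := by group
            rw [h1]
            exact K.mul_mem (hsub _ (K.inv_mem ha)) hgg }
    have hKK' : K < K' := by
      refine lt_of_le_of_ne (fun x hx => Or.inl hx) ?_
      intro h
      have : g ∈ K' := Or.inr hgg
      rw [← h] at this
      exact hgK this
    refine hmax K' ⟨hWK.trans hKK'.le, ?_⟩ hKK'
    rintro x ⟨hx | hx, hxN⟩
    · exact hKN ⟨hx, hxN⟩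
    · exfalso
      refine hcon ((x * g) * ⁅g⁻¹, x⁻¹⁆) (K.mul_mem hx (hWK (hcomW _ _))) x⁻¹ (N.inv_mem hxN) ?_
      rw [commutatorElement_def]
      group
  haveI hNn : N.Normal := ⟨fun x hx g => by
    have hx' : x ^ 2 = 1 := hx
    show (g * x * g⁻¹) ^ 2 = 1
    rw [conj_pow, hx', mul_one, mul_inv_cancel]⟩
  have hWpos : 0 < Nat.card W := Nat.card_pos
  have hNpos : 0 < Nat.card N := Nat.card_pos
  have hKNtop : K ⊔ N = ⊤ := by
    rw [eq_top_iff]
    intro g _
    obtain ⟨k, hk, n, hn, rfl⟩ := hKG g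
    exact Subgroup.mul_mem _ ((le_sup_left : K ≤ _) hk) ((le_sup_right : N ≤ _) hn)
  have hNidx : N.index = W.relIndex K := by
    rw [← Subgroup.relIndex_top_right, ← hKNtop, Subgroup.relIndex_sup_right, ← Subgroup.inf_relIndex_right,
      ← Subgroup.inf_relIndex_right W K]
    congr 1
    apply le_antisymm
    · rintro x ⟨hx1, hx2⟩
      exact ⟨hKN ⟨hx2, hx1⟩, hx2⟩
    · rintro x ⟨hx1, hx2⟩
      exact ⟨hx1.1, hx2⟩
  have hWsubc : Nat.card (W.subgroupOf K) = Nat.card W :=
    Nat.card_congr (Subgroup.subgroupOfEquivOfLe hWK).toEquiv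
  have hb1 := CfsgLib.H7Q2.bound (K := K) (W.subgroupOf K) (W.subgroupOf K)
    (by
      intro x hx
      rw [Subgroup.mem_subgroupOf] at hx
      rw [Subgroup.mem_center_iff]
      intro g
      exact Subtype.ext ((Subgroup.mem_center_iff.1 hx.2) (g : G)))
    (le_refl _)
    (by
      intro x hx
      rw [Subgroup.mem_subgroupOf] at hx
      exact Subtype.ext hx.1)
    (by
      intro x
      rw [Subgroup.mem_subgroupOf]
      exact hsqW x)
    (by
      intro x hx
      rw [Subgroup.mem_subgroupOf]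
      exact hKN ⟨x.2, congrArg Subtype.val hx⟩)
  rw [hWsubc] at hb1
  have hb2 : N.index ≤ Nat.card W ^ 2 := by rw [hNidx]; exact hb1
  have hWN : Nat.card W ≤ Nat.card N := Nat.card_mono (Set.toFinite _) (inf_le_left : W ≤ N)
  have hG1 : Nat.card G = Nat.card N * N.index := (Subgroup.card_mul_index N).symm
  have hmain : Nat.card G ≤ Nat.card N * Nat.card W ^ 2 := by rw [hG1]; exact Nat.mul_le_mul_left _ hb2
  refine ⟨hmain.trans ?_, ?_⟩
  · calc Nat.card N * Nat.card W ^ 2 ≤ Nat.card N * Nat.card N ^ 2 := Nat.mul_le_mul_left _ (Nat.pow_le_pow_left hWN 2)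
      _ = Nat.card N ^ 3 := by ring
  · intro hns
    by_contra hcon
    push Not at hcon
    have hWNeq : Nat.card N ≤ Nat.card W := by
      by_contra hlt
      push Not at hlt
      have h1 : Nat.card W ^ 2 < Nat.card N ^ 2 := Nat.pow_lt_pow_left hlt (by norm_num)
      have h2 : Nat.card N * Nat.card W ^ 2 < Nat.card N * Nat.card N ^ 2 := Nat.mul_lt_mul_of_pos_left h1 hNpos
      have h3 : Nat.card N * Nat.card N ^ 2 = Nat.card N ^ 3 := by ring
      omega
    have hNW : W = N := Subgroup.eq_of_le_of_card_ge inf_le_left hWNeq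
    have hNcen : N ≤ Subgroup.center G := by rw [← hNW]; exact inf_le_right
    have hsqN : ∀ x : G, x ^ 2 ∈ N := fun x => (hsqW x).1
    have hcomN : ∀ x y : G, ⁅x, y⁆ ∈ N := fun x y => (hcomW x y).1
    -- the centre
    have hcN : Subgroup.center G ≤ N := by
      intro z hz
      by_contra hzN
      have hzc : ∀ g : G, Commute g z := fun g => (Subgroup.mem_center_iff.1 hz) g
      have hw1 : z ^ 2 ≠ 1 := fun h => hzN h
      have hw2 : (z ^ 2) ^ 2 = 1 := by rw [← pow_mul]; exact hexp z
      have hord : orderOf (z ^ 2) = 2 := orderOf_eq_prime hw2 hw1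
      have hVN : Subgroup.zpowers (z ^ 2) ≤ N := by rw [Subgroup.zpowers_le]; exact hsqN z
      have hVc : Nat.card (Subgroup.zpowers (z ^ 2)) = 2 := by rw [Nat.card_zpowers, hord]
      have hW2m : ∀ x ∈ N ⊔ Subgroup.zpowers z, ∃ n ∈ N, ∃ k : ℤ, x = n * z ^ k := by
        intro x hx
        obtain ⟨n, hn, y, ⟨k, rfl⟩, rfl⟩ := Subgroup.mem_sup_of_normal_left.1 hx
        exact ⟨n, hn, k, rfl⟩
      have hb := bound' (Subgroup.zpowers (z ^ 2)) N (N ⊔ Subgroup.zpowers z) hVN le_sup_left
        (sup_le hNcen (by rw [Subgroup.zpowers_le]; exact hz))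
        (by
          intro x hx
          obtain ⟨n, hn, k, rfl⟩ := hW2m x hx
          have hn' : n ^ 2 = 1 := hn
          have h1 : Commute n (z ^ k) := (hzc n).zpow_right k
          rw [h1.mul_pow, hn', one_mul]
          exact ⟨k, by show (z ^ 2) ^ k = (z ^ k) ^ 2; rw [← zpow_natCast z 2, ← zpow_mul, ← zpow_natCast (z ^ k) 2, ← zpow_mul, mul_comm]⟩)
        hsqN
        (by
          rintro x ⟨j, hj⟩
          have hj' : (z ^ 2) ^ j = x ^ 2 := hj
          have h1 : Commute x (z ^ (-j)) := (hzc x).zpow_right (-j)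
          have h2 : x * z ^ (-j) ∈ N := by
            show (x * z ^ (-j)) ^ 2 = 1
            rw [h1.mul_pow, ← hj', ← zpow_natCast z 2, ← zpow_mul, ← zpow_natCast (z ^ (-j)) 2, ← zpow_mul, ← zpow_add]
            have : ((2 : ℕ) : ℤ) * j + -j * ((2 : ℕ) : ℤ) = 0 := by ring
            rw [this, zpow_zero]
          have h3 : x = (x * z ^ (-j)) * z ^ j := by rw [mul_assoc, ← zpow_add, neg_add_cancel, zpow_zero, mul_one]
          rw [h3]
          exact Subgroup.mul_mem _ ((le_sup_left : N ≤ _) h2)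
            ((le_sup_right : Subgroup.zpowers z ≤ _) (Subgroup.zpow_mem _ (Subgroup.mem_zpowers z) j)))
      have hrel : Nat.card N = 2 * (Subgroup.zpowers (z ^ 2)).relIndex N := by
        have h := card_mul_relIndex' hVN
        rw [hVc] at h
        exact h.symm
      have hzz : Subgroup.zpowers (z ^ 2) ≤ Subgroup.zpowers z := by
        rw [Subgroup.zpowers_le]; exact Subgroup.pow_mem _ (Subgroup.mem_zpowers z) 2
      have hz4 : Nat.card (Subgroup.zpowers z) ≤ 4 := by
        rw [Nat.card_zpowers]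
        exact orderOf_le_of_pow_eq_one (by norm_num) (hexp z)
      have hr2 : (Subgroup.zpowers (z ^ 2)).relIndex (Subgroup.zpowers z) ≤ 2 := by
        have := card_mul_relIndex' hzz
        rw [hVc] at this
        omega
      have hr3 : N.relIndex (N ⊔ Subgroup.zpowers z) ≤ 2 := by
        rw [sup_comm, Subgroup.relIndex_sup_right]
        refine le_trans ?_ hr2
        exact Nat.le_of_dvd (Nat.pos_of_ne_zero (Subgroup.index_ne_zero_of_finite (H := (Subgroup.zpowers (z ^ 2)).subgroupOf (Subgroup.zpowers z)))) (Subgroup.relIndex_dvd_of_le_left _ hVN)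
      have hcW2 : Nat.card (N ⊔ Subgroup.zpowers z : Subgroup G) ≤ Nat.card N * 2 := by
        rw [← card_mul_relIndex' (le_sup_left : N ≤ N ⊔ Subgroup.zpowers z)]
        exact Nat.mul_le_mul_left _ hr3
      have hG2 := Subgroup.card_mul_index (N ⊔ Subgroup.zpowers z)
      have h5 : Nat.card G ≤ Nat.card N * 2 * (Subgroup.zpowers (z ^ 2)).relIndex N ^ 2 := by
        rw [← hG2]; exact Nat.mul_le_mul hcW2 hb
      set r := (Subgroup.zpowers (z ^ 2)).relIndex N with hr
      rw [hrel] at h5 hcon hNpos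
      have hr0 : 0 < r := by omega
      have h6 : (2 * r) ^ 3 ≤ 2 * r * 2 * r ^ 2 := hcon.trans h5
      have h7 : (2 * r) ^ 3 = 8 * r ^ 3 := by ring
      have h8 : 2 * r * 2 * r ^ 2 = 4 * r ^ 3 := by ring
      have h9 : 0 < r ^ 3 := by positivity
      omega
    have hcNeq : Subgroup.center G = N := le_antisymm hcN hNcen
    have hcomle : commutator G ≤ N := by
      rw [commutator_def, Subgroup.commutator_le]
      intro x _ y _
      exact hcomN x y
    have hcomeq : commutator G = N := by
      by_contra hne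
      obtain ⟨l, hl⟩ := (hG.to_subgroup N).exists_card_eq
      obtain ⟨j, hj⟩ := (hG.to_subgroup (commutator G)).exists_card_eq
      have hjl : j < l := by
        have h1 : Nat.card (commutator G) < Nat.card N := by
          by_contra h
          push Not at h
          exact hne (Subgroup.eq_of_le_of_card_ge hcomle h)
        rw [hl, hj] at h1
        exact (Nat.pow_lt_pow_iff_right (by norm_num)).1 h1
      obtain ⟨l', rfl⟩ : ∃ l', l = l' + 1 := ⟨l - 1, by omega⟩
      have hcs : Nat.card ((commutator G).subgroupOf N) = 2 ^ j := by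
        rw [← hj]; exact Nat.card_congr (Subgroup.subgroupOfEquivOfLe hcomle).toEquiv
      obtain ⟨V0, hV0c, hV0⟩ := Sylow.exists_subgroup_card_pow_prime_le (G := N) 2 (n := j) (m := l')
        (by rw [hl]; exact pow_dvd_pow _ (Nat.le_succ _)) ((commutator G).subgroupOf N) hcs (by omega)
      set V : Subgroup G := V0.map N.subtype with hV
      have hVc : Nat.card V = 2 ^ l' := by
        rw [hV, Nat.card_congr (V0.equivMapOfInjective _ N.subtype_injective).toEquiv.symm, hV0c]
      have hcV : commutator G ≤ V := by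
        intro x hx
        exact ⟨⟨x, hcomle hx⟩, hV0 (Subgroup.mem_subgroupOf.2 hx), rfl⟩
      have hVN : V ≤ N := by
        rintro _ ⟨x, -, rfl⟩
        exact x.2
      have hcmem : ∀ x y : G, ⁅x, y⁆ ∈ V := fun x y =>
        hcV (Subgroup.commutator_mem_commutator (Subgroup.mem_top x) (Subgroup.mem_top y))
      haveI hVn : V.Normal := ⟨fun v hv g => by
        rw [(Subgroup.mem_center_iff.1 (hNcen (hVN hv))) g, mul_inv_cancel_right]; exact hv⟩
      let φ : G →* G ⧸ V :=
        { toFun := fun x => ((x ^ 2 : G) : G ⧸ V)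
          map_one' := by rw [one_pow]; rfl
          map_mul' := by
            intro a b
            rw [CfsgLib.H7Q2.sq_mul hlc a b, ← QuotientGroup.mk_mul, QuotientGroup.mk_mul V ⁅b, a⁆,
              (QuotientGroup.eq_one_iff _).2 (hcmem b a), one_mul] }
      have hφker : ∀ x : G, x ∈ φ.ker ↔ x ^ 2 ∈ V := by
        intro x
        rw [MonoidHom.mem_ker]
        exact QuotientGroup.eq_one_iff (x ^ 2)
      have hφr : Nat.card φ.range ≤ 2 := by
        have h1 : φ.range ≤ N.map (QuotientGroup.mk' V) := by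
          rintro _ ⟨x, rfl⟩
          exact ⟨x ^ 2, hsqN x, rfl⟩
        have h2 : Nat.card (N.map (QuotientGroup.mk' V)) = V.relIndex N := by
          have := Subgroup.relIndex_ker (QuotientGroup.mk' V) (K := N)
          rw [QuotientGroup.ker_mk'] at this
          exact this.symm
        have h3 : V.relIndex N = 2 := by
          have := card_mul_relIndex' hVN
          rw [hVc, hl, pow_succ] at this
          exact Nat.eq_of_mul_eq_mul_left (by positivity) this
        calc Nat.card φ.range ≤ Nat.card (N.map (QuotientGroup.mk' V)) := Nat.card_mono (Set.toFinite _) h1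
          _ = 2 := by rw [h2, h3]
      have hHidx : φ.ker.index ≤ 2 := by rw [Subgroup.index_ker]; exact hφr
      have hNH : N ≤ φ.ker := by
        intro x hx
        rw [hφker]
        have hx' : x ^ 2 = 1 := hx
        rw [hx']; exact V.one_mem
      have hb := CfsgLib.H7Q2.bound (K := φ.ker) (N.subgroupOf φ.ker) (V.subgroupOf φ.ker)
        (by
          intro x hx
          rw [Subgroup.mem_subgroupOf] at hx
          rw [Subgroup.mem_center_iff]
          intro g
          exact Subtype.ext ((Subgroup.mem_center_iff.1 (hNcen hx)) (g : G)))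
        (by
          intro x hx
          rw [Subgroup.mem_subgroupOf] at hx ⊢
          exact hVN hx)
        (by
          intro x hx
          rw [Subgroup.mem_subgroupOf] at hx
          exact Subtype.ext hx)
        (by
          intro x
          rw [Subgroup.mem_subgroupOf]
          exact (hφker x).1 x.2)
        (by
          intro x hx
          rw [Subgroup.mem_subgroupOf]
          exact congrArg Subtype.val hx)
      have hVsub : Nat.card (V.subgroupOf φ.ker) = 2 ^ l' := by
        rw [← hVc]; exact Nat.card_congr (Subgroup.subgroupOfEquivOfLe (hVN.trans hNH)).toEquiv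
      have hNsub : Nat.card (N.subgroupOf φ.ker) = 2 ^ (l' + 1) := by
        rw [← hl]; exact Nat.card_congr (Subgroup.subgroupOfEquivOfLe hNH).toEquiv
      rw [hVsub] at hb
      have h5 : Nat.card G ≤ 2 ^ (l' + 1) * (2 ^ l') ^ 2 * 2 := by
        rw [← Subgroup.card_mul_index φ.ker, ← Subgroup.card_mul_index (N.subgroupOf φ.ker), hNsub]
        exact Nat.mul_le_mul (Nat.mul_le_mul_left _ hb) hHidx
      rw [hl] at hcon
      have h6 := hcon.trans h5
      have h7 : (2 ^ (l' + 1)) ^ 3 = 8 * (2 ^ l') ^ 3 := by ring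
      have h8 : 2 ^ (l' + 1) * (2 ^ l') ^ 2 * 2 = 4 * (2 ^ l') ^ 3 := by ring
      have h9 : 0 < (2 ^ l') ^ 3 := by positivity
      omega
    apply hns
    refine ⟨hG, ?_, ?_⟩
    · rw [hcNeq]
      apply le_antisymm
      · exact CfsgLib.PG2.frattini_le_of_pow_mem hG N hsqN hcomN
      · rw [← hcomeq]
        exact CfsgLib.PGrp.commutator_le_frattini hG
    · rw [hcNeq, hcomeq]

end Cfsg.Agent.S3773
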