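import Cfsg.Statements.S3774
import Mathlib

set_option autoImplicit false
open Cfsg

set_option linter.style.haveILetI false
namespace Cfsg.Agent.S3774

/-- Let G be a nontrivial finite 2-group whose automorphism group permutes the involutions of G transitively. Then every involution of G is central, so that the involutions together with 1 form the subgroup Ω₁(Z(G)), and if this subgroup has order q then |G| is a power of q. -/
theorem result {G : Type*} [Group G] [Finite G] [Nontrivial G] (hG : IsPGroup 2 G) (htrans : ∀ x y : G, x ≠ 1 → x ^ 2 = 1 → y ≠ 1 → y ^ 2 = 1 → ∃ a : MulAut G, a x = y) : (∀ x : G, x ^ 2 = 1 → x ∈ Subgroup.center G) ∧ ∃ m : ℕ, Nat.card G = Nat.card {z : G // z ^ 2 = 1} ^ m := by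
  classical
  haveI : Fintype G := Fintype.ofFinite G
  haveI hc0 : Nontrivial (Subgroup.center G) := hG.center_nontrivial
  obtain ⟨z0, hz0c, hz01, hz02⟩ : ∃ z : G, z ∈ Subgroup.center G ∧ z ≠ 1 ∧ z ^ 2 = 1 := by
    have hp : IsPGroup 2 (Subgroup.center G) := hG.to_subgroup _
    obtain ⟨k, hk⟩ := hp.exists_card_eq
    have hk0 : k ≠ 0 := by
      rintro rfl
      rw [pow_zero] at hk
      have := Finite.one_lt_card (α := Subgroup.center G)
      omega
    have hd : 2 ∣ Nat.card (Subgroup.center G) := by rw [hk]; exact dvd_pow_self 2 hk0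
    obtain ⟨z, hz⟩ := exists_prime_orderOf_dvd_card' (G := Subgroup.center G) 2 hd
    refine ⟨z, z.2, ?_, ?_⟩
    · intro h
      have : z = 1 := Subtype.ext h
      rw [this, orderOf_one] at hz
      omega
    · have := pow_orderOf_eq_one z
      rw [hz] at this
      exact_mod_cast congrArg Subtype.val this
  have h1 : ∀ x : G, x ^ 2 = 1 → x ∈ Subgroup.center G := by
    intro x hx
    by_cases hx1 : x = 1
    · rw [hx1]; exact Subgroup.one_mem _
    obtain ⟨a, ha⟩ := htrans z0 x hz01 hz02 hx1 hx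
    rw [Subgroup.mem_center_iff]
    intro g
    have := (Subgroup.mem_center_iff.1 hz0c) (a.symm g)
    have h2 := congrArg a this
    simp only [map_mul, MulEquiv.apply_symm_apply] at h2
    rw [ha] at h2
    exact h2
  refine ⟨h1, ?_⟩
  -- the subgroup
  let H : Subgroup G :=
    { carrier := {z : G | z ^ 2 = 1}
      one_mem' := one_pow 2
      mul_mem' := by
        intro a b ha hb
        have hcomm : Commute a b := (Subgroup.mem_center_iff.1 (h1 b hb)) a
        show (a * b) ^ 2 = 1
        rw [hcomm.mul_pow]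
        rw [Set.mem_setOf_eq] at ha hb
        rw [ha, hb, one_mul]
      inv_mem' := by
        intro a ha
        show (a⁻¹) ^ 2 = 1
        rw [Set.mem_setOf_eq] at ha
        rw [inv_pow, ha, inv_one] }
  have hHc : Nat.card {z : G // z ^ 2 = 1} = Nat.card H := rfl
  obtain ⟨n, hn⟩ := (hG.to_subgroup H).exists_card_eq
  obtain ⟨e, he⟩ := hG.exists_card_eq
  rw [hHc, hn, he]
  let f : G → G := fun g => g ^ (orderOf g / 2)
  let S : Finset G := Finset.univ.filter (fun g => g ≠ 1)
  let T : Finset G := Finset.univ.filter (fun z => z ≠ 1 ∧ z ^ 2 = 1)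
  have hev : ∀ g : G, g ≠ 1 → 2 * (orderOf g / 2) = orderOf g := by
    intro g hg
    obtain ⟨k, hk⟩ := (IsPGroup.iff_orderOf.1 hG) g
    have hk0 : k ≠ 0 := by
      rintro rfl
      rw [pow_zero] at hk
      exact hg (orderOf_eq_one_iff.1 hk)
    have hd : 2 ∣ orderOf g := by rw [hk]; exact dvd_pow_self 2 hk0
    omega
  have hfT : ∀ g ∈ S, f g ∈ T := by
    intro g hg
    have hg1 : g ≠ 1 := (Finset.mem_filter.1 hg).2
    have hpos := orderOf_pos g
    have h2 := hev g hg1
    refine Finset.mem_filter.2 ⟨Finset.mem_univ _, ?_, ?_⟩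
    · intro h
      have h3 : orderOf g ∣ orderOf g / 2 := orderOf_dvd_of_pow_eq_one h
      have h4 := Nat.le_of_dvd (by omega) h3
      omega
    · show (g ^ (orderOf g / 2)) ^ 2 = 1
      rw [← pow_mul, mul_comm, h2, pow_orderOf_eq_one]
  have hfa : ∀ (a : MulAut G) (g : G), f (a g) = a (f g) := by
    intro a g
    show (a g) ^ (orderOf (a g) / 2) = a (g ^ (orderOf g / 2))
    rw [map_pow, MulEquiv.orderOf_eq]
  have hcard : S.card = ∑ t ∈ T, (S.filter (fun s => f s = t)).card :=
    Finset.card_eq_sum_card_fiberwise hfT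
  have hz0T : z0 ∈ T := Finset.mem_filter.2 ⟨Finset.mem_univ _, hz01, hz02⟩
  have hfib : ∀ t ∈ T, (S.filter (fun s => f s = t)).card = (S.filter (fun s => f s = z0)).card := by
    intro t ht
    obtain ⟨-, ht1, ht2⟩ := Finset.mem_filter.1 ht
    obtain ⟨a, ha⟩ := htrans z0 t hz01 hz02 ht1 ht2
    symm
    apply Finset.card_bij (fun s _ => a s)
    · intro s hs
      obtain ⟨hs1, hs2⟩ := Finset.mem_filter.1 hs
      refine Finset.mem_filter.2 ⟨Finset.mem_filter.2 ⟨Finset.mem_univ _, ?_⟩, ?_⟩
      · intro h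
        exact (Finset.mem_filter.1 hs1).2 ((map_eq_one_iff a a.injective).1 h)
      · rw [hfa, hs2, ha]
    · intro s _ s' _ h
      exact a.injective h
    · intro s hs
      obtain ⟨hs1, hs2⟩ := Finset.mem_filter.1 hs
      refine ⟨a.symm s, Finset.mem_filter.2 ⟨Finset.mem_filter.2 ⟨Finset.mem_univ _, ?_⟩, ?_⟩, ?_⟩
      · intro h
        exact (Finset.mem_filter.1 hs1).2 ((map_eq_one_iff a.symm a.symm.injective).1 h)
      · apply a.injective
        rw [← hfa, MulEquiv.apply_symm_apply, hs2, ha]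
      · exact MulEquiv.apply_symm_apply a s
  rw [Finset.sum_congr rfl hfib, Finset.sum_const, smul_eq_mul] at hcard
  have hS : S.card = 2 ^ e - 1 := by
    have : S = Finset.univ.erase (1 : G) := by
      ext g; simp [S]
    rw [this, Finset.card_erase_of_mem (Finset.mem_univ _), Finset.card_univ, ← Nat.card_eq_fintype_card, he]
  have hT : T.card = 2 ^ n - 1 := by
    have : T = (Finset.univ.filter (fun z : G => z ^ 2 = 1)).erase (1 : G) := by
      ext g; simp [T]
    rw [this, Finset.card_erase_of_mem (by simp)]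
    congr 1
    rw [← hn, ← hHc, Nat.card_eq_fintype_card, Fintype.card_subtype]
  rw [hS, hT] at hcard
  have hdvd : 2 ^ n - 1 ∣ 2 ^ e - 1 := ⟨_, hcard⟩
  have hg := Nat.pow_sub_one_gcd_pow_sub_one 2 n e
  rw [Nat.gcd_eq_left hdvd] at hg
  have hp1 : 1 ≤ 2 ^ n := Nat.one_le_two_pow
  have hp2 : 1 ≤ 2 ^ (Nat.gcd n e) := Nat.one_le_two_pow
  have heq : 2 ^ n = 2 ^ (Nat.gcd n e) := by omega
  have hne : n = Nat.gcd n e := Nat.pow_right_injective (le_refl 2) heq
  have hnd : n ∣ e := by rw [hne]; exact Nat.gcd_dvd_right n e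
  obtain ⟨m, rfl⟩ := hnd
  exact ⟨m, by rw [pow_mul]⟩

end Cfsg.Agent.S3774
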