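import Cfsg.Statements.S3780
import Mathlib
import Cfsg.Agent.Lib.BBasis

set_option autoImplicit false
open Cfsg

open scoped Pointwise
namespace Cfsg.Agent.S3780

theorem card_ker_step {A : Type*} [AddCommGroup A] [Finite A] (D : A →+ A) (W K L M : AddSubgroup A)
    (hM : ∀ x ∈ M, D x ∈ K) (hL : ∀ x ∈ M, D x = 0 → x ∈ L) : Nat.card M ≤ Nat.card K * Nat.card L := by
  let g : M →+ K := (D.comp M.subtype).codRestrict K (fun x => hM x x.2)
  have h1 := AddSubgroup.card_mul_index g.ker
  rw [AddSubgroup.index_ker] at h1
  have h2 : Nat.card g.range ≤ Nat.card K := Nat.card_le_card_of_injective _ (AddSubgroup.subtype_injective _)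
  have h3 : Nat.card g.ker ≤ Nat.card L := by
    apply Nat.card_le_card_of_injective (fun x : g.ker => (⟨(x : M), hL _ (x : M).2 (congrArg Subtype.val (AddMonoidHom.mem_ker.1 x.2))⟩ : L))
    intro x y hxy
    have h5 := congrArg Subtype.val hxy
    exact Subtype.ext (Subtype.ext h5)
  rw [← h1, mul_comm]
  exact Nat.mul_le_mul h2 h3
theorem card_tors {A : Type*} [AddCommGroup A] [Finite A] {p : ℕ} (hp : p.Prime) (a : AddMonoid.End A) (ha : a ^ p = 1) :
    Nat.card {x : A // p • x = 0} ≤ Nat.card {x : A // a x = x} ^ p := by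
  let D : AddMonoid.End A := a - 1
  obtain ⟨r, hr⟩ := Commute.exists_add_pow_prime_eq hp (show Commute D 1 from Commute.one_right _)
  have hD1 : D + 1 = a := sub_add_cancel a 1
  rw [hD1, ha, one_pow, mul_assoc, mul_assoc] at hr
  generalize hr' : D * (1 * r) = r' at hr
  have hDp : D ^ p = - ((p : AddMonoid.End A) * r') := by
    have : (1 : AddMonoid.End A) = D ^ p + 1 + (p : AddMonoid.End A) * r' := hr
    have h2 : D ^ p + ((p : AddMonoid.End A) * r') = 0 := by
      have h3 : D ^ p + (p : AddMonoid.End A) * r' + 1 = 1 := by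
        conv_rhs => rw [this]
        abel
      exact add_eq_right.1 h3
    exact eq_neg_of_add_eq_zero_left h2
  let W : AddSubgroup A := (nsmulAddMonoidHom p : A →+ A).ker
  have hW : ∀ x, x ∈ W ↔ p • x = 0 := fun x => Iff.rfl
  let K : ℕ → AddSubgroup A := fun k => ((D ^ k : AddMonoid.End A) : A →+ A).ker ⊓ W
  have hK : ∀ k x, x ∈ K k ↔ (D ^ k) x = 0 ∧ p • x = 0 := fun k x => Iff.rfl
  have hstep : ∀ k, Nat.card (K (k + 1)) ≤ Nat.card (K k) * Nat.card (K 1) := by
    intro k
    apply card_ker_step (D : A →+ A) W
    · intro x hx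
      rw [hK] at hx ⊢
      refine ⟨?_, ?_⟩
      · have h1 : (D ^ (k + 1)) x = (D ^ k) (D x) := by rw [pow_succ]; rfl
        exact h1.symm.trans hx.1
      · change p • (D x) = 0
        rw [← map_nsmul, hx.2, map_zero]
    · intro x hx hDx
      rw [hK] at hx ⊢
      exact ⟨by rw [pow_one]; exact hDx, hx.2⟩
  have hbound : ∀ k, Nat.card (K k) ≤ Nat.card (K 1) ^ k := by
    intro k
    induction k with
    | zero =>
      rw [pow_zero]
      have : K 0 = ⊥ := by
        rw [eq_bot_iff]
        intro x hx
        rw [hK, pow_zero] at hx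
        exact hx.1
      rw [this, AddSubgroup.card_bot]
    | succ k ih =>
      rw [pow_succ]
      exact (hstep k).trans (Nat.mul_le_mul_right _ ih)
  have h1 : Nat.card {x : A // p • x = 0} ≤ Nat.card (K p) := by
    apply Nat.card_le_card_of_injective (fun x : {x : A // p • x = 0} => (⟨x.1, (hK p _).2 ⟨by
      rw [hDp]
      change - (((p : AddMonoid.End A) * r') x.1) = 0
      rw [neg_eq_zero]
      change (p : AddMonoid.End A) (r' x.1) = 0
      rw [AddMonoid.End.natCast_apply, ← map_nsmul, x.2, map_zero], x.2⟩⟩ : K p))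
    intro x y hxy
    have h5 := congrArg Subtype.val hxy
    exact Subtype.ext h5
  have h2 : Nat.card (K 1) ≤ Nat.card {x : A // a x = x} := by
    apply Nat.card_le_card_of_injective (fun x : K 1 => (⟨x.1, by
      have h3 := ((hK 1 _).1 x.2).1
      rw [pow_one] at h3
      have h4 : a x.1 - x.1 = 0 := h3
      exact sub_eq_zero.1 h4⟩ : {x : A // a x = x}))
    intro x y hxy
    have h5 := congrArg Subtype.val hxy
    exact Subtype.ext h5
  exact h1.trans ((hbound p).trans (Nat.pow_le_pow_left h2 p))


/-- Let V be a finite abelian p-group and α an automorphism of V of order p whose fixed-point subgroup has order p^n. Then V can be generated by pn elements: some subset of V with at most pn elements generates V. -/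
theorem result {V : Type*} [CommGroup V] [Finite V] {p : ℕ} [Fact p.Prime] (hV : IsPGroup p V) (α : MulAut V) (hα : orderOf α = p) (n : ℕ) (hfix : Nat.card {v : V // α v = v} = p ^ n) : ∃ S : Finset V, S.card ≤ p * n ∧ Subgroup.closure (S : Set V) = ⊤ := by
  open Subgroup CfsgLib.BBasis in
  classical
  have hpp : p.Prime := Fact.out
  obtain ⟨r, hr, hrc⟩ := isPGroup_of_index hV
  obtain ⟨t, ht⟩ := exists_gen_tuple hV hr
  have hrn : r ≤ p * n := by
    let aE : AddMonoid.End (Additive V) := MonoidHom.toAdditive (α : V →* V)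
    have h1 : Nat.card {x : Additive V // p • x = 0} ≤ Nat.card {x : Additive V // aE x = x} ^ p := by
      apply card_tors hpp aE
      have h2 : ∀ k : ℕ, ∀ x : Additive V, (aE ^ k) x = Additive.ofMul ((α ^ k) x.toMul) := by
        intro k
        induction k with
        | zero => intro x; rfl
        | succ k ih =>
          intro x
          rw [pow_succ, pow_succ]
          exact ih _
      ext x
      rw [h2, ← hα, pow_orderOf_eq_one]; rfl
    have h2 : Nat.card {x : Additive V // aE x = x} = p ^ n := hfix
    rw [h2, ← pow_mul, mul_comm n p] at h1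
    have h3 : p ^ r ≤ Nat.card {x : Additive V // p • x = 0} := by
      have h4 : (powMonoidHom p : V →* V).range ≤ frattini V := by
        rintro _ ⟨x, rfl⟩
        exact CfsgLib.PGrp.pow_mem_frattini hV x
      have h5 : (frattini V).index ≤ (powMonoidHom p : V →* V).range.index := Subgroup.index_antitone h4
      have h6 : (powMonoidHom p : V →* V).range.index = Nat.card (powMonoidHom p : V →* V).ker := by
        have h7 := (powMonoidHom p : V →* V).ker.card_mul_index
        rw [Subgroup.index_ker] at h7
        have h8 := (powMonoidHom p : V →* V).range.card_mul_index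
        rw [← h8, mul_comm] at h7
        exact (Nat.eq_of_mul_eq_mul_left Nat.card_pos h7).symm
      rw [hr, h6] at h5
      exact h5
    exact (Nat.pow_le_pow_iff_right hpp.one_lt).1 (h3.trans h1)
  refine ⟨Finset.univ.image t, ?_, ?_⟩
  · calc (Finset.univ.image t).card ≤ (Finset.univ : Finset (Fin r)).card := Finset.card_image_le
      _ = r := by rw [Finset.card_univ, Fintype.card_fin]
      _ ≤ p * n := hrn
  · rw [Finset.coe_image, Finset.coe_univ, Set.image_univ]
    exact ht

end Cfsg.Agent.S3780
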