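import Cfsg.Statements.S3784
import Mathlib

set_option autoImplicit false
open Cfsg

namespace Cfsg.Agent.S3784

theorem two_pow_of_dvd {m n : ℕ} (h : m ∣ 2 ^ n) (hodd : Odd m) : m = 1 := by
  have h1 : Nat.Coprime m (2 ^ n) := (Nat.Coprime.pow_left _ (Nat.coprime_two_left.2 hodd)).symm
  exact Nat.Coprime.eq_one_of_dvd h1 h

/-- `x^(2k+1) + 1 = (x+1) * m` with `m` odd `> 1` for `x ≥ 2`, `k ≥ 1` -/
theorem fact1 (x k : ℕ) : ∃ m, x ^ (2 * k + 1) + 1 = (x + 1) * m ∧ Odd m ∧ (1 ≤ k → 2 ≤ x → 1 < m) := by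
  induction k with
  | zero => exact ⟨1, by ring, odd_one, by omega⟩
  | succ k ih =>
    obtain ⟨m, hm, hodd, _⟩ := ih
    -- x^(2k+3)+1 = x^(2k+1) (x^2 - 1) + x^(2k+1)+1
    rcases Nat.eq_zero_or_pos x with rfl | hx
    · exact ⟨1, by simp, odd_one, by omega⟩
    refine ⟨x ^ (2 * k + 1) * (x - 1) + m, ?_, ?_, ?_⟩
    · obtain ⟨y, rfl⟩ : ∃ y, x = y + 1 := ⟨x - 1, by omega⟩
      have : y + 1 - 1 = y := by omega
      rw [this]
      calc (y + 1) ^ (2 * (k + 1) + 1) + 1 = (y + 1) ^ (2 * k + 1) * ((y + 1) ^ 2 - 1) + ((y + 1) ^ (2 * k + 1) + 1) := by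
            have h1 : (y + 1) ^ 2 - 1 = y * (y + 2) := by
              have : (y + 1) ^ 2 = y * (y + 2) + 1 := by ring
              omega
            rw [h1]; ring
        _ = _ := by
            rw [hm]
            have h1 : (y + 1) ^ 2 - 1 = y * (y + 2) := by
              have : (y + 1) ^ 2 = y * (y + 2) + 1 := by ring
              omega
            rw [h1]; ring
    · have h1 : Even (x ^ (2 * k + 1) * (x - 1)) := by
        rcases Nat.even_or_odd x with h | h
        · exact (h.pow_of_ne_zero (by omega)).mul_right _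
        · exact (Nat.Odd.sub_odd h odd_one).mul_left _
      exact h1.add_odd hodd
    · intro _ hx2
      have h2 : 1 ≤ m := hodd.pos
      have h3 : 0 < x ^ (2 * k + 1) * (x - 1) := Nat.mul_pos (pow_pos hx _) (by omega)
      omega

/-- `x^(2k+1) = (x-1) * m + 1` with `m` odd if `x` odd, `m > 1` -/
theorem fact2 (x k : ℕ) (hx : Odd x) : ∃ m, x ^ (2 * k + 1) = (x - 1) * m + 1 ∧ Odd m ∧ (1 ≤ k → 1 < m) := by
  have hx0 := hx.pos
  induction k with
  | zero => exact ⟨1, by simp; omega, odd_one, by omega⟩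
  | succ k ih =>
    obtain ⟨m, hm, hodd, _⟩ := ih
    refine ⟨m + x ^ (2 * k + 1) * (x + 1), ?_, ?_, ?_⟩
    · obtain ⟨y, rfl⟩ : ∃ y, x = y + 1 := ⟨x - 1, by omega⟩
      have : y + 1 - 1 = y := by omega
      rw [this] at hm ⊢
      calc (y + 1) ^ (2 * (k + 1) + 1) = (y + 1) ^ (2 * k + 1) * (y * (y + 2) + 1) := by ring
        _ = y * ((y + 1) ^ (2 * k + 1) * (y + 1 + 1)) + (y + 1) ^ (2 * k + 1) := by ring
        _ = y * ((y + 1) ^ (2 * k + 1) * (y + 1 + 1)) + (y * m + 1) := by rw [← hm]
        _ = _ := by ring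
    · have h1 : Even (x ^ (2 * k + 1) * (x + 1)) := (hx.add_odd odd_one).mul_left _
      exact hodd.add_even h1
    · intro _
      have h3 : 0 < x ^ (2 * k + 1) * (x + 1) := Nat.mul_pos (pow_pos hx0 _) (by omega)
      have := hodd.pos
      omega


/-- Let p, q be primes and a, b positive integers with p^a = q^b + 1. Then either p = 2, b = 1, a is prime and q = 2^a − 1; or q = 2, a = 1, b is a power of 2 and p = 2^b + 1; or p^a = 9 and q^b = 8. -/
theorem result (p q a b : ℕ) (hp : p.Prime) (hq : q.Prime) (ha : 1 ≤ a) (hb : 1 ≤ b) (h : p ^ a = q ^ b + 1) : (p = 2 ∧ b = 1 ∧ a.Prime ∧ q + 1 = 2 ^ a) ∨ (q = 2 ∧ a = 1 ∧ (∃ m : ℕ, b = 2 ^ m) ∧ p = 2 ^ b + 1) ∨ (p ^ a = 9 ∧ q ^ b = 8) := by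
  rcases hp.eq_two_or_odd' with rfl | hpo
  · -- p = 2
    have hq2 : q ≠ 2 := by
      rintro rfl
      have h1 : Even (2 ^ a) := (even_two).pow_of_ne_zero (by omega)
      have h2 : Even (2 ^ b) := (even_two).pow_of_ne_zero (by omega)
      rw [h] at h1
      exact (Nat.not_even_iff_odd.2 (h2.add_odd odd_one)) h1
    have hqo : Odd q := hq.odd_of_ne_two hq2
    rcases Nat.even_or_odd' b with ⟨k, rfl | rfl⟩
    · -- b even: q^b + 1 ≡ 2 mod 4
      exfalso
      obtain ⟨m, hm⟩ := hqo
      have h1 : q ^ (2 * k) % 4 = 1 := by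
        rw [pow_mul]
        have : q ^ 2 % 4 = 1 := by
          rw [hm]
          have : (2 * m + 1) ^ 2 = 4 * (m ^ 2 + m) + 1 := by ring
          omega
        simp [Nat.pow_mod, this]
      have h2 : a = 1 := by
        by_contra hne
        have h3 : 4 ∣ 2 ^ a := by
          have : (4 : ℕ) = 2 ^ 2 := by norm_num
          rw [this]; exact pow_dvd_pow 2 (by omega)
        omega
      rw [h2] at h
      have h3 : 1 < q ^ (2 * k) := Nat.one_lt_pow (by omega) hq.one_lt
      omega
    · obtain ⟨m, hm, hmo, hm1⟩ := fact1 q k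
      rw [← h] at hm
      have hm' : m = 1 := two_pow_of_dvd (Dvd.intro_left _ hm.symm) hmo
      have hk : k = 0 := by
        by_contra hk
        have := hm1 (by omega) hq.two_le
        omega
      subst hk
      left
      rw [hm', mul_one] at hm
      refine ⟨rfl, rfl, ?_, hm.symm⟩
      have h1 : (2 ^ a - 1).Prime := by
        have : 2 ^ a - 1 = q := by omega
        rw [this]; exact hq
      rcases eq_or_ne a 1 with rfl | ha1
      · norm_num at h1
      · exact (Nat.prime_of_pow_sub_one_prime ha1 h1).2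
  · -- p odd, q = 2
    have hq2 : q = 2 := by
      by_contra hq2
      have hqo : Odd q := hq.odd_of_ne_two hq2
      have h1 : Odd (p ^ a) := hpo.pow
      rw [h] at h1
      exact (Nat.not_even_iff_odd.2 h1) ((hqo.pow).add_odd odd_one)
    subst hq2
    rcases Nat.even_or_odd' a with ⟨k, rfl | rfl⟩
    · -- a even
      right; right
      have hk : 1 ≤ k := by omega
      set x := p ^ k with hx
      have hx2 : p ^ (2 * k) = x ^ 2 := by rw [hx, ← pow_mul, mul_comm]
      rw [hx2] at h
      have hx1 : 1 < x := Nat.one_lt_pow (by omega) hp.one_lt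
      have h1 : (x - 1) * (x + 1) = 2 ^ b := by
        obtain ⟨y, hy⟩ : ∃ y, x = y + 1 := ⟨x - 1, by omega⟩
        rw [hy] at h ⊢
        have : y + 1 - 1 = y := by omega
        rw [this]
        nlinarith
      have h2 : x - 1 ∣ 2 ^ b := Dvd.intro _ h1
      have h3 : x + 1 ∣ 2 ^ b := Dvd.intro_left _ h1
      obtain ⟨i, _, hi⟩ := (Nat.dvd_prime_pow Nat.prime_two).1 h2
      obtain ⟨j, _, hj⟩ := (Nat.dvd_prime_pow Nat.prime_two).1 h3
      have h4 : 2 ^ j = 2 ^ i + 2 := by omega
      have hi1 : i = 1 := by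
        rcases Nat.lt_or_ge i 2 with h5 | h5
        · interval_cases i
          · exfalso
            -- 2^j = 3
            rcases Nat.lt_or_ge j 2 with h6 | h6
            · interval_cases j <;> omega
            · have : 4 ∣ 2 ^ j := by
                have : (4 : ℕ) = 2 ^ 2 := by norm_num
                rw [this]; exact pow_dvd_pow 2 h6
              omega
          · rfl
        · exfalso
          have h6 : 4 ∣ 2 ^ i := by
            have : (4 : ℕ) = 2 ^ 2 := by norm_num
            rw [this]; exact pow_dvd_pow 2 h5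
          have h7 : 2 ≤ j := by
            by_contra h8
            have : j < 2 := by omega
            have h9 : 0 < 2 ^ i := by positivity
            interval_cases j <;> omega
          have h8 : 4 ∣ 2 ^ j := by
            have : (4 : ℕ) = 2 ^ 2 := by norm_num
            rw [this]; exact pow_dvd_pow 2 h7
          omega
      rw [hi1] at hi
      have hx3 : x = 3 := by omega
      rw [hx3] at h
      rw [hx2, hx3]
      omega
    · obtain ⟨m, hm, hmo, hm1⟩ := fact2 p k hpo
      rw [h] at hm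
      have hm2 : 2 ^ b = (p - 1) * m := by omega
      have hm' : m = 1 := two_pow_of_dvd (Dvd.intro_left _ hm2.symm) hmo
      have hk : k = 0 := by
        by_contra hk
        have := hm1 (by omega)
        omega
      subst hk
      right; left
      have hp' : p = 2 ^ b + 1 := by simpa using h
      refine ⟨rfl, rfl, ?_, hp'⟩
      exact Nat.pow_of_pow_add_prime (by norm_num) (by omega) (hp' ▸ hp)

end Cfsg.Agent.S3784
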