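import Cfsg.Statements.S3785
import Mathlib
import Cfsg.Agent.Lib.Core
import Cfsg.Agent.Lib.Core2
import Cfsg.Agent.Lib.H3Nil
import Cfsg.Agent.Lib.PG2

set_option autoImplicit false
open Cfsg

set_option linter.style.haveILetI false
namespace Cfsg.Agent.S3785

open Subgroup


/-- Let G be a finite solvable group whose Fitting subgroup F(G) has odd order. If an element g of G commutes with every element of prime order of F(G), then g ∈ F(G). -/
theorem result {G : Type*} [Group G] [Finite G] (hG : Group.IsSolvable G) (hodd : Odd (Nat.card (Cfsg.fittingSubgroup G))) (g : G) (hg : ∀ x ∈ Cfsg.fittingSubgroup G, (orderOf x).Prime → g * x = x * g) : g ∈ Cfsg.fittingSubgroup G := by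
  classical
  set C : Subgroup G := centralizer {x | x ∈ Cfsg.fittingSubgroup G ∧ (orderOf x).Prime} with hC
  have hFn := CfsgLib.Core.fitting_normal G
  have hCn : C.Normal := by
    constructor
    intro c hc g
    rw [hC, mem_centralizer_iff] at hc ⊢
    rintro x ⟨hx, hxp⟩
    have h1 : g⁻¹ * x * g ∈ {x | x ∈ Cfsg.fittingSubgroup G ∧ (orderOf x).Prime} := by
      refine ⟨?_, ?_⟩
      · have := hFn.conj_mem x hx g⁻¹
        rwa [inv_inv] at this
      · have e : orderOf (g⁻¹ * x * g) = orderOf x := by
          have := orderOf_injective (MulAut.conj g⁻¹).toMonoidHom (MulAut.conj g⁻¹).injective x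
          simpa using this
        rw [e]; exact hxp
    have h2 := hc _ h1
    calc x * (g * c * g⁻¹) = g * (g⁻¹ * x * g * c) * g⁻¹ := by group
      _ = g * (c * (g⁻¹ * x * g)) * g⁻¹ := by rw [h2]
      _ = _ := by group
  refine CfsgLib.H3Nil.le_fitting_of_centralize hG C hCn ?_ ?_
  · rintro p q hp hq hpq x hx ⟨j, hj⟩ y hy
    haveI : Fact q.Prime := ⟨hq⟩
    haveI : Fact p.Prime := ⟨hp⟩
    haveI := CfsgLib.Core.pCore_normal q G
    have hle : Cfsg.pCore q G ≤ Cfsg.fittingSubgroup G := CfsgLib.Core.pCore_le_fitting q G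
    by_cases hq2 : q = 2
    · subst hq2
      have h1 : Cfsg.pCore 2 G = ⊥ := by
        by_contra hne
        have h2 : Nat.card (Cfsg.pCore 2 G) ∣ Nat.card (Cfsg.fittingSubgroup G) := card_dvd_of_le hle
        have h3 : IsPGroup 2 (Cfsg.pCore 2 G) := CfsgLib.Core.pCore_isPGroup 2 G
        obtain ⟨k, hk⟩ := IsPGroup.iff_card.1 h3
        rw [hk] at h2
        have hk0 : k ≠ 0 := by
          rintro rfl
          rw [pow_zero] at hk
          exact hne (card_eq_one.1 hk)
        have h4 : 2 ∣ Nat.card (Cfsg.fittingSubgroup G) := (dvd_pow_self 2 hk0).trans h2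
        rw [Nat.odd_iff] at hodd
        omega
      rw [h1, mem_bot] at hy
      rw [hy]; simp
    · have h1 : (MulAut.conjNormal x : MulAut (Cfsg.pCore q G)) = 1 := by
        refine CfsgLib.PG2.aut_eq_one_of_trivial_on_omega hq2 (CfsgLib.Core.pCore_isPGroup q G) _ ?_ ?_
        · have : orderOf (MulAut.conjNormal x : MulAut (Cfsg.pCore q G)) ∣ orderOf x := orderOf_map_dvd _ _
          rw [hj] at this
          exact Nat.Coprime.coprime_dvd_left this (Nat.Coprime.pow_left _ ((Nat.coprime_primes hp hq).2 hpq))
        · intro z hz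
          apply Subtype.ext
          rw [MulAut.conjNormal_apply]
          by_cases hz1 : z = 1
          · rw [hz1]; simp
          · have h2 : orderOf z = q := orderOf_eq_prime hz hz1
            have h3 := mem_centralizer_iff.1 hx (z : G) ⟨hle z.2, by rw [Subgroup.orderOf_coe, h2]; exact hq⟩
            rw [← h3, mul_inv_cancel_right]
      have h2 := congrArg (fun f : MulAut (Cfsg.pCore q G) => ((f ⟨y, hy⟩ : Cfsg.pCore q G) : G)) h1
      simp only [MulAut.conjNormal_apply, MulAut.one_apply] at h2
      rw [mul_inv_eq_iff_eq_mul] at h2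
      exact h2
  · rw [hC, mem_centralizer_iff]
    rintro x ⟨hx, hxp⟩
    exact (hg x hx hxp).symm

end Cfsg.Agent.S3785
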