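import Cfsg.Statements.S3800
import Mathlib
import Cfsg.Agent.Lib.Coprime
import Cfsg.Agent.Lib.Core

set_option autoImplicit false
open Cfsg

namespace Cfsg.Agent.S3800

open CfsgLib.Coprime Subgroup Pointwise in
theorem conjn {G : Type*} [Group G] [Finite G] {p : ℕ} [hp : Fact p.Prime] (N : Subgroup G) [N.Normal] (hN : (Nat.card N).Coprime p) (P : Subgroup G) (hP : IsPGroup p P)
    (g : G) (hg : ∀ x ∈ P, g * x * g⁻¹ ∈ N ⊔ P) : ∃ n ∈ N, n * g ∈ normalizer (P : Set G) := by
  obtain ⟨k, hk⟩ := IsPGroup.iff_card.1 hP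
  have hcop : (Nat.card P).Coprime (Nat.card N) := by
    rw [hk]; exact Nat.Coprime.pow_left _ hN.symm
  have hsolv : Group.IsSolvable P := by
    have := hP.isNilpotent
    infer_instance
  have hA : CopAct P N := ⟨by rw [Subgroup.normalizer_eq_top]; exact le_top, hcop, Or.inl hsolv⟩
  obtain ⟨n, hn, hn2⟩ := hA.conj (B := P.map (MulAut.conj g).toMonoidHom) (by
    rintro _ ⟨x, hx, rfl⟩
    exact hg x hx) (Subgroup.card_map_of_injective (MulAut.conj g).injective)
  refine ⟨n⁻¹, inv_mem hn, ?_⟩
  rw [CfsgLib.Core.smul_eq_map_conj] at hn2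
  rw [← CfsgLib.Core.map_conj_eq_iff, ← CfsgLib.Core.map_conj_mul, ← hn2, CfsgLib.Core.map_conj_mul, inv_mul_cancel, CfsgLib.Core.map_conj_one]


/-- Let G be a finite group, N a normal subgroup of G whose order is prime to p, and P a p-subgroup of G. Then in G/N the normalizer of the image of P is the image of N_G(P), and the centralizer of the image of P is the image of C_G(P). -/
theorem result {G : Type*} [Group G] [Finite G] {p : ℕ} [Fact p.Prime] (N : Subgroup G) [N.Normal] (hN : (Nat.card N).Coprime p) (P : Subgroup G) (hP : IsPGroup p P) : Subgroup.normalizer ((P.map (QuotientGroup.mk' N)) : Set (G ⧸ N)) = (Subgroup.normalizer (P : Set G)).map (QuotientGroup.mk' N) ∧ Subgroup.centralizer ((P.map (QuotientGroup.mk' N)) : Set (G ⧸ N)) = (Subgroup.centralizer (P : Set G)).map (QuotientGroup.mk' N) := by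
  have hmemN : ∀ n ∈ N, QuotientGroup.mk' N n = 1 := fun n hn => by
    rwa [← MonoidHom.mem_ker, QuotientGroup.ker_mk']
  have hsup : ∀ y : G, QuotientGroup.mk' N y ∈ P.map (QuotientGroup.mk' N) → y ∈ N ⊔ P := by
    intro y hy
    have : y ∈ (P.map (QuotientGroup.mk' N)).comap (QuotientGroup.mk' N) := hy
    rwa [Subgroup.comap_map_eq, QuotientGroup.ker_mk', sup_comm] at this
  constructor
  · apply le_antisymm
    · intro x hx
      obtain ⟨g, rfl⟩ := QuotientGroup.mk'_surjective N x
      rw [Subgroup.mem_normalizer_iff] at hx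
      obtain ⟨n, hn, hng⟩ := conjn N hN P hP g (by
        intro y hy
        apply hsup
        rw [map_mul, map_mul, map_inv]
        exact (hx _).1 ⟨y, hy, rfl⟩)
      refine ⟨n * g, hng, ?_⟩
      rw [map_mul, hmemN n hn, one_mul]
    · rintro _ ⟨g, hg, rfl⟩
      rw [SetLike.mem_coe, ← CfsgLib.Core.map_conj_eq_iff] at hg
      rw [← CfsgLib.Core.map_conj_eq_iff]
      have h1 : (P.map (QuotientGroup.mk' N)).map (MulAut.conj (QuotientGroup.mk' N g)).toMonoidHom =
          (P.map (MulAut.conj g).toMonoidHom).map (QuotientGroup.mk' N) := by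
        rw [Subgroup.map_map, Subgroup.map_map]
        congr 1
      rw [h1, hg]
  · apply le_antisymm
    · intro x hx
      obtain ⟨g, rfl⟩ := QuotientGroup.mk'_surjective N x
      rw [Subgroup.mem_centralizer_iff] at hx
      have hx' : ∀ y ∈ P, QuotientGroup.mk' N y * QuotientGroup.mk' N g = QuotientGroup.mk' N g * QuotientGroup.mk' N y :=
        fun y hy => hx _ ⟨y, hy, rfl⟩
      obtain ⟨n, hn, hng⟩ := conjn N hN P hP g (by
        intro y hy
        apply hsup
        rw [map_mul, map_mul, map_inv, ← hx' y hy, mul_inv_cancel_right]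
        exact ⟨y, hy, rfl⟩)
      refine ⟨n * g, ?_, by rw [map_mul, hmemN n hn, one_mul]⟩
      rw [SetLike.mem_coe, Subgroup.mem_centralizer_iff]
      intro y hy
      obtain ⟨k, hk⟩ := IsPGroup.iff_card.1 hP
      have hcop : (Nat.card N).Coprime (Nat.card P) := by
        rw [hk]; exact (Nat.Coprime.pow_left _ hN.symm).symm
      have h1 : (n * g) * y * (n * g)⁻¹ * y⁻¹ ∈ N ⊓ P := by
        refine Subgroup.mem_inf.2 ⟨?_, ?_⟩
        · rw [← QuotientGroup.ker_mk' N, MonoidHom.mem_ker]
          rw [map_mul, map_mul, map_mul, map_inv, map_mul, map_inv, hmemN n hn, one_mul, ← hx' y hy]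
          group
        · exact P.mul_mem ((Subgroup.mem_normalizer_iff.1 hng y).1 hy) (P.inv_mem hy)
      rw [(Subgroup.disjoint_of_coprime_natCard hcop).eq_bot, Subgroup.mem_bot, mul_inv_eq_one, mul_inv_eq_iff_eq_mul] at h1
      exact h1.symm
    · rintro _ ⟨g, hg, rfl⟩
      rw [SetLike.mem_coe, Subgroup.mem_centralizer_iff] at hg
      rw [Subgroup.mem_centralizer_iff]
      rintro _ ⟨y, hy, rfl⟩
      rw [← map_mul, ← map_mul, hg y hy]

end Cfsg.Agent.S3800
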