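import Cfsg.Statements.S3950
import Mathlib
import Cfsg.Agent.Lib.Schur3
import Cfsg.Agent.Lib.CoprimeGen

set_option autoImplicit false
open Cfsg

open scoped Pointwise
set_option linter.style.haveILetI false
namespace Cfsg.Agent.S3950

theorem exists_indep (V : Type*) [AddCommGroup V] [Finite V] (q : ℕ) [Fact q.Prime] [Module (ZMod q) V] (hcard : q < Nat.card V) :
    ∃ f g : V →+ ZMod q, ∃ v w : V, f v = 1 ∧ g w = 1 ∧ f w = 0 := by
  haveI : Module.Finite (ZMod q) V := Module.Finite.of_finite
  have hrank : 2 ≤ Module.finrank (ZMod q) V := by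
    have h1 : Nat.card V = Nat.card (ZMod q) ^ Module.finrank (ZMod q) V := Module.natCard_eq_pow_finrank
    rw [Nat.card_zmod] at h1
    by_contra hlt2
    have h2 : Module.finrank (ZMod q) V ≤ 1 := by lia
    have h3 : q ^ Module.finrank (ZMod q) V ≤ q ^ 1 := Nat.pow_le_pow_right (Fact.out : q.Prime).pos h2
    rw [← h1, pow_one] at h3
    exact absurd h3 (not_le.2 hcard)
  let b := Module.finBasis (ZMod q) V
  let i0 : Fin (Module.finrank (ZMod q) V) := ⟨0, by lia⟩
  let i1 : Fin (Module.finrank (ZMod q) V) := ⟨1, by lia⟩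
  have hi : i0 ≠ i1 := by
    intro h
    have := congrArg Fin.val h
    simp [i0, i1] at this
  refine ⟨(b.coord i0).toAddMonoidHom, (b.coord i1).toAddMonoidHom, b i0, b i1, ?_, ?_, ?_⟩
  · show b.coord i0 (b i0) = 1
    simp
  · show b.coord i1 (b i1) = 1
    simp
  · show b.coord i0 (b i1) = 0
    rw [Module.Basis.coord_apply, Module.Basis.repr_self, Finsupp.single_apply, if_neg hi.symm]


/-- A finite abelian group has trivial Schur multiplier if and only if it is cyclic. -/
theorem result {G : Type*} [CommGroup G] [Finite G] : Cfsg.HasCyclicSchurMultiplier G 1 ↔ IsCyclic G := by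
  open Subgroup CfsgLib.Schur in
    constructor
    · intro h
      by_contra hnc
      -- a prime with large p-torsion
      obtain ⟨q, hq, hlt⟩ : ∃ q : ℕ, q.Prime ∧ q < Nat.card {x : G // x ^ q = 1} := by
        by_contra hcon
        push Not at hcon
        exact hnc (CfsgLib.Coprime.isCyclic_of_prime_pow_le hcon)
      haveI : Fact q.Prime := ⟨hq⟩
      set R := (powMonoidHom q : G →* G).range with hR
      have hcard : q < Nat.card (G ⧸ R) := by
        refine lt_of_lt_of_eq hlt ?_
        have h1 : Nat.card (powMonoidHom q : G →* G).ker * Nat.card R = Nat.card G := by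
          have := (powMonoidHom q : G →* G).ker.card_mul_index
          rwa [Subgroup.index_ker] at this
        have h2 := Subgroup.card_eq_card_quotient_mul_card_subgroup R
        rw [h2] at h1
        exact Nat.eq_of_mul_eq_mul_right Nat.card_pos h1
      have htor : ∀ v : Additive (G ⧸ R), q • v = 0 := by
        intro v
        obtain ⟨g, hg⟩ := QuotientGroup.mk'_surjective R (Additive.toMul v)
        have : v = Additive.ofMul (QuotientGroup.mk' R g) := by rw [hg]; rfl
        rw [this, ← ofMul_pow, ← map_pow]
        show Additive.ofMul (QuotientGroup.mk' R (g ^ q)) = Additive.ofMul 1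
        congr 1
        exact (QuotientGroup.eq_one_iff _).2 ⟨g, rfl⟩
      letI : Module (ZMod q) (Additive (G ⧸ R)) := AddCommGroup.zmodModule (n := q) htor
      obtain ⟨f, g, v, w, hfv, hgw, hfw⟩ := exists_indep (Additive (G ⧸ R)) q hcard
      let pj : G → Additive (G ⧸ R) := fun g => Additive.ofMul (QuotientGroup.mk' R g)
      have hpj : ∀ g g', pj (g * g') = pj g + pj g' := fun g g' => rfl
      have hpjs : Function.Surjective pj := fun v => by
        obtain ⟨g, hg⟩ := QuotientGroup.mk'_surjective R (Additive.toMul v)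
        exact ⟨g, hg⟩
      let β : G → G → Multiplicative (ZMod q) := fun x y => Multiplicative.ofAdd (f (pj x) * g (pj y))
      obtain ⟨Γ, _, _, σ, ι, hσ, hι, hker, hcen, hcomm⟩ := exists_heis β
        (by
          intro x y z
          show Multiplicative.ofAdd (f (pj (x * y)) * g (pj z)) = _
          rw [hpj, map_add, add_mul]; rfl)
        (by
          intro x y z
          show Multiplicative.ofAdd (f (pj x) * g (pj (y * z))) = _
          rw [hpj, map_add, mul_add]; rfl)
      obtain ⟨g0, hg0⟩ := hpjs v
      obtain ⟨g1, hg1⟩ := hpjs w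
      obtain ⟨x, y, hx, hy, hxy⟩ := hcomm g0 g1
      have e1 : β g0 g1 = Multiplicative.ofAdd (1 : ZMod q) := by
        show Multiplicative.ofAdd (f (pj g0) * g (pj g1)) = _
        rw [hg0, hg1, hfv, hgw, one_mul]
      have e2 : β g1 g0 = 1 := by
        show Multiplicative.ofAdd (f (pj g1) * g (pj g0)) = _
        rw [hg0, hg1, hfw, zero_mul]; rfl
      rw [e1, e2, inv_one, mul_one] at hxy
      have hstem : Cfsg.IsStemExtension σ := by
        refine ⟨hσ, hcen, ?_⟩
        rw [hker]
        rintro _ ⟨z, rfl⟩
        have h2 : z = (Multiplicative.ofAdd (1 : ZMod q)) ^ (Multiplicative.toAdd z).val := by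
          rw [← ofAdd_nsmul, nsmul_eq_mul, mul_one, ZMod.natCast_val, ZMod.cast_id', id]; rfl
        rw [h2, map_pow, ← hxy]
        exact Subgroup.pow_mem _ (commutator_mem_commutator (mem_top x) (mem_top y)) _
      have h5 : ι (Multiplicative.ofAdd (1 : ZMod q)) = 1 := by
        apply eq_one_of_hasCyclic_one h hstem
        rw [← MonoidHom.mem_ker, hker]
        exact ⟨_, rfl⟩
      have h6 : Multiplicative.ofAdd (1 : ZMod q) = 1 := hι (by rw [h5, map_one])
      have h7 : (1 : ZMod q) = 0 := h6
      exact one_ne_zero h7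
    · intro h
      apply hasCyclic_one_of
      intro Γ _ _ σ hσ x hx
      have h1 := (MonoidHom.isMulCommutative_of_isCyclic_of_ker_le_center σ hσ.2.1).is_comm.comm
      have h2 : commutator Γ = ⊥ := by
        rw [eq_bot_iff, _root_.commutator_def, commutator_le]
        intro a _ b _
        rw [mem_bot, commutatorElement_eq_one_iff_mul_comm]
        exact h1 a b
      have h3 := hσ.2.2 (show x ∈ σ.ker from hx)
      rwa [h2, mem_bot] at h3

end Cfsg.Agent.S3950
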