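import Cfsg.Statements.S3951
import Mathlib
import Cfsg.Agent.Lib.Schur3

set_option autoImplicit false
open Cfsg

open scoped Pointwise
open scoped commutatorElement
namespace Cfsg.Agent.S3951

/-- For positive integers `m` and `n` with `n` dividing `m`, the Schur multiplier of the abelian group `ZMod m × ZMod n` (written multiplicatively) is cyclic of order `n`. In particular the elementary abelian group of order `p ^ 2` has multiplier of order `p`. -/
theorem result (m n : ℕ) [NeZero m] [NeZero n] (hnm : n ∣ m) : Cfsg.HasCyclicSchurMultiplier (Multiplicative (ZMod m × ZMod n)) n := by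
  open Subgroup CfsgLib.Schur in
    set Q := Multiplicative (ZMod m × ZMod n) with hQ
    constructor
    · let f : ZMod m →+* ZMod n := ZMod.castHom hnm (ZMod n)
      let β : Q → Q → Multiplicative (ZMod n) := fun a b => Multiplicative.ofAdd (f (Multiplicative.toAdd a).1 * (Multiplicative.toAdd b).2)
      obtain ⟨Γ, _, _, σ, ι, hσ, hι, hker, hcen, hcomm⟩ := exists_heis β
        (by
          intro a b c
          show Multiplicative.ofAdd (f ((Multiplicative.toAdd a).1 + (Multiplicative.toAdd b).1) * (Multiplicative.toAdd c).2) = _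
          rw [map_add, add_mul]; rfl)
        (by
          intro a b c
          show Multiplicative.ofAdd (f (Multiplicative.toAdd a).1 * ((Multiplicative.toAdd b).2 + (Multiplicative.toAdd c).2)) = _
          rw [mul_add]; rfl)
      refine ⟨Γ, inferInstance, inferInstance, σ, ⟨hσ, hcen, ?_⟩, ⟨(MulEquiv.subgroupCongr hker).trans (MonoidHom.ofInjective hι).symm⟩⟩
      rw [hker]
      rintro _ ⟨z, rfl⟩
      obtain ⟨x, y, hx, hy, hxy⟩ := hcomm (Multiplicative.ofAdd (1, 0)) (Multiplicative.ofAdd (0, 1))
      have h1 : β (Multiplicative.ofAdd (1, 0)) (Multiplicative.ofAdd (0, 1)) * (β (Multiplicative.ofAdd (0, 1)) (Multiplicative.ofAdd (1, 0)))⁻¹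
          = Multiplicative.ofAdd (1 : ZMod n) := by
        have e1 : β (Multiplicative.ofAdd (1, 0)) (Multiplicative.ofAdd (0, 1)) = Multiplicative.ofAdd (1 : ZMod n) := by
          show Multiplicative.ofAdd (f 1 * 1) = _
          rw [map_one, one_mul]
        have e2 : β (Multiplicative.ofAdd (0, 1)) (Multiplicative.ofAdd (1, 0)) = 1 := by
          show Multiplicative.ofAdd (f 0 * 0) = _
          rw [map_zero, zero_mul]; rfl
        rw [e1, e2, inv_one, mul_one]
      rw [h1] at hxy
      have h2 : z = (Multiplicative.ofAdd (1 : ZMod n)) ^ (Multiplicative.toAdd z).val := by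
        rw [← ofAdd_nsmul, nsmul_eq_mul, mul_one, ZMod.natCast_val, ZMod.cast_id', id]; rfl
      rw [h2, map_pow, ← hxy]
      exact Subgroup.pow_mem _ (commutator_mem_commutator (mem_top x) (mem_top y)) _
    · intro Γ _ _ σ hσ
      obtain ⟨x, hx⟩ := hσ.1 (Multiplicative.ofAdd (1, 0))
      obtain ⟨y, hy⟩ := hσ.1 (Multiplicative.ofAdd (0, 1))
      have hle : commutator Γ ≤ σ.ker := by
        rw [_root_.commutator_def, commutator_le]
        intro a _ b _
        rw [MonoidHom.mem_ker, map_commutatorElement, commutatorElement_eq_one_iff_mul_comm]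
        exact mul_comm _ _
      have hcc : ⁅x, y⁆ ∈ center Γ := hσ.2.1 (hle (commutator_mem_commutator (mem_top x) (mem_top y)))
      have hgen : closure (({x, y} : Set Γ) ∪ center Γ) = ⊤ := by
        apply closure_union_center σ hσ.2.1
        rw [Set.image_pair, hx, hy, eq_top_iff]
        intro g _
        have h1 : g = (Multiplicative.ofAdd ((1 : ZMod m), (0 : ZMod n))) ^ (Multiplicative.toAdd g).1.val *
            (Multiplicative.ofAdd ((0 : ZMod m), (1 : ZMod n))) ^ (Multiplicative.toAdd g).2.val := by
          rw [← ofAdd_nsmul, ← ofAdd_nsmul, ← ofAdd_add, ← ofAdd_toAdd g]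
          congr 1
          rw [toAdd_ofAdd]
          ext
          · simp
          · simp
        rw [h1]
        have ha : Multiplicative.ofAdd ((1 : ZMod m), (0 : ZMod n)) ∈ Subgroup.closure {Multiplicative.ofAdd ((1 : ZMod m), (0 : ZMod n)), Multiplicative.ofAdd ((0 : ZMod m), (1 : ZMod n))} := Subgroup.subset_closure (Or.inl rfl)
        have hb : Multiplicative.ofAdd ((0 : ZMod m), (1 : ZMod n)) ∈ Subgroup.closure {Multiplicative.ofAdd ((1 : ZMod m), (0 : ZMod n)), Multiplicative.ofAdd ((0 : ZMod m), (1 : ZMod n))} := Subgroup.subset_closure (Or.inr rfl)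
        exact Subgroup.mul_mem _ (Subgroup.pow_mem _ ha _) (Subgroup.pow_mem _ hb _)
      have hn : (zpowers ⁅x, y⁆).Normal := by
        refine ⟨fun a ha g => ?_⟩
        have h1 : a ∈ center Γ := (zpowers_le.2 hcc) ha
        rw [mem_center_iff.1 h1, mul_inv_cancel_right]; exact ha
      have hcomm : commutator Γ ≤ zpowers ⁅x, y⁆ := by
        apply commutator_le_of_gen _ _ hgen
        have hc1 : ⁅x, y⁆ ∈ zpowers ⁅x, y⁆ := mem_zpowers _
        have hc2 : ⁅y, x⁆ ∈ zpowers ⁅x, y⁆ := by rw [← commutatorElement_inv x y]; exact inv_mem hc1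
        rintro g ((rfl | hg) | hg) g' ((rfl | hg') | hg')
        · rw [commutatorElement_self]; exact Subgroup.one_mem _
        · rw [Set.mem_singleton_iff.1 hg']; exact hc1
        · rw [comm_eq_one_of_center' hg']; exact Subgroup.one_mem _
        · rw [Set.mem_singleton_iff.1 hg]; exact hc2
        · rw [Set.mem_singleton_iff.1 hg, Set.mem_singleton_iff.1 hg', commutatorElement_self]; exact Subgroup.one_mem _
        · rw [comm_eq_one_of_center' hg']; exact Subgroup.one_mem _
        · rw [comm_eq_one_of_center hg]; exact Subgroup.one_mem _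
        · rw [comm_eq_one_of_center hg]; exact Subgroup.one_mem _
        · rw [comm_eq_one_of_center hg]; exact Subgroup.one_mem _
      have hpow : ⁅x, y⁆ ^ n = 1 := by
        have h1 : y ^ n ∈ center Γ := by
          apply hσ.2.1
          rw [MonoidHom.mem_ker, map_pow, hy, ← ofAdd_nsmul]
          show Multiplicative.ofAdd (n • ((0 : ZMod m), (1 : ZMod n))) = Multiplicative.ofAdd 0
          congr 1
          ext
          · simp
          · simp
        have h2 : x * y * x⁻¹ = ⁅x, y⁆ * y := by rw [commutatorElement_def]; group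
        have h3 : (x * y * x⁻¹) ^ n = y ^ n := by
          rw [conj_pow, mem_center_iff.1 h1, mul_inv_cancel_right]
        have h4 : Commute ⁅x, y⁆ y := (mem_center_iff.1 hcc y).symm
        rw [h2, h4.mul_pow] at h3
        exact mul_eq_right.1 h3
      have hcker : ⁅x, y⁆ ∈ σ.ker := hle (commutator_mem_commutator (mem_top x) (mem_top y))
      refine exists_hom_of_gen (⟨⁅x, y⁆, hcker⟩ : σ.ker) n (Subtype.ext hpow) ?_
      rintro ⟨b, hb⟩
      obtain ⟨k, hk⟩ := hcomm (hσ.2.2 hb)
      exact ⟨k, Subtype.ext hk⟩

end Cfsg.Agent.S3951
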