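import Cfsg.Statements.S3952
import Mathlib
import Cfsg.Agent.Lib.Schur4
import Cfsg.Agent.Lib.CharInd
import Cfsg.Agent.Lib.CharBasic2

set_option autoImplicit false
open Cfsg

open scoped Pointwise
set_option linter.style.haveILetI false
namespace Cfsg.Agent.S3952

open CfsgLib.CharBasic Cfsg in
theorem term_dvd {Γ : Type*} [Group Γ] [Fintype Γ] (K : Subgroup Γ) [Fintype K] (hK : K ≤ Subgroup.center Γ) (hK' : K ≤ commutator Γ)
    (l : K →* ℂˣ) (a : K) (χ : IrrCharacter Γ) :
    ∃ n : ℕ, classInner (fun k : K => (l k : ℂ)) (fun k : K => (χ : Γ → ℂ) k) * (χ : Γ → ℂ) 1 = ((orderOf (l a) * n : ℕ) ^ 2 : ℕ) := by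
  obtain ⟨χ, hχ⟩ := χ
  show ∃ n : ℕ, classInner (fun k : K => (l k : ℂ)) (fun k : K => χ k) * χ 1 = ((orderOf (l a) * n : ℕ) ^ 2 : ℕ)
  have hone := CfsgLib.CharBasic.IsIrrCharacter.one_ne_zero hχ
  by_cases hall : ∀ k : K, χ k = χ 1 * l k
  · obtain ⟨d, ρ, hρ, hρχ⟩ := id hχ
    have hd : χ 1 = d := by
      rw [← hρχ, Representation.char_one]; simp
    -- determinant
    have hsc : ∀ k : K, ρ k = (l k : ℂ) • (LinearMap.id : (Fin d → ℂ) →ₗ[ℂ] (Fin d → ℂ)) := by
      intro k
      have h1 := CfsgLib.CharBasic.IsIrrCharacter.norm_of_mem_center hχ (hK k.2)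
      have h2 : ‖ρ.character k‖ = Module.finrank ℂ (Fin d → ℂ) := by
        rw [hρχ, h1, hd]; simp
      obtain ⟨ω, hω⟩ := (norm_character_eq_iff ρ k).1 h2
      have h3 : χ k = ω * d := by
        rw [← hρχ]
        show LinearMap.trace ℂ _ (ρ k) = _
        rw [hω, map_smul, LinearMap.trace_id]; simp
      rw [hall k, hd, mul_comm] at h3
      have hd0 : (d : ℂ) ≠ 0 := by rw [← hd]; exact hone
      rw [hω, mul_right_cancel₀ hd0 h3]
    have hdet : (l a) ^ d = 1 := by
      let D : Γ →* ℂ := (LinearMap.det : ((Fin d → ℂ) →ₗ[ℂ] (Fin d → ℂ)) →* ℂ).comp ρ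
      have h1 : D.toHomUnits a = 1 := by
        have h2 : commutator Γ ≤ D.toHomUnits.ker := Abelianization.commutator_subset_ker _
        exact h2 (hK' a.2)
      have h2 : D a = 1 := by
        have := congrArg Units.val h1
        exact this
      have h3 : D a = (l a : ℂ) ^ d := by
        show LinearMap.det (ρ a) = _
        rw [hsc a, LinearMap.det_smul, LinearMap.det_id, mul_one]; simp
      rw [h3] at h2
      exact Units.ext (by rw [Units.val_pow_eq_pow_val, h2, Units.val_one])
    obtain ⟨n, hn⟩ := orderOf_dvd_of_pow_eq_one hdet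
    refine ⟨n, ?_⟩
    rw [← hn]
    have h4 : classInner (fun k : K => (l k : ℂ)) (fun k : K => χ k) = d := by
      unfold classInner
      have h5 : ∀ k : K, (l k : ℂ) * (starRingEnd ℂ) (χ k) = d := by
        intro k
        have h6 : ‖(l k : ℂ)‖ = 1 := by
          have : (l k : ℂ) ^ (Nat.card K) = 1 := by
            rw [← Units.val_pow_eq_pow_val, ← map_pow, pow_card_eq_one', map_one, Units.val_one]
          exact Complex.norm_eq_one_of_pow_eq_one this Nat.card_pos.ne'
        rw [hall k, hd, map_mul, Complex.conj_natCast, mul_comm (d : ℂ), ← mul_assoc, Complex.mul_conj, Complex.normSq_eq_norm_sq, h6]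
        simp
      rw [Finset.sum_congr rfl (fun k _ => h5 k), Finset.sum_const, Finset.card_univ, ← Nat.card_eq_fintype_card, nsmul_eq_mul, ← mul_assoc,
        inv_mul_cancel₀ (by exact_mod_cast Nat.card_pos.ne'), one_mul]
    rw [h4, hd]
    push_cast
    ring
  · refine ⟨0, ?_⟩
    push Not at hall
    obtain ⟨k, hk⟩ := hall
    have h1 : classInner (fun k : K => (l k : ℂ)) (fun k : K => χ k) = 0 := by
      unfold classInner
      set S := ∑ g : K, (l g : ℂ) * (starRingEnd ℂ) (χ g) with hS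
      obtain ⟨d, hdpos, hd⟩ := CfsgLib.CharBasic.IsIrrCharacter.exists_pos hχ
      have hconj : (starRingEnd ℂ) (χ 1) = χ 1 := by rw [hd, Complex.conj_natCast]
      have h2 : χ 1 * S = ((l k : ℂ) * (starRingEnd ℂ) (χ k)) * S := by
        have h3 : S = ∑ g : K, (l (k * g) : ℂ) * (starRingEnd ℂ) (χ ((k * g : K) : Γ)) := by
          rw [hS]
          exact (Fintype.sum_equiv (Equiv.mulLeft k) _ _ (fun g => rfl)).symm
        conv_lhs => rw [h3]
        rw [Finset.mul_sum, hS, Finset.mul_sum]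
        apply Finset.sum_congr rfl
        intro g _
        have h4 := CfsgLib.CharBasic.IsCharacter.mul_of_mem_center (CfsgLib.CharBasic.IsIrrCharacter.isCharacter hχ)
          (CfsgLib.CharBasic.IsIrrCharacter.norm_of_mem_center hχ (hK k.2)) (g : Γ)
        have h5 := congrArg (starRingEnd ℂ) h4
        rw [map_mul, map_mul, hconj] at h5
        rw [map_mul, Units.val_mul, Subgroup.coe_mul]
        linear_combination ((l k : ℂ) * (l g : ℂ)) * h5
      have h6 : ‖(l k : ℂ)‖ = 1 := by
        have : (l k : ℂ) ^ (Nat.card K) = 1 := by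
          rw [← Units.val_pow_eq_pow_val, ← map_pow, pow_card_eq_one', map_one, Units.val_one]
        exact Complex.norm_eq_one_of_pow_eq_one this Nat.card_pos.ne'
      have h7 : (l k : ℂ) * (starRingEnd ℂ) (l k : ℂ) = 1 := by
        rw [Complex.mul_conj, Complex.normSq_eq_norm_sq, h6]; simp
      have hS0 : S = 0 := by
        by_contra hS0
        have h8 : χ 1 = (l k : ℂ) * (starRingEnd ℂ) (χ k) := mul_right_cancel₀ hS0 h2
        apply hk
        have h9 := congrArg (starRingEnd ℂ) h8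
        rw [hconj, map_mul, Complex.conj_conj] at h9
        rw [h9]
        linear_combination -(χ k) * h7
      rw [hS0, mul_zero]
    rw [h1, zero_mul]; simp
open Subgroup CfsgLib.Schur in
/-- a linear character taking a primitive value -/
theorem exists_char (K : Type*) [CommGroup K] [Finite K] (a : K) : ∃ l : K →* ℂˣ, orderOf (l a) = orderOf a := by
  set e := orderOf a with he
  have hepos : 0 < e := orderOf_pos a
  haveI : NeZero e := ⟨hepos.ne'⟩
  have hζ := Complex.isPrimitiveRoot_exp e hepos.ne'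
  obtain ⟨ζ, hζ'⟩ : ∃ ζ : ℂˣ, orderOf ζ = e := by
    have hu : IsUnit (Complex.exp (2 * Real.pi * Complex.I / e)) := hζ.isUnit hepos.ne'
    refine ⟨hu.unit, ?_⟩
    rw [← orderOf_units]
    show orderOf (Complex.exp (2 * Real.pi * Complex.I / e)) = e
    exact hζ.eq_orderOf.symm
  let f : Multiplicative ℤ →* (zpowersHom K a).range := (zpowersHom K a).rangeRestrict
  let g : Multiplicative ℤ →* ℂˣ := zpowersHom ℂˣ ζ
  obtain ⟨l0, hl0⟩ := exists_factor f (MonoidHom.rangeRestrict_surjective _) g (by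
    intro n hn
    have h1 : a ^ (Multiplicative.toAdd n) = 1 := congrArg Subtype.val hn
    have h2 : ζ ^ (Multiplicative.toAdd n) = 1 := by
      rw [← orderOf_dvd_iff_zpow_eq_one, hζ', he, orderOf_dvd_iff_zpow_eq_one]; exact h1
    exact h2)
  obtain ⟨l, hl⟩ := exists_extension (zpowersHom K a).range (A := ℂˣ) (by
    intro m hm c
    obtain ⟨d, hd⟩ := IsAlgClosed.exists_pow_nat_eq (c : ℂ) (Nat.pos_of_ne_zero hm)
    have hd0 : d ≠ 0 := by
      rintro rfl
      rw [zero_pow hm] at hd
      exact c.ne_zero hd.symm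
    exact ⟨Units.mk0 d hd0, Units.ext hd⟩) l0
  refine ⟨l, ?_⟩
  have h3 : l a = ζ := by
    have h4 := hl (f (Multiplicative.ofAdd 1))
    have h5 : ((f (Multiplicative.ofAdd 1) : (zpowersHom K a).range) : K) = a := zpow_one a
    rw [h5] at h4
    rw [h4, hl0]
    exact zpow_one ζ
  rw [h3, hζ']


/-- If `A` is the Schur multiplier of the finite group `Q`, then the square of the exponent of `A` divides the order of `Q`. -/
theorem result {Q : Type*} [Group Q] [Finite Q] {A : Type*} [CommGroup A] (hA : Cfsg.HasSchurMultiplier Q A) : Monoid.exponent A ^ 2 ∣ Nat.card Q := by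
  open Subgroup CfsgLib.Schur CfsgLib.CharBasic CfsgLib.CharInd in
    obtain ⟨⟨Γ, _, _, σ, hσ, ⟨e⟩⟩, -⟩ := hA
    haveI : Fintype Γ := Fintype.ofFinite Γ
    haveI : Fintype σ.ker := Fintype.ofFinite σ.ker
    haveI : Finite A := Finite.of_equiv _ e.toEquiv
    obtain ⟨a, ha⟩ := Monoid.exists_orderOf_eq_exponent (G := A) (Monoid.ExponentExists.of_finite)
    letI : CommGroup σ.ker := { (inferInstance : Group σ.ker) with
      mul_comm := fun a b => Subtype.ext (mem_center_iff.1 (hσ.2.1 b.2) a) }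
    obtain ⟨l, hl⟩ := exists_char σ.ker (e.symm a)
    have hord : orderOf (l (e.symm a)) = Monoid.exponent A := by
      rw [hl, MulEquiv.orderOf_eq, ha]
    have hcl : Cfsg.IsClassFunction Γ (Cfsg.indFun σ.ker (fun k : σ.ker => (l k : ℂ))) := isClassFunction_indFun _ _
    have h1 := congrFun (eq_sum_inner hcl) 1
    rw [indFun_one, map_one, Units.val_one, mul_one, Finset.sum_apply] at h1
    have hidx : σ.ker.index = Nat.card Q := by
      rw [Subgroup.index_ker, MonoidHom.range_eq_top.2 hσ.1, Subgroup.card_top]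
    have h2 : ∀ χ : Cfsg.IrrCharacter Γ, ∃ n : ℕ, Cfsg.classInner (Cfsg.indFun σ.ker (fun k : σ.ker => (l k : ℂ))) χ * (χ : Γ → ℂ) 1
        = ((Monoid.exponent A * n : ℕ) ^ 2 : ℕ) := by
      intro χ
      rw [frobenius σ.ker _ (irr_isClassFunction χ), ← hord]
      exact term_dvd σ.ker hσ.2.1 hσ.2.2 l (e.symm a) χ
    choose n hn using h2
    have h3 : (Nat.card Q : ℂ) = ((∑ χ : Cfsg.IrrCharacter Γ, (Monoid.exponent A * n χ) ^ 2 : ℕ) : ℂ) := by
      rw [← hidx, h1, Nat.cast_sum]
      apply Finset.sum_congr rfl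
      intro χ _
      rw [← hn χ]; rfl
    have h4 : Nat.card Q = ∑ χ : Cfsg.IrrCharacter Γ, (Monoid.exponent A * n χ) ^ 2 := by exact_mod_cast h3
    rw [h4]
    apply Finset.dvd_sum
    intro χ _
    rw [mul_pow]
    exact dvd_mul_right _ _

end Cfsg.Agent.S3952
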