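import Cfsg.Statements.S3953
import Mathlib
import Cfsg.Agent.Lib.Schur6
import Cfsg.Agent.S3952

set_option autoImplicit false
open Cfsg

set_option linter.style.haveILetI false
namespace Cfsg.Agent.S3953

/-- Let `P` be a Sylow `p`-subgroup of the finite group `G`, let `A` be the Schur multiplier of `G` and `B` that of `P`. Then the `p`-primary component of `A` is isomorphic to a direct factor of `B`: there are subgroups `C` and `D` of `B` meeting trivially and generating `B`, with `C` isomorphic to the `p`-primary component of `A`. -/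
theorem result {G : Type*} [Group G] [Finite G] (p : ℕ) [Fact p.Prime] (P : Sylow p G) {A B : Type*} [CommGroup A] [CommGroup B] (hA : Cfsg.HasSchurMultiplier G A) (hB : Cfsg.HasSchurMultiplier P B) : ∃ C D : Subgroup B, C ⊓ D = ⊥ ∧ C ⊔ D = ⊤ ∧ Nonempty (CommGroup.primaryComponent A p ≃* C) := by
  open CfsgLib.Schur in
    set φ := taut G with hφdef
    have hφ : Function.Surjective φ := taut_surjective G
    obtain ⟨e⟩ := equiv_of_hasSchurMultiplier hφ hA
    obtain ⟨β⟩ := equiv_res hφ (P : Subgroup G) hB
    haveI : ((P : Subgroup G).comap φ).FiniteIndex := by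
      refine ⟨?_⟩
      rw [Subgroup.index_comap_of_surjective _ hφ]
      exact (P : Subgroup G).index_ne_zero_of_finite
    obtain ⟨t, j, htj⟩ := exists_transfer φ (P : Subgroup G) hφ
    haveI := finite_M hφ
    haveI : Finite A := Finite.of_equiv _ e.symm.toEquiv
    obtain ⟨e1⟩ := equiv_of_hasSchurMultiplier (taut_surjective P) hB
    haveI := finite_M (taut_surjective P)
    haveI : Finite B := Finite.of_equiv _ e1.symm.toEquiv
    set m := (P : Subgroup G).index with hm
    let j' : B →* A := e.symm.toMonoidHom.comp (j.comp β.toMonoidHom)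
    let t' : A →* B := β.symm.toMonoidHom.comp (t.comp e.toMonoidHom)
    have hjt : ∀ a, j' (t' a) = a ^ m := by
      intro a
      show e.symm (j (β (β.symm (t (e a))))) = a ^ m
      rw [β.apply_symm_apply, htj, map_pow, e.symm_apply_apply]
    have hmp : ¬ p ∣ m := P.not_dvd_index
    -- B is a p-group
    have hBp : IsPGroup p B := by
      have h1 := Cfsg.Agent.S3952.result hB
      obtain ⟨k, hk⟩ := IsPGroup.iff_card.1 P.isPGroup'
      rw [hk] at h1
      have h2 : Monoid.exponent B ∣ p ^ k := (Dvd.intro_left _ (by rw [← pow_two])).trans h1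
      obtain ⟨i, -, hi⟩ := (Nat.dvd_prime_pow Fact.out).1 h2
      intro b
      exact ⟨i, by rw [← hi]; exact Monoid.pow_exponent_eq_one b⟩
    have hcop : ∀ a : CommGroup.primaryComponent A p, (orderOf a).Coprime m := by
      intro a
      obtain ⟨k, hk⟩ := a.2
      have h1 : orderOf a ∣ p ^ k := orderOf_dvd_of_pow_eq_one (Subtype.ext hk)
      exact Nat.Coprime.coprime_dvd_left h1 (Nat.Coprime.pow_left k ((Nat.Prime.coprime_iff_not_dvd Fact.out).2 hmp))
    refine ⟨(CommGroup.primaryComponent A p).map t', j'.ker, ?_, ?_, ?_⟩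
    · rw [eq_bot_iff]
      rintro _ ⟨⟨a, ha, rfl⟩, hx⟩
      have h1 : a ^ m = 1 := by rw [← hjt]; exact hx
      have h2 := hcop ⟨a, ha⟩
      rw [Subgroup.orderOf_mk] at h2
      have h3 : orderOf a = 1 := Nat.eq_one_of_dvd_coprimes h2 dvd_rfl (orderOf_dvd_of_pow_eq_one h1)
      rw [orderOf_eq_one_iff] at h3
      rw [h3, map_one]; exact Subgroup.one_mem _
    · rw [eq_top_iff]
      intro b _
      obtain ⟨k, hk⟩ := hBp b
      have h1 : (j' b) ^ p ^ k = 1 := by rw [← map_pow, hk, map_one]
      have h2 : j' b ∈ CommGroup.primaryComponent A p := ⟨k, h1⟩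
      -- an m-th root inside the primary component
      have hc : (orderOf (j' b)).Coprime m := by
        have := hcop ⟨j' b, h2⟩
        rwa [Subgroup.orderOf_mk] at this
      obtain ⟨s, r, hsr⟩ : ∃ s r : ℤ, s * orderOf (j' b) + r * m = 1 := Nat.isCoprime_iff_coprime.2 hc
      have h3 : (j' b ^ r) ^ m = j' b := by
        rw [← zpow_natCast, ← zpow_mul]
        have h4 : r * m = 1 - s * orderOf (j' b) := by linarith
        rw [h4, zpow_sub, zpow_one, mul_comm s, zpow_mul, zpow_natCast, pow_orderOf_eq_one, one_zpow, inv_one, mul_one]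
      have h5 : b = t' (j' b ^ r) * ((t' (j' b ^ r))⁻¹ * b) := by group
      rw [h5]
      apply Subgroup.mul_mem_sup
      · exact Subgroup.mem_map_of_mem _ (Subgroup.zpow_mem _ h2 r)
      · rw [MonoidHom.mem_ker, map_mul, map_inv, hjt, h3, inv_mul_cancel]
    · have hinj : Function.Injective (t'.comp (CommGroup.primaryComponent A p).subtype) := by
        rw [← MonoidHom.ker_eq_bot_iff, eq_bot_iff]
        rintro ⟨a, ha⟩ hx
        have h0 : t' a = 1 := hx
        have h1 : a ^ m = 1 := by rw [← hjt, h0, map_one]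
        have h2 := hcop ⟨a, ha⟩
        rw [Subgroup.orderOf_mk] at h2
        have h3 : orderOf a = 1 := Nat.eq_one_of_dvd_coprimes h2 dvd_rfl (orderOf_dvd_of_pow_eq_one h1)
        rw [orderOf_eq_one_iff] at h3
        rw [Subgroup.mem_bot]; exact Subtype.ext h3
      have h1 : (t'.comp (CommGroup.primaryComponent A p).subtype).range = (CommGroup.primaryComponent A p).map t' := by
        rw [MonoidHom.range_comp, Subgroup.range_subtype]
      exact ⟨(MonoidHom.ofInjective hinj).trans (MulEquiv.subgroupCongr h1)⟩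

end Cfsg.Agent.S3953
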