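import Cfsg.Statements.S3954
import Mathlib
import Cfsg.Agent.Lib.Schur6

set_option autoImplicit false
open Cfsg

set_option linter.style.haveILetI false
namespace Cfsg.Agent.S3954

/-- a quotient of a finite abelian group is isomorphic to a subgroup -/
theorem exists_subgroup_of_surj {B : Type*} {C : Type*} [CommGroup B] [CommGroup C] [Finite B] [Finite C] (f : B →* C)
    (hf : Function.Surjective f) : ∃ D : Subgroup B, Nonempty (C ≃* D) := by
  haveI : NeZero (Monoid.exponent B) := ⟨Monoid.exponent_ne_zero_of_finite⟩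
  haveI : NeZero (Monoid.exponent C) := ⟨Monoid.exponent_ne_zero_of_finite⟩
  obtain ⟨eB⟩ := CommGroup.monoidHom_mulEquiv_of_hasEnoughRootsOfUnity B ℂ
  obtain ⟨eC⟩ := CommGroup.monoidHom_mulEquiv_of_hasEnoughRootsOfUnity C ℂ
  let g : (C →* ℂˣ) →* (B →* ℂˣ) :=
    { toFun := fun χ => χ.comp f
      map_one' := rfl
      map_mul' := fun _ _ => rfl }
  have hg : Function.Injective g := by
    intro χ ψ h
    ext c
    obtain ⟨b, rfl⟩ := hf c
    exact congrArg Units.val (DFunLike.congr_fun h b)
  let k : C →* B := eB.toMonoidHom.comp (g.comp eC.symm.toMonoidHom)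
  have hk : Function.Injective k := eB.injective.comp (hg.comp eC.symm.injective)
  exact ⟨k.range, ⟨MonoidHom.ofInjective hk⟩⟩


/-- Let `U` be a subgroup of index `m` in the finite group `G`, let `A` be the Schur multiplier of `G` and `B` that of `U`. Then the subgroup of `m`-th powers of `A` is isomorphic to a subgroup of `B`. -/
theorem result {G : Type*} [Group G] [Finite G] (U : Subgroup G) {A B : Type*} [CommGroup A] [CommGroup B] (hA : Cfsg.HasSchurMultiplier G A) (hB : Cfsg.HasSchurMultiplier U B) : ∃ C : Subgroup B, Nonempty ((powMonoidHom U.index : A →* A).range ≃* C) := by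
  open CfsgLib.Schur in
    set φ := taut G with hφdef
    have hφ : Function.Surjective φ := taut_surjective G
    obtain ⟨e⟩ := equiv_of_hasSchurMultiplier hφ hA
    obtain ⟨π, hπ⟩ := exists_surj_res φ hφ hB
    haveI : (U.comap φ).FiniteIndex := by
      refine ⟨?_⟩
      rw [Subgroup.index_comap_of_surjective U hφ]
      exact U.index_ne_zero_of_finite
    obtain ⟨t, j, htj⟩ := exists_transfer φ U hφ
    haveI := finite_M hφ
    haveI : Finite A := Finite.of_equiv _ e.symm.toEquiv
    obtain ⟨e1⟩ := equiv_of_hasSchurMultiplier (taut_surjective U) hB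
    haveI := finite_M (taut_surjective U)
    haveI : Finite B := Finite.of_equiv _ e1.symm.toEquiv
    -- the subgroup of B over t(M)
    let B₁ : Subgroup B := t.range.comap π
    let f : B₁ →* A := e.symm.toMonoidHom.comp ((j.comp π).comp B₁.subtype)
    have hfr : ∀ b : B₁, f b ∈ (powMonoidHom U.index : A →* A).range := by
      rintro ⟨b, m, hm⟩
      refine ⟨e.symm m, ?_⟩
      show (e.symm m) ^ U.index = e.symm (j (π b))
      rw [← hm, htj, map_pow]
    let f' : B₁ →* (powMonoidHom U.index : A →* A).range := f.codRestrict _ hfr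
    have hf' : Function.Surjective f' := by
      rintro ⟨_, a, rfl⟩
      obtain ⟨b, hb⟩ := hπ (t (e a))
      refine ⟨⟨b, e a, hb.symm⟩, Subtype.ext ?_⟩
      show e.symm (j (π b)) = a ^ U.index
      rw [hb, htj, map_pow, e.symm_apply_apply]
    obtain ⟨D, ⟨eD⟩⟩ := exists_subgroup_of_surj f' hf'
    exact ⟨D.map B₁.subtype, ⟨eD.trans (D.equivMapOfInjective B₁.subtype B₁.subtype_injective)⟩⟩

end Cfsg.Agent.S3954
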