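import Cfsg.Statements.S3955
import Mathlib
import Cfsg.Agent.Lib.Schur2

set_option autoImplicit false
open Cfsg

set_option linter.style.haveILetI false
namespace Cfsg.Agent.S3955

/-- Let `Q` be a finite group with Schur multiplier `A`, and let `σ : Γ →* Q` be a finite stem extension whose kernel is isomorphic to `A` (a Schur covering group of `Q`). Then every homomorphism `γ` from `Q` to the quotient of `GL n ℂ` by its centre lifts along `σ`: there is a homomorphism `ρ : Γ →* GL n ℂ` which, followed by the quotient map, equals `γ ∘ σ`. -/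
theorem result {Q : Type*} [Group Q] [Finite Q] {A : Type*} [CommGroup A] (hA : Cfsg.HasSchurMultiplier Q A) {Γ : Type*} [Group Γ] [Finite Γ] (σ : Γ →* Q) (hσ : Cfsg.IsStemExtension σ) (hk : Nonempty (σ.ker ≃* A)) (n : ℕ) (γ : Q →* (GL (Fin n) ℂ ⧸ Subgroup.center (GL (Fin n) ℂ))) : ∃ ρ : Γ →* GL (Fin n) ℂ, (QuotientGroup.mk' (Subgroup.center (GL (Fin n) ℂ))).comp ρ = γ.comp σ := by
  open Subgroup CfsgLib.Schur in
    set φ := taut Q with hφdef
    have hφ : Function.Surjective φ := taut_surjective Q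
    obtain ⟨ψ, hψ⟩ := exists_lift φ σ hσ.1
    have hψs : Function.Surjective ψ := surjective_of_stem hφ hσ hψ
    -- kernel of ψ meets F' in N
    haveI := finite_M hφ
    obtain ⟨eA⟩ := equiv_of_hasSchurMultiplier hφ hA
    obtain ⟨ek⟩ := hk
    have hmap := map_ker_inf_of_stem hφ hσ hψ
    let q : FreeGroup Q ⧸ N φ →* Γ := QuotientGroup.lift (N φ) ψ (rel_le_ker φ σ hσ.2.1 ψ hψ)
    have hq : (M φ).map q = σ.ker := by
      rw [M, Subgroup.map_map, ← hmap]; rfl
    let r : M φ →* σ.ker := (q.comp (M φ).subtype).codRestrict _ (fun x => by rw [← hq]; exact mem_map_of_mem q x.2)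
    have hr : Function.Surjective r := by
      rintro ⟨y, hy⟩
      rw [← hq] at hy
      obtain ⟨x, hx, rfl⟩ := hy
      exact ⟨⟨x, hx⟩, rfl⟩
    have hrb : Function.Bijective r := by
      rw [Nat.bijective_iff_surjective_and_card]
      exact ⟨hr, (Nat.card_congr eA.toEquiv).symm.trans (Nat.card_congr ek.toEquiv).symm⟩
    have hS : ∀ x ∈ ψ.ker ⊓ commutator (FreeGroup Q), x ∈ N φ := by
      rintro x ⟨hx1, hx2⟩
      have hx3 : x ∈ φ.ker := by
        rw [MonoidHom.mem_ker, ← hψ, MonoidHom.comp_apply, MonoidHom.mem_ker.1 hx1, map_one]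
      have h1 : r ⟨QuotientGroup.mk' (N φ) x, mem_map_of_mem _ ⟨hx3, hx2⟩⟩ = r 1 := by
        rw [map_one]; exact Subtype.ext hx1
      have h2 := hrb.1 h1
      exact (QuotientGroup.eq_one_iff x).1 (congrArg Subtype.val h2)
    -- lift the projective representation to the free group
    set pj := QuotientGroup.mk' (center (GL (Fin n) ℂ)) with hpj
    obtain ⟨τ, hτ⟩ := exists_lift (γ.comp φ) pj (QuotientGroup.mk'_surjective _)
    have hτR : ∀ x ∈ φ.ker, τ x ∈ center (GL (Fin n) ℂ) := by
      intro x hx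
      rw [← QuotientGroup.ker_mk' (center (GL (Fin n) ℂ)), MonoidHom.mem_ker, ← MonoidHom.comp_apply, hτ, MonoidHom.comp_apply,
        MonoidHom.mem_ker.1 hx, map_one]
    have hτN : ∀ x ∈ N φ, τ x = 1 := by
      intro x hx
      have h1 : N φ ≤ τ.ker := by
        rw [N, commutator_le]
        intro a ha b _
        rw [MonoidHom.mem_ker, map_commutatorElement]
        exact comm_eq_one_of_center (hτR a ha) _
      exact h1 hx
    have hker : ψ.ker ≤ φ.ker := by
      intro x hx
      rw [MonoidHom.mem_ker, ← hψ, MonoidHom.comp_apply, MonoidHom.mem_ker.1 hx, map_one]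
    -- the character of ψ.ker
    let S := ψ.ker
    let X := S.map (Abelianization.of (G := FreeGroup Q))
    let f1 : S →* X := (Abelianization.of.comp S.subtype).codRestrict _ (fun x => mem_map_of_mem _ x.2)
    have hf1 : Function.Surjective f1 := by
      rintro ⟨_, x, hx, rfl⟩
      exact ⟨⟨x, hx⟩, rfl⟩
    let g1 : S →* center (GL (Fin n) ℂ) := (τ.comp S.subtype).codRestrict _ (fun x => hτR _ (hker x.2))
    obtain ⟨l, hl⟩ := exists_factor f1 hf1 g1 (by
      rintro ⟨x, hx⟩ h1
      have h2 : Abelianization.of x = 1 := congrArg Subtype.val h1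
      rw [← MonoidHom.mem_ker, Abelianization.ker_of] at h2
      exact Subtype.ext (hτN x (hS x ⟨hx, h2⟩)))
    letI : CommGroup (center (GL (Fin n) ℂ)) := { (inferInstance : Group (center (GL (Fin n) ℂ))) with
      mul_comm := fun a b => Subtype.ext (mem_center_iff.1 b.2 a) }
    obtain ⟨χ, hχ⟩ := exists_extension (A := center (GL (Fin n) ℂ)) X (center_GL_divisible n) l
    let ρ₀ : FreeGroup Q →* GL (Fin n) ℂ :=
      { toFun := fun x => τ x * ((χ (Abelianization.of x) : center (GL (Fin n) ℂ)) : GL (Fin n) ℂ)⁻¹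
        map_one' := by simp
        map_mul' := by
          intro x y
          have hz := mem_center_iff.1 (χ (Abelianization.of x))⁻¹.2
          rw [map_mul, map_mul, map_mul, Subgroup.coe_mul, mul_inv_rev]
          have h1 := hz (τ y)
          have h2 := hz ((χ (Abelianization.of y) : center (GL (Fin n) ℂ)) : GL (Fin n) ℂ)⁻¹
          rw [Subgroup.coe_inv] at h1 h2
          rw [h2, mul_assoc, ← mul_assoc (τ y), h1]
          group }
    have hρ₀ : ∀ x, ρ₀ x = τ x * ((χ (Abelianization.of x) : center (GL (Fin n) ℂ)) : GL (Fin n) ℂ)⁻¹ := fun x => rfl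
    obtain ⟨ρ, hρ⟩ := exists_factor ψ hψs ρ₀ (by
      intro x hx
      have h1 : χ (Abelianization.of x) = ⟨τ x, hτR _ (hker hx)⟩ := by
        have h2 : Abelianization.of x = ((f1 ⟨x, hx⟩ : X) : Abelianization (FreeGroup Q)) := rfl
        rw [h2, hχ, hl]; rfl
      rw [MonoidHom.mem_ker, hρ₀, h1, mul_inv_cancel])
    refine ⟨ρ, ?_⟩
    ext y
    obtain ⟨x, rfl⟩ := hψs y
    have h1 : pj ((χ (Abelianization.of x) : center (GL (Fin n) ℂ)) : GL (Fin n) ℂ) = 1 := by
      rw [← MonoidHom.mem_ker, hpj, QuotientGroup.ker_mk']; exact (χ (Abelianization.of x)).2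
    rw [MonoidHom.comp_apply, MonoidHom.comp_apply, hρ, hρ₀, map_mul, map_inv, h1, inv_one, mul_one, ← MonoidHom.comp_apply, hτ,
      MonoidHom.comp_apply, ← hψ, MonoidHom.comp_apply]

end Cfsg.Agent.S3955
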