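import Cfsg.Statements.S3956
import Mathlib
import Cfsg.Agent.Lib.Schur2

set_option autoImplicit false
universe u v
open Cfsg

namespace Cfsg.Agent.S3956

/-- Let `σ : Γ →* Q` be a finite stem extension of the finite group `Q` such that every homomorphism from `Q` to the quotient of `GL n ℂ` by its centre, for every `n`, lifts along `σ` to a homomorphism `Γ →* GL n ℂ`. Then `σ` is a Schur covering group of `Q`: for every finite stem extension `τ : Δ →* Q` with `Δ` in the same universe as `Q`, the kernel of `τ` is a homomorphic image of the kernel of `σ`. -/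
theorem result {Q : Type u} [Group Q] [Finite Q] {Γ : Type v} [Group Γ] [Finite Γ] (σ : Γ →* Q) (hσ : Cfsg.IsStemExtension σ) (hlift : ∀ (n : ℕ) (γ : Q →* (GL (Fin n) ℂ ⧸ Subgroup.center (GL (Fin n) ℂ))), ∃ ρ : Γ →* GL (Fin n) ℂ, (QuotientGroup.mk' (Subgroup.center (GL (Fin n) ℂ))).comp ρ = γ.comp σ) (Δ : Type u) [Group Δ] [Finite Δ] (τ : Δ →* Q) (hτ : Cfsg.IsStemExtension τ) : ∃ π : σ.ker →* τ.ker, Function.Surjective π := by
  open Subgroup CfsgLib.Schur in
    set φ := taut Q with hφdef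
    have hφ : Function.Surjective φ := taut_surjective Q
    obtain ⟨ψ, hψ⟩ := exists_lift φ σ hσ.1
    obtain ⟨χ, hχ⟩ := exists_lift φ τ hτ.1
    refine stem_ker_hom hφ hσ hτ hψ hχ ?_
    rintro x ⟨hx1, hx2⟩ hx3
    by_contra hne
    have hxt : χ x ∈ τ.ker := by
      rw [MonoidHom.mem_ker, ← MonoidHom.comp_apply, hχ]; exact hx1
    obtain ⟨n, ρ, hρ1, hρ2⟩ := exists_rep τ.ker hτ.2.1 hxt hne
    set pj := QuotientGroup.mk' (center (GL (Fin n) ℂ)) with hpj
    obtain ⟨γ, hγ⟩ := exists_factor τ hτ.1 (pj.comp ρ) (by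
      intro y hy
      rw [MonoidHom.mem_ker, MonoidHom.comp_apply, ← MonoidHom.mem_ker, hpj, QuotientGroup.ker_mk']
      exact hρ1 y hy)
    obtain ⟨ρ', hρ'⟩ := hlift n γ
    have h1 := agree_on_commutator pj (by rw [hpj, QuotientGroup.ker_mk']) (ρ'.comp ψ) (ρ.comp χ) (by
      rw [← MonoidHom.comp_assoc, hρ', MonoidHom.comp_assoc, hψ]
      ext y
      rw [MonoidHom.comp_apply, MonoidHom.comp_apply, MonoidHom.comp_apply, ← hχ, MonoidHom.comp_apply, hγ, MonoidHom.comp_apply]) x hx2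
    rw [MonoidHom.comp_apply, MonoidHom.comp_apply, hx3, map_one] at h1
    exact hρ2 h1.symm

end Cfsg.Agent.S3956
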