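import Cfsg.Statements.S3957
import Mathlib
import Cfsg.Agent.Lib.Schur2

set_option autoImplicit false
universe u v
open Cfsg

set_option linter.style.haveILetI false
namespace Cfsg.Agent.S3957

/-- Let `Q` be a finite group with Schur multiplier `A` and let `τ : Δ →* Q` be a finite stem extension, `Δ` in the universe of `Q`. Then there is a finite stem extension `σ : Γ →* Q` with kernel isomorphic to `A` (a Schur covering group) and a surjective homomorphism `β : Γ →* Δ` with `τ ∘ β = σ`. -/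
theorem result {Q : Type u} [Group Q] [Finite Q] {A : Type v} [CommGroup A] (hA : Cfsg.HasSchurMultiplier Q A) {Δ : Type u} [Group Δ] [Finite Δ] (τ : Δ →* Q) (hτ : Cfsg.IsStemExtension τ) : ∃ (Γ : Type u) (_ : Group Γ) (_ : Finite Γ) (σ : Γ →* Q), Cfsg.IsStemExtension σ ∧ Nonempty (σ.ker ≃* A) ∧ ∃ β : Γ →* Δ, Function.Surjective β ∧ τ.comp β = σ := by
  open Subgroup CfsgLib.Schur in
    set φ := taut Q with hφdef
    have hφ : Function.Surjective φ := taut_surjective Q
    obtain ⟨ψ, hψ⟩ := exists_lift φ τ hτ.1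
    have hψs : Function.Surjective ψ := surjective_of_stem hφ hτ hψ
    have hker : ψ.ker ≤ φ.ker := by
      intro x hx
      rw [MonoidHom.mem_ker, ← hψ, MonoidHom.comp_apply, MonoidHom.mem_ker.1 hx, map_one]
    obtain ⟨S, hS, hST⟩ := exists_compl φ ψ.ker (rel_le_ker φ τ hτ.2.1 ψ hψ) hker (by
      intro x hx
      have h1 : ψ x ∈ τ.ker := by rw [MonoidHom.mem_ker, ← MonoidHom.comp_apply, hψ]; exact hx
      rw [← map_ker_inf_of_stem hφ hτ hψ] at h1
      obtain ⟨c, hc, hcx⟩ := h1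
      have h2 : x * c⁻¹ ∈ ψ.ker := by rw [MonoidHom.mem_ker, map_mul, map_inv, hcx, mul_inv_cancel]
      have h3 := mul_mem_sup h2 hc.2
      rwa [inv_mul_cancel_right] at h3)
    haveI := hS.normal
    obtain ⟨e⟩ := hS.equiv
    obtain ⟨eA⟩ := equiv_of_hasSchurMultiplier hφ hA
    refine ⟨FreeGroup Q ⧸ S, inferInstance, hS.finite hφ, hS.cov, hS.isStem hφ, ⟨e.symm.trans eA.symm⟩, QuotientGroup.lift S ψ hST, ?_, ?_⟩
    · intro y
      obtain ⟨x, rfl⟩ := hψs y
      exact ⟨QuotientGroup.mk' S x, rfl⟩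
    · exact QuotientGroup.monoidHom_ext _ hψ

end Cfsg.Agent.S3957
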