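import Cfsg.Statements.S3958
import Mathlib
import Cfsg.Agent.Lib.Schur2

set_option autoImplicit false
universe u v
open Cfsg

namespace Cfsg.Agent.S3958

/-- Let `σ : Γ →* Q` be a finite stem extension of the finite group `Q` with `Γ` of trivial Schur multiplier. Then `σ` is a Schur covering group of `Q`: for every finite stem extension `τ : Δ →* Q` with `Δ` in the same universe as `Q`, the kernel of `τ` is a homomorphic image of the kernel of `σ`. -/
theorem result {Q : Type u} [Group Q] [Finite Q] {Γ : Type v} [Group Γ] [Finite Γ] (σ : Γ →* Q) (hσ : Cfsg.IsStemExtension σ) (hΓ : Cfsg.HasCyclicSchurMultiplier Γ 1) (Δ : Type u) [Group Δ] [Finite Δ] (τ : Δ →* Q) (hτ : Cfsg.IsStemExtension τ) : ∃ π : σ.ker →* τ.ker, Function.Surjective π := by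
  open Subgroup CfsgLib.Schur in
    set φG := taut Γ with hφG
    have hφs : Function.Surjective φG := taut_surjective Γ
    have hφ : Function.Surjective (σ.comp φG) := hσ.1.comp hφs
    obtain ⟨χ, hχ⟩ := exists_lift (σ.comp φG) τ hτ.1
    refine stem_ker_hom hφ hσ hτ (ψ := φG) rfl hχ ?_
    rintro x ⟨hx1, hx2⟩ hx3
    have h1 : x ∈ N φG := ker_inf_le_of_one hΓ hφs ⟨hx3, hx2⟩
    have h2 : N φG ≤ N (σ.comp φG) := by
      apply commutator_mono _ le_rfl
      intro y hy
      rw [MonoidHom.mem_ker, MonoidHom.comp_apply, MonoidHom.mem_ker.1 hy, map_one]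
    exact rel_le_ker _ τ hτ.2.1 χ hχ (h2 h1)

end Cfsg.Agent.S3958
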