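import Cfsg.Statements.S3959
import Mathlib
import Cfsg.Agent.Lib.Schur4

set_option autoImplicit false
universe u v w
open Cfsg

open scoped commutatorElement
set_option linter.style.haveILetI false
namespace Cfsg.Agent.S3959

theorem closure_tmul (M : Type*) (N : Type*) [AddCommGroup M] [AddCommGroup N] :
    AddSubgroup.closure {t : TensorProduct ℤ M N | ∃ a b, TensorProduct.tmul ℤ a b = t} = ⊤ := by
  rw [eq_top_iff]
  intro t _
  induction t using TensorProduct.induction_on with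
  | zero => exact AddSubgroup.zero_mem _
  | tmul a b => exact AddSubgroup.subset_closure ⟨a, b, rfl⟩
  | add a b ha hb => exact AddSubgroup.add_mem _ (ha trivial) (hb trivial)

theorem finite_tensor (M : Type*) (N : Type*) [AddCommGroup M] [AddCommGroup N] [Finite M] [Finite N] :
    Finite (TensorProduct ℤ M N) := by
  haveI : AddGroup.FG (TensorProduct ℤ M N) := by
    rw [AddGroup.fg_iff]
    refine ⟨_, closure_tmul M N, ?_⟩
    have : {t : TensorProduct ℤ M N | ∃ a b, TensorProduct.tmul ℤ a b = t} = Set.range (fun ab : M × N => TensorProduct.tmul ℤ ab.1 ab.2) := by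
      ext t
      constructor
      · rintro ⟨a, b, rfl⟩; exact ⟨(a, b), rfl⟩
      · rintro ⟨⟨a, b⟩, rfl⟩; exact ⟨a, b, rfl⟩
    rw [this]
    exact Set.finite_range _
  refine AddCommGroup.finite_of_fg_isAddTorsion (TensorProduct ℤ M N) ?_
  intro t
  rw [isOfFinAddOrder_iff_nsmul_eq_zero]
  refine ⟨Nat.card M, Nat.card_pos, ?_⟩
  induction t using TensorProduct.induction_on with
  | zero => simp
  | tmul a b =>
    have h := TensorProduct.smul_tmul' (Nat.card M) a b (R := ℤ)
    rw [card_nsmul_eq_zero', TensorProduct.zero_tmul] at h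
    exact h
  | add a b ha hb => rw [nsmul_add, ha, hb, add_zero]

open Subgroup CfsgLib.Schur in
open scoped commutatorElement in
/-- the commutator pairing of a stem extension of a direct product -/
theorem pairing {Q₁ : Type*} {Q₂ : Type*} [Group Q₁] [Group Q₂] {Γ : Type*} [Group Γ]
    {σ : Γ →* Q₁ × Q₂} (hσ : Cfsg.IsStemExtension σ) (K : Type*) [CommGroup K] (j : K →* Γ) (hj : Function.Injective j) (hjr : j.range = σ.ker) :
    ∃ θ : Multiplicative (TensorProduct ℤ (Additive (Abelianization Q₁)) (Additive (Abelianization Q₂))) →* K,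
      ∀ x y : Γ, (σ x).2 = 1 → (σ y).1 = 1 → ∃ t, j (θ t) = ⁅x, y⁆ := by
  set Γ₁ : Subgroup Γ := ((MonoidHom.snd Q₁ Q₂).comp σ).ker with hΓ₁
  set Γ₂ : Subgroup Γ := ((MonoidHom.fst Q₁ Q₂).comp σ).ker with hΓ₂
  have hm1 : ∀ x : Γ, x ∈ Γ₁ ↔ (σ x).2 = 1 := fun x => Iff.rfl
  have hm2 : ∀ x : Γ, x ∈ Γ₂ ↔ (σ x).1 = 1 := fun x => Iff.rfl
  let ξ₁ : Γ₁ →* Q₁ := ((MonoidHom.fst Q₁ Q₂).comp σ).comp Γ₁.subtype
  let ξ₂ : Γ₂ →* Q₂ := ((MonoidHom.snd Q₁ Q₂).comp σ).comp Γ₂.subtype
  have hξ₁s : Function.Surjective ξ₁ := by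
    intro q
    obtain ⟨x, hx⟩ := hσ.1 (q, 1)
    exact ⟨⟨x, (hm1 x).2 (by rw [hx])⟩, by show (σ x).1 = q; rw [hx]⟩
  have hξ₂s : Function.Surjective ξ₂ := by
    intro q
    obtain ⟨x, hx⟩ := hσ.1 (1, q)
    exact ⟨⟨x, (hm2 x).2 (by rw [hx])⟩, by show (σ x).2 = q; rw [hx]⟩
  have hk1 : ∀ x : Γ₁, x ∈ ξ₁.ker → (x : Γ) ∈ σ.ker := fun x hx => Prod.ext (show (σ x).1 = 1 from hx) ((hm1 x).1 x.2)
  have hk2 : ∀ x : Γ₂, x ∈ ξ₂.ker → (x : Γ) ∈ σ.ker := fun x hx => Prod.ext ((hm2 x).1 x.2) (show (σ x).2 = 1 from hx)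
  have h12 : ∀ (x : Γ₁) (y : Γ₂), ⁅(x : Γ), (y : Γ)⁆ ∈ σ.ker := by
    intro x y
    rw [MonoidHom.mem_ker, map_commutatorElement]
    refine Prod.ext ?_ ?_
    · show ⁅(σ x).1, (σ y).1⁆ = 1
      rw [(hm2 y).1 y.2, commutatorElement_one_right]
    · show ⁅(σ x).2, (σ y).2⁆ = 1
      rw [(hm1 x).1 x.2, commutatorElement_one_left]
  have hlift : ∀ (x : Γ₁) (y : Γ₂), ∃ k : K, j k = ⁅(x : Γ), (y : Γ)⁆ := by
    intro x y
    have := h12 x y
    rw [← hjr] at this
    exact this
  choose c hc using hlift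
  have hcen : ∀ (x : Γ₁) (y : Γ₂) (g : Γ), g * ⁅(x : Γ), (y : Γ)⁆ = ⁅(x : Γ), (y : Γ)⁆ * g := fun x y g =>
    mem_center_iff.1 (hσ.2.1 (h12 x y)) g
  have hcl : ∀ x x' y, c (x * x') y = c x y * c x' y := by
    intro x x' y
    apply hj
    rw [map_mul, hc, hc, hc, Subgroup.coe_mul, commutatorElement_mul_left_eq_conj_mul, hcen x' y x, mul_inv_cancel_right]
    exact (hcen x' y _).symm
  have hcr : ∀ x y y', c x (y * y') = c x y * c x y' := by
    intro x y y'
    apply hj
    rw [map_mul, hc, hc, hc, Subgroup.coe_mul, commutatorElement_mul_right_eq_mul_conj, mul_assoc ⁅(x : Γ), (y : Γ)⁆, hcen x y', ← mul_assoc, mul_inv_cancel_right]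
  have hc1 : ∀ x y, ξ₁ x = 1 → c x y = 1 := by
    intro x y hx
    apply hj
    rw [hc, map_one]
    exact comm_eq_one_of_center (hσ.2.1 (hk1 x hx)) _
  have hc2 : ∀ x y, ξ₂ y = 1 → c x y = 1 := by
    intro x y hy
    apply hj
    rw [hc, map_one]
    exact comm_eq_one_of_center' (hσ.2.1 (hk2 y hy)) _
  -- descend to Q₁, Q₂
  let F1 : Γ₁ →* (Γ₂ →* K) :=
    { toFun := fun x => { toFun := c x, map_one' := hc2 x 1 (map_one ξ₂), map_mul' := hcr x }
      map_one' := MonoidHom.ext fun y => hc1 1 y (map_one ξ₁)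
      map_mul' := fun x x' => MonoidHom.ext fun y => hcl x x' y }
  obtain ⟨F2, hF2⟩ := exists_factor ξ₁ hξ₁s F1 (fun x hx => MonoidHom.ext fun y => hc1 x y hx)
  obtain ⟨F3, hF3⟩ := exists_factor ξ₂ hξ₂s F2.flip (fun y hy => MonoidHom.ext fun q => by
    obtain ⟨x, rfl⟩ := hξ₁s q
    rw [MonoidHom.flip_apply, hF2]
    exact hc2 x y hy)
  have hF3' : ∀ x y, F3 (ξ₂ y) (ξ₁ x) = c x y := by
    intro x y
    rw [hF3, MonoidHom.flip_apply, hF2]; rfl
  -- to abelianizations
  let F4 : Abelianization Q₂ →* (Q₁ →* K) := Abelianization.lift F3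
  let F5 : Abelianization Q₁ →* (Abelianization Q₂ →* K) := Abelianization.lift F4.flip
  have hF5 : ∀ x y, F5 (Abelianization.of (ξ₁ x)) (Abelianization.of (ξ₂ y)) = c x y := by
    intro x y
    rw [← hF3']
    show (Abelianization.lift F4.flip (Abelianization.of (ξ₁ x))) (Abelianization.of (ξ₂ y)) = _
    rw [Abelianization.lift_apply_of, MonoidHom.flip_apply]
    show (Abelianization.lift F3 (Abelianization.of (ξ₂ y))) (ξ₁ x) = _
    rw [Abelianization.lift_apply_of]
  let f : Additive (Abelianization Q₁) →+ (Additive (Abelianization Q₂) →+ Additive K) :=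
    { toFun := fun a => MonoidHom.toAdditive (F5 (Additive.toMul a))
      map_zero' := by ext b; show F5 1 _ = 1; rw [map_one]; rfl
      map_add' := by intro a a'; ext b; show F5 (Additive.toMul a * Additive.toMul a') _ = _; rw [map_mul]; rfl }
  let T := TensorProduct.liftAddHom (R := ℤ) f (by
    intro r m n
    rw [map_zsmul, map_zsmul]; rfl)
  refine ⟨AddMonoidHom.toMultiplicativeLeft T, fun x y hx hy => ?_⟩
  refine ⟨Multiplicative.ofAdd (TensorProduct.tmul ℤ (Additive.ofMul (Abelianization.of (ξ₁ ⟨x, hx⟩))) (Additive.ofMul (Abelianization.of (ξ₂ ⟨y, hy⟩)))), ?_⟩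
  have h1 := hc ⟨x, hx⟩ ⟨y, hy⟩
  rw [← h1, ← hF5]
  rfl


/-- Let `Q₁` and `Q₂` be finite groups with Schur multipliers `A` and `B`. Then the Schur multiplier of `Q₁ × Q₂` is isomorphic to `A × B × (Q₁ᵃᵇ ⊗ Q₂ᵃᵇ)`, the last factor being the tensor product over the integers of the commutator quotients, written multiplicatively. -/
theorem result {Q₁ : Type u} {Q₂ : Type v} [Group Q₁] [Group Q₂] [Finite Q₁] [Finite Q₂] {A B : Type w} [CommGroup A] [CommGroup B] (hA : Cfsg.HasSchurMultiplier Q₁ A) (hB : Cfsg.HasSchurMultiplier Q₂ B) : Cfsg.HasSchurMultiplier (Q₁ × Q₂) (A × B × Multiplicative (TensorProduct ℤ (Additive (Abelianization Q₁)) (Additive (Abelianization Q₂)))) := by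
  open Subgroup CfsgLib.Schur in
    constructor
    · obtain ⟨⟨Γ₁, _, _, σ₁, hσ₁, ⟨e₁⟩⟩, -⟩ := hA
      obtain ⟨⟨Γ₂, _, _, σ₂, hσ₂, ⟨e₂⟩⟩, -⟩ := hB
      haveI : Finite (TensorProduct ℤ (Additive (Abelianization Q₁)) (Additive (Abelianization Q₂))) := finite_tensor _ _
      let Z := Multiplicative (TensorProduct ℤ (Additive (Abelianization Q₁)) (Additive (Abelianization Q₂)))
      let β : Γ₁ × Γ₂ → Γ₁ × Γ₂ → Z := fun g h => Multiplicative.ofAdd
        (TensorProduct.tmul ℤ (Additive.ofMul (Abelianization.of (σ₁ g.1))) (Additive.ofMul (Abelianization.of (σ₂ h.2))))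
      obtain ⟨Δ, i1, i2, τ, hτ, ⟨e⟩⟩ := exists_stem_heis (isStem_prodMap hσ₁ hσ₂) β
        (by
          intro a b c
          show Multiplicative.ofAdd (TensorProduct.tmul ℤ (Additive.ofMul (Abelianization.of (σ₁ (a.1 * b.1)))) _) = _
          rw [map_mul, map_mul, ofMul_mul, TensorProduct.add_tmul]; rfl)
        (by
          intro a b c
          show Multiplicative.ofAdd (TensorProduct.tmul ℤ _ (Additive.ofMul (Abelianization.of (σ₂ (b.2 * c.2))))) = _
          rw [map_mul, map_mul, ofMul_mul, TensorProduct.tmul_add]; rfl)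
        (by
          intro a b ha
          have h1 : σ₁ a.1 = 1 := congrArg Prod.fst ha
          show Multiplicative.ofAdd (TensorProduct.tmul ℤ (Additive.ofMul (Abelianization.of (σ₁ a.1))) _) = 1
          rw [h1, map_one, ofMul_one, TensorProduct.zero_tmul]; rfl)
        (by
          intro a b hb
          have h1 : σ₂ b.2 = 1 := congrArg Prod.snd hb
          show Multiplicative.ofAdd (TensorProduct.tmul ℤ _ (Additive.ofMul (Abelianization.of (σ₂ b.2)))) = 1
          rw [h1, map_one, ofMul_one, TensorProduct.tmul_zero]; rfl)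
        (by
          rw [eq_top_iff]
          intro z _
          have h1 : ∀ t : TensorProduct ℤ (Additive (Abelianization Q₁)) (Additive (Abelianization Q₂)), (Multiplicative.ofAdd t : Z) ∈
              Subgroup.closure {z : Z | ∃ a b : Γ₁ × Γ₂, a * b = b * a ∧ z = β a b * (β b a)⁻¹} := by
            intro t
            induction t using TensorProduct.induction_on with
            | zero => exact Subgroup.one_mem _
            | tmul a b =>
              apply Subgroup.subset_closure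
              obtain ⟨q₁, hq₁⟩ : ∃ q, Abelianization.of q = Additive.toMul a := QuotientGroup.mk_surjective (Additive.toMul a)
              obtain ⟨g₁, rfl⟩ := hσ₁.1 q₁
              obtain ⟨q₂, hq₂⟩ : ∃ q, Abelianization.of q = Additive.toMul b := QuotientGroup.mk_surjective (Additive.toMul b)
              obtain ⟨g₂, rfl⟩ := hσ₂.1 q₂
              refine ⟨(g₁, 1), (1, g₂), by simp, ?_⟩
              have e1 : β (1, g₂) (g₁, 1) = 1 := by
                show Multiplicative.ofAdd (TensorProduct.tmul ℤ (Additive.ofMul (Abelianization.of (σ₁ 1))) _) = 1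
                rw [map_one, map_one, ofMul_one, TensorProduct.zero_tmul]; rfl
              rw [e1, inv_one, mul_one]
              show _ = Multiplicative.ofAdd (TensorProduct.tmul ℤ (Additive.ofMul (Abelianization.of (σ₁ g₁))) (Additive.ofMul (Abelianization.of (σ₂ g₂))))
              rw [hq₁, hq₂]; rfl
            | add a b ha hb => exact Subgroup.mul_mem _ ha hb
          exact h1 (Multiplicative.toAdd z))
      refine ⟨Δ, i1, i2, τ, hτ, ⟨e.trans ?_⟩⟩
      let e3 : (σ₁.prodMap σ₂).ker ≃* A × B :=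
        { toFun := fun x => (e₁ ⟨x.1.1, congrArg Prod.fst x.2⟩, e₂ ⟨x.1.2, congrArg Prod.snd x.2⟩)
          invFun := fun y => ⟨((e₁.symm y.1).1, (e₂.symm y.2).1), Prod.ext (e₁.symm y.1).2 (e₂.symm y.2).2⟩
          left_inv := fun x => by
            apply Subtype.ext
            simp
          right_inv := fun y => Prod.ext (e₁.apply_symm_apply y.1) (e₂.apply_symm_apply y.2)
          map_mul' := fun x y => Prod.ext (map_mul e₁ ⟨x.1.1, congrArg Prod.fst x.2⟩ ⟨y.1.1, congrArg Prod.fst y.2⟩)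
            (map_mul e₂ ⟨x.1.2, congrArg Prod.snd x.2⟩ ⟨y.1.2, congrArg Prod.snd y.2⟩) }
      exact (e3.prodCongr (MulEquiv.refl _)).trans MulEquiv.prodAssoc
    · intro Γ _ _ σ hσ
      obtain ⟨eA⟩ := equiv_of_hasSchurMultiplier (taut_surjective Q₁) hA
      obtain ⟨eB⟩ := equiv_of_hasSchurMultiplier (taut_surjective Q₂) hB
      letI : CommGroup σ.ker := { (inferInstance : Group σ.ker) with
        mul_comm := fun a b => Subtype.ext (mem_center_iff.1 (hσ.2.1 b.2) a) }
      obtain ⟨π₁, π₂, hπ⟩ := prod_kernel hσ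
      obtain ⟨θ, hθ⟩ := pairing hσ σ.ker σ.ker.subtype (fun a b h => Subtype.ext h) (range_subtype _)
      refine ⟨(π₁.comp eA.toMonoidHom).coprod ((π₂.comp eB.toMonoidHom).coprod θ), fun k => ?_⟩
      obtain ⟨a, b, c, hc, rfl⟩ := hπ k
      have h1 : Subgroup.closure {z : Γ | ∃ x y : Γ, (σ x).2 = 1 ∧ (σ y).1 = 1 ∧ z = ⁅x, y⁆} ≤ θ.range.map σ.ker.subtype := by
        rw [closure_le]
        rintro z ⟨x, y, hx, hy, rfl⟩
        obtain ⟨t, ht⟩ := hθ x y hx hy
        exact ⟨θ t, ⟨t, rfl⟩, ht⟩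
      obtain ⟨_, ⟨t, rfl⟩, ht⟩ := h1 hc
      refine ⟨(eA.symm a, eB.symm b, t), ?_⟩
      rw [MonoidHom.coprod_apply, MonoidHom.coprod_apply]
      have h2 : θ t = c := Subtype.ext ht
      rw [h2]
      simp [mul_assoc]

end Cfsg.Agent.S3959
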