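import Cfsg.Statements.S3960
import Mathlib
import Cfsg.Agent.Lib.Schur2

set_option autoImplicit false
universe u
open Cfsg

namespace Cfsg.Agent.S3960

/-- A finite perfect group `Q` has a universal central extension: a finite perfect group `G` in the universe of `Q` and a surjective homomorphism `π : G →* Q` with central kernel such that for every group `X` in that universe and every surjective homomorphism `ξ : X →* Q` with central kernel there is exactly one homomorphism `η : G →* X` with `ξ ∘ η = π`. -/
theorem result {Q : Type u} [Group Q] [Finite Q] (hQ : Group.IsPerfect Q) : ∃ (G : Type u) (_ : Group G) (_ : Finite G) (π : G →* Q), Group.IsPerfect G ∧ Function.Surjective π ∧ π.ker ≤ Subgroup.center G ∧ ∀ (X : Type u) [Group X] (ξ : X →* Q), Function.Surjective ξ → ξ.ker ≤ Subgroup.center X → ∃! η : G →* X, ξ.comp η = π := by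
  open Subgroup CfsgLib.Schur in
    set φ := taut Q with hφdef
    have hφ : Function.Surjective φ := taut_surjective Q
    let E := FreeGroup Q ⧸ N φ
    let G := commutator E
    have hmapc : (commutator E).map (pr φ) = ⊤ := by
      rw [_root_.commutator_def, map_commutator, ← MonoidHom.range_eq_map, MonoidHom.range_eq_top.2 (pr_surjective hφ), ← _root_.commutator_def]
      exact hQ.commutator_eq_top
    let π : G →* Q := (pr φ).comp G.subtype
    have hπ : Function.Surjective π := by
      intro y
      have : y ∈ (commutator E).map (pr φ) := by rw [hmapc]; trivial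
      obtain ⟨x, hx, rfl⟩ := this
      exact ⟨⟨x, hx⟩, rfl⟩
    have hperf : Group.IsPerfect G := by
      have h1 := commutator_eq_map hπ (pr φ) (pr_ker_le_center φ) (ψ := G.subtype) rfl
      refine ⟨?_⟩
      rw [eq_top_iff]
      rintro ⟨x, hx⟩ -
      have hx' : x ∈ (commutator G).map G.subtype := by rw [← h1]; exact hx
      obtain ⟨y, hy, hyx⟩ := hx'
      have : (⟨x, hx⟩ : G) = y := Subtype.ext hyx.symm
      rw [this]; exact hy
    refine ⟨G, inferInstance, inferInstance, π, hperf, hπ, ?_, ?_⟩
    · intro x hx
      have h1 : (x : E) ∈ center E := pr_ker_le_center φ hx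
      rw [mem_center_iff]
      intro y
      exact Subtype.ext (mem_center_iff.1 h1 y)
    · intro X _ ξ hξ hc
      obtain ⟨ψ, hψ⟩ := exists_lift φ ξ hξ
      let q : E →* X := QuotientGroup.lift (N φ) ψ (rel_le_ker φ ξ hc ψ hψ)
      have hq : ξ.comp q = pr φ := QuotientGroup.monoidHom_ext _ hψ
      refine ⟨q.comp G.subtype, ?_, ?_⟩
      · show ξ.comp (q.comp G.subtype) = π
        rw [← MonoidHom.comp_assoc, hq]
      · intro η hη
        apply hom_unique hperf ξ hc
        rw [hη, ← MonoidHom.comp_assoc, hq]

end Cfsg.Agent.S3960
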