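import Cfsg.Statements.S3961
import Mathlib
import Cfsg.Agent.Lib.Schur2

set_option autoImplicit false
universe u v
open Cfsg

open scoped commutatorElement
namespace Cfsg.Agent.S3961

/-- Let `π : G →* Q` be a surjective homomorphism with central kernel from a finite perfect group `G` (a perfect cover of `Q`). Then `π` is universal, in the sense that every surjective homomorphism `ξ : X →* Q` with central kernel from a group `X` in the universe of `G` admits a homomorphism `η : G →* X` with `ξ ∘ η = π`, if and only if `G` has trivial Schur multiplier. -/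
theorem result {G : Type u} {Q : Type v} [Group G] [Group Q] [Finite G] (hG : Group.IsPerfect G) (π : G →* Q) (hπ : Function.Surjective π) (hker : π.ker ≤ Subgroup.center G) : (∀ (X : Type u) [Group X] (ξ : X →* Q), Function.Surjective ξ → ξ.ker ≤ Subgroup.center X → ∃ η : G →* X, ξ.comp η = π) ↔ Cfsg.HasCyclicSchurMultiplier G 1 := by
  open Subgroup CfsgLib.Schur in
    constructor
    · intro huniv
      apply hasCyclic_one_of
      intro Γ _ _ σ hσ x hx
      -- Γ is perfect
      have hperf : Group.IsPerfect Γ := by
        refine ⟨?_⟩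
        rw [eq_top_iff]
        intro y _
        have h1 : (commutator Γ).map σ = ⊤ := by
          rw [_root_.commutator_def, map_commutator, ← MonoidHom.range_eq_map, MonoidHom.range_eq_top.2 hσ.1, ← _root_.commutator_def]
          exact hG.commutator_eq_top
        have h2 : σ y ∈ (commutator Γ).map σ := by rw [h1]; trivial
        obtain ⟨c, hc, hcy⟩ := h2
        have h3 : c⁻¹ * y ∈ commutator Γ := hσ.2.2 (by rw [MonoidHom.mem_ker, map_mul, map_inv, hcy, inv_mul_cancel])
        have h4 := Subgroup.mul_mem _ hc h3
        rwa [mul_inv_cancel_left] at h4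
      -- kernel of π ∘ σ is central
      have hK : (π.comp σ).ker ≤ center Γ := by
        have h1 : ⁅⁅(π.comp σ).ker, (⊤ : Subgroup Γ)⁆, (⊤ : Subgroup Γ)⁆ = ⊥ := by
          have h2 : ⁅(π.comp σ).ker, (⊤ : Subgroup Γ)⁆ ≤ center Γ := by
            refine le_trans ?_ hσ.2.1
            rw [commutator_le]
            intro a ha b _
            rw [MonoidHom.mem_ker, map_commutatorElement]
            exact comm_eq_one_of_center (hker (show π (σ a) = 1 from ha)) _
          rw [eq_bot_iff, commutator_le]
          intro a ha b _
          exact mem_bot.2 (comm_eq_one_of_center (h2 ha) b)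
        have h3 : ⁅⁅(⊤ : Subgroup Γ), (⊤ : Subgroup Γ)⁆, (π.comp σ).ker⁆ = ⊥ := by
          apply commutator_commutator_eq_bot_of_rotate
          · rw [commutator_comm ⊤ (π.comp σ).ker]; exact h1
          · exact h1
        rw [← _root_.commutator_def, hperf.commutator_eq_top, commutator_comm] at h3
        intro a ha
        rw [mem_center_iff]
        intro b
        have h4 : ⁅a, b⁆ ∈ ⁅(π.comp σ).ker, (⊤ : Subgroup Γ)⁆ := commutator_mem_commutator ha (mem_top b)
        rw [h3, mem_bot, commutatorElement_eq_one_iff_mul_comm] at h4
        exact h4.symm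
      obtain ⟨η, hη⟩ := huniv Γ (π.comp σ) (hπ.comp hσ.1) hK
      have h5 : σ.comp η = MonoidHom.id G := by
        apply hom_unique hG π hker
        rw [← MonoidHom.comp_assoc, hη, MonoidHom.comp_id]
      have h6 : η.comp σ = MonoidHom.id Γ := by
        apply hom_unique hperf σ hσ.2.1
        rw [← MonoidHom.comp_assoc, h5, MonoidHom.comp_id, MonoidHom.id_comp]
      have h7 : η (σ x) = x := DFunLike.congr_fun h6 x
      rw [← h7, hx, map_one]
    · intro h1 X _ ξ hξ hc
      set φG := taut G with hφG
      have hφs : Function.Surjective φG := taut_surjective G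
      obtain ⟨ψ, hψ⟩ := exists_lift (π.comp φG) ξ hξ
      have hle : φG.ker ⊓ commutator (FreeGroup G) ≤ ψ.ker := by
        refine (ker_inf_le_of_one h1 hφs).trans (le_trans ?_ (rel_le_ker _ ξ hc ψ hψ))
        apply commutator_mono _ le_rfl
        intro y hy
        rw [MonoidHom.mem_ker, MonoidHom.comp_apply, MonoidHom.mem_ker.1 hy, map_one]
      have hs : Function.Surjective (φG.comp (commutator (FreeGroup G)).subtype) := by
        intro y
        have h2 : (commutator (FreeGroup G)).map φG = ⊤ := by
          rw [_root_.commutator_def, map_commutator, ← MonoidHom.range_eq_map, MonoidHom.range_eq_top.2 hφs, ← _root_.commutator_def]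
          exact hG.commutator_eq_top
        have : y ∈ (commutator (FreeGroup G)).map φG := by rw [h2]; trivial
        obtain ⟨x, hx, rfl⟩ := this
        exact ⟨⟨x, hx⟩, rfl⟩
      obtain ⟨η, hη⟩ := exists_factor _ hs (ψ.comp (commutator (FreeGroup G)).subtype) (by
        rintro ⟨y, hy⟩ h3
        exact hle ⟨h3, hy⟩)
      refine ⟨η, ?_⟩
      ext y
      obtain ⟨x, rfl⟩ := hs y
      rw [MonoidHom.comp_apply, hη]
      exact DFunLike.congr_fun hψ (x : FreeGroup G)

end Cfsg.Agent.S3961
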