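import Cfsg.Statements.S3963
import Mathlib
import Cfsg.Agent.Lib.Schur3

set_option autoImplicit false
open Cfsg

open scoped commutatorElement
namespace Cfsg.Agent.S3963

/-- For every `n ≥ 1` the dicyclic (generalized quaternion) group of order `4 n` has trivial Schur multiplier. -/
theorem result (n : ℕ) [NeZero n] : Cfsg.HasCyclicSchurMultiplier (QuaternionGroup n) 1 := by
  open Subgroup CfsgLib.Schur in
    apply hasCyclic_one_of
    intro Γ _ _ σ hσ w hw
    obtain ⟨x, hx⟩ := hσ.1 (QuaternionGroup.a 1)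
    obtain ⟨y, hy⟩ := hσ.1 (QuaternionGroup.xa 0)
    have hrel : (QuaternionGroup.xa 0 : QuaternionGroup n) * QuaternionGroup.a 1 * (QuaternionGroup.xa 0)⁻¹ = (QuaternionGroup.a 1)⁻¹ := by
      rw [mul_inv_eq_iff_eq_mul]
      show _ = QuaternionGroup.a (-1) * QuaternionGroup.xa 0
      simp
    set z := x * (y * x * y⁻¹) with hzdef
    have hz : z ∈ center Γ := by
      apply hσ.2.1
      rw [MonoidHom.mem_ker, hzdef, map_mul, map_mul, map_mul, map_inv, hx, hy, hrel, mul_inv_cancel]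
    have hab : y * x * y⁻¹ = x⁻¹ * z := by rw [hzdef]; group
    have hgen : closure (({x, y} : Set Γ) ∪ center Γ) = ⊤ := by
      apply closure_union_center σ hσ.2.1
      rw [Set.image_pair, hx, hy, eq_top_iff]
      intro g _
      have ha : (QuaternionGroup.a 1 : QuaternionGroup n) ∈ closure {QuaternionGroup.a 1, QuaternionGroup.xa 0} := subset_closure (Or.inl rfl)
      have hb : (QuaternionGroup.xa 0 : QuaternionGroup n) ∈ closure {QuaternionGroup.a 1, QuaternionGroup.xa 0} := subset_closure (Or.inr rfl)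
      rcases g with i | i
      · have := Subgroup.pow_mem _ ha i.val
        rwa [QuaternionGroup.a_one_pow, ZMod.natCast_val, ZMod.cast_id', id] at this
      · have := Subgroup.mul_mem _ hb (Subgroup.pow_mem _ ha i.val)
        rw [QuaternionGroup.a_one_pow, ZMod.natCast_val, ZMod.cast_id', id] at this
        simpa using this
    obtain ⟨h1, h2, h3⟩ := dih_commutator x y z hz hab hgen
    have hxn : y * x ^ n * y⁻¹ = x ^ n := by
      have h4 : (y ^ 2)⁻¹ * x ^ n ∈ center Γ := by
        apply hσ.2.1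
        rw [MonoidHom.mem_ker, map_mul, map_inv, map_pow, map_pow, hx, hy, inv_mul_eq_one, QuaternionGroup.a_one_pow, pow_two]
        simp
      have h5 : x ^ n = y ^ 2 * ((y ^ 2)⁻¹ * x ^ n) := by group
      have h6 := mem_center_iff.1 h4 y
      calc y * x ^ n * y⁻¹ = y * (y ^ 2 * ((y ^ 2)⁻¹ * x ^ n)) * y⁻¹ := by rw [← h5]
        _ = y ^ 2 * (y * ((y ^ 2)⁻¹ * x ^ n)) * y⁻¹ := by rw [pow_two]; group
        _ = y ^ 2 * ((y ^ 2)⁻¹ * x ^ n * y) * y⁻¹ := by rw [h6]
        _ = x ^ n := by group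
    have hcn : ⁅x, y⁆ ^ n = 1 := by rw [h1]; exact dih_pow x y z hz hab n hxn
    have hwc := hσ.2.2 (show w ∈ σ.ker from hw)
    rw [h3] at hwc
    obtain ⟨k, hk⟩ := hwc
    have hσc : σ ⁅x, y⁆ = (QuaternionGroup.a 1) ^ 2 := by
      have hz1 : σ z = 1 := by rw [hzdef, map_mul, map_mul, map_mul, map_inv, hx, hy, hrel, mul_inv_cancel]
      rw [h1, map_mul, map_inv, hz1, map_pow, hx, inv_one, mul_one]
    have hord : orderOf ((QuaternionGroup.a 1 : QuaternionGroup n) ^ 2) = n := by
      rw [orderOf_pow, QuaternionGroup.orderOf_a_one, Nat.gcd_eq_right (Dvd.intro n rfl), Nat.mul_div_cancel_left _ (by norm_num)]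
    have h7 : ((QuaternionGroup.a 1 : QuaternionGroup n) ^ 2) ^ k = 1 := by
      rw [← hσc, ← map_zpow]
      have : ⁅x, y⁆ ^ k = w := hk
      rw [this]; exact hw
    have h8 : (n : ℤ) ∣ k := by
      have := orderOf_dvd_iff_zpow_eq_one.2 h7
      rwa [hord] at this
    obtain ⟨j, rfl⟩ := h8
    have : ⁅x, y⁆ ^ ((n : ℤ) * j) = w := hk
    rw [← this, zpow_mul, zpow_natCast, hcn, one_zpow]

end Cfsg.Agent.S3963
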