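import Cfsg.Statements.S3964
import Mathlib
import Cfsg.Agent.Lib.Schur3

set_option autoImplicit false
open Cfsg

open scoped commutatorElement
set_option linter.style.haveILetI false
namespace Cfsg.Agent.S3964

/-- For odd `n` the dihedral group of order `2 n` has trivial Schur multiplier. -/
theorem result (n : ℕ) (hn : Odd n) : Cfsg.HasCyclicSchurMultiplier (DihedralGroup n) 1 := by
  open Subgroup CfsgLib.Schur in
    haveI : NeZero n := ⟨hn.pos.ne'⟩
    apply hasCyclic_one_of
    intro Γ _ _ σ hσ w hw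
    obtain ⟨x, hx⟩ := hσ.1 (DihedralGroup.r 1)
    obtain ⟨y, hy⟩ := hσ.1 (DihedralGroup.sr 0)
    have hrel : (DihedralGroup.sr 0 : DihedralGroup n) * DihedralGroup.r 1 * (DihedralGroup.sr 0)⁻¹ = (DihedralGroup.r 1)⁻¹ := by
      rw [mul_inv_eq_iff_eq_mul]
      show _ = DihedralGroup.r (-1) * DihedralGroup.sr 0
      simp
    set z := x * (y * x * y⁻¹) with hzdef
    have hz : z ∈ center Γ := by
      apply hσ.2.1
      rw [MonoidHom.mem_ker, hzdef, map_mul, map_mul, map_mul, map_inv, hx, hy, hrel, mul_inv_cancel]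
    have hab : y * x * y⁻¹ = x⁻¹ * z := by rw [hzdef]; group
    have hgen : closure (({x, y} : Set Γ) ∪ center Γ) = ⊤ := by
      apply closure_union_center σ hσ.2.1
      rw [Set.image_pair, hx, hy, eq_top_iff]
      intro g _
      have ha : (DihedralGroup.r 1 : DihedralGroup n) ∈ closure {DihedralGroup.r 1, DihedralGroup.sr 0} := subset_closure (Or.inl rfl)
      have hb : (DihedralGroup.sr 0 : DihedralGroup n) ∈ closure {DihedralGroup.r 1, DihedralGroup.sr 0} := subset_closure (Or.inr rfl)
      rcases g with i | i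
      · have := Subgroup.pow_mem _ ha i.val
        rwa [DihedralGroup.r_one_pow, ZMod.natCast_val, ZMod.cast_id', id] at this
      · have := Subgroup.mul_mem _ hb (Subgroup.pow_mem _ ha i.val)
        rw [DihedralGroup.r_one_pow, ZMod.natCast_val, ZMod.cast_id', id] at this
        simpa using this
    obtain ⟨h1, h2, h3⟩ := dih_commutator x y z hz hab hgen
    have hxn : y * x ^ n * y⁻¹ = x ^ n := by
      have h4 : x ^ n ∈ center Γ := by
        apply hσ.2.1
        rw [MonoidHom.mem_ker, map_pow, hx, DihedralGroup.r_one_pow]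
        simp
      rw [mem_center_iff.1 h4, mul_inv_cancel_right]
    have hcn : ⁅x, y⁆ ^ n = 1 := by rw [h1]; exact dih_pow x y z hz hab n hxn
    have hwc := hσ.2.2 (show w ∈ σ.ker from hw)
    rw [h3] at hwc
    obtain ⟨k, hk⟩ := hwc
    have hσc : σ ⁅x, y⁆ = (DihedralGroup.r 1) ^ 2 := by
      have hz1 : σ z = 1 := by rw [hzdef, map_mul, map_mul, map_mul, map_inv, hx, hy, hrel, mul_inv_cancel]
      rw [h1, map_mul, map_inv, hz1, map_pow, hx, inv_one, mul_one]
    have hord : orderOf ((DihedralGroup.r 1 : DihedralGroup n) ^ 2) = n := by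
      rw [orderOf_pow, DihedralGroup.orderOf_r_one, Nat.Coprime.gcd_eq_one (Nat.coprime_two_right.2 hn), Nat.div_one]
    have h7 : ((DihedralGroup.r 1 : DihedralGroup n) ^ 2) ^ k = 1 := by
      rw [← hσc, ← map_zpow]
      have : ⁅x, y⁆ ^ k = w := hk
      rw [this]; exact hw
    have h8 : (n : ℤ) ∣ k := by
      have := orderOf_dvd_iff_zpow_eq_one.2 h7
      rwa [hord] at this
    obtain ⟨j, rfl⟩ := h8
    have : ⁅x, y⁆ ^ ((n : ℤ) * j) = w := hk
    rw [← this, zpow_mul, zpow_natCast, hcn, one_zpow]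

end Cfsg.Agent.S3964
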