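import Cfsg.Statements.S3966
import Mathlib

set_option autoImplicit false
open Cfsg

open scoped commutatorElement
namespace Cfsg.Agent.S3966

/-- For even `n ≥ 2` the dicyclic group of order `4 n` is a stem extension of the dihedral group of order `2 n` with kernel of order `2`: there is a surjective homomorphism `QuaternionGroup n →* DihedralGroup n` whose kernel is central, lies in the commutator subgroup and has two elements. Together with the order of the multiplier this exhibits the dicyclic group as a Schur covering group of the dihedral group. -/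
theorem result (n : ℕ) [NeZero n] (hn : Even n) : ∃ σ : QuaternionGroup n →* DihedralGroup n, Cfsg.IsStemExtension σ ∧ Nat.card σ.ker = 2 := by
  let c : ZMod (2 * n) →+* ZMod n := ZMod.castHom (dvd_mul_left n 2) (ZMod n)
  have hcn : c (n : ZMod (2 * n)) = 0 := by rw [map_natCast, ZMod.natCast_self]
  let f : QuaternionGroup n → DihedralGroup n := fun x => match x with
    | .a i => .r (c i)
    | .xa i => .sr (c i)
  have hf : ∀ x y, f (x * y) = f x * f y := by
    rintro (i | i) (j | j)
    · change DihedralGroup.r (c (i + j)) = DihedralGroup.r (c i) * DihedralGroup.r (c j)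
      rw [DihedralGroup.r_mul_r, map_add]
    · change DihedralGroup.sr (c (j - i)) = DihedralGroup.r (c i) * DihedralGroup.sr (c j)
      rw [DihedralGroup.r_mul_sr, map_sub]
    · change DihedralGroup.sr (c (i + j)) = DihedralGroup.sr (c i) * DihedralGroup.r (c j)
      rw [DihedralGroup.sr_mul_r, map_add]
    · change DihedralGroup.r (c ((n : ZMod (2 * n)) + j - i)) = DihedralGroup.sr (c i) * DihedralGroup.sr (c j)
      rw [DihedralGroup.sr_mul_sr, map_sub, map_add, hcn, zero_add]
  let σ : QuaternionGroup n →* DihedralGroup n := MonoidHom.mk' f hf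
  have hsurj : Function.Surjective σ := by
    have hcs : Function.Surjective c := ZMod.castHom_surjective _
    rintro (i | i)
    · obtain ⟨j, rfl⟩ := hcs i; exact ⟨.a j, rfl⟩
    · obtain ⟨j, rfl⟩ := hcs i; exact ⟨.xa j, rfl⟩
  have hker : ∀ x ∈ σ.ker, ∃ m : ℕ, x = QuaternionGroup.a (n * m : ℕ) := by
    rintro (i | i) hx
    · have h1 : DihedralGroup.r (c i) = 1 := hx
      rw [DihedralGroup.one_def] at h1
      have h2 : c i = 0 := by injection h1
      have h3 : i = (i.val : ZMod (2 * n)) := (ZMod.natCast_zmod_val i).symm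
      rw [h3, map_natCast, ZMod.natCast_eq_zero_iff] at h2
      obtain ⟨m, hm⟩ := h2
      exact ⟨m, by rw [← hm, ← h3]⟩
    · exfalso
      have h1 : DihedralGroup.sr (c i) = 1 := hx
      rw [DihedralGroup.one_def] at h1
      cases h1
  have h2n : ((2 * n : ℕ) : ZMod (2 * n)) = 0 := ZMod.natCast_self _
  have h2n' : (2 : ZMod (2 * n)) * (n : ZMod (2 * n)) = 0 := by exact_mod_cast h2n
  refine ⟨σ, ⟨hsurj, ?_, ?_⟩, ?_⟩
  · intro x hx
    obtain ⟨m, rfl⟩ := hker x hx
    rw [Subgroup.mem_center_iff]
    rintro (j | j)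
    · rw [QuaternionGroup.a_mul_a, QuaternionGroup.a_mul_a, add_comm]
    · rw [QuaternionGroup.a_mul_xa, QuaternionGroup.xa_mul_a]
      congr 1
      have : (2 : ZMod (2 * n)) * ((n * m : ℕ) : ZMod (2 * n)) = 0 := by
        push_cast
        rw [← mul_assoc, h2n', zero_mul]
      linear_combination this
  · intro x hx
    obtain ⟨m, rfl⟩ := hker x hx
    obtain ⟨l, hl⟩ := hn
    have h1 : (QuaternionGroup.a ((n * m : ℕ) : ZMod (2 * n)) : QuaternionGroup n) = ⁅(QuaternionGroup.xa 0 : QuaternionGroup n), (QuaternionGroup.a (-((l * m : ℕ) : ZMod (2 * n))) : QuaternionGroup n)⁆ := by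
      rw [commutatorElement_def, ← mul_left_inj (QuaternionGroup.a (-((l * m : ℕ) : ZMod (2 * n)))), inv_mul_cancel_right, ← mul_left_inj (QuaternionGroup.xa 0), inv_mul_cancel_right, QuaternionGroup.xa_mul_a, QuaternionGroup.a_mul_a, QuaternionGroup.a_mul_xa]
      congr 1
      have : ((n * m : ℕ) : ZMod (2 * n)) = 2 * ((l * m : ℕ) : ZMod (2 * n)) := by
        rw [hl]; push_cast; ring
      rw [this]; ring
    rw [h1]
    exact Subgroup.commutator_mem_commutator trivial trivial
  · have h1 := Subgroup.card_mul_index σ.ker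
    rw [Subgroup.index_ker, MonoidHom.range_eq_top.2 hsurj, Subgroup.card_top, Nat.card_eq_fintype_card (α := QuaternionGroup n), QuaternionGroup.card, DihedralGroup.nat_card] at h1
    have hn0 : 0 < n := Nat.pos_of_ne_zero (NeZero.ne n)
    have : Nat.card σ.ker * (2 * n) = 2 * (2 * n) := by rw [h1]; ring
    exact Nat.eq_of_mul_eq_mul_right (by omega) this

end Cfsg.Agent.S3966
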