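import Cfsg.Statements.S3965
import Mathlib
import Cfsg.Agent.Lib.Schur3
import Cfsg.Agent.S3966

set_option autoImplicit false
open Cfsg

open scoped commutatorElement
set_option linter.style.haveILetI false
namespace Cfsg.Agent.S3965

/-- For even `n ≥ 2` the dihedral group of order `2 n` has Schur multiplier cyclic of order `2`. -/
theorem result (n : ℕ) [NeZero n] (hn : Even n) : Cfsg.HasCyclicSchurMultiplier (DihedralGroup n) 2 := by
  open Subgroup CfsgLib.Schur in
    constructor
    · obtain ⟨σ, hσ, hc⟩ := Cfsg.Agent.S3966.result n hn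
      haveI : Fact (Nat.Prime 2) := ⟨Nat.prime_two⟩
      refine ⟨QuaternionGroup n, inferInstance, inferInstance, σ, hσ, ⟨mulEquivOfPrimeCardEq hc ?_⟩⟩
      show Nat.card (ZMod 2) = 2
      rw [Nat.card_zmod]
    intro Γ _ _ σ hσ
    obtain ⟨x, hx⟩ := hσ.1 (DihedralGroup.r 1)
    obtain ⟨y, hy⟩ := hσ.1 (DihedralGroup.sr 0)
    have hrel : (DihedralGroup.sr 0 : DihedralGroup n) * DihedralGroup.r 1 * (DihedralGroup.sr 0)⁻¹ = (DihedralGroup.r 1)⁻¹ := by
      rw [mul_inv_eq_iff_eq_mul]
      show _ = DihedralGroup.r (-1) * DihedralGroup.sr 0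
      simp
    set z := x * (y * x * y⁻¹) with hzdef
    have hz : z ∈ center Γ := by
      apply hσ.2.1
      rw [MonoidHom.mem_ker, hzdef, map_mul, map_mul, map_mul, map_inv, hx, hy, hrel, mul_inv_cancel]
    have hab : y * x * y⁻¹ = x⁻¹ * z := by rw [hzdef]; group
    have hgen : closure (({x, y} : Set Γ) ∪ center Γ) = ⊤ := by
      apply closure_union_center σ hσ.2.1
      rw [Set.image_pair, hx, hy, eq_top_iff]
      intro g _
      have ha : (DihedralGroup.r 1 : DihedralGroup n) ∈ closure {DihedralGroup.r 1, DihedralGroup.sr 0} := subset_closure (Or.inl rfl)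
      have hb : (DihedralGroup.sr 0 : DihedralGroup n) ∈ closure {DihedralGroup.r 1, DihedralGroup.sr 0} := subset_closure (Or.inr rfl)
      rcases g with i | i
      · have := Subgroup.pow_mem _ ha i.val
        rwa [DihedralGroup.r_one_pow, ZMod.natCast_val, ZMod.cast_id', id] at this
      · have := Subgroup.mul_mem _ hb (Subgroup.pow_mem _ ha i.val)
        rw [DihedralGroup.r_one_pow, ZMod.natCast_val, ZMod.cast_id', id] at this
        simpa using this
    obtain ⟨h1, h2, h3⟩ := dih_commutator x y z hz hab hgen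
    have hxn : y * x ^ n * y⁻¹ = x ^ n := by
      have h4 : x ^ n ∈ center Γ := by
        apply hσ.2.1
        rw [MonoidHom.mem_ker, map_pow, hx, DihedralGroup.r_one_pow]
        simp
      rw [mem_center_iff.1 h4, mul_inv_cancel_right]
    have hcn : ⁅x, y⁆ ^ n = 1 := by rw [h1]; exact dih_pow x y z hz hab n hxn
    obtain ⟨m, hm⟩ := hn.two_dvd
    have hσc : σ ⁅x, y⁆ = (DihedralGroup.r 1) ^ 2 := by
      have hz1 : σ z = 1 := by rw [hzdef, map_mul, map_mul, map_mul, map_inv, hx, hy, hrel, mul_inv_cancel]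
      rw [h1, map_mul, map_inv, hz1, map_pow, hx, inv_one, mul_one]
    have hord : orderOf ((DihedralGroup.r 1 : DihedralGroup n) ^ 2) = m := by
      rw [orderOf_pow, DihedralGroup.orderOf_r_one, hm, Nat.gcd_eq_right (Dvd.intro m rfl), Nat.mul_div_cancel_left _ (by norm_num)]
    have hcm : ⁅x, y⁆ ^ m ∈ σ.ker := by
      rw [MonoidHom.mem_ker, map_pow, hσc]
      have := pow_orderOf_eq_one ((DihedralGroup.r 1 : DihedralGroup n) ^ 2)
      rwa [hord] at this
    refine exists_hom_of_gen (⟨⁅x, y⁆ ^ m, hcm⟩ : σ.ker) 2 (Subtype.ext ?_) ?_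
    · show (⁅x, y⁆ ^ m) ^ 2 = 1
      rw [← pow_mul, mul_comm m 2, ← hm, hcn]
    · rintro ⟨w, hw⟩
      have hwc := hσ.2.2 hw
      rw [h3] at hwc
      obtain ⟨k, hk⟩ := hwc
      have h7 : ((DihedralGroup.r 1 : DihedralGroup n) ^ 2) ^ k = 1 := by
        rw [← hσc, ← map_zpow]
        have : ⁅x, y⁆ ^ k = w := hk
        rw [this]; exact hw
      have h8 : (m : ℤ) ∣ k := by
        have := orderOf_dvd_iff_zpow_eq_one.2 h7
        rwa [hord] at this
      obtain ⟨j, rfl⟩ := h8
      refine ⟨j, Subtype.ext ?_⟩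
      show (⁅x, y⁆ ^ m) ^ j = w
      rw [← zpow_natCast, ← zpow_mul]; exact hk

end Cfsg.Agent.S3965
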