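import Cfsg.Statements.S3968
import Mathlib
import Cfsg.Agent.Lib.CharBasic3
import Cfsg.Agent.Lib.H3Misc

set_option autoImplicit false
open Cfsg

set_option linter.style.haveILetI false
namespace Cfsg.Agent.S3968

open Subgroup CfsgLib.CharBasic Cfsg
open scoped ComplexConjugate

theorem mem_center_of_norm {G : Type*} [Group G] [Finite G] {χ : G → ℂ} (h : IsIrrCharacter G χ)
    (hf : ∀ g, χ g = χ 1 → g = 1) {z : G} (hz : ‖χ z‖ = ‖χ 1‖) : z ∈ center G := by
  rw [mem_center_iff]
  intro g
  have := hf _ (CfsgLib.CharBasic.IsCharacter.commutator_mem_ker (CfsgLib.CharBasic.IsIrrCharacter.isCharacter h) hz g)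
  rw [mul_inv_eq_one, mul_inv_eq_iff_eq_mul] at this
  exact this.symm

/-- a faithful character of prime degree `p` of a nonabelian `p`-group is irreducible -/
theorem irr_of_nonab {P : Type*} [Group P] [Finite P] {p : ℕ} [hp : Fact p.Prime] (hP : IsPGroup p P) (hnc : ¬ IsMulCommutative P)
    {ψ : P → ℂ} (hψ : IsCharacter P ψ) (h1 : ψ 1 = p) (hf : ∀ g, ψ g = ψ 1 → g = 1) : IsIrrCharacter P ψ := by
  classical
  obtain ⟨m, hm⟩ := CfsgLib.CharBasic.IsCharacter.exists_nat_coeff hψ
  have hd : ∀ θ : IrrCharacter P, ∃ d : ℕ, 0 < d ∧ (θ : P → ℂ) 1 = d := fun θ => CfsgLib.CharBasic.IsIrrCharacter.exists_pos θ.2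
  choose d hd0 hd using hd
  have hsum : ∑ θ : IrrCharacter P, m θ * d θ = p := by
    have h2 : ψ 1 = ∑ θ : IrrCharacter P, (m θ : ℂ) * (d θ : ℂ) := by
      conv_lhs => rw [hm]
      rw [Finset.sum_apply]
      exact Finset.sum_congr rfl fun θ _ => by rw [Pi.smul_apply, smul_eq_mul, hd]
    rw [h1] at h2
    exact_mod_cast h2.symm
  -- some constituent is nonlinear
  obtain ⟨θ, hθm, hθd⟩ : ∃ θ, m θ ≠ 0 ∧ d θ ≠ 1 := by
    by_contra hcon
    push Not at hcon
    apply hnc
    refine ⟨⟨fun a b => ?_⟩⟩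
    have hc : a * b * a⁻¹ * b⁻¹ ∈ _root_.commutator P :=
      Subgroup.commutator_mem_commutator (Subgroup.mem_top a) (Subgroup.mem_top b)
    have h2 : ψ (a * b * a⁻¹ * b⁻¹) = ψ 1 := by
      rw [hm, Finset.sum_apply, Finset.sum_apply]
      refine Finset.sum_congr rfl fun θ _ => ?_
      rw [Pi.smul_apply, Pi.smul_apply]
      by_cases h0 : m θ = 0
      · rw [h0]; simp
      · have h3 : (θ : P → ℂ) 1 = 1 := by rw [hd, hcon θ h0, Nat.cast_one]
        rw [h3, CfsgLib.CharBasic.IsCharacter.eq_one_of_mem_commutator (irr_isCharacter θ) h3 hc]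
    have h3 := hf _ h2
    rw [mul_inv_eq_one, mul_inv_eq_iff_eq_mul] at h3
    exact h3
  have hdp : p ≤ d θ := by
    have h2 := CfsgLib.CharBasic.IsIrrCharacter.degree_dvd θ.2 (hd θ)
    obtain ⟨n, hn⟩ := IsPGroup.iff_card.1 hP
    rw [hn] at h2
    obtain ⟨k, -, hk⟩ := (Nat.dvd_prime_pow hp.out).1 h2
    rw [hk]
    rcases Nat.eq_zero_or_pos k with h0 | h0
    · rw [h0, pow_zero] at hk; exact absurd hk hθd
    · exact Nat.le_self_pow h0.ne' p
  have hle : ∀ θ' , m θ' * d θ' ≤ p := fun θ' => by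
    rw [← hsum]
    exact Finset.single_le_sum (f := fun θ => m θ * d θ) (fun _ _ => Nat.zero_le _) (Finset.mem_univ θ')
  have hm1 : m θ = 1 := by
    have h2 := hle θ
    have hp0 := hp.out.pos
    by_contra hne
    have h3 : 2 ≤ m θ := by omega
    nlinarith
  have hothers : ∀ θ', θ' ≠ θ → m θ' = 0 := by
    intro θ' hne
    have h2 : m θ' * d θ' + m θ * d θ ≤ p := by
      rw [← hsum, ← Finset.sum_pair hne (f := fun θ => m θ * d θ)]
      exact Finset.sum_le_sum_of_subset (Finset.subset_univ _)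
    rw [hm1, one_mul] at h2
    have h3 : m θ' * d θ' = 0 := by omega
    rcases Nat.mul_eq_zero.1 h3 with h4 | h4
    · exact h4
    · exact absurd h4 (hd0 θ').ne'
  have : ψ = (θ : P → ℂ) := by
    rw [hm, Finset.sum_eq_single θ]
    · rw [hm1, Nat.cast_one, one_smul]
    · intro θ' _ hne
      rw [hothers θ' hne]; simp
    · intro h; exact absurd (Finset.mem_univ _) h
  rw [this]; exact θ.2


/-- Let `p` be a prime and `G` a finite group with a faithful irreducible complex character of degree `p` (so `G` is an irreducible linear group in `p` variables). If `p ^ 2` divides the order of `G`, then the centre of `G` is nontrivial. -/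
theorem result {G : Type*} [Group G] [Finite G] (p : ℕ) (hp : p.Prime) (χ : Cfsg.IrrCharacter G) (hdeg : χ.1 1 = p) (hfaith : ∀ g : G, χ.1 g = χ.1 1 → g = 1) (hdiv : p ^ 2 ∣ Nat.card G) : Subgroup.center G ≠ ⊥ := by
  open CfsgLib.CharBasic in
  classical
  haveI := Fact.mk hp
  intro hZ
  have hχ : Cfsg.IsIrrCharacter G χ.1 := χ.2
  have hone : ∀ z : G, ‖χ.1 z‖ = ‖χ.1 1‖ → z = 1 := by
    intro z hz
    have := mem_center_of_norm hχ hfaith hz
    rwa [hZ, Subgroup.mem_bot] at this
  let P : Sylow p G := default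
  have hP2 : p ^ 2 ∣ Nat.card P := by
    rw [P.card_eq_multiplicity]
    exact pow_dvd_pow p ((hp.pow_dvd_iff_le_factorization Nat.card_pos.ne').1 hdiv)
  have hψ : Cfsg.IsCharacter P (fun x : P => χ.1 (x : G)) := CfsgLib.CharBasic.IsCharacter.restrict (CfsgLib.CharBasic.IsIrrCharacter.isCharacter hχ) _
  haveI : Nontrivial P := by
    rw [← Finite.one_lt_card_iff_nontrivial]
    have := Nat.le_of_dvd Nat.card_pos hP2
    have := hp.one_lt
    nlinarith
  by_cases hab : IsMulCommutative P
  · haveI := Fintype.ofFinite P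
    have hz : ∀ x : P, x ≠ 1 → χ.1 (x : G) = 0 := by
      intro x hx
      rcases CfsgLib.CharBasic.IsIrrCharacter.zero_or_norm_eq_of_coprime hχ hdeg (x : G) (by
        rw [Nat.Prime.coprime_iff_not_dvd hp]
        intro h
        apply P.not_dvd_index
        refine h.trans (Subgroup.index_dvd_of_le ?_)
        intro y hy
        rw [Subgroup.mem_centralizer_singleton_iff]
        exact congrArg Subtype.val (hab.is_comm.comm ⟨y, hy⟩ x)) with h | h
      · exact h
      · exact absurd (Subtype.ext (hone _ h)) hx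
    obtain ⟨n, hn⟩ := CfsgLib.CharBasic.IsCharacter.inner_irr_nat hψ (irrOne P)
    have h1 : Cfsg.classInner (fun x : P => χ.1 (x : G)) (irrOne P) = (Nat.card P : ℂ)⁻¹ * p := by
      unfold Cfsg.classInner
      rw [Finset.sum_eq_single (1 : P)]
      · rw [irrOne_apply]
        have h5 : (fun x : P => χ.1 (x : G)) 1 = p := by rw [← hdeg]; rfl
        rw [h5, map_one, mul_one]
        rfl
      · intro x _ hx
        have h5 : (fun x : P => χ.1 (x : G)) x = 0 := hz x hx
        rw [h5, zero_mul]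
      · intro h; exact absurd (Finset.mem_univ _) h
    rw [hn] at h1
    have h2 : (p : ℂ) = Nat.card P * n := by
      rw [h1, mul_inv_cancel_left₀ (Nat.cast_ne_zero.2 Nat.card_pos.ne')]
    have h3 : p = Nat.card P * n := by exact_mod_cast h2
    have h4 : p ^ 2 ∣ p := hP2.trans ⟨n, h3⟩
    have := Nat.le_of_dvd hp.pos h4
    have := hp.one_lt
    nlinarith
  · have hirr := irr_of_nonab P.2 hab hψ (by simpa using hdeg) (fun g hg => Subtype.ext (hfaith _ hg))
    haveI := P.2.center_nontrivial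
    obtain ⟨⟨z, hz⟩, hz1⟩ := exists_ne (1 : Subgroup.center P)
    have h1 := CfsgLib.CharBasic.IsIrrCharacter.norm_of_mem_center hirr hz
    have h2 := hone (z : G) h1
    exact hz1 (Subtype.ext (Subtype.ext h2))

end Cfsg.Agent.S3968
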