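import Cfsg.Statements.S3969
import Mathlib
import Cfsg.Agent.Lib.H3Misc
import Cfsg.Agent.Lib.BBasis
import Cfsg.Agent.Lib.Transfer

set_option autoImplicit false
open Cfsg

set_option linter.style.haveILetI false
namespace Cfsg.Agent.S3969

open Subgroup

theorem index_frattini_le {P : Type*} [Group P] [Finite P] {p : ℕ} [hp : Fact p.Prime] (hP : IsPGroup p P) {r : ℕ}
    (hr : (frattini P).index = p ^ r) : r ≤ Group.rank P := by
  classical
  obtain ⟨S, hS, hcl⟩ := Group.rank_spec P
  letI : CommGroup (P ⧸ frattini P) := { (inferInstance : Group (P ⧸ frattini P)) with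
    mul_comm := CfsgLib.BBasis.quot_comm hP }
  have h1 : Subgroup.closure ((S.image (QuotientGroup.mk' (frattini P)) : Finset (P ⧸ frattini P)) : Set (P ⧸ frattini P)) = ⊤ := by
    rw [Finset.coe_image, ← CfsgLib.BBasis.closure_image_eq_top_iff]
    exact hcl
  have h2 := CfsgLib.H3Misc.card_closure_le (V := P ⧸ frattini P) hp.out.pos (CfsgLib.BBasis.quot_pow hP)
    (S.image (QuotientGroup.mk' (frattini P)))
  rw [h1, card_top, ← index_eq_card, hr] at h2
  have h3 := (Nat.pow_le_pow_iff_right hp.out.one_lt).1 h2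
  exact h3.trans (Finset.card_image_le.trans hS.le)

theorem order_dvd {P : Type*} [Group P] [Finite P] {p : ℕ} [hp : Fact p.Prime] (hP : IsPGroup p P)
    {q : ℕ} (hq : q.Prime) (hqp : q ≠ p) (α : MulAut P) (hα : q ∣ orderOf α) :
    ∃ i ∈ Finset.Icc 1 (Group.rank P), q ∣ p ^ i - 1 := by
  obtain ⟨r, hr, -⟩ := CfsgLib.BBasis.isPGroup_of_index (p := p) hP
  let T := {t : Fin r → P // Subgroup.closure (Set.range t) = ⊤}
  letI : MulAction (zpowers α) T :=
    { smul := fun a t => ⟨fun i => (a : MulAut P) (t.1 i), by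
        have : Set.range (fun i => (a : MulAut P) (t.1 i)) = ((a : MulAut P).toMonoidHom) '' (Set.range t.1) := by
          ext x; simp
        rw [this, ← MonoidHom.map_closure, t.2]
        exact map_top_of_surjective _ (a : MulAut P).surjective⟩
      one_smul := fun t => rfl
      mul_smul := fun a b t => rfl }
  have h1 : Nat.card (zpowers α) ∣ Nat.card T := by
    apply CfsgLib.BBasis.card_dvd_of_free
    intro a t hat
    have : (a : MulAut P) = 1 := CfsgLib.BBasis.mulAut_eq_one_of_gen t.1 t.2 a (fun i => congrFun (congrArg Subtype.val hat) i)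
    exact Subtype.ext this
  rw [Nat.card_zpowers] at h1
  have h2 := CfsgLib.BBasis.card_gen_tuples hP hr
  have h3 : q ∣ Nat.card (frattini P) ^ r * ∏ i ∈ Finset.range r, (p ^ r - p ^ i) := h2 ▸ hα.trans h1
  rcases hq.dvd_mul.1 h3 with h4 | h4
  · exfalso
    have h5 := hq.dvd_of_dvd_pow h4
    obtain ⟨n, hn⟩ := IsPGroup.iff_card.1 (hP.to_subgroup (frattini P))
    rw [hn] at h5
    exact hqp ((Nat.prime_dvd_prime_iff_eq hq hp.out).1 (hq.dvd_of_dvd_pow h5))
  · obtain ⟨i, hi, h5⟩ := (Prime.dvd_finset_prod_iff hq.prime _).1 h4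
    rw [Finset.mem_range] at hi
    have h6 : p ^ r - p ^ i = p ^ i * (p ^ (r - i) - 1) := by
      rw [Nat.mul_sub, mul_one, ← pow_add]; congr 2; omega
    rw [h6] at h5
    have h7 := index_frattini_le hP hr
    rcases hq.dvd_mul.1 h5 with h8 | h8
    · exact absurd ((Nat.prime_dvd_prime_iff_eq hq hp.out).1 (hq.dvd_of_dvd_pow h8)) hqp
    · exact ⟨r - i, Finset.mem_Icc.2 ⟨by omega, by omega⟩, h8⟩

theorem npc_main {G : Type*} [Group G] [Finite G] (p : ℕ) [hp : Fact p.Prime] (P : Sylow p G)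
    (hab : IsMulCommutative (P : Subgroup G))
    (h : ∀ q : ℕ, q.Prime → q ∣ Nat.card G → q ≠ p → ∀ i ∈ Finset.Icc 1 (Group.rank (P : Subgroup G)), ¬ q ∣ p ^ i - 1) :
    CfsgLib.NPC.NPC p G := by
  apply CfsgLib.Transfer.npc_of_normalizer_le P
  apply CfsgLib.Transfer.normalizer_le_centralizer_of_abelian P hab
  rintro g hg ⟨q, j, hq, hqp, hj⟩
  by_contra hgc
  have h1 : (P : Subgroup G).normalizerMonoidHom ⟨g, hg⟩ ≠ 1 := by
    intro h1
    have : (⟨g, hg⟩ : normalizer ((P : Subgroup G) : Set G)) ∈ (P : Subgroup G).normalizerMonoidHom.ker := h1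
    rw [normalizerMonoidHom_ker] at this
    exact hgc (mem_subgroupOf.1 this)
  have h2 : orderOf ((P : Subgroup G).normalizerMonoidHom ⟨g, hg⟩) ∣ q ^ j := by
    rw [← hj, ← Subgroup.orderOf_mk g hg]
    exact orderOf_map_dvd _ _
  have h3 : q ∣ orderOf ((P : Subgroup G).normalizerMonoidHom ⟨g, hg⟩) := by
    obtain ⟨k, _, hk⟩ := (Nat.dvd_prime_pow hq).1 h2
    rw [hk]
    rcases Nat.eq_zero_or_pos k with h0 | h0
    · rw [h0, pow_zero] at hk; exact absurd (orderOf_eq_one_iff.1 hk) h1
    · exact dvd_pow_self q h0.ne'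
  obtain ⟨i, hi, hd⟩ := order_dvd P.2 hq hqp _ h3
  have h4 : q ∣ Nat.card G := by
    have : q ∣ orderOf g := by
      rw [← Subgroup.orderOf_mk g hg]; exact h3.trans (orderOf_map_dvd _ _)
    exact this.trans (orderOf_dvd_natCard g)
  exact h q hq h4 hqp i hi hd


/-- Let `P` be an abelian Sylow `p`-subgroup of the finite group `G`, generated by `d` elements (`d` its minimal number of generators). If the order of `G` is coprime to `(p - 1)(p ^ 2 - 1) ⋯ (p ^ d - 1)`, then `G` has a normal `p`-complement. (The classical statement needs only the largest number of cyclic factors of `P` of equal order in place of `d`; the form here follows from it.) -/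
theorem result {G : Type*} [Group G] [Finite G] (p : ℕ) [Fact p.Prime] (P : Sylow p G) (hab : IsMulCommutative (P : Subgroup G)) (hcop : Nat.Coprime (Nat.card G) (∏ i ∈ Finset.Icc 1 (Group.rank (P : Subgroup G)), (p ^ i - 1))) : Cfsg.HasNormalPComplement p G := by
  rw [CfsgLib.NPC.npc_iff]
  refine npc_main p P hab ?_
  intro q hq hqG hqp i hi hd
  have h1 : q ∣ ∏ i ∈ Finset.Icc 1 (Group.rank (P : Subgroup G)), (p ^ i - 1) := hd.trans (Finset.dvd_prod_of_mem _ hi)
  exact hq.one_lt.ne' (Nat.dvd_one.1 (hcop ▸ Nat.dvd_gcd hqG h1))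

end Cfsg.Agent.S3969
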