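import Cfsg.Statements.S3970
import Mathlib
import Cfsg.Agent.S3969
import Cfsg.Agent.Lib.Core2

set_option autoImplicit false
open Cfsg

set_option linter.style.haveILetI false
namespace Cfsg.Agent.S3970

universe u
open Subgroup

theorem rank_le_one_of_card_prime {P : Type*} [Group P] [Finite P] {p : ℕ} [Fact p.Prime] (h : Nat.card P = p) : Group.rank P ≤ 1 := by
  classical
  haveI := isCyclic_of_prime_card h
  obtain ⟨g, hg⟩ := IsCyclic.exists_generator (α := P)
  have : Subgroup.closure (({g} : Finset P) : Set P) = ⊤ := by
    rw [Finset.coe_singleton, ← zpowers_eq_closure, eq_top_iff]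
    exact fun x _ => hg x
  simpa using Group.rank_le this

theorem main (n : ℕ) : ∀ {G : Type u} [Group G] [Finite G], Nat.card G ≤ n → 
   (∀ p : ℕ, p.Prime → p ∣ Nat.card G → (∃ q : ℕ, q.Prime ∧ q ∣ Nat.card G ∧ p < q) → ∀ P : Sylow p G, IsMulCommutative (P : Subgroup G) ∧ Group.rank (P : Subgroup G) ≤ 2) → (¬ 12 ∣ Nat.card G) → Group.IsSolvable G := by
  induction n with
  | zero => intro G _ _ h; exact absurd h (by have := Nat.card_pos (α := G); omega)
  | succ n ih =>
    intro G _ _ hn h h12
    by_cases h1 : Nat.card G = 1
    · haveI : Subsingleton G := (Nat.card_eq_one_iff_unique.1 h1).1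
      infer_instance
    · set p := (Nat.card G).minFac with hp
      haveI hpp : Fact p.Prime := ⟨Nat.minFac_prime h1⟩
      have hpG : p ∣ Nat.card G := Nat.minFac_dvd _
      have hmin : ∀ q : ℕ, q.Prime → q ∣ Nat.card G → p ≤ q := fun q hq hd => Nat.minFac_le_of_dvd hq.two_le hd
      have hnpc : CfsgLib.NPC.NPC p G := by
        by_cases hq : ∃ q : ℕ, q.Prime ∧ q ∣ Nat.card G ∧ p < q
        · let P : Sylow p G := default
          obtain ⟨hab, hr⟩ := h p hpp.out hpG hq P
          refine Cfsg.Agent.S3969.npc_main p P hab ?_
          intro q hq hqG hqp i hi hd
          rw [Finset.mem_Icc] at hi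
          have hpq := hmin q hq hqG
          have hp2 := hpp.out.two_le
          have hi2 : i = 1 ∨ i = 2 := by omega
          have hk : q ∣ p ^ 2 - 1 := by
            rcases hi2 with rfl | rfl
            · rw [pow_one] at hd
              exact hd.trans ⟨p + 1, by rw [Nat.sub_mul, one_mul, mul_add]; ring_nf; omega⟩
            · exact hd
          have hfac : p ^ 2 - 1 = (p - 1) * (p + 1) := by
            rw [Nat.sub_mul, one_mul, mul_add]; ring_nf; omega
          rw [hfac] at hk
          have hnot : ¬ q ∣ p - 1 := fun hd => by
            have := Nat.le_of_dvd (by omega) hd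
            omega
          rcases hq.dvd_mul.1 hk with h1 | h1
          · exact hnot h1
          · have hle := Nat.le_of_dvd (by omega) h1
            have hq1 : q = p + 1 := by omega
            have hp2' : p = 2 := by
              by_contra hne
              have o1 := hpp.out.odd_of_ne_two hne
              have o2 := hq.odd_of_ne_two (by omega)
              rw [hq1] at o2
              exact (Nat.not_even_iff_odd.2 o2) o1.add_one
            have hq3 : q = 3 := by omega
            have h4 : ¬ 4 ∣ Nat.card G := by
              intro h4
              apply h12
              exact Nat.Coprime.mul_dvd_of_dvd_of_dvd (by decide : Nat.Coprime 4 3) h4 (hq3 ▸ hqG)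
            have hPc : Nat.card P = p := by
              rw [P.card_eq_multiplicity]
              have hf1 : 1 ≤ (Nat.card G).factorization p :=
                hpp.out.factorization_pos_of_dvd Nat.card_pos.ne' hpG
              have hf2 : ¬ 2 ≤ (Nat.card G).factorization p := by
                intro h2
                apply h4
                have := (Nat.pow_dvd_pow p h2).trans (Nat.ordProj_dvd (Nat.card G) p)
                rw [hp2'] at this
                exact this
              have : (Nat.card G).factorization p = 1 := by omega
              rw [this, pow_one]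
            have hr1 := rank_le_one_of_card_prime hPc
            have hi1 : i = 1 := by
              have := hi.2
              omega
            rw [hi1, pow_one] at hd
            exact hnot hd
        · apply CfsgLib.NPC.npc_of_isPGroup
          push Not at hq
          apply IsPGroup.of_card (n := (Nat.card G).factorization p)
          refine Nat.eq_of_factorization_eq Nat.card_pos.ne' (pow_pos hpp.out.pos _).ne' ?_
          intro q
          rw [hpp.out.factorization_pow]
          by_cases hqp : q = p
          · subst hqp; simp
          · rw [Finsupp.single_eq_of_ne hqp]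
            by_contra hne
            have hqm := Nat.mem_primeFactors.1 (Nat.support_factorization (Nat.card G) ▸ Finsupp.mem_support_iff.2 hne)
            have := hq q hqm.1 hqm.2.1
            have := hmin q hqm.1 hqm.2.1
            omega
      obtain ⟨N, hN, hNc, k, hk⟩ := hnpc
      have hNne : N ≠ ⊤ := by
        rintro rfl
        rw [card_top] at hNc
        exact hpp.out.one_lt.ne' (Nat.dvd_one.1 (hNc ▸ Nat.dvd_gcd hpG dvd_rfl))
      have hNlt := CfsgLib.Core2.card_lt_of_ne_top hNne
      refine CfsgLib.Core2.solvable_ext N ?_ ?_
      · apply ih (by omega)
        · intro r hr hrN ⟨q, hq, hqN, hrq⟩ R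
          haveI := Fact.mk hr
          have hrp : r ≠ p := by
            rintro rfl
            exact hpp.out.one_lt.ne' (Nat.dvd_one.1 (hNc ▸ Nat.dvd_gcd hrN dvd_rfl))
          have hcard : Nat.card ((R : Subgroup N).map N.subtype) = r ^ (Nat.card G).factorization r := by
            rw [CfsgLib.H3Misc.card_map_subtype, R.card_eq_multiplicity, ← N.card_mul_index, hk,
              Nat.factorization_mul Nat.card_pos.ne' (pow_pos hpp.out.pos _).ne', hpp.out.factorization_pow]
            simp [Finsupp.single_eq_of_ne hrp]
          let R' : Sylow r G := Sylow.ofCard ((R : Subgroup N).map N.subtype) hcard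
          have e : (R : Subgroup N) ≃* (R' : Subgroup G) := (R : Subgroup N).equivMapOfInjective _ N.subtype_injective
          obtain ⟨h1, h2⟩ := h r hr (hrN.trans (card_subgroup_dvd_card N)) ⟨q, hq, hqN.trans (card_subgroup_dvd_card N), hrq⟩ R'
          refine ⟨?_, ?_⟩
          · refine ⟨⟨fun a b => e.injective ?_⟩⟩
            rw [map_mul, map_mul]
            exact h1.is_comm.comm _ _
          · rwa [Group.rank_congr e]
        · exact fun h => h12 (h.trans (card_subgroup_dvd_card N))
      · have : IsPGroup p (G ⧸ N) := IsPGroup.of_card (by rw [← index_eq_card]; exact hk)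
        haveI := this.isNilpotent
        infer_instance


/-- Let `G` be a finite group such that for every prime `p` dividing its order, other than the largest such prime, the Sylow `p`-subgroups are abelian and generated by at most two elements, and suppose `12` does not divide the order of `G`. Then `G` is solvable. In particular a group of cube-free order not divisible by `12` is solvable. -/
theorem result {G : Type*} [Group G] [Finite G] (h : ∀ p : ℕ, p.Prime → p ∣ Nat.card G → (∃ q : ℕ, q.Prime ∧ q ∣ Nat.card G ∧ p < q) → ∀ P : Sylow p G, IsMulCommutative (P : Subgroup G) ∧ Group.rank (P : Subgroup G) ≤ 2) (h12 : ¬ 12 ∣ Nat.card G) : Group.IsSolvable G := by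
  exact main _ le_rfl h h12

end Cfsg.Agent.S3970
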