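import Cfsg.Statements.S3973
import Mathlib
import Cfsg.Agent.Lib.Schur4

set_option autoImplicit false
open Cfsg

open scoped Pointwise
set_option linter.style.haveILetI false
namespace Cfsg.Agent.S3973

theorem rank_le_of_lin {L : Type*} [AddCommGroup L] [Module.Free ℤ L] [Module.Finite ℤ L] {A : Type*} [CommGroup A] [Finite A]
    (h : L →+ Additive A) (hs : Function.Surjective h) : Group.rank A ≤ Module.finrank ℤ L := by
  classical
  let b := Module.finBasis ℤ L
  let S : Finset A := Finset.univ.image (fun i => Additive.toMul (h (b i)))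
  have hS : Subgroup.closure (S : Set A) = ⊤ := by
    rw [eq_top_iff]
    intro a _
    obtain ⟨v, hv⟩ := hs (Additive.ofMul a)
    have h1 : v ∈ Submodule.span ℤ (Set.range b) := by rw [b.span_eq]; trivial
    have h2 : ∀ v ∈ Submodule.span ℤ (Set.range b), Additive.toMul (h v) ∈ Subgroup.closure (S : Set A) := by
      intro v hv
      induction hv using Submodule.span_induction with
      | mem x hx =>
        obtain ⟨i, rfl⟩ := hx
        exact Subgroup.subset_closure (by simp [S])
      | zero => rw [map_zero]; exact Subgroup.one_mem _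
      | add x y _ _ hx hy => rw [map_add]; exact Subgroup.mul_mem _ hx hy
      | smul c x _ hx => rw [map_zsmul]; exact Subgroup.zpow_mem _ hx c
    have h3 := h2 v h1
    rwa [hv] at h3
  have h4 : Group.rank A ≤ S.card := Group.rank_le hS
  refine h4.trans (Finset.card_image_le.trans ?_)
  rw [Finset.card_univ, Fintype.card_fin]


/-- If a finite group is presented by `n` generators and a finite set of `r` relators, then its Schur multiplier can be generated by `r - n` elements. In particular a finite group with a presentation having as many relators as generators has trivial Schur multiplier. -/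
theorem result (n : ℕ) (rels : Finset (FreeGroup (Fin n))) [Finite (PresentedGroup (rels : Set (FreeGroup (Fin n))))] {A : Type*} [CommGroup A] [Finite A] (hA : Cfsg.HasSchurMultiplier (PresentedGroup (rels : Set (FreeGroup (Fin n)))) A) : Group.rank A ≤ rels.card - n := by
  open Subgroup CfsgLib.Schur in
    classical
    set φ : FreeGroup (Fin n) →* PresentedGroup (rels : Set (FreeGroup (Fin n))) := PresentedGroup.mk (rels : Set (FreeGroup (Fin n))) with hφdef
    have hφ : Function.Surjective φ := PresentedGroup.mk_surjective _
    obtain ⟨e⟩ := equiv_of_hasSchurMultiplier hφ hA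
    set mk := QuotientGroup.mk' (N φ) with hmk
    have hcen : φ.ker.map mk ≤ center (FreeGroup (Fin n) ⧸ N φ) := by rw [← pr_ker]; exact pr_ker_le_center φ
    letI : CommGroup (φ.ker.map mk) := { (inferInstance : Group (φ.ker.map mk)) with
      mul_comm := fun a b => Subtype.ext (mem_center_iff.1 (hcen b.2) a) }
    have hrel : ∀ r ∈ (rels : Set (FreeGroup (Fin n))), r ∈ φ.ker := fun r hr => PresentedGroup.one_of_mem hr
    let gen : rels → Additive (φ.ker.map mk) := fun r => Additive.ofMul ⟨mk r, mem_map_of_mem _ (hrel r r.2)⟩
    let f : (rels →₀ ℤ) →ₗ[ℤ] Additive (φ.ker.map mk) := Finsupp.linearCombination ℤ gen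
    let g : Additive (φ.ker.map mk) →ₗ[ℤ] Additive (Abelianization (FreeGroup (Fin n))) :=
      (MonoidHom.toAdditive ((abE φ).comp (φ.ker.map mk).subtype)).toIntLinearMap
    -- f is surjective
    have hf : ∀ x : FreeGroup (Fin n), ∀ hx : mk x ∈ φ.ker.map mk, ∃ v, f v = Additive.ofMul ⟨mk x, hx⟩ := by
      set Cl := Subgroup.closure ((fun r : FreeGroup (Fin n) => mk r) '' (rels : Set (FreeGroup (Fin n)))) with hCl
      have hClc : Cl ≤ center (FreeGroup (Fin n) ⧸ N φ) := by
        rw [hCl, closure_le]
        rintro _ ⟨r, hr, rfl⟩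
        exact hcen (mem_map_of_mem _ (hrel r hr))
      haveI : Cl.Normal := ⟨fun a ha b => by rw [mem_center_iff.1 (hClc ha) b, mul_inv_cancel_right]; exact ha⟩
      have hkle : φ.ker ≤ Cl.comap mk := by
        have h1 : φ.ker = Subgroup.normalClosure (rels : Set (FreeGroup (Fin n))) := QuotientGroup.ker_mk' _
        refine h1.le.trans ?_
        apply Subgroup.normalClosure_le_normal
        intro r hr
        exact Subgroup.subset_closure ⟨r, hr, rfl⟩
      have key : ∀ y ∈ Cl, ∀ hy : y ∈ φ.ker.map mk, ∃ v, f v = Additive.ofMul ⟨y, hy⟩ := by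
        intro y hy
        induction hy using Subgroup.closure_induction with
        | mem y hy =>
          obtain ⟨r, hr, rfl⟩ := hy
          intro hy
          exact ⟨Finsupp.single ⟨r, hr⟩ 1, by rw [Finsupp.linearCombination_single, one_smul]⟩
        | one => intro hy; exact ⟨0, by rw [map_zero]; rfl⟩
        | mul a b ha hb iha ihb =>
          intro hy
          have ha' : a ∈ φ.ker.map mk := by
            have : Cl ≤ φ.ker.map mk := by
              rw [hCl, closure_le]
              rintro _ ⟨r, hr, rfl⟩
              exact mem_map_of_mem _ (hrel r hr)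
            exact this ha
          have hb' : b ∈ φ.ker.map mk := by
            have : Cl ≤ φ.ker.map mk := by
              rw [hCl, closure_le]
              rintro _ ⟨r, hr, rfl⟩
              exact mem_map_of_mem _ (hrel r hr)
            exact this hb
          obtain ⟨v, hv⟩ := iha ha'
          obtain ⟨w, hw⟩ := ihb hb'
          exact ⟨v + w, by rw [map_add, hv, hw]; rfl⟩
        | inv a ha iha =>
          intro hy
          obtain ⟨v, hv⟩ := iha (by simpa using Subgroup.inv_mem _ hy)
          exact ⟨-v, by rw [map_neg, hv]; rfl⟩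
      intro x hx
      obtain ⟨y, hy, hyx⟩ := id hx
      have h2 : mk x ∈ Cl := by rw [← hyx]; exact hkle hy
      exact key _ h2 hx
    let L := LinearMap.ker (g.comp f)
    -- the map L → A
    have hLM : ∀ v : L, ((Additive.toMul (f v) : φ.ker.map mk) : FreeGroup (Fin n) ⧸ N φ) ∈ M φ := by
      rintro ⟨v, hv⟩
      obtain ⟨x, hx, hxv⟩ := (Additive.toMul (f v) : φ.ker.map mk).2
      have h1 : abE φ ((Additive.toMul (f v) : φ.ker.map mk) : FreeGroup (Fin n) ⧸ N φ) = 1 := hv
      rw [← hxv] at h1
      have h2 : Abelianization.of x = 1 := h1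
      rw [← MonoidHom.mem_ker, Abelianization.ker_of] at h2
      show ((Additive.toMul (f v) : φ.ker.map mk) : FreeGroup (Fin n) ⧸ N φ) ∈ M φ
      rw [← hxv]
      exact mem_map_of_mem _ ⟨hx, h2⟩
    let h : L →+ Additive A :=
      { toFun := fun v => Additive.ofMul (e.symm ⟨_, hLM v⟩)
        map_zero' := by
          show Additive.ofMul (e.symm ⟨_, hLM 0⟩) = 0
          have : (⟨_, hLM 0⟩ : M φ) = 1 := Subtype.ext (by
            show ((Additive.toMul (f (0 : L)) : φ.ker.map mk) : FreeGroup (Fin n) ⧸ N φ) = 1
            rw [ZeroMemClass.coe_zero, map_zero]; rfl)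
          rw [this, map_one]; rfl
        map_add' := by
          intro v w
          show Additive.ofMul (e.symm ⟨_, hLM (v + w)⟩) = Additive.ofMul (e.symm ⟨_, hLM v⟩) + Additive.ofMul (e.symm ⟨_, hLM w⟩)
          rw [← ofMul_mul, ← map_mul]
          congr 2
          apply Subtype.ext
          show ((Additive.toMul (f ((v + w : L) : rels →₀ ℤ)) : φ.ker.map mk) : FreeGroup (Fin n) ⧸ N φ) = _
          rw [Submodule.coe_add, map_add]; rfl }
    have hs : Function.Surjective h := by
      intro a
      obtain ⟨⟨y, hy⟩, hya⟩ := e.symm.surjective (Additive.toMul a)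
      obtain ⟨x, ⟨hx1, hx2⟩, rfl⟩ := id hy
      obtain ⟨v, hv⟩ := hf x (mem_map_of_mem _ hx1)
      have hvL : v ∈ L := by
        show g (f v) = 0
        rw [hv]
        show Abelianization.of x = 1
        rw [← MonoidHom.mem_ker, Abelianization.ker_of]; exact hx2
      refine ⟨⟨v, hvL⟩, ?_⟩
      show Additive.ofMul (e.symm ⟨_, hLM ⟨v, hvL⟩⟩) = a
      have : (⟨_, hLM ⟨v, hvL⟩⟩ : M φ) = ⟨mk x, hy⟩ := Subtype.ext (by
        show ((Additive.toMul (f v) : φ.ker.map mk) : FreeGroup (Fin n) ⧸ N φ) = mk x
        rw [hv]; rfl)
      rw [this, hya]; rfl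
    have h1 : Group.rank A ≤ Module.finrank ℤ L := rank_le_of_lin h hs
    -- ranks
    have h2 : Module.finrank ℤ (LinearMap.range (g.comp f)) + Module.finrank ℤ L = rels.card := by
      have e1 := Submodule.finrank_quotient_add_finrank (LinearMap.ker (g.comp f))
      have e2 := LinearEquiv.finrank_eq (g.comp f).quotKerEquivRange
      rw [← e2, e1, Module.finrank_finsupp_self, Fintype.card_coe]
    have h3 : n ≤ Module.finrank ℤ (LinearMap.range (g.comp f)) := by
      have hfr : Module.finrank ℤ (Additive (Abelianization (FreeGroup (Fin n)))) = n := by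
        have := Module.finrank_eq_card_basis (FreeAbelianGroup.basis (Fin n))
        rwa [Fintype.card_fin] at this
      set k := Nat.card (PresentedGroup (rels : Set (FreeGroup (Fin n)))) with hk
      have hkpos : 0 < k := Nat.card_pos
      have hmem : ∀ y : Additive (Abelianization (FreeGroup (Fin n))), k • y ∈ LinearMap.range (g.comp f) := by
        intro y
        obtain ⟨x, hx⟩ : ∃ x, Abelianization.of x = Additive.toMul y := QuotientGroup.mk_surjective (Additive.toMul y)
        have h4 : x ^ k ∈ φ.ker := by rw [MonoidHom.mem_ker, map_pow, hk, pow_card_eq_one']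
        obtain ⟨v, hv⟩ := hf (x ^ k) (mem_map_of_mem _ h4)
        refine ⟨v, ?_⟩
        show g (f v) = k • y
        rw [hv]
        show Additive.ofMul (Abelianization.of (x ^ k)) = k • y
        rw [map_pow, hx]; rfl
      let m : Additive (Abelianization (FreeGroup (Fin n))) →ₗ[ℤ] LinearMap.range (g.comp f) :=
        { toFun := fun y => ⟨k • y, hmem y⟩
          map_add' := fun a b => Subtype.ext (smul_add _ _ _)
          map_smul' := fun c a => Subtype.ext (smul_comm _ _ _) }
      haveI : Module.Free ℤ (Additive (Abelianization (FreeGroup (Fin n)))) := Module.Free.of_basis (FreeAbelianGroup.basis (Fin n))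
      haveI : Module.Finite ℤ (Additive (Abelianization (FreeGroup (Fin n)))) := Module.Finite.of_basis (FreeAbelianGroup.basis (Fin n))
      have hm : Function.Injective m := by
        intro a b hab
        have h5 : k • a = k • b := congrArg Subtype.val hab
        have : (k : ℤ) • a = (k : ℤ) • b := by rw [natCast_zsmul, natCast_zsmul]; exact h5
        exact smul_right_injective _ (by exact_mod_cast hkpos.ne' : (k : ℤ) ≠ 0) this
      have h6 := LinearMap.finrank_le_finrank_of_injective hm
      rwa [hfr] at h6
    lia

end Cfsg.Agent.S3973
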