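import Cfsg.Statements.S3974
import Mathlib
import Cfsg.Agent.Lib.Schur5

set_option autoImplicit false
universe u v
open Cfsg

open scoped Pointwise
set_option linter.style.haveILetI false
namespace Cfsg.Agent.S3974

/-- Let `Q` be a finite group with Schur multiplier `A`. Any two Schur covering groups of `Q` (finite stem extensions `σ₁ : Γ₁ →* Q`, `σ₂ : Γ₂ →* Q` with kernels isomorphic to `A`, `Γ₁, Γ₂` in the universe of `Q`) are isomorphic over `Q` — there is a group isomorphism `e : Γ₁ ≃* Γ₂` with `σ₂ ∘ e = σ₁` — if and only if the order of the commutator quotient of `Q` is coprime to the order of `A`. In particular a finite perfect group has a unique Schur covering group up to isomorphism over it. -/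
theorem result {Q : Type u} [Group Q] [Finite Q] {A : Type v} [CommGroup A] (hA : Cfsg.HasSchurMultiplier Q A) : (∀ (Γ₁ Γ₂ : Type u) [Group Γ₁] [Finite Γ₁] [Group Γ₂] [Finite Γ₂] (σ₁ : Γ₁ →* Q) (σ₂ : Γ₂ →* Q), Cfsg.IsStemExtension σ₁ → Cfsg.IsStemExtension σ₂ → Nonempty (σ₁.ker ≃* A) → Nonempty (σ₂.ker ≃* A) → ∃ e : Γ₁ ≃* Γ₂, σ₂.comp e.toMonoidHom = σ₁) ↔ Nat.Coprime (Nat.card (Abelianization Q)) (Nat.card A) := by
  open Subgroup CfsgLib.Schur in
    set φ := taut Q with hφdef
    have hφ : Function.Surjective φ := taut_surjective Q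
    obtain ⟨eA⟩ := equiv_of_hasSchurMultiplier hφ hA
    haveI := finite_M hφ
    haveI : Finite A := Finite.of_equiv _ eA.symm.toEquiv
    constructor
    swap
    · intro hcop Γ₁ Γ₂ _ _ _ _ σ₁ σ₂ h1 h2 hk1 hk2
      obtain ⟨e2⟩ := hk2
      obtain ⟨e1⟩ := hk1
      have hc2 : Nat.card σ₂.ker = Nat.card A := Nat.card_congr e2.toEquiv
      have hc1 : Nat.card σ₁.ker = Nat.card A := Nat.card_congr e1.toEquiv
      obtain ⟨e, he⟩ := exists_hom_of_coprime hA h1 ⟨e1⟩ h2 (hc2 ▸ hcop)
      have hes : Function.Surjective e := surjective_of_stem h1.1 h2 he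
      have hcard : Nat.card Γ₁ = Nat.card Γ₂ := by
        have a1 := σ₁.ker.card_mul_index
        have a2 := σ₂.ker.card_mul_index
        rw [Subgroup.index_ker, MonoidHom.range_eq_top.2 h1.1, Subgroup.card_top] at a1
        rw [Subgroup.index_ker, MonoidHom.range_eq_top.2 h2.1, Subgroup.card_top] at a2
        rw [← a1, ← a2, hc1, hc2]
      have heb : Function.Bijective e := (Nat.bijective_iff_surjective_and_card e).2 ⟨hes, hcard⟩
      exact ⟨MulEquiv.ofBijective e heb, he⟩
    · intro hall
      by_contra hcop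
      obtain ⟨p, hp, hpQ, hpA⟩ := Nat.Prime.not_coprime_iff_dvd.1 hcop
      haveI : Fact p.Prime := ⟨hp⟩
      obtain ⟨S, hS⟩ := exists_compl' φ
      haveI := hS.normal
      haveI := hS.finite hφ
      have hstem := hS.isStem hφ
      obtain ⟨eS⟩ := hS.equiv
      set K := hS.cov.ker with hK
      haveI : Finite K := inferInstance
      letI : CommGroup K := { (inferInstance : Group K) with
        mul_comm := fun a b => Subtype.ext (mem_center_iff.1 (hstem.2.1 b.2) a) }
      have hcK : Nat.card K = Nat.card A := (Nat.card_congr eS.toEquiv).symm.trans (Nat.card_congr eA.toEquiv).symm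
      -- an element of K which is not a p-th power
      obtain ⟨m, hm⟩ : ∃ m : K, ∀ k : K, k ^ p ≠ m := by
        by_contra hcon
        push Not at hcon
        have hsurj : Function.Surjective (fun k : K => k ^ p) := hcon
        have hinj : Function.Injective (fun k : K => k ^ p) := Finite.injective_iff_surjective.2 hsurj
        obtain ⟨x, hx⟩ := exists_prime_orderOf_dvd_card' (G := K) p (hcK ▸ hpA)
        have h1 : x ^ p = 1 ^ p := by rw [one_pow, ← hx, pow_orderOf_eq_one]
        have h2 := hinj h1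
        rw [h2, orderOf_one] at hx
        exact hp.one_lt.ne hx
      -- the free abelian group B
      set B := φ.ker.map (Abelianization.of (G := FreeGroup Q)) with hB
      haveI : Module.Free ℤ (Additive B) := free_subgroup_ab B
      obtain ⟨z, hz⟩ := exists_prime_orderOf_dvd_card' (G := Abelianization Q) p hpQ
      obtain ⟨q, rfl⟩ : ∃ q, Abelianization.of q = z := QuotientGroup.mk_surjective z
      obtain ⟨f, rfl⟩ := hφ q
      have hfB : Abelianization.of f ∉ B := by
        intro h
        rw [hB, of_mem_iff hφ, ← Abelianization.ker_of, MonoidHom.mem_ker] at h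
        rw [h, orderOf_one] at hz
        exact hp.one_lt.ne hz
      have hfpB : Abelianization.of (f ^ p) ∈ B := by
        rw [hB, of_mem_iff hφ, ← Abelianization.ker_of, MonoidHom.mem_ker, map_pow, map_pow, ← hz, pow_orderOf_eq_one]
      let b := Module.Free.chooseBasis ℤ (Additive B)
      set v : Additive B := Additive.ofMul ⟨Abelianization.of (f ^ p), hfpB⟩ with hv
      -- torsion-freeness
      have htf : ∀ x y : Abelianization (FreeGroup Q), x ^ p = y ^ p → x = y := by
        intro x y hxy
        haveI : Module.Free ℤ (FreeAbelianGroup Q) := Module.Free.of_basis (FreeAbelianGroup.basis Q)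
        have h1 : (p : ℤ) • (Additive.ofMul x : FreeAbelianGroup Q) = (p : ℤ) • (Additive.ofMul y : FreeAbelianGroup Q) := by
          rw [natCast_zsmul, natCast_zsmul]; exact hxy
        exact smul_right_injective (FreeAbelianGroup Q) (by exact_mod_cast hp.ne_zero : (p : ℤ) ≠ 0) h1
      obtain ⟨i, hi⟩ : ∃ i, ¬ (p : ℤ) ∣ b.repr v i := by
        by_contra hcon
        push Not at hcon
        choose c hc using hcon
        apply hfB
        have hcs : (Function.support c).Finite := by
          refine (b.repr v).finite_support.subset ?_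
          intro i hi h0
          apply hi
          have h1 := hc i
          have h2 : b.repr v i = 0 := h0
          rw [h2] at h1
          exact (mul_eq_zero.1 h1.symm).resolve_left (by exact_mod_cast hp.ne_zero)
        set w : Additive B := b.repr.symm (Finsupp.ofSupportFinite c hcs) with hw
        have h3 : v = (p : ℤ) • w := by
          apply b.repr.injective
          rw [map_smul, hw, LinearEquiv.apply_symm_apply]
          ext j
          rw [hc j]
          rfl
        have h4 : (Abelianization.of f) ^ p = (((Additive.toMul w : B) : Abelianization (FreeGroup Q))) ^ p := by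
          rw [← map_pow]
          have h5 : (⟨Abelianization.of (f ^ p), hfpB⟩ : B) = (Additive.toMul w) ^ p := by
            have : v = p • w := by rw [h3, natCast_zsmul]
            exact this
          exact congrArg Subtype.val h5
        rw [htf _ _ h4]
        exact (Additive.toMul w : B).2
      -- the twisting homomorphism
      let lB : B →* K :=
        { toFun := fun y => m ^ (b.repr (Additive.ofMul y) i)
          map_one' := by rw [ofMul_one, map_zero, Finsupp.zero_apply, zpow_zero]
          map_mul' := by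
            intro x y
            rw [ofMul_mul, map_add, Finsupp.add_apply, zpow_add] }
      let toB : φ.ker →* B := (Abelianization.of.comp φ.ker.subtype).codRestrict _ (fun x => mem_map_of_mem _ x.2)
      have htoB1 : ∀ x : φ.ker, (x : FreeGroup Q) ∈ commutator (FreeGroup Q) → toB x = 1 := by
        intro x hx
        apply Subtype.ext
        show Abelianization.of (x : FreeGroup Q) = 1
        rw [← MonoidHom.mem_ker, Abelianization.ker_of]; exact hx
      obtain ⟨S₂, hS₂, hmem₂⟩ := hS.twist (lB.comp toB) (fun x hx => by rw [MonoidHom.comp_apply, htoB1 x hx, map_one])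
      haveI := hS₂.normal
      haveI := hS₂.finite hφ
      have hstem₂ := hS₂.isStem hφ
      obtain ⟨eS₂⟩ := hS₂.equiv
      obtain ⟨e, he⟩ := hall (FreeGroup Q ⧸ S) (FreeGroup Q ⧸ S₂) hS.cov hS₂.cov hstem hstem₂ ⟨eS.symm.trans eA.symm⟩ ⟨eS₂.symm.trans eA.symm⟩
      set ψ₁ := QuotientGroup.mk' S with hψ₁
      set ψ₂ := QuotientGroup.mk' S₂ with hψ₂
      have hc1 : hS.cov.comp ψ₁ = φ := by ext x; rfl
      have hc2 : hS₂.cov.comp ψ₂ = φ := by ext x; rfl
      have hagree : ∀ x ∈ commutator (FreeGroup Q), e (ψ₁ x) = ψ₂ x := by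
        apply agree_on_commutator hS₂.cov hstem₂.2.1 (e.toMonoidHom.comp ψ₁) ψ₂
        rw [← MonoidHom.comp_assoc, he, hc1, hc2]
      -- the difference λ(f) = (ψ₁ f)⁻¹ e⁻¹(ψ₂ f)
      have hlamK : ∀ x, (ψ₁ x)⁻¹ * e.symm (ψ₂ x) ∈ K := by
        intro x
        show hS.cov ((ψ₁ x)⁻¹ * e.symm (ψ₂ x)) = 1
        rw [map_mul, map_inv, ← he, MonoidHom.comp_apply, MonoidHom.comp_apply]
        show (hS₂.cov (e (ψ₁ x)))⁻¹ * hS₂.cov (e (e.symm (ψ₂ x))) = 1
        rw [e.apply_symm_apply]
        have h1 : hS₂.cov (e (ψ₁ x)) = φ x := by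
          have := DFunLike.congr_fun he (ψ₁ x)
          exact this.trans (DFunLike.congr_fun hc1 x)
        have h2 : hS₂.cov (ψ₂ x) = φ x := DFunLike.congr_fun hc2 x
        rw [h1, h2, inv_mul_cancel]
      let lam : FreeGroup Q →* K :=
        { toFun := fun x => ⟨(ψ₁ x)⁻¹ * e.symm (ψ₂ x), hlamK x⟩
          map_one' := Subtype.ext (by simp)
          map_mul' := by
            intro x y
            apply Subtype.ext
            show (ψ₁ (x * y))⁻¹ * e.symm (ψ₂ (x * y)) = ((ψ₁ x)⁻¹ * e.symm (ψ₂ x)) * ((ψ₁ y)⁻¹ * e.symm (ψ₂ y))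
            rw [map_mul, map_mul, map_mul]
            have hz := mem_center_iff.1 (hstem.2.1 (hlamK x)) (ψ₁ y)⁻¹
            calc (ψ₁ x * ψ₁ y)⁻¹ * (e.symm (ψ₂ x) * e.symm (ψ₂ y)) = (ψ₁ y)⁻¹ * ((ψ₁ x)⁻¹ * e.symm (ψ₂ x)) * e.symm (ψ₂ y) := by group
              _ = _ := by rw [hz]; group }
      have hlam : ∀ x, ((lam x : K) : FreeGroup Q ⧸ S) = (ψ₁ x)⁻¹ * e.symm (ψ₂ x) := fun x => rfl
      have hlamc : ∀ x ∈ commutator (FreeGroup Q), lam x = 1 := by
        intro x hx
        apply Subtype.ext
        rw [hlam, ← hagree x hx, e.symm_apply_apply, inv_mul_cancel]; rfl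
      have hlamS : ∀ s (hs : s ∈ S), lam s = (lB (toB ⟨s, hS.le_ker hs⟩))⁻¹ := by
        intro s hs
        set k := lB (toB ⟨s, hS.le_ker hs⟩) with hk
        have hkK : (k : FreeGroup Q ⧸ S)⁻¹ ∈ hS.cov.ker := Subgroup.inv_mem _ k.2
        obtain ⟨c, hc, hck⟩ := hS.cov_ker.le hkK
        have hψs : ψ₁ s = 1 := (QuotientGroup.eq_one_iff s).2 hs
        have hsc : s * c⁻¹ ∈ S₂ := by
          have hR : s * c⁻¹ ∈ φ.ker := Subgroup.mul_mem _ (hS.le_ker hs) (Subgroup.inv_mem _ hc.1)
          rw [hmem₂ ⟨s * c⁻¹, hR⟩, MonoidHom.comp_apply]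
          have h1 : toB ⟨s * c⁻¹, hR⟩ = toB ⟨s, hS.le_ker hs⟩ := by
            have : (⟨s * c⁻¹, hR⟩ : φ.ker) = ⟨s, hS.le_ker hs⟩ * ⟨c, hc.1⟩⁻¹ := rfl
            rw [this, map_mul, map_inv, htoB1 ⟨c, hc.1⟩ hc.2, inv_one, mul_one]
          rw [h1, ← hk]
          show ψ₁ (s * c⁻¹) = k
          rw [map_mul, map_inv, hψs, one_mul, hck, inv_inv]
        have h2 : ψ₂ s = ψ₂ c := by
          have h3 : ψ₂ (s * c⁻¹) = 1 := (QuotientGroup.eq_one_iff _).2 hsc
          rw [map_mul, map_inv] at h3
          exact mul_inv_eq_one.1 h3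
        apply Subtype.ext
        rw [hlam, hψs, inv_one, one_mul, h2, ← hagree c hc.2, e.symm_apply_apply, hck]; rfl
      -- conclude
      obtain ⟨r, hr, hrf⟩ := hfpB
      obtain ⟨s, hs, c, hc, hrsc⟩ := hS.exists_mul r hr
      have h1 : f ^ p = s * (s⁻¹ * f ^ p) := by group
      have hof : Abelianization.of s = Abelianization.of (f ^ p) := by
        rw [← hrf, hrsc, map_mul]
        have : Abelianization.of c = 1 := by rw [← MonoidHom.mem_ker, Abelianization.ker_of]; exact hc.2
        rw [this, mul_one]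
      have h2 : s⁻¹ * f ^ p ∈ commutator (FreeGroup Q) := by
        rw [← Abelianization.ker_of, MonoidHom.mem_ker, map_mul, map_inv, hof, inv_mul_cancel]
      have h3 : lam f ^ p = (lB (toB ⟨s, hS.le_ker hs⟩))⁻¹ := by
        rw [← map_pow, h1, map_mul, hlamc _ h2, mul_one, hlamS s hs]
      have h4 : toB ⟨s, hS.le_ker hs⟩ = ⟨Abelianization.of (f ^ p), ⟨r, hr, hrf⟩⟩ := Subtype.ext hof
      rw [h4] at h3
      have h5 : lB ⟨Abelianization.of (f ^ p), ⟨r, hr, hrf⟩⟩ = m ^ (b.repr v i) := rfl
      rw [h5] at h3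
      obtain ⟨s', t', hst⟩ : IsCoprime (b.repr v i) (p : ℤ) := by
        rw [isCoprime_comm]
        exact (Nat.prime_iff_prime_int.1 hp).coprime_iff_not_dvd.2 hi
      apply hm ((lam f)⁻¹ ^ s' * m ^ t')
      rw [mul_pow, ← zpow_natCast, ← zpow_natCast, ← zpow_mul, ← zpow_mul, mul_comm s', zpow_mul, zpow_natCast, inv_pow, h3, inv_inv,
        ← zpow_mul, ← zpow_add]
      have h6 : b.repr v i * s' + t' * p = 1 := by rw [← hst]; ring
      rw [h6, zpow_one]

end Cfsg.Agent.S3974
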