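import Cfsg.Statements.S3975
import Mathlib
import Cfsg.Agent.Lib.BBasis
import Cfsg.Agent.Lib.FrobAct2
import Mathlib.GroupTheory.GroupAction.SubMulAction.Combination

set_option autoImplicit false
open Cfsg

open scoped Pointwise
set_option linter.style.haveILetI false
namespace Cfsg.Agent.S3975

open Subgroup MulAction
open scoped Pointwise

theorem mul_mem_stab {G : Type*} [Group G] [DecidableEq G] {n : ℕ} (S : Set.powersetCard G n) :
    ∀ g ∈ stabilizer G S, ∀ s ∈ (S : Finset G), g * s ∈ (S : Finset G) := by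
  intro g hg s hs
  have h1 : g • S = S := hg
  have h2 : g • (S : Finset G) = (S : Finset G) := congrArg Subtype.val h1
  rw [← h2]
  exact Finset.smul_mem_smul_finset hs

theorem stab_dvd {G : Type*} [Group G] [Finite G] [DecidableEq G] {n : ℕ} (S : Set.powersetCard G n) :
    Nat.card (stabilizer G S) ∣ n := by
  letI : MulAction (stabilizer G S) (S : Finset G) :=
    { smul := fun a t => ⟨(a : G) * (t : G), mul_mem_stab S a a.2 t t.2⟩
      one_smul := fun t => Subtype.ext (one_mul _)
      mul_smul := fun a b t => Subtype.ext (mul_assoc _ _ _) }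
  have h := CfsgLib.BBasis.card_dvd_of_free (A := stabilizer G S) (T := (S : Finset G)) (fun a t hat => by
    have h1 : (a : G) * (t : G) = t := congrArg Subtype.val hat
    exact Subtype.ext (mul_eq_right.1 h1))
  rwa [Nat.card_eq_fintype_card (α := (S : Finset G)), Fintype.card_coe, Set.powersetCard.card_eq] at h

noncomputable def SH {G : Type*} [Group G] [Fintype G] [DecidableEq G] {n : ℕ} (H : {H : Subgroup G // Nat.card H = n}) :
    Set.powersetCard G n := by
  classical
  exact ⟨(H.1 : Set G).toFinset, by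
    rw [Set.powersetCard.mem_iff, Set.toFinset_card, ← Nat.card_eq_fintype_card]; exact H.2⟩

theorem mem_SH {G : Type*} [Group G] [Fintype G] [DecidableEq G] {n : ℕ} (H : {H : Subgroup G // Nat.card H = n}) (g : G) :
    g ∈ (SH H : Finset G) ↔ g ∈ H.1 := by
  simp [SH]

theorem smul_SH {G : Type*} [Group G] [Fintype G] [DecidableEq G] {n : ℕ} (H : {H : Subgroup G // Nat.card H = n}) (g x : G) :
    x ∈ (g • SH H : Set.powersetCard G n).1 ↔ g⁻¹ * x ∈ H.1 := by
  rw [Set.powersetCard.coe_smul, Finset.mem_smul_finset]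
  constructor
  · rintro ⟨y, hy, rfl⟩
    rw [smul_eq_mul, inv_mul_cancel_left]
    exact (mem_SH H y).1 hy
  · intro h
    exact ⟨g⁻¹ * x, (mem_SH H _).2 h, by rw [smul_eq_mul, mul_inv_cancel_left]⟩

theorem stab_SH {G : Type*} [Group G] [Fintype G] [DecidableEq G] {n : ℕ} (H : {H : Subgroup G // Nat.card H = n}) :
    stabilizer G (SH H) = H.1 := by
  ext g
  constructor
  · intro hg
    have := mul_mem_stab (SH H) g hg 1 ((mem_SH H 1).2 (one_mem _))
    rw [mul_one] at this
    exact (mem_SH H g).1 this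
  · intro hg
    rw [mem_stabilizer_iff]
    apply Subtype.ext
    ext x
    rw [smul_SH, mem_SH]
    exact ⟨fun h => by simpa using H.1.mul_mem hg h, fun h => H.1.mul_mem (H.1.inv_mem hg) h⟩

theorem hcard {G : Type*} [Group G] [Fintype G] [DecidableEq G] {n : ℕ} (hn0 : n ≠ 0) :
    Nat.card {H : Subgroup G // Nat.card H = n} =
      Nat.card {ω : Quotient (orbitRel G (Set.powersetCard G n)) // Nat.card (stabilizer G ω.out) = n} := by
  have hout : ∀ S : Set.powersetCard G n, Nat.card (stabilizer G (⟦S⟧ : Quotient (orbitRel G (Set.powersetCard G n))).out)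
      = Nat.card (stabilizer G S) := by
    intro S
    refine Nat.card_congr (MulAction.stabilizerEquivStabilizerOfOrbitRel ?_).toEquiv
    exact Quotient.exact (Quotient.out_eq _)
  refine Nat.card_congr (Equiv.ofBijective (fun H => ⟨⟦SH H⟧, by rw [hout, stab_SH, H.2]⟩) ⟨?_, ?_⟩)
  · intro H K hHK
    have h1 : (⟦SH H⟧ : Quotient (orbitRel G (Set.powersetCard G n))) = ⟦SH K⟧ := congrArg Subtype.val hHK
    obtain ⟨g, hg⟩ : ∃ g : G, g • SH K = SH H := Quotient.exact h1
    have h2 : ∀ x, x ∈ H.1 ↔ g⁻¹ * x ∈ K.1 := by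
      intro x
      rw [← mem_SH, ← hg]
      exact smul_SH K g x
    have h3 : g⁻¹ ∈ K.1 := by have := (h2 1).1 (one_mem _); rwa [mul_one] at this
    apply Subtype.ext
    ext x
    rw [h2]
    exact ⟨fun h => by simpa using K.1.mul_mem (K.1.inv_mem h3) h, fun h => K.1.mul_mem h3 h⟩
  · rintro ⟨ω, hω⟩
    obtain ⟨s, hs⟩ : (ω.out : Finset G).Nonempty := by
      rw [← Finset.card_pos, Set.powersetCard.card_eq]; omega
    set T := stabilizer G ω.out with hT
    have hTs : ∀ y, y ∈ (ω.out : Finset G) ↔ y * s⁻¹ ∈ T := by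
      have hsub : (Finset.univ.filter (fun y => y * s⁻¹ ∈ T)) ⊆ (ω.out : Finset G) := by
        intro y hy
        rw [Finset.mem_filter] at hy
        have := mul_mem_stab ω.out _ hy.2 s hs
        rwa [inv_mul_cancel_right] at this
      have hc : (Finset.univ.filter (fun y => y * s⁻¹ ∈ T)).card = n := by
        refine Eq.trans ?_ hω
        rw [Nat.card_eq_fintype_card, Fintype.card_subtype]
        refine Finset.card_bij (fun y _ => y * s⁻¹) ?_ ?_ ?_
        · intro y hy; simpa using hy
        · intro y _ z _ h; exact mul_right_cancel h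
        · intro y hy; exact ⟨y * s, by simpa using hy, by rw [mul_inv_cancel_right]⟩
      have heq := Finset.eq_of_subset_of_card_le hsub (by rw [hc, Set.powersetCard.card_eq])
      intro y
      rw [← heq]; simp
    let K : Subgroup G := T.comap (MulAut.conj s).toMonoidHom
    have hKc : Nat.card K = n := by
      rw [← hω]
      exact Nat.card_congr (Equiv.subtypeEquiv (MulAut.conj s).toEquiv (fun a => Iff.rfl))
    refine ⟨⟨K, hKc⟩, Subtype.ext ?_⟩
    change (⟦SH ⟨K, hKc⟩⟧ : Quotient (orbitRel G (Set.powersetCard G n))) = ω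
    rw [← Quotient.out_eq ω]
    apply Quotient.sound
    refine ⟨s⁻¹, ?_⟩
    apply Subtype.ext
    ext x
    change x ∈ (s⁻¹ • ω.out : Set.powersetCard G n).1 ↔ _
    rw [mem_SH, Set.powersetCard.coe_smul, Finset.mem_smul_finset]
    constructor
    · rintro ⟨y, hy, rfl⟩
      change s * (s⁻¹ * y) * s⁻¹ ∈ T
      rw [mul_inv_cancel_left]
      exact (hTs y).1 hy
    · intro h
      have h' : s * x * s⁻¹ ∈ T := h
      exact ⟨s * x, (hTs _).2 h', by rw [smul_eq_mul, inv_mul_cancel_left]⟩

theorem key {G : Type*} [Group G] [Finite G] (p β : ℕ) (hp : p.Prime) {n r : ℕ} (hn : n = p ^ β) (hr : Nat.card G = n * r) :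
    r * Nat.card {H : Subgroup G // Nat.card H = n} ≡ (Nat.card G).choose n [MOD r * p] := by
  classical
  haveI := Fintype.ofFinite G
  let X := Set.powersetCard G n
  have hX : Nat.card X = (Nat.card G).choose n := Set.powersetCard.card ..
  have hX2 : Nat.card X = ∑ ω : Quotient (orbitRel G X), (stabilizer G ω.out).index := by
    rw [Nat.card_congr (MulAction.selfEquivSigmaOrbitsQuotientStabilizer G X), Nat.card_sigma]
    rfl
  rw [← hX, hX2]
  have hterm : ∀ ω : Quotient (orbitRel G X), (stabilizer G ω.out).index ≡ (if Nat.card (stabilizer G ω.out) = n then r else 0) [MOD r * p] := by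
    intro ω
    obtain ⟨i, hi, hi2⟩ := (Nat.dvd_prime_pow hp).1 (hn ▸ stab_dvd ω.out : Nat.card (stabilizer G ω.out) ∣ p ^ β)
    have h1 := (stabilizer G ω.out).card_mul_index
    have hnpos : 0 < n := hn ▸ pow_pos hp.pos _
    split_ifs with h
    · rw [h, hr] at h1
      rw [Nat.eq_of_mul_eq_mul_left hnpos h1]
    · have hlt : i < β := by
        refine lt_of_le_of_ne hi ?_
        rintro rfl
        exact h (hi2.trans hn.symm)
      rw [hi2, hr] at h1
      have h2 : (stabilizer G ω.out).index = p ^ (β - i) * r := by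
        have : n = p ^ i * p ^ (β - i) := by rw [hn, ← pow_add]; congr 1; omega
        have h3 : p ^ i * (stabilizer G ω.out).index = p ^ i * (p ^ (β - i) * r) := by
          rw [h1, ← mul_assoc, ← this]
        exact Nat.eq_of_mul_eq_mul_left (pow_pos hp.pos _) h3
      rw [h2]
      rw [Nat.modEq_zero_iff_dvd, mul_comm r p]
      exact mul_dvd_mul_right (dvd_pow_self p (by omega)) r
  refine Nat.ModEq.symm (Nat.ModEq.trans (Nat.ModEq.sum (fun ω _ => hterm ω)) ?_)
  rw [Finset.sum_ite, Finset.sum_const_zero, add_zero, Finset.sum_const, smul_eq_mul, mul_comm r (Nat.card _)]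
  rw [hcard (hn ▸ (pow_pos hp.pos _).ne'), Nat.card_eq_fintype_card, Fintype.card_subtype]

theorem main {G : Type*} [Group G] [Finite G] (p β : ℕ) (hp : p.Prime) (hdiv : p ^ β ∣ Nat.card G) :
    Nat.card {H : Subgroup G // Nat.card H = p ^ β} ≡ 1 [MOD p] := by
  obtain ⟨r, hr⟩ := hdiv
  have hr0 : r ≠ 0 := by
    rintro rfl
    rw [mul_zero] at hr
    exact Nat.card_pos.ne' hr
  have h1 := key p β hp rfl hr
  let C := Multiplicative (ZMod (Nat.card G))
  have hCc : Nat.card C = Nat.card G := by
    rw [Nat.card_congr Multiplicative.toAdd, Nat.card_zmod]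
  haveI : Finite C := Nat.finite_of_card_ne_zero (by rw [hCc]; exact Nat.card_pos.ne')
  have h2 := key (G := C) p β hp rfl (hCc.trans hr)
  have h3 : Nat.card {H : Subgroup C // Nat.card H = p ^ β} = 1 := by
    rw [Nat.card_eq_one_iff_unique]
    constructor
    · refine ⟨fun H K => Subtype.ext ?_⟩
      exact CfsgLib.FrobAct.eq_of_isCyclic (pow_pos hp.pos β) H.2 K.2
    · haveI := Fact.mk hp
      obtain ⟨K, hK⟩ := Sylow.exists_subgroup_card_pow_prime (G := C) p (n := β) ⟨r, hCc.trans hr⟩
      exact ⟨⟨K, hK⟩⟩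
  rw [hCc, h3] at h2
  exact Nat.ModEq.mul_left_cancel' hr0 (h1.trans h2.symm)


/-- Let `p` be a prime and `G` a finite group whose order is divisible by `p ^ β`. Then the number of subgroups of `G` of order `p ^ β` is congruent to `1` modulo `p`. (When `p ^ β` is the full power of `p` dividing the order, these are the Sylow `p`-subgroups and this is the usual Sylow count.) -/
theorem result {G : Type*} [Group G] [Finite G] (p β : ℕ) (hp : p.Prime) (hdiv : p ^ β ∣ Nat.card G) : Nat.card {H : Subgroup G // Nat.card H = p ^ β} ≡ 1 [MOD p] := by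
  exact main p β hp hdiv

end Cfsg.Agent.S3975
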