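import Cfsg.Statements.S3976
import Mathlib
import Cfsg.Agent.S3975

set_option autoImplicit false
open Cfsg

set_option linter.style.haveILetI false
namespace Cfsg.Agent.S3976

open Subgroup MulAction


/-- Let `p` be a prime and `G` a group of order `p ^ m`. For every `s ≤ m` the number of normal subgroups of `G` of order `p ^ s` is congruent to `1` modulo `p`. -/
theorem result {G : Type*} [Group G] [Finite G] (p m s : ℕ) (hp : p.Prime) (hG : Nat.card G = p ^ m) (hs : s ≤ m) : Nat.card {H : Subgroup G // H.Normal ∧ Nat.card H = p ^ s} ≡ 1 [MOD p] := by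
  open Subgroup MulAction in
  haveI := Fact.mk hp
  have hGp : IsPGroup p G := IsPGroup.of_card hG
  letI : MulAction G {H : Subgroup G // Nat.card H = p ^ s} :=
    { smul := fun g H => ⟨H.1.map (MulAut.conj g).toMonoidHom, 
        (Nat.card_congr (H.1.equivMapOfInjective (MulAut.conj g).toMonoidHom (MulAut.conj g).injective).symm.toEquiv).trans H.2⟩
      one_smul := fun H => Subtype.ext (CfsgLib.Core.map_conj_one H.1)
      mul_smul := fun a b H => Subtype.ext (CfsgLib.Core.map_conj_mul H.1 a b).symm }
  have h1 := hGp.card_modEq_card_fixedPoints {H : Subgroup G // Nat.card H = p ^ s}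
  have h2 := Cfsg.Agent.S3975.main (G := G) p s hp (hG ▸ pow_dvd_pow p hs)
  have h3 : Nat.card (fixedPoints G {H : Subgroup G // Nat.card H = p ^ s}) = Nat.card {H : Subgroup G // H.Normal ∧ Nat.card H = p ^ s} := by
    refine Nat.card_congr ⟨fun H => ⟨H.1.1, ?_, H.1.2⟩, fun H => ⟨⟨H.1, H.2.2⟩, ?_⟩, fun H => rfl, fun H => rfl⟩
    · rw [← normalizer_eq_top_iff, eq_top_iff]
      intro g _
      rw [← CfsgLib.Core.map_conj_eq_iff]
      exact congrArg Subtype.val (H.2 g)
    · intro g
      apply Subtype.ext
      have : g ∈ normalizer (H.1 : Set G) := by rw [normalizer_eq_top_iff.2 H.2.1]; exact mem_top g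
      exact CfsgLib.Core.map_conj_eq_iff.2 this
  rw [← h3]
  exact h1.symm.trans h2

end Cfsg.Agent.S3976
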