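import Cfsg.Statements.S3977
import Mathlib
import Cfsg.Agent.Lib.H3Misc

set_option autoImplicit false
open Cfsg

set_option linter.style.haveILetI false
namespace Cfsg.Agent.S3977

open Subgroup


/-- Let `p` be a prime and `G` a group of order `p ^ m` which has exactly one subgroup of order `p ^ s`, where `1 ≤ s < m`, and where `s ≥ 2` if `p = 2`. Then `G` is cyclic. (For `p = 2` and `s = 1` the generalized quaternion groups also occur; that case is the classical criterion for a unique involution.) -/
theorem result {G : Type*} [Group G] [Finite G] (p m s : ℕ) (hp : p.Prime) (hG : Nat.card G = p ^ m) (hs : 1 ≤ s) (hsm : s < m) (h2 : p ≠ 2 ∨ 2 ≤ s) (huniq : ∀ H K : Subgroup G, Nat.card H = p ^ s → Nat.card K = p ^ s → H = K) : IsCyclic G := by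
  open Subgroup in
  haveI := Fact.mk hp
  have hGp : IsPGroup p G := IsPGroup.of_card hG
  -- every subgroup of order p^i, i ≤ s, lies in H
  obtain ⟨H, hH⟩ := Sylow.exists_subgroup_card_pow_prime (G := G) p (n := s) (hG ▸ pow_dvd_pow p hsm.le)
  have hle : ∀ K : Subgroup G, ∀ i ≤ s, Nat.card K = p ^ i → K ≤ H := by
    intro K i hi hK
    obtain ⟨L, hL, hKL⟩ := Sylow.exists_subgroup_card_pow_prime_le (G := G) p (n := i) (m := s) (hG ▸ pow_dvd_pow p hsm.le) K hK hi
    rw [huniq H L hH hL]; exact hKL
  obtain ⟨x, hx⟩ : ∃ x, x ∉ H := by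
    by_contra h
    push Not at h
    have : H = ⊤ := eq_top_iff.2 fun x _ => h x
    rw [this, card_top, hG] at hH
    have := Nat.pow_right_injective hp.two_le hH
    omega
  have hxz : H ≤ zpowers x := by
    obtain ⟨k, hk⟩ := (IsPGroup.iff_orderOf.1 hGp) x
    have hsk : s < k := by
      by_contra hlt
      exact hx (hle (zpowers x) k (by omega) (by rw [Nat.card_zpowers, hk]) (mem_zpowers x))
    obtain ⟨L, hL⟩ := Sylow.exists_subgroup_card_pow_prime (G := zpowers x) p (n := s) (by
      rw [Nat.card_zpowers, hk]; exact pow_dvd_pow p hsk.le)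
    have hL' : Nat.card (L.map (zpowers x).subtype) = p ^ s := by rw [CfsgLib.H3Misc.card_map_subtype, hL]
    rw [huniq H _ hH hL']
    exact map_subtype_le L
  have hun : ∀ K L : Subgroup G, Nat.card K = p → Nat.card L = p → K = L := by
    intro K L hK hL
    have hK' := hle K 1 hs (by rw [pow_one]; exact hK)
    have hL' := hle L 1 hs (by rw [pow_one]; exact hL)
    have h1 := CfsgLib.FrobAct.eq_of_isCyclic (X := zpowers x) (H := K.subgroupOf (zpowers x)) (K := L.subgroupOf (zpowers x)) hp.pos
      (by rw [CfsgLib.H3Misc.card_subgroupOf_of_le (hK'.trans hxz), hK])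
      (by rw [CfsgLib.H3Misc.card_subgroupOf_of_le (hL'.trans hxz), hL])
    rw [subgroupOf_inj, inf_eq_left.2 (hK'.trans hxz), inf_eq_left.2 (hL'.trans hxz)] at h1
    exact h1
  rcases CfsgLib.Quat.unique_subgroup p hGp hun with h | ⟨rfl, n, ⟨e⟩⟩
  · exact h
  · exfalso
    have hs2 : 2 ≤ s := by
      rcases h2 with h | h
      · exact absurd rfl h
      · exact h
    have hxa : ∀ i, e.symm (QuaternionGroup.xa i) ∈ H := by
      intro i
      refine hle (zpowers (e.symm (QuaternionGroup.xa i))) 2 hs2 ?_ (mem_zpowers _)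
      haveI : NeZero (2 ^ n) := ⟨(pow_pos (by norm_num) _).ne'⟩
      rw [Nat.card_zpowers, MulEquiv.orderOf_eq, QuaternionGroup.orderOf_xa]; rfl
    apply hx
    have : ∀ y, e.symm y ∈ H := by
      intro y
      rcases y with i | i
      · have h1 := H.mul_mem (hxa 0) (hxa (i - 2 ^ n))
        rw [← map_mul, QuaternionGroup.xa_mul_xa] at h1
        have h2 : ((2 ^ n : ℕ) : ZMod (2 * 2 ^ n)) + (i - 2 ^ n) - 0 = i := by push_cast; ring
        rw [h2] at h1
        exact h1
      · exact hxa i
    have h3 := this (e x)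
    rwa [MulEquiv.symm_apply_apply] at h3

end Cfsg.Agent.S3977
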