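import Cfsg.Statements.S3979
import Mathlib

set_option autoImplicit false
open Cfsg

namespace Cfsg.Agent.S3979

/-- A finite cyclic group has trivial Schur multiplier: every finite stem extension of it is an isomorphism, said through `HasCyclicSchurMultiplier G 1`. -/
theorem result {G : Type*} [Group G] [Finite G] [IsCyclic G] : Cfsg.HasCyclicSchurMultiplier G 1 := by
  constructor
  · refine ⟨G, inferInstance, inferInstance, MonoidHom.id G, ⟨fun x => ⟨x, rfl⟩, ?_, ?_⟩, ⟨?_⟩⟩
    · intro x hx
      rw [MonoidHom.mem_ker] at hx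
      have : x = 1 := hx
      rw [this]; exact one_mem _
    · intro x hx
      rw [MonoidHom.mem_ker] at hx
      have : x = 1 := hx
      rw [this]; exact one_mem _
    · have h1 : Unique (MonoidHom.id G).ker := ⟨⟨1⟩, fun x => Subtype.ext (MonoidHom.mem_ker.1 x.2)⟩
      have h2 : Unique (Multiplicative (ZMod 1)) := ⟨⟨1⟩, fun x => Subsingleton.elim (α := ZMod 1) _ _⟩
      exact MulEquiv.ofUnique
  · intro Γ _ _ σ ⟨h1, h2, h3⟩
    have hc : ∀ a b : Γ, a * b = b * a := commutative_of_cyclic_center_quotient σ h2
    refine ⟨1, ?_⟩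
    intro x
    refine ⟨1, ?_⟩
    have h4 : commutator Γ = ⊥ := by
      rw [eq_bot_iff, commutator_def, Subgroup.commutator_le]
      intro a _ b _
      rw [Subgroup.mem_bot, commutatorElement_eq_one_iff_mul_comm]
      exact hc a b
    apply Subtype.ext
    have h5 := h3 x.2
    rw [h4, Subgroup.mem_bot] at h5
    rw [h5]; rfl

end Cfsg.Agent.S3979
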