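import Cfsg.Statements.S3980
import Mathlib
import Cfsg.Agent.Lib.Schur4
import Cfsg.Agent.S3959

set_option autoImplicit false
universe u v w
open Cfsg

open scoped Pointwise
namespace Cfsg.Agent.S3980

/-- Let `Q₁` and `Q₂` be finite groups whose commutator quotients have coprime orders, with Schur multipliers `A` and `B`. Then the Schur multiplier of `Q₁ × Q₂` is isomorphic to `A × B`. -/
theorem result {Q₁ : Type u} {Q₂ : Type v} [Group Q₁] [Group Q₂] [Finite Q₁] [Finite Q₂] {A B : Type w} [CommGroup A] [CommGroup B] (hA : Cfsg.HasSchurMultiplier Q₁ A) (hB : Cfsg.HasSchurMultiplier Q₂ B) (hcop : Nat.Coprime (Nat.card (Abelianization Q₁)) (Nat.card (Abelianization Q₂))) : Cfsg.HasSchurMultiplier (Q₁ × Q₂) (A × B) := by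
  open CfsgLib.Schur in
    have h := Cfsg.Agent.S3959.result hA hB
    have hT : Subsingleton (TensorProduct ℤ (Additive (Abelianization Q₁)) (Additive (Abelianization Q₂))) := by
      refine ⟨fun s t => ?_⟩
      have key : ∀ t : TensorProduct ℤ (Additive (Abelianization Q₁)) (Additive (Abelianization Q₂)), t = 0 := by
        intro t
        induction t using TensorProduct.induction_on with
        | zero => rfl
        | tmul a b =>
          have h1 : Nat.card (Additive (Abelianization Q₁)) • TensorProduct.tmul ℤ a b = 0 := by
            have h := TensorProduct.smul_tmul' (Nat.card (Additive (Abelianization Q₁))) a b (R := ℤ)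
            rw [card_nsmul_eq_zero', TensorProduct.zero_tmul] at h
            exact h
          have h2 : Nat.card (Additive (Abelianization Q₂)) • TensorProduct.tmul ℤ a b = 0 := by
            have h := TensorProduct.tmul_smul (Nat.card (Additive (Abelianization Q₂))) a b (R := ℤ)
            rw [card_nsmul_eq_zero', TensorProduct.tmul_zero] at h
            exact h.symm
          have h3 := addOrderOf_dvd_of_nsmul_eq_zero h1
          have h4 := addOrderOf_dvd_of_nsmul_eq_zero h2
          have h5 := Nat.eq_one_of_dvd_coprimes hcop h3 h4
          rwa [AddMonoid.addOrderOf_eq_one_iff] at h5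
        | add a b ha hb => rw [ha, hb, add_zero]
      rw [key s, key t]
    refine hasSchurMultiplier_congr (MulEquiv.prodCongr (MulEquiv.refl A) ?_) h
    exact
      { toFun := fun x => x.1
        invFun := fun b => (b, 1)
        left_inv := fun x => Prod.ext rfl (hT.elim _ _)
        right_inv := fun x => rfl
        map_mul' := fun x y => rfl }

end Cfsg.Agent.S3980
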