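import Cfsg.Statements.S3994
import Mathlib
import Cfsg.Agent.Lib.H3Frob

set_option autoImplicit false
open Cfsg

namespace Cfsg.Agent.S3994

open Subgroup CfsgLib.H3Frob in
theorem aux {G : Type*} [Group G] [Finite G] (n : ℕ) (hn : 0 < n) {p : ℕ} (hp : p.Prime) (hpn : ¬ p ∣ n) :
    p ^ (Nat.card G).factorization p ∣ Nat.card {g : G // n ∣ orderOf g} := by
  obtain ⟨e, f, h⟩ := exists_ex_prime G hp
  set a := p ^ (Nat.card G).factorization p with ha
  set b := Nat.card G / a with hb
  have h1 : Nat.card {g : G // n ∣ orderOf g} = Nat.card {x : G // True ∧ n ∣ orderOf (x ^ f)} := by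
    refine Nat.card_congr (Equiv.subtypeEquivRight fun x => ?_)
    rw [true_and]
    have h2 : orderOf (x ^ f) ∣ orderOf x := orderOf_pow_dvd f
    refine ⟨fun hx => ?_, fun hx => hx.trans h2⟩
    have h3 : orderOf x = orderOf (x ^ e) * orderOf (x ^ f) := by
      have h4 : Commute (x ^ e) (x ^ f) := (Commute.refl x).pow_pow e f
      have h5 := h4.orderOf_mul_eq_mul_orderOf_of_coprime (Nat.Coprime.of_dvd (orderOf_dvd_of_pow_eq_one (h.pow_e x))
        (orderOf_dvd_of_pow_eq_one (h.pow_f x)) h.cop)
      rwa [h.mul_ef] at h5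
    rw [h3] at hx
    refine Nat.Coprime.dvd_of_dvd_mul_left ?_ hx
    refine Nat.Coprime.coprime_dvd_right (orderOf_dvd_of_pow_eq_one (h.pow_e x)) ?_
    exact (Nat.Coprime.pow_left _ ((Nat.Prime.coprime_iff_not_dvd hp).2 hpn)).symm
  rw [h1]
  refine dvd_card_split h (fun _ => True) (fun y => n ∣ orderOf y) (fun _ _ _ => trivial) ?_ _ ?_
  · intro g y hy
    have : orderOf (g * y * g⁻¹) = orderOf y := by
      exact orderOf_injective (MulAut.conj g).toMonoidHom (MulAut.conj g).injective y
    rwa [this]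
  · intro y hy1 hy2
    have h2 : Nat.card {u : G // u * y = y * u ∧ u ^ a = 1 ∧ True} = Nat.card {v : centralizer ({y} : Set G) // ∃ k, v ^ p ^ k = 1} := by
      refine Nat.card_congr ⟨fun u => ⟨⟨u.1, mem_centralizer_singleton_iff.2 u.2.1⟩, (Nat.card G).factorization p, Subtype.ext u.2.2.1⟩,
        fun v => ⟨v.1.1, mem_centralizer_singleton_iff.1 v.1.2, ?_, trivial⟩, fun _ => rfl, fun _ => rfl⟩
      rw [ha, ← pelt_iff hp]
      obtain ⟨k, hk⟩ := v.2
      exact ⟨k, congrArg Subtype.val hk⟩
    rw [h2]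
    have h3 := dvd_card_pElements (G := centralizer ({y} : Set G)) hp
    have h4 : a = p ^ ((centralizer ({y} : Set G)).index.factorization p) * p ^ ((Nat.card (centralizer ({y} : Set G))).factorization p) := by
      rw [ha, ← pow_add, ← Finsupp.add_apply, ← Nat.factorization_mul index_ne_zero_of_finite Nat.card_pos.ne', index_mul_card]
    rw [h4]
    exact mul_dvd_mul (Nat.ordProj_dvd _ _) h3


/-- Let G be a finite group and n a positive integer. The number of elements of G whose order is divisible by n is either 0 or divisible by the largest divisor of the order of G that is coprime to n. -/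
theorem result {G : Type*} [Group G] [Finite G] (n : ℕ) (hn : 0 < n) :
    Nat.card {g : G // n ∣ orderOf g} = 0 ∨
      (Nat.card G / Nat.gcd (Nat.card G) (n ^ Nat.card G)) ∣ Nat.card {g : G // n ∣ orderOf g} := by
  right
  rw [Nat.dvd_iff_prime_pow_dvd_dvd]
  intro p k hp hk
  have hG : 0 < Nat.card G := Nat.card_pos
  have hg : Nat.gcd (Nat.card G) (n ^ Nat.card G) ∣ Nat.card G := Nat.gcd_dvd_left _ _
  rcases Nat.eq_zero_or_pos k with rfl | hk0
  · simp
  by_cases hpn : p ∣ n
  · exfalso
    have hpd : p ∣ Nat.card G / Nat.gcd (Nat.card G) (n ^ Nat.card G) := (dvd_pow_self p hk0.ne').trans hk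
    set v := (Nat.card G).factorization p with hv
    have h1 : p ^ v ∣ Nat.gcd (Nat.card G) (n ^ Nat.card G) := by
      refine Nat.dvd_gcd (Nat.ordProj_dvd _ _) ?_
      have h2 : v ≤ Nat.card G := by
        rw [hv]
        exact (Nat.factorization_lt p hG.ne').le
      exact (pow_dvd_pow p h2).trans (pow_dvd_pow_of_dvd hpn _)
    have h3 : p ^ (v + 1) ∣ Nat.card G := by
      rw [pow_succ]
      have h4 := mul_dvd_mul h1 hpd
      rwa [Nat.mul_div_cancel' hg] at h4
    have h5 := (hp.pow_dvd_iff_le_factorization hG.ne').1 h3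
    omega
  · have h1 : p ^ k ∣ Nat.card G := hk.trans (Nat.div_dvd_of_dvd hg)
    exact (pow_dvd_pow p ((hp.pow_dvd_iff_le_factorization hG.ne').1 h1)).trans (aux n hn hp hpn)

end Cfsg.Agent.S3994
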