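import Cfsg.Statements.S4005
import Mathlib
import Cfsg.Agent.Lib.H3Misc
import Cfsg.Agent.Lib.FrobAct2
import Cfsg.Agent.Lib.Transfer
import Cfsg.Agent.Lib.CharBasic3
import Cfsg.Agent.Lib.SZ

set_option autoImplicit false
open Cfsg

set_option linter.style.haveILetI false
namespace Cfsg.Agent.S4005

open Subgroup CfsgLib.FrobAct

variable {G : Type*} [Group G] [Finite G]

theorem card_two_three (h : ∀ x : G, orderOf x = 1 ∨ orderOf x = 2 ∨ orderOf x = 3) :
    Nat.card G = 2 ^ (Nat.card G).factorization 2 * 3 ^ (Nat.card G).factorization 3 := by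
  refine Nat.eq_of_factorization_eq Nat.card_pos.ne' (mul_ne_zero (by positivity) (by positivity)) ?_
  intro q
  rw [Nat.factorization_mul (by positivity) (by positivity), Nat.prime_two.factorization_pow, Nat.prime_three.factorization_pow]
  by_cases h2 : q = 2
  · subst h2; simp
  by_cases h3 : q = 3
  · subst h3; simp
  rw [Finsupp.add_apply, Finsupp.single_eq_of_ne h2, Finsupp.single_eq_of_ne h3]
  by_contra hne
  have hqm := Nat.mem_primeFactors.1 (Nat.support_factorization (Nat.card G) ▸ Finsupp.mem_support_iff.2 hne)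
  haveI := Fact.mk hqm.1
  obtain ⟨x, hx⟩ := exists_prime_orderOf_dvd_card' q hqm.2.1
  have := h x
  have := hqm.1.one_lt
  omega

theorem no_comm (h : ∀ x : G, orderOf x = 1 ∨ orderOf x = 2 ∨ orderOf x = 3) {x y : G} (hx : orderOf x = 2)
    (hy : orderOf y = 3) (hc : x * y = y * x) : False := by
  have h1 := Commute.orderOf_mul_eq_mul_orderOf_of_coprime (x := x) (y := y) hc (by rw [hx, hy]; decide)
  rw [hx, hy] at h1
  have := h (x * y)
  omega

theorem order_of_pow (h : ∀ x : G, orderOf x = 1 ∨ orderOf x = 2 ∨ orderOf x = 3) {p : ℕ} (hp : p = 2 ∨ p = 3) {x : G}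
    (hx1 : x ≠ 1) (k : ℕ) (hk : orderOf x = p ^ k) : orderOf x = p := by
  have h1 : orderOf x ≠ 1 := fun h => hx1 (orderOf_eq_one_iff.1 h)
  have hpp : p.Prime := by rcases hp with rfl | rfl <;> norm_num
  have hk0 : k ≠ 0 := by rintro rfl; exact h1 hk
  have hd : p ∣ orderOf x := hk ▸ dvd_pow_self p hk0
  rcases h x with h2 | h2 | h2
  · exact absurd h2 h1
  · rw [h2] at hd ⊢
    exact ((Nat.prime_dvd_prime_iff_eq hpp Nat.prime_two).1 hd).symm
  · rw [h2] at hd ⊢
    exact ((Nat.prime_dvd_prime_iff_eq hpp Nat.prime_three).1 hd).symm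

theorem main (hne : ∃ x : G, orderOf x = 2) (hne3 : ∃ x : G, orderOf x = 3)
    (h : ∀ x : G, orderOf x = 1 ∨ orderOf x = 2 ∨ orderOf x = 3) :
    (∃ N : Subgroup G, N.Normal ∧ (IsMulCommutative N ∧ ∀ a ∈ N, a ^ 3 = 1) ∧ N.index = 2) ∨
      (∃ N : Subgroup G, N.Normal ∧ (IsMulCommutative N ∧ ∀ a ∈ N, a ^ 2 = 1) ∧ N.index = 3) := by
  haveI : Fact (Nat.Prime 2) := ⟨Nat.prime_two⟩
  haveI : Fact (Nat.Prime 3) := ⟨Nat.prime_three⟩
  obtain ⟨x2, hx2⟩ := hne
  obtain ⟨x3, hx3⟩ := hne3
  have hG := card_two_three h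
  have hs : Group.IsSolvable G := CfsgLib.CharBasic.burnside_pq _ G 2 3 _ _ Nat.prime_two Nat.prime_three hG rfl
  have htop : (⊤ : Subgroup G) ≠ ⊥ := by
    intro h
    have : x2 ∈ (⊥ : Subgroup G) := h ▸ mem_top x2
    rw [mem_bot.1 this, orderOf_one] at hx2
    omega
  obtain ⟨V, hV, -, hVb, -, hVc, p, hp, hVp⟩ := CfsgLib.SZ.exists_minimal_normal_le (⊤ : Subgroup G)
    (by infer_instance) htop
  obtain ⟨v, hv, hv1⟩ := (bot_or_exists_ne_one V).resolve_left hVb
  have hvp : orderOf v = p := by
    haveI := Fact.mk hp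
    exact orderOf_eq_prime (hVp v hv) hv1
  have hp23 : p = 2 ∨ p = 3 := by
    rcases h v with h1 | h1 | h1
    · exact absurd (orderOf_eq_one_iff.1 h1) hv1
    · left; omega
    · right; omega
  rcases hp23 with rfl | rfl
  · right
    let R : Sylow 3 G := default
    let T : Sylow 2 G := default
    have hfpf : Fpf (R : Subgroup G) V := by
      refine Fpf.of_forall (normalizer_eq_top (H := V) ▸ le_top) ?_
      intro a ha ha1 v hv hav
      by_contra hv1
      obtain ⟨k, hk⟩ := (IsPGroup.iff_orderOf.1 R.2) ⟨a, ha⟩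
      rw [Subgroup.orderOf_mk] at hk
      have ha3 := order_of_pow h (Or.inr rfl) ha1 k hk
      have hv2 : orderOf v = 2 := orderOf_eq_prime (hVp v hv) hv1
      exact no_comm h hv2 ha3 hav.symm
    have hRc : IsCyclic (R : Subgroup G) := by
      rcases hfpf.cyclic_or_quaternion hVb R.2 with h | h
      · exact h
      · omega
    obtain ⟨r, hr⟩ := IsCyclic.exists_generator (α := (R : Subgroup G))
    have hRcard : Nat.card R ∣ 3 := by
      rw [← orderOf_eq_card_of_forall_mem_zpowers hr]
      obtain ⟨k, hk⟩ := (IsPGroup.iff_orderOf.1 R.2) r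
      by_cases hr1 : r = 1
      · rw [hr1, orderOf_one]; exact one_dvd _
      · have := order_of_pow h (Or.inr rfl) (x := (r : G)) (fun h => hr1 (Subtype.ext h)) k (by rw [Subgroup.orderOf_coe]; exact hk)
        rw [Subgroup.orderOf_coe] at this
        rw [this]
    have hTsq : ∀ x : (T : Subgroup G), x * x = 1 := by
      intro x
      obtain ⟨k, hk⟩ := (IsPGroup.iff_orderOf.1 T.2) x
      by_cases hr1 : x = 1
      · rw [hr1, mul_one]
      · have := order_of_pow h (Or.inl rfl) (x := (x : G)) (fun h => hr1 (Subtype.ext h)) k (by rw [Subgroup.orderOf_coe]; exact hk)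
        rw [Subgroup.orderOf_coe] at this
        rw [← pow_two]; exact orderOf_dvd_iff_pow_eq_one.1 this.dvd
    have hVT : V ≤ T := by
      have hVp2 : IsPGroup 2 V := fun x => ⟨1, Subtype.ext (by simpa using hVp x x.2)⟩
      exact (CfsgLib.Core.le_pCore hV hVp2).trans (CfsgLib.Core.pCore_le_sylow T)
    have hTC : (T : Subgroup G) ≤ centralizer (V : Set G) := by
      intro t ht
      rw [mem_centralizer_iff]
      intro w hw
      exact congrArg Subtype.val (CfsgLib.H3Misc.comm_of_sq hTsq ⟨w, hVT hw⟩ ⟨t, ht⟩)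
    have hCsq : ∀ x : centralizer (V : Set G), x * x = 1 := by
      intro x
      rcases h x with h1 | h1 | h1
      · rw [orderOf_eq_one_iff] at h1
        have : x = 1 := Subtype.ext h1
        rw [this, mul_one]
      · exact Subtype.ext (by rw [coe_mul, ← pow_two, ← h1, pow_orderOf_eq_one]; rfl)
      · exfalso
        exact no_comm h hvp h1 (mem_centralizer_iff.1 x.2 v hv)
    refine ⟨centralizer (V : Set G), inferInstance, ⟨⟨⟨CfsgLib.H3Misc.comm_of_sq hCsq⟩⟩, fun a ha => ?_⟩, ?_⟩
    · rw [pow_two]; exact congrArg Subtype.val (hCsq ⟨a, ha⟩)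
    · have hd1 : (centralizer (V : Set G)).index ∣ (T : Subgroup G).index := index_dvd_of_le hTC
      have hcop : ¬ 2 ∣ (T : Subgroup G).index := T.not_dvd_index
      have hcop' : Nat.Coprime (centralizer (V : Set G)).index (2 ^ (Nat.card G).factorization 2) :=
        Nat.Coprime.pow_right _ ((Nat.Prime.coprime_iff_not_dvd Nat.prime_two).2 (fun hd => hcop (hd.trans hd1))).symm
      have hd2 : (centralizer (V : Set G)).index ∣ 3 ^ (Nat.card G).factorization 3 := by
        refine hcop'.dvd_of_dvd_mul_left ?_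
        rw [← hG]; exact index_dvd_card _
      rw [← R.card_eq_multiplicity] at hd2
      rcases (Nat.dvd_prime Nat.prime_three).1 (hd2.trans hRcard) with h1 | h1
      · exfalso
        rw [index_eq_one] at h1
        have := hCsq ⟨x3, h1 ▸ mem_top x3⟩
        have h2 : x3 ^ 2 = 1 := by rw [pow_two]; exact congrArg Subtype.val this
        have := orderOf_dvd_of_pow_eq_one h2
        rw [hx3] at this
        omega
      · exact h1
  · left
    let S : Sylow 2 G := default
    have hSo : ∀ s ∈ (S : Subgroup G), s ≠ 1 → orderOf s = 2 := by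
      intro a ha ha1
      obtain ⟨k, hk⟩ := (IsPGroup.iff_orderOf.1 S.2) ⟨a, ha⟩
      rw [Subgroup.orderOf_mk] at hk
      exact order_of_pow h (Or.inl rfl) ha1 k hk
    have hfpf : ∀ W : Subgroup G, W.Normal → (∀ w ∈ W, w ≠ 1 → orderOf w = 3) → Fpf (S : Subgroup G) W := by
      intro W hW hW3
      refine Fpf.of_forall (normalizer_eq_top (H := W) ▸ le_top) ?_
      intro a ha ha1 v hv hav
      by_contra hv1
      exact no_comm h (hSo a ha ha1) (hW3 v hv hv1) hav
    have hV3 : ∀ w ∈ V, w ≠ 1 → orderOf w = 3 := fun w hw hw1 => orderOf_eq_prime (hVp w hw) hw1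
    have hfV := hfpf V hV hV3
    have hSne : (S : Subgroup G) ≠ ⊥ := by
      intro hb
      have h1 : 2 ∣ Nat.card G := hx2 ▸ orderOf_dvd_natCard x2
      have h2 := S.dvd_card_of_dvd_card h1
      rw [hb, card_bot] at h2
      omega
    obtain ⟨s, hs, hs1⟩ := (bot_or_exists_ne_one (S : Subgroup G)).resolve_left hSne
    have hs2 := hSo s hs hs1
    have hSz : (S : Subgroup G) = zpowers s := by
      apply le_antisymm
      · intro t ht
        by_cases ht1 : t = 1
        · rw [ht1]; exact one_mem _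
        · rw [hfV.involution_unique hVb hs hs2 ht (hSo t ht ht1)]; exact mem_zpowers s
      · exact zpowers_le.2 hs
    have hScard : Nat.card S = 2 := by
      have : Nat.card (S : Subgroup G) = 2 := by rw [hSz, Nat.card_zpowers, hs2]
      exact this
    have hnpc : CfsgLib.NPC.NPC 2 G := by
      apply CfsgLib.Transfer.npc_of_normalizer_le S
      intro g hg
      rw [mem_centralizer_iff]
      intro t ht
      have ht : t ∈ (S : Subgroup G) := ht
      by_cases ht1 : t = 1
      · rw [ht1, one_mul, mul_one]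
      · have h1 := (mem_normalizer_iff.1 hg t).1 ht
        have h2 : g * t * g⁻¹ ≠ 1 := fun h => ht1 (by simpa using h)
        have h3 := hfV.involution_unique hVb ht (hSo t ht ht1) h1 (hSo _ h1 h2)
        rw [mul_inv_eq_iff_eq_mul] at h3
        exact h3.symm
    obtain ⟨N, hN, hNc, k, hk⟩ := hnpc
    have hNi : N.index = 2 := by
      have h1 := CfsgLib.NPC.card_sylow_of_coprime_index hNc hk S
      rw [hk, ← h1, hScard]
    have hN3 : ∀ w ∈ N, w ≠ 1 → orderOf w = 3 := by
      intro w hw hw1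
      rcases h w with h1 | h1 | h1
      · exact absurd (orderOf_eq_one_iff.1 h1) hw1
      · exfalso
        have : 2 ∣ Nat.card N := by
          have := orderOf_dvd_natCard (⟨w, hw⟩ : N)
          rwa [Subgroup.orderOf_mk, h1] at this
        exact absurd (Nat.dvd_one.1 (hNc ▸ Nat.dvd_gcd this dvd_rfl)) (by norm_num)
      · exact h1
    refine ⟨N, hN, ⟨((hfpf N hN hN3).inverts hs hs2).2, fun a ha => ?_⟩, hNi⟩
    by_cases ha1 : a = 1
    · rw [ha1, one_pow]
    · rw [← hN3 a ha ha1, pow_orderOf_eq_one]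


/-- A finite group whose set of element orders is exactly {1, 2, 3} has either a normal elementary abelian 3-subgroup of index 2 or a normal elementary abelian 2-subgroup of index 3. -/
theorem result {G : Type*} [Group G] [Finite G] (h : Set.range (orderOf : G → ℕ) = {k : ℕ | 1 ≤ k ∧ k ≤ 3}) :
    (∃ N : Subgroup G, N.Normal ∧ Cfsg.IsElementaryAbelian 3 N ∧ N.index = 2) ∨
      (∃ N : Subgroup G, N.Normal ∧ Cfsg.IsElementaryAbelian 2 N ∧ N.index = 3) := by
  have h1 : ∀ x : G, orderOf x = 1 ∨ orderOf x = 2 ∨ orderOf x = 3 := by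
    intro x
    have : orderOf x ∈ Set.range (orderOf : G → ℕ) := ⟨x, rfl⟩
    rw [h] at this
    obtain ⟨h1, h2⟩ := this
    omega
  have h2 : ∃ x : G, orderOf x = 2 := by
    have : 2 ∈ Set.range (orderOf : G → ℕ) := by rw [h]; exact ⟨by norm_num, by norm_num⟩
    exact this
  have h3 : ∃ x : G, orderOf x = 3 := by
    have : 3 ∈ Set.range (orderOf : G → ℕ) := by rw [h]; exact ⟨by norm_num, by norm_num⟩
    exact this
  exact main h2 h3 h1

end Cfsg.Agent.S4005
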