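import Cfsg.Statements.S4200
import Mathlib
import Cfsg.Agent.Lib.Core2
import Cfsg.Agent.Lib.H7Basic

set_option autoImplicit false
open Cfsg

namespace Cfsg.Agent.S4200

open Subgroup in
theorem comm_card {G : Type*} [Group G] [Finite G] : Nat.card (ConjClasses G) * Nat.card G = ∑ᶠ x : G, Nat.card (centralizer ({x} : Set G)) := by
  classical
  have : Fintype G := Fintype.ofFinite G
  rw [← card_comm_eq_card_conjClasses_mul_card, finsum_eq_sum_of_fintype]
  have e : {p : G × G // Commute p.1 p.2} ≃ Σ x : G, centralizer ({x} : Set G) :=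
    { toFun := fun z => ⟨z.1.1, ⟨z.1.2, mem_centralizer_singleton_iff.2 z.2.symm.eq⟩⟩
      invFun := fun z => ⟨(z.1, z.2), (mem_centralizer_singleton_iff.1 z.2.2).symm⟩
      left_inv := fun z => rfl
      right_inv := fun z => rfl }
  rw [Nat.card_congr e, Nat.card_sigma]


/-- Let Y be a subgroup of the finite group X, of index m. Then the numbers of conjugacy classes satisfy k(Y) ≤ m·k(X) and k(X) ≤ m·k(Y), and the second inequality is strict unless Y is normal in X. -/
theorem result {X : Type*} [Group X] [Finite X] (Y : Subgroup X) : Nat.card (ConjClasses Y) ≤ Y.index * Nat.card (ConjClasses X) ∧ Nat.card (ConjClasses X) ≤ Y.index * Nat.card (ConjClasses Y) ∧ (¬ Y.Normal → Nat.card (ConjClasses X) < Y.index * Nat.card (ConjClasses Y)) := by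
  open Subgroup CfsgLib.Core2 CfsgLib.H7Basic in
  classical
  have : Fintype X := Fintype.ofFinite X
  have : Fintype Y := Fintype.ofFinite Y
  have hX := comm_card (G := X)
  have hY := comm_card (G := Y)
  rw [finsum_eq_sum_of_fintype] at hX hY
  have hXY : Nat.card Y * Y.index = Nat.card X := Subgroup.card_mul_index Y
  have hYpos : 0 < Nat.card Y := Nat.card_pos
  have hXpos : 0 < Nat.card X := Nat.card_pos
  have hipos : 0 < Y.index := Nat.pos_of_ne_zero Subgroup.index_ne_zero_of_finite
  have h1 : ∀ y : Y, Nat.card (centralizer ({y} : Set Y)) = Nat.card (Y ⊓ centralizer ({(y : X)} : Set X) : Subgroup X) := by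
    intro y
    have h2 : (centralizer ({y} : Set Y)) = (centralizer ({(y : X)} : Set X)).subgroupOf Y := by
      ext z
      rw [mem_subgroupOf, mem_centralizer_singleton_iff, mem_centralizer_singleton_iff, Subtype.ext_iff]; rfl
    rw [h2, inf_comm, ← subgroupOf_map_subtype]
    exact (Nat.card_congr (equivMapOfInjective _ _ Y.subtype_injective).toEquiv)
  have h2 : ∀ x : X, Nat.card (centralizer ({x} : Set X)) ≤ Y.index * Nat.card (Y ⊓ centralizer ({x} : Set X) : Subgroup X) := by
    intro x
    rw [← card_inf_mul_relIndex Y (centralizer ({x} : Set X)), mul_comm]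
    exact Nat.mul_le_mul_right _ (relIndex_le_index _ _)
  have h3 : ∑ x : X, Nat.card (Y ⊓ centralizer ({x} : Set X) : Subgroup X) = ∑ y : Y, Nat.card (centralizer ({(y : X)} : Set X)) := by
    rw [← Nat.card_sigma, ← Nat.card_sigma]
    apply Nat.card_congr
    exact
      { toFun := fun z => ⟨⟨z.2, z.2.2.1⟩, ⟨z.1, mem_centralizer_singleton_iff.2 (mem_centralizer_singleton_iff.1 z.2.2.2).symm⟩⟩
        invFun := fun z => ⟨z.2, ⟨z.1, mem_inf.2 ⟨z.1.2, mem_centralizer_singleton_iff.2 (mem_centralizer_singleton_iff.1 z.2.2).symm⟩⟩⟩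
        left_inv := fun z => rfl
        right_inv := fun z => rfl }
  have h4 : ∑ x : X, Nat.card (centralizer ({x} : Set X)) ≤ Y.index * ∑ y : Y, Nat.card (centralizer ({(y : X)} : Set X)) := by
    rw [← h3, Finset.mul_sum]
    exact Finset.sum_le_sum (fun x _ => h2 x)
  have h5 : ∑ y : Y, Nat.card (centralizer ({(y : X)} : Set X)) ≤ Y.index * ∑ y : Y, Nat.card (centralizer ({y} : Set Y)) := by
    rw [Finset.mul_sum]
    exact Finset.sum_le_sum (fun y _ => by rw [h1]; exact h2 y)
  refine ⟨?_, ?_, ?_⟩
  · have h6 : Nat.card (ConjClasses Y) * Nat.card Y ≤ Nat.card (ConjClasses X) * Nat.card X := by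
      rw [hX, hY]
      calc ∑ y : Y, Nat.card (centralizer ({y} : Set Y)) ≤ ∑ y : Y, Nat.card (centralizer ({(y : X)} : Set X)) :=
            Finset.sum_le_sum (fun y _ => by rw [h1]; exact card_le_of_le inf_le_right)
        _ = ∑ x : X, Nat.card (Y ⊓ centralizer ({x} : Set X) : Subgroup X) := h3.symm
        _ ≤ _ := Finset.sum_le_sum (fun x _ => card_le_of_le inf_le_right)
    rw [← hXY] at h6
    have : Nat.card (ConjClasses X) * (Nat.card Y * Y.index) = (Y.index * Nat.card (ConjClasses X)) * Nat.card Y := by ring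
    rw [this] at h6
    exact Nat.le_of_mul_le_mul_right h6 hYpos
  · have h6 : Nat.card (ConjClasses X) * Nat.card X ≤ (Y.index * Nat.card (ConjClasses Y)) * Nat.card X := by
      rw [hX]
      calc _ ≤ _ := h4
        _ ≤ _ := Nat.mul_le_mul_left _ h5
        _ = _ := by rw [← hY, ← hXY]; ring
    exact Nat.le_of_mul_le_mul_right h6 hXpos
  · intro hn
    have h5' : ∑ y : Y, Nat.card (centralizer ({(y : X)} : Set X)) < Y.index * ∑ y : Y, Nat.card (centralizer ({y} : Set Y)) := by
      rw [Finset.mul_sum]
      apply Finset.sum_lt_sum (fun y _ => by rw [h1]; exact h2 y)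
      by_contra hcon
      push Not at hcon
      apply hn
      constructor
      intro y hy g
      have h6 := hcon ⟨y, hy⟩ (Finset.mem_univ _)
      rw [h1] at h6
      have h7 : ((centralizer ({y} : Set X))).index ≤ ((centralizer ({y} : Set X))).relIndex Y := by
        have h8 := card_inf_mul_relIndex (centralizer ({y} : Set X)) Y
        have h9 := card_mul_index (centralizer ({y} : Set X))
        rw [inf_comm] at h8
        change Y.index * Nat.card (Y ⊓ centralizer ({y} : Set X) : Subgroup X) ≤ Nat.card (centralizer ({y} : Set X)) at h6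
        have hp : 0 < Nat.card (Y ⊓ centralizer ({y} : Set X) : Subgroup X) := Nat.card_pos
        have h10 : (Y.index * Nat.card (Y ⊓ centralizer ({y} : Set X) : Subgroup X)) * (centralizer ({y} : Set X)).index ≤ Nat.card X := by
          rw [← h9]; exact Nat.mul_le_mul_right _ h6
        rw [← hXY, ← h8] at h10
        have h11 : (Y.index * Nat.card (Y ⊓ centralizer ({y} : Set X) : Subgroup X)) * (centralizer ({y} : Set X)).index ≤ (Y.index * Nat.card (Y ⊓ centralizer ({y} : Set X) : Subgroup X)) * (centralizer ({y} : Set X)).relIndex Y := by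
          calc _ ≤ _ := h10
            _ = _ := by ring
        exact Nat.le_of_mul_le_mul_left h11 (Nat.mul_pos hipos hp)
      have h8 := ncard_conj_orbit Y y
      have h9 := ncard_conj_orbit (⊤ : Subgroup X) y
      rw [relIndex_top_right] at h9
      have h10 : {z : X | ∃ n ∈ Y, z = n * y * n⁻¹} = {z : X | ∃ n ∈ (⊤ : Subgroup X), z = n * y * n⁻¹} := by
        apply Set.eq_of_subset_of_ncard_le
        · rintro z ⟨n, hn, rfl⟩; exact ⟨n, mem_top _, rfl⟩
        · rw [h8, h9]; exact h7
        · exact Set.toFinite _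
      have h11 : g * y * g⁻¹ ∈ {z : X | ∃ n ∈ Y, z = n * y * n⁻¹} := by rw [h10]; exact ⟨g, mem_top _, rfl⟩
      obtain ⟨n, hn', h12⟩ := h11
      rw [h12]
      exact mul_mem (mul_mem hn' hy) (inv_mem hn')
    have h6 : Nat.card (ConjClasses X) * Nat.card X < (Y.index * Nat.card (ConjClasses Y)) * Nat.card X := by
      rw [hX]
      calc _ ≤ _ := h4
        _ < _ := Nat.mul_lt_mul_of_pos_left h5' hipos
        _ = _ := by rw [← hY, ← hXY]; ring
    exact Nat.lt_of_mul_lt_mul_right h6

end Cfsg.Agent.S4200
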