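import Cfsg.Statements.S4201
import Mathlib
import Cfsg.Agent.Lib.Core2
import Cfsg.Agent.Lib.H7Basic
import Cfsg.Agent.S4200

set_option autoImplicit false
open Cfsg

namespace Cfsg.Agent.S4201

/-- If N is a normal subgroup of the finite group X then k(X) ≤ k(N)·k(X ⧸ N), where k denotes the number of conjugacy classes. -/
theorem result {X : Type*} [Group X] [Finite X] (N : Subgroup X) [N.Normal] : Nat.card (ConjClasses X) ≤ Nat.card (ConjClasses N) * Nat.card (ConjClasses (X ⧸ N)) := by
  open Subgroup CfsgLib.Core2 CfsgLib.H7Basic in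
  classical
  have : Fintype X := Fintype.ofFinite X
  have : Fintype N := Fintype.ofFinite N
  have : Fintype (X ⧸ N) := Fintype.ofFinite _
  have hX := Cfsg.Agent.S4200.comm_card (G := X)
  have hN := Cfsg.Agent.S4200.comm_card (G := N)
  have hQ := Cfsg.Agent.S4200.comm_card (G := X ⧸ N)
  rw [finsum_eq_sum_of_fintype] at hX hN hQ
  have hXpos : 0 < Nat.card X := Nat.card_pos
  have hXN : Nat.card N * Nat.card (X ⧸ N) = Nat.card X := Subgroup.card_mul_index N
  set c : X ⧸ N → ℕ := fun y => Nat.card (centralizer ({y} : Set (X ⧸ N))) with hc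
  have h1 : ∀ y : N, Nat.card (centralizer ({y} : Set N)) = Nat.card (N ⊓ centralizer ({(y : X)} : Set X) : Subgroup X) := by
    intro y
    have h2 : (centralizer ({y} : Set N)) = (centralizer ({(y : X)} : Set X)).subgroupOf N := by
      ext z
      rw [mem_subgroupOf, mem_centralizer_singleton_iff, mem_centralizer_singleton_iff, Subtype.ext_iff]; rfl
    rw [h2, inf_comm, ← subgroupOf_map_subtype]
    exact (Nat.card_congr (equivMapOfInjective _ _ N.subtype_injective).toEquiv)
  have h2 : ∀ x : X, Nat.card (centralizer ({x} : Set X)) ≤ Nat.card (N ⊓ centralizer ({x} : Set X) : Subgroup X) * c (QuotientGroup.mk' N x) := by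
    intro x
    rw [← card_inf_mul_relIndex N (centralizer ({x} : Set X))]
    apply Nat.mul_le_mul_left
    have h3 : N.relIndex (centralizer ({x} : Set X)) = Nat.card ((centralizer ({x} : Set X)).map (QuotientGroup.mk' N)) := by
      have := Subgroup.relIndex_ker (centralizer ({x} : Set X)) (QuotientGroup.mk' N)
      rwa [QuotientGroup.ker_mk'] at this
    rw [h3]
    apply card_le_of_le
    rintro _ ⟨z, hz, rfl⟩
    rw [mem_centralizer_singleton_iff, ← map_mul, ← map_mul]
    congr 1
    exact mem_centralizer_singleton_iff.1 hz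
  have h3 : ∑ x : X, Nat.card (N ⊓ centralizer ({x} : Set X) : Subgroup X) * c (QuotientGroup.mk' N x) = ∑ y : N, ∑ x ∈ Finset.univ.filter (fun x : X => x ∈ centralizer ({(y : X)} : Set X)), c (QuotientGroup.mk' N x) := by
    have h4 : ∀ y : N, ∑ x ∈ Finset.univ.filter (fun x : X => x ∈ centralizer ({(y : X)} : Set X)), c (QuotientGroup.mk' N x) = ∑ x : X, if x ∈ centralizer ({(y : X)} : Set X) then c (QuotientGroup.mk' N x) else 0 := fun y => Finset.sum_filter _ _
    simp_rw [h4]
    rw [Finset.sum_comm]
    apply Finset.sum_congr rfl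
    intro x _
    rw [← Finset.sum_filter, Finset.sum_const, smul_eq_mul]
    congr 1
    rw [← Fintype.card_subtype, ← Nat.card_eq_fintype_card]
    apply Nat.card_congr
    exact
      { toFun := fun z => ⟨⟨z.1, z.2.1⟩, mem_centralizer_singleton_iff.2 (mem_centralizer_singleton_iff.1 z.2.2).symm⟩
        invFun := fun z => ⟨z.1, mem_inf.2 ⟨z.1.2, mem_centralizer_singleton_iff.2 (mem_centralizer_singleton_iff.1 z.2).symm⟩⟩
        left_inv := fun z => rfl
        right_inv := fun z => rfl }
  have h4 : ∀ y : N, ∑ x ∈ Finset.univ.filter (fun x : X => x ∈ centralizer ({(y : X)} : Set X)), c (QuotientGroup.mk' N x) ≤ Nat.card (centralizer ({y} : Set N)) * ∑ z : X ⧸ N, c z := by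
    intro y
    rw [Finset.sum_comp c (fun x => QuotientGroup.mk' N x), Finset.mul_sum]
    calc _ ≤ ∑ b ∈ Finset.image (fun x => QuotientGroup.mk' N x) (Finset.univ.filter (fun x : X => x ∈ centralizer ({(y : X)} : Set X))), Nat.card (centralizer ({y} : Set N)) * c b := by
          apply Finset.sum_le_sum
          intro b hb
          rw [smul_eq_mul]
          apply Nat.mul_le_mul_right
          obtain ⟨x0, hx0, rfl⟩ := Finset.mem_image.1 hb
          have hx0' : x0 ∈ centralizer ({(y : X)} : Set X) := (Finset.mem_filter.1 hx0).2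
          have hset : Nat.card (N ⊓ centralizer ({(y : X)} : Set X) : Subgroup X) = (((N ⊓ centralizer ({(y : X)} : Set X) : Subgroup X) : Set X)).toFinset.card := by
            rw [Set.toFinset_card, ← Nat.card_eq_fintype_card]; rfl
          rw [h1, hset, ← Finset.card_image_of_injective (s := (Finset.filter (fun x => QuotientGroup.mk' N x = QuotientGroup.mk' N x0) (Finset.univ.filter (fun x : X => x ∈ centralizer ({(y : X)} : Set X))))) (f := fun x => x0⁻¹ * x) (mul_right_injective x0⁻¹)]
          apply Finset.card_le_card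
          intro z hz
          obtain ⟨x, hx, rfl⟩ := Finset.mem_image.1 hz
          obtain ⟨hx1, hx2⟩ := Finset.mem_filter.1 hx
          have hx3 : x ∈ centralizer ({(y : X)} : Set X) := (Finset.mem_filter.1 hx1).2
          rw [Set.mem_toFinset]
          refine mem_inf.2 ⟨?_, mul_mem (inv_mem hx0') hx3⟩
          rw [← mk_eq_one_iff, map_mul, map_inv, hx2, inv_mul_cancel]
      _ ≤ _ := Finset.sum_le_sum_of_subset (Finset.subset_univ _)
  have h5 : Nat.card (ConjClasses X) * Nat.card X ≤ (Nat.card (ConjClasses N) * Nat.card (ConjClasses (X ⧸ N))) * Nat.card X := by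
    rw [hX]
    calc _ ≤ _ := Finset.sum_le_sum (fun x _ => h2 x)
      _ = _ := h3
      _ ≤ _ := Finset.sum_le_sum (fun y _ => h4 y)
      _ = (∑ y : N, Nat.card (centralizer ({y} : Set N))) * ∑ z : X ⧸ N, c z := by rw [Finset.sum_mul]
      _ = _ := by rw [← hN, hc, ← hQ, ← hXN]; ring
  exact Nat.le_of_mul_le_mul_right h5 hXpos

end Cfsg.Agent.S4201
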