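import Cfsg.Statements.S4203
import Mathlib
import Cfsg.Agent.Lib.Core
import Cfsg.Agent.Lib.Core2
import Cfsg.Agent.Lib.CharBasic3
import Cfsg.Agent.Lib.H3Misc

set_option autoImplicit false
open Cfsg

open scoped Pointwise
set_option linter.style.haveILetI false
namespace Cfsg.Agent.S4203

open Subgroup CfsgLib.Core2
universe u

/-- a subgroup containing the normalizer of a Sylow `p`-subgroup has index `1` mod `p` -/
theorem index_modEq_one {G : Type*} [Group G] [Finite G] {p : ℕ} [hp : Fact p.Prime] (P : Sylow p G)
    (M : Subgroup G) (hM : normalizer ((P : Subgroup G) : Set G) ≤ M) : M.index ≡ 1 [MOD p] := by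
  have hPM : (P : Subgroup G) ≤ M := le_normalizer.trans hM
  have h1 : (normalizer ((P : Subgroup G) : Set G)).index ≡ 1 [MOD p] := by
    have := P.card_eq_index_normalizer
    have h2 := card_sylow_modEq_one p G
    rw [this] at h2
    exact h2
  have h3 : (normalizer ((P : Subgroup G) : Set G)).relIndex M ≡ 1 [MOD p] := by
    have h4 := card_sylow_modEq_one p M
    rw [(P.subtype hPM).card_eq_index_normalizer] at h4
    have h5 : normalizer (((P.subtype hPM : Sylow p M) : Subgroup M) : Set M) = (normalizer ((P : Subgroup G) : Set G)).subgroupOf M := by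
      ext x
      rw [mem_subgroupOf, CfsgLib.H3Misc.mem_normalizer_iff_smul, CfsgLib.H3Misc.mem_normalizer_iff_smul]
      rw [Sylow.coe_subtype]
      constructor
      · intro h
        have := congrArg (Subgroup.map M.subtype) h
        have e : ∀ K : Subgroup M, Subgroup.map M.subtype (MulAut.conj x • K) = MulAut.conj (x : G) • (Subgroup.map M.subtype K) := by
          intro K
          ext y
          simp only [Subgroup.mem_map, Subgroup.mem_smul_pointwise_iff_exists]
          constructor
          · rintro ⟨z, ⟨w, hw, rfl⟩, rfl⟩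
            exact ⟨w, ⟨w, hw, rfl⟩, by simp⟩
          · rintro ⟨z, ⟨w, hw, rfl⟩, rfl⟩
            exact ⟨_, ⟨w, hw, rfl⟩, by simp⟩
        rw [e, subgroupOf_map_subtype, inf_eq_left.2 hPM] at this
        exact this
      · intro h
        apply Subgroup.map_injective M.subtype_injective
        have e : ∀ K : Subgroup M, Subgroup.map M.subtype (MulAut.conj x • K) = MulAut.conj (x : G) • (Subgroup.map M.subtype K) := by
          intro K
          ext y
          simp only [Subgroup.mem_map, Subgroup.mem_smul_pointwise_iff_exists]
          constructor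
          · rintro ⟨z, ⟨w, hw, rfl⟩, rfl⟩
            exact ⟨w, ⟨w, hw, rfl⟩, by simp⟩
          · rintro ⟨z, ⟨w, hw, rfl⟩, rfl⟩
            exact ⟨_, ⟨w, hw, rfl⟩, by simp⟩
        rw [e, subgroupOf_map_subtype, inf_eq_left.2 hPM, h]
    have h4' : (normalizer (((P.subtype hPM : Sylow p M) : Subgroup M) : Set M)).index ≡ 1 [MOD p] := h4
    rw [h5] at h4'
    exact h4'
  have h6 := relIndex_mul_index hM
  have h7 : (normalizer ((P : Subgroup G) : Set G)).relIndex M * M.index ≡ 1 * M.index [MOD p] := Nat.ModEq.mul_right _ h3
  rw [h6, one_mul] at h7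
  exact (h7.symm.trans h1)

theorem main (n : ℕ) : ∀ (G : Type u) [Group G] [Finite G],
    (∀ M : Subgroup G, IsCoatom M → ∃ p : ℕ, p.Prime ∧ (M.index = p ∨ M.index = p ^ 2)) → Nat.card G = n → Group.IsSolvable G := by
  induction n using Nat.strong_induction_on with
  | _ n ih =>
  intro G _ _ h hn
  by_cases h1 : Nat.card G = 1
  · have : Subsingleton G := (Nat.card_eq_one_iff_unique.1 h1).1
    infer_instance
  have hGne : Nat.card G ≠ 0 := Nat.card_pos.ne'
  -- the largest prime divisor
  obtain ⟨p, hp, hpG, hmax⟩ : ∃ p : ℕ, p.Prime ∧ p ∣ Nat.card G ∧ ∀ q : ℕ, q.Prime → q ∣ Nat.card G → q ≤ p := by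
    have hne : (Nat.card G).primeFactors.Nonempty := Nat.nonempty_primeFactors.2 (by have := Nat.card_pos (α := G); omega)
    refine ⟨(Nat.card G).primeFactors.max' hne, Nat.prime_of_mem_primeFactors (Finset.max'_mem _ _), Nat.dvd_of_mem_primeFactors (Finset.max'_mem _ _), fun q hq hqd => Finset.le_max' _ _ ?_⟩
    exact Nat.mem_primeFactors.2 ⟨hq, hqd, hGne⟩
  haveI : Fact p.Prime := ⟨hp⟩
  obtain ⟨P⟩ : Nonempty (Sylow p G) := inferInstance
  have hPne : (P : Subgroup G) ≠ ⊥ := by
    intro h0
    have := P.dvd_card_of_dvd_card hpG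
    rw [h0, card_bot] at this
    exact hp.one_lt.ne' (Nat.dvd_one.1 this)
  by_cases hN : (P : Subgroup G).Normal
  · have hcard : Nat.card (G ⧸ (P : Subgroup G)) < n := by
      rw [← hn]
      have e := card_eq_card_quotient_mul_card_subgroup (P : Subgroup G)
      have h2 : 1 < Nat.card (P : Subgroup G) := (one_lt_card_iff_ne_bot _).2 hPne
      have h3 : 0 < Nat.card (G ⧸ (P : Subgroup G)) := Nat.card_pos
      nlinarith
    have hq : Group.IsSolvable (G ⧸ (P : Subgroup G)) := by
      refine ih _ hcard (G ⧸ (P : Subgroup G)) (fun M hM => ?_) rfl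
      have hM2 : IsCoatom (M.comap (QuotientGroup.mk' (P : Subgroup G))) := by
        refine ⟨?_, fun L hL => ?_⟩
        · intro h0
          apply hM.1
          rw [eq_top_iff]
          intro y _
          obtain ⟨x, rfl⟩ := QuotientGroup.mk'_surjective (P : Subgroup G) y
          have : x ∈ M.comap (QuotientGroup.mk' (P : Subgroup G)) := by rw [h0]; trivial
          exact this
        · have hPL : (P : Subgroup G) ≤ L := (le_comap_mk _ M).trans hL.le
          have h4 : M < L.map (QuotientGroup.mk' (P : Subgroup G)) := by
            refine lt_of_le_of_ne ?_ ?_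
            · intro y hy
              obtain ⟨x, rfl⟩ := QuotientGroup.mk'_surjective (P : Subgroup G) y
              exact mem_map_of_mem _ (hL.le hy)
            · intro h5
              apply hL.ne
              rw [h5, comap_map_eq_self]
              rw [QuotientGroup.ker_mk']; exact hPL
          have h5 := hM.2 _ h4
          have h6 := congrArg (Subgroup.comap (QuotientGroup.mk' (P : Subgroup G))) h5
          rw [comap_map_eq_self (by rw [QuotientGroup.ker_mk']; exact hPL), comap_top] at h6
          exact h6
      obtain ⟨q, hq, hq2⟩ := h _ hM2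
      rw [index_comap_of_surjective _ (QuotientGroup.mk'_surjective _)] at hq2
      exact ⟨q, hq, hq2⟩
    have hPs : Group.IsSolvable (P : Subgroup G) := by
      have : Group.IsNilpotent (P : Subgroup G) := P.2.isNilpotent
      infer_instance
    exact solvable_ext (P : Subgroup G) hPs hq
  · have hne : normalizer ((P : Subgroup G) : Set G) ≠ ⊤ := by
      intro h0; exact hN (normalizer_eq_top_iff.1 h0)
    obtain ⟨M, hM, hNM⟩ := (eq_top_or_exists_le_coatom (normalizer ((P : Subgroup G) : Set G))).resolve_left hne
    have hmod := index_modEq_one P M hNM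
    obtain ⟨r, hr, hri⟩ := h M hM
    have hrG : r ∣ Nat.card G := by
      have h2 : M.index ∣ Nat.card G := index_dvd_card M
      rcases hri with h3 | h3
      · rw [h3] at h2; exact h2
      · rw [h3] at h2; exact (Dvd.intro_left r (by ring)).trans h2
    have hrp : r ≤ p := hmax r hr hrG
    have hrne : r ≠ p := by
      rintro rfl
      have : r ∣ M.index := by
        rcases hri with h3 | h3 <;> rw [h3]
        exact dvd_pow_self _ (by norm_num)
      have h4 := (Nat.modEq_zero_iff_dvd.2 this).symm.trans hmod
      have := (Nat.modEq_zero_iff_dvd.1 h4.symm)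
      exact hr.one_lt.ne' (Nat.dvd_one.1 this)
    have hdvd : p ∣ M.index - 1 := (Nat.modEq_iff_dvd' (by rcases hri with h3 | h3 <;> rw [h3]; exacts [hr.one_le, Nat.one_le_pow _ _ hr.pos])).1 hmod.symm
    have hr2 : r = 2 ∧ p = 3 := by
      rcases hri with h3 | h3
      · exfalso
        rw [h3] at hdvd
        have := Nat.le_of_dvd (by have := hr.two_le; omega) hdvd
        omega
      · rw [h3] at hdvd
        have e : r ^ 2 - 1 = (r + 1) * (r - 1) := by
          obtain ⟨k, rfl⟩ : ∃ k, r = k + 1 := ⟨r - 1, by have := hr.two_le; omega⟩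
          simp only [Nat.add_sub_cancel]
          have : (k + 1) ^ 2 = (k + 1 + 1) * k + 1 := by ring
          omega
        rw [e] at hdvd
        have hr2 := hr.two_le
        rcases hp.dvd_mul.1 hdvd with h4 | h4
        · have h5 := Nat.le_of_dvd (by omega) h4
          have h6 : p = r + 1 := by omega
          rcases hr.eq_two_or_odd with h7 | h7
          · exact ⟨h7, by omega⟩
          · exfalso
            rcases hp.eq_two_or_odd with h8 | h8 <;> omega
        · have := Nat.le_of_dvd (by omega) h4
          omega
    obtain ⟨rfl, rfl⟩ := hr2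
    have hfac : ∃ a b : ℕ, Nat.card G = 2 ^ a * 3 ^ b := by
      refine ⟨(Nat.card G).factorization 2, (Nat.card G).factorization 3, ?_⟩
      have h2 : Nat.card G = (Nat.card G).factorization.prod (· ^ ·) := (Nat.prod_factorization_pow_eq_self hGne).symm
      conv_lhs => rw [h2]
      rw [Finsupp.prod_of_support_subset (s := {2, 3})]
      · rw [Finset.prod_insert (by norm_num), Finset.prod_singleton]
      · intro q hq
        rw [Nat.support_factorization] at hq
        have hq1 := Nat.prime_of_mem_primeFactors hq
        have hq2 := hmax q hq1 (Nat.dvd_of_mem_primeFactors hq)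
        have := hq1.two_le
        simp only [Finset.mem_insert, Finset.mem_singleton]
        omega
      · intro i _; simp
    obtain ⟨a, b, hab⟩ := hfac
    exact CfsgLib.CharBasic.burnside_pq n G 2 3 a b Nat.prime_two Nat.prime_three hab hn


/-- A finite group in which every maximal subgroup has index a prime or the square of a prime is solvable. -/
theorem result {G : Type*} [Group G] [Finite G] (h : ∀ M : Subgroup G, IsCoatom M → ∃ p : ℕ, p.Prime ∧ (M.index = p ∨ M.index = p ^ 2)) : Group.IsSolvable G := by
  exact main _ G h rfl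

end Cfsg.Agent.S4203
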