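import Cfsg.Statements.S4204
import Mathlib

set_option autoImplicit false
open Cfsg

open scoped commutatorElement
set_option linter.style.haveILetI false
namespace Cfsg.Agent.S4204

open Subgroup
open scoped commutatorElement

/-- upper neighbour of the lower central series -/
def ext {G : Type*} [Group G] (H : Subgroup G) : ℕ → Subgroup G
  | 0 => ⊤
  | n + 1 => H.lowerCentralSeries n

theorem lcs_normal {G : Type*} [Group G] (H : Subgroup G) [hH : H.Normal] (n : ℕ) : (H.lowerCentralSeries n).Normal := by
  induction n with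
  | zero => exact hH
  | succ n ih => exact commutator_normal _ _

theorem ext_normal {G : Type*} [Group G] (H : Subgroup G) [hH : H.Normal] (n : ℕ) : (ext H n).Normal := by
  cases n with
  | zero => exact (inferInstance : (⊤ : Subgroup G).Normal)
  | succ n => exact lcs_normal H n

theorem ext_comm {G : Type*} [Group G] (H : Subgroup G) [hH : H.Normal] (n : ℕ) : ⁅ext H n, H⁆ ≤ ext H (n + 1) := by
  cases n with
  | zero => exact commutator_le_right ⊤ H
  | succ n => exact le_rfl

/-- elements centralizing `N` modulo `X` -/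
theorem comm_le_iff {G : Type*} [Group G] (X : Subgroup G) [X.Normal] (N A : Subgroup G) :
    ⁅A, N⁆ ≤ X ↔ A ≤ (centralizer (N.map (QuotientGroup.mk' X) : Set (G ⧸ X))).comap (QuotientGroup.mk' X) := by
  rw [commutator_le]
  constructor
  · intro h a ha
    rw [mem_comap, mem_centralizer_iff]
    rintro _ ⟨n, hn, rfl⟩
    have h1 : QuotientGroup.mk' X (a * n * a⁻¹ * n⁻¹) = 1 := (QuotientGroup.eq_one_iff _).2 (h a ha n hn)
    rw [map_mul, map_mul, map_mul, map_inv, map_inv, mul_inv_eq_one, mul_inv_eq_iff_eq_mul] at h1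
    exact h1.symm
  · intro h a ha n hn
    have h1 := mem_centralizer_iff.1 (h ha) (QuotientGroup.mk' X n) ⟨n, hn, rfl⟩
    rw [commutatorElement_def, ← QuotientGroup.eq_one_iff]
    show QuotientGroup.mk' X (a * n * a⁻¹ * n⁻¹) = 1
    rw [map_mul, map_mul, map_mul, map_inv, map_inv, ← h1]; group

theorem comm_iSup_le {G : Type*} [Group G] (X : Subgroup G) [X.Normal] (N : Subgroup G) {ι : Sort*} (A : ι → Subgroup G)
    (h : ∀ i, ⁅A i, N⁆ ≤ X) : ⁅⨆ i, A i, N⁆ ≤ X := by
  rw [comm_le_iff]
  exact iSup_le (fun i => (comm_le_iff X N (A i)).1 (h i))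

theorem comm_sup_le {G : Type*} [Group G] (X : Subgroup G) [X.Normal] (A H K : Subgroup G)
    (h1 : ⁅A, H⁆ ≤ X) (h2 : ⁅A, K⁆ ≤ X) : ⁅A, H ⊔ K⁆ ≤ X := by
  rw [commutator_comm, comm_le_iff]
  exact sup_le ((comm_le_iff X A H).1 (by rw [commutator_comm]; exact h1)) ((comm_le_iff X A K).1 (by rw [commutator_comm]; exact h2))

theorem main {G : Type*} [Group G] (H K : Subgroup G) [hH : H.Normal] [hK : K.Normal] (n : ℕ) :
    (H ⊔ K).lowerCentralSeries n ≤ ⨆ (i : ℕ) (j : ℕ) (_ : i + j = n + 1), ext H i ⊓ ext K j := by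
  have hle : ∀ (n i j : ℕ), i + j = n + 1 → ext H i ⊓ ext K j ≤ ⨆ (i : ℕ) (j : ℕ) (_ : i + j = n + 1), ext H i ⊓ ext K j := by
    intro n i j hij
    exact le_iSup_of_le i (le_iSup_of_le j (le_iSup_of_le hij le_rfl))
  induction n with
  | zero =>
    refine sup_le ?_ ?_
    · exact le_trans (le_inf le_rfl le_top) (hle 0 1 0 rfl)
    · exact le_trans (le_inf le_top le_rfl) (hle 0 0 1 rfl)
  | succ n ih =>
    haveI hXn : (⨆ (i : ℕ) (j : ℕ) (_ : i + j = n + 1 + 1), ext H i ⊓ ext K j : Subgroup G).Normal := by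
      haveI : ∀ i, (ext H i).Normal := ext_normal H
      haveI : ∀ j, (ext K j).Normal := ext_normal K
      infer_instance
    rw [Subgroup.lowerCentralSeries_succ]
    refine (commutator_mono ih le_rfl).trans ?_
    refine comm_iSup_le _ _ _ (fun i => comm_iSup_le _ _ _ (fun j => comm_iSup_le _ _ _ (fun hij => ?_)))
    haveI := ext_normal H i
    haveI := ext_normal K j
    refine comm_sup_le _ _ _ _ ?_ ?_
    · refine le_trans (le_inf ?_ ?_) (hle (n + 1) (i + 1) j (by omega))
      · exact (commutator_mono inf_le_left le_rfl).trans (ext_comm H i)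
      · exact (commutator_mono inf_le_right le_rfl).trans (commutator_le_left _ _)
    · refine le_trans (le_inf ?_ ?_) (hle (n + 1) i (j + 1) (by omega))
      · exact (commutator_mono inf_le_left le_rfl).trans (commutator_le_left _ _)
      · exact (commutator_mono inf_le_right le_rfl).trans (ext_comm K j)


/-- If `H` and `K` are normal subgroups of a finite group with `H` nilpotent of class at most `c` and `K` nilpotent of class at most `d` (the terms with index `c`, respectively `d`, of their lower central series are trivial, indices starting at `0`), then `HK` is nilpotent of class at most `c + d`. -/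
theorem result {G : Type*} [Group G] [Finite G] (H K : Subgroup G) [H.Normal] [K.Normal] (c d : ℕ) (hH : H.lowerCentralSeries c = ⊥) (hK : K.lowerCentralSeries d = ⊥) : (H ⊔ K).lowerCentralSeries (c + d) = ⊥ := by
  rw [eq_bot_iff]
  refine (main H K (c + d)).trans ?_
  refine iSup_le (fun i => iSup_le (fun j => iSup_le (fun hij => ?_)))
  by_cases hi : c + 1 ≤ i
  · obtain ⟨k, rfl⟩ : ∃ k, i = k + 1 := ⟨i - 1, by omega⟩
    refine inf_le_left.trans ?_
    rw [← hH]
    exact H.lowerCentralSeries_antitone (by omega)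
  · obtain ⟨k, rfl⟩ : ∃ k, j = k + 1 := ⟨j - 1, by omega⟩
    refine inf_le_right.trans ?_
    rw [← hK]
    exact K.lowerCentralSeries_antitone (by omega)

end Cfsg.Agent.S4204
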