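import Cfsg.Statements.S4205
import Mathlib
import Cfsg.Agent.Lib.Core

set_option autoImplicit false
open Cfsg

namespace Cfsg.Agent.S4205

/-- In a finite group whose upper central series reaches the whole group at step `c` (nilpotent of class at most `c`), starting from any subgroup and taking normalizers `c` times reaches the whole group. -/
theorem result {G : Type*} [Group G] [Finite G] (c : ℕ) (hG : Subgroup.upperCentralSeries G c = ⊤) (H : Subgroup G) : (fun K : Subgroup G => Subgroup.normalizer (K : Set G))^[c] H = ⊤ := by
  have key : ∀ i : ℕ, Subgroup.upperCentralSeries G i ≤ (fun K : Subgroup G => Subgroup.normalizer (K : Set G))^[i] H := by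
    intro i
    induction i with
    | zero => simp
    | succ i ih =>
      rw [Function.iterate_succ_apply']
      intro x hx
      rw [Subgroup.mem_upperCentralSeries_succ_iff] at hx
      set K := (fun K : Subgroup G => Subgroup.normalizer (K : Set G))^[i] H with hK
      change x ∈ Subgroup.normalizer (K : Set G)
      rw [Subgroup.mem_normalizer_iff]
      have h1 : ∀ y : G, y ∈ K → x * y * x⁻¹ ∈ K := by
        intro y hy
        have h2 := ih (hx y)
        have h3 : x * y * x⁻¹ = (x * y * x⁻¹ * y⁻¹) * y := by group
        rw [h3]
        exact mul_mem h2 hy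
      intro y
      refine ⟨h1 y, ?_⟩
      intro hy
      have h2 := ih (hx y)
      have h3 : y = (x * y * x⁻¹ * y⁻¹)⁻¹ * (x * y * x⁻¹) := by group
      rw [h3]
      exact mul_mem (inv_mem h2) hy
  rw [← top_le_iff, ← hG]
  exact key c

end Cfsg.Agent.S4205
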