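import Cfsg.Statements.S4207
import Mathlib
import Cfsg.Agent.Lib.BBasis

set_option autoImplicit false
open Cfsg

set_option linter.style.haveILetI false
namespace Cfsg.Agent.S4207

/-- Let `P` be a group of order `p^n` whose Frattini subgroup has index `p^r`. Then any group of automorphisms of `P` each of which induces the identity on the Frattini quotient has order dividing `p^(r(n-r))`; in particular it is a `p`-group. -/
theorem result {P : Type*} [Group P] [Finite P] {p n r : ℕ} [Fact p.Prime] (hP : Nat.card P = p ^ n) (hr : (frattini P).index = p ^ r) (A : Subgroup (MulAut P)) (hA : ∀ α ∈ A, ∀ x : P, α x * x⁻¹ ∈ frattini P) : Nat.card A ∣ p ^ (r * (n - r)) := by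
  open Subgroup CfsgLib.BBasis in
  have hPp : IsPGroup p P := IsPGroup.of_card hP
  have hrn : Nat.card (frattini P) = p ^ (n - r) := by
    have h1 := (frattini P).card_mul_index
    rw [hP, hr] at h1
    have hrn : r ≤ n := by
      have h2 : p ^ r ∣ p ^ n := by rw [← h1]; exact dvd_mul_left _ _
      exact (Nat.pow_dvd_pow_iff_le_right (Fact.out : p.Prime).one_lt).1 h2
    have h3 : p ^ n = p ^ (n - r) * p ^ r := by rw [← pow_add, Nat.sub_add_cancel hrn]
    rw [h3] at h1
    exact Nat.eq_of_mul_eq_mul_right (pow_pos (Fact.out : p.Prime).pos r) h1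
  obtain ⟨x, hx⟩ := exists_gen_tuple hPp hr
  letI act : MulAction A {s : Fin r → P // ∀ i, s i * (x i)⁻¹ ∈ frattini P} :=
    { smul := fun α s => ⟨fun i => (α : MulAut P) (s.1 i), fun i => by
        have : (α : MulAut P) (s.1 i) * (x i)⁻¹ = ((α : MulAut P) (s.1 i) * (s.1 i)⁻¹) * (s.1 i * (x i)⁻¹) := by group
        rw [this]
        exact mul_mem (hA _ α.2 _) (s.2 i)⟩
      one_smul := fun s => Subtype.ext rfl
      mul_smul := fun a b s => Subtype.ext rfl }
  have h1 := card_dvd_of_free (A := A) (T := {s : Fin r → P // ∀ i, s i * (x i)⁻¹ ∈ frattini P}) (by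
    intro a s has
    have h2 : ∀ i, (a : MulAut P) (s.1 i) = s.1 i := fun i => congrFun (congrArg Subtype.val has) i
    apply Subtype.ext
    apply mulAut_eq_one_of_gen s.1 _ _ h2
    rw [closure_image_eq_top_iff, ← Set.range_comp]
    have h3 : (QuotientGroup.mk' (frattini P)) ∘ s.1 = (QuotientGroup.mk' (frattini P)) ∘ x := by
      funext i
      have h4 : QuotientGroup.mk' (frattini P) (s.1 i * (x i)⁻¹) = 1 := (QuotientGroup.eq_one_iff _).2 (s.2 i)
      rw [map_mul, map_inv, mul_inv_eq_one] at h4
      exact h4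
    rw [h3, Set.range_comp, ← closure_image_eq_top_iff]
    exact hx)
  have h2 : Nat.card {s : Fin r → P // ∀ i, s i * (x i)⁻¹ ∈ frattini P} = p ^ (r * (n - r)) := by
    have e : {s : Fin r → P // ∀ i, s i * (x i)⁻¹ ∈ frattini P} ≃ (Fin r → frattini P) :=
      { toFun := fun s i => ⟨s.1 i * (x i)⁻¹, s.2 i⟩
        invFun := fun f => ⟨fun i => (f i : P) * x i, fun i => by simp⟩
        left_inv := fun s => by ext; simp
        right_inv := fun f => by ext; simp }
    rw [Nat.card_congr e, Nat.card_fun, Nat.card_eq_fintype_card (α := Fin r), Fintype.card_fin, hrn, ← pow_mul, mul_comm]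
  rwa [h2] at h1

end Cfsg.Agent.S4207
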