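import Cfsg.Statements.S4208
import Mathlib
import Cfsg.Agent.Lib.BBasis

set_option autoImplicit false
open Cfsg

set_option linter.style.haveILetI false
namespace Cfsg.Agent.S4208

/-- Let `P` be a group of order `p^n` whose Frattini subgroup has index `p^r`. Then the order of the automorphism group of `P` divides `p^(r(n-r)) · (p^r - 1)(p^r - p) ⋯ (p^r - p^(r-1))`. -/
theorem result {P : Type*} [Group P] [Finite P] {p n r : ℕ} [Fact p.Prime] (hP : Nat.card P = p ^ n) (hr : (frattini P).index = p ^ r) : Nat.card (MulAut P) ∣ p ^ (r * (n - r)) * ∏ i ∈ Finset.range r, (p ^ r - p ^ i) := by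
  open Subgroup CfsgLib.BBasis in
  have hPp : IsPGroup p P := IsPGroup.of_card hP
  have hrn : Nat.card (frattini P) = p ^ (n - r) := by
    have h1 := (frattini P).card_mul_index
    rw [hP, hr] at h1
    have hrn : r ≤ n := by
      have h2 : p ^ r ∣ p ^ n := by rw [← h1]; exact dvd_mul_left _ _
      exact (Nat.pow_dvd_pow_iff_le_right (Fact.out : p.Prime).one_lt).1 h2
    have h3 : p ^ n = p ^ (n - r) * p ^ r := by rw [← pow_add, Nat.sub_add_cancel hrn]
    rw [h3] at h1
    exact Nat.eq_of_mul_eq_mul_right (pow_pos (Fact.out : p.Prime).pos r) h1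
  letI act : MulAction (MulAut P) {s : Fin r → P // closure (Set.range s) = ⊤} :=
    { smul := fun α s => ⟨fun i => α (s.1 i), by
        have h1 : Set.range (fun i => α (s.1 i)) = α.toMonoidHom '' (Set.range s.1) := by rw [← Set.range_comp]; rfl
        rw [h1, ← MonoidHom.map_closure, s.2, ← MonoidHom.range_eq_map, MonoidHom.range_eq_top]
        exact α.surjective⟩
      one_smul := fun s => Subtype.ext rfl
      mul_smul := fun a b s => Subtype.ext rfl }
  have h1 := card_dvd_of_free (A := MulAut P) (T := {s : Fin r → P // closure (Set.range s) = ⊤}) (by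
    intro a s has
    have h2 : ∀ i, a (s.1 i) = s.1 i := fun i => congrFun (congrArg Subtype.val has) i
    exact mulAut_eq_one_of_gen s.1 s.2 _ h2)
  rw [card_gen_tuples hPp hr, hrn, ← pow_mul, mul_comm (n - r) r] at h1
  exact h1

end Cfsg.Agent.S4208
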