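import Cfsg.Statements.S4211
import Mathlib
import Cfsg.Agent.Lib.H3Ded

set_option autoImplicit false
open Cfsg

set_option linter.style.haveILetI false
namespace Cfsg.Agent.S4211

theorem aux_main {G : Type*} [Group G] [Finite G] (hna : ∃ a b : G, a * b ≠ b * a) (hn : ∀ H : Subgroup G, H.Normal) :
    ∃ Q E A : Subgroup G, Nonempty (Q ≃* QuaternionGroup 2) ∧ Cfsg.IsElementaryAbelian 2 E ∧ IsMulCommutative A ∧
      Odd (Nat.card A) ∧ E ⊓ A = ⊥ ∧ Q ⊓ (E ⊔ A) = ⊥ ∧ Q ⊔ (E ⊔ A) = ⊤ := by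
  classical
  obtain ⟨x, y, hx4, hxy, hx2, hyx⟩ := CfsgLib.H3Ded.exists_pair hn hna
  obtain ⟨c, hc⟩ : ∃ c, c = x ^ 2 := ⟨_, rfl⟩
  have hc1 : c ≠ 1 := by rw [hc]; exact hx2
  have hcc : c * c = 1 := by rw [hc, ← pow_add]; exact hx4
  have hcx : c * x = x * c := by rw [hc, ← pow_succ, ← pow_succ']
  have hcy : c * y = y * c := by rw [hc, hxy, ← pow_succ, ← pow_succ']
  have hxi : x⁻¹ = x * c := by
    rw [inv_eq_iff_mul_eq_one, ← mul_assoc, hc, ← pow_two, ← pow_add]; exact hx4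
  have hyx' : y * x = x * c * y := by rw [hyx, hxi]
  have hyi : y⁻¹ = y * c := by
    rw [inv_eq_iff_mul_eq_one, ← mul_assoc, hc, ← pow_two, ← hxy, ← pow_add]; exact hx4
  have hnc : x * y ≠ y * x := by
    intro h
    rw [hyx'] at h
    have h1 : x * y = x * (c * y) := by rw [← mul_assoc]; exact h
    have h2 := mul_left_cancel h1
    have h3 : 1 * y = c * y := by rw [one_mul]; exact h2
    exact hc1 (mul_right_cancel h3).symm
  obtain ⟨C, hC⟩ : ∃ C : Subgroup G, ∀ z, z ∈ C ↔ (z * x = x * z ∧ z * y = y * z) := by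
    refine ⟨Subgroup.centralizer {x, y}, fun z => ?_⟩
    rw [Subgroup.mem_centralizer_iff]
    constructor
    · intro h
      exact ⟨(h x (by simp)).symm, (h y (by simp)).symm⟩
    · rintro ⟨h1, h2⟩ w hw
      rcases hw with hw | hw
      · rw [hw]; exact h1.symm
      · have hw : w = y := hw
        rw [hw]; exact h2.symm
  have hcC : c ∈ C := (hC c).2 ⟨hcx, hcy⟩
  have h4 : ∀ z ∈ C, z ^ 4 = 1 → z ^ 2 = 1 := by
    intro z hz hz4
    obtain ⟨hzx, hzy⟩ := (hC z).1 hz
    have hcz : c * z = z * c := by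
      rw [hc, pow_two, mul_assoc, ← hzx, ← mul_assoc, ← hzx, mul_assoc]
    have hw4 : (x * z) ^ 4 = 1 := by
      have h : Commute x z := hzx.symm
      rw [h.mul_pow, hx4, hz4, one_mul]
    have hw2 : (x * z) ^ 2 = c * z ^ 2 := by
      have h : Commute x z := hzx.symm
      rw [h.mul_pow, hc]
    have hnw : (x * z) * y ≠ y * (x * z) := by
      intro h
      apply hnc
      have h1 : x * y * z = y * x * z := by rw [mul_assoc x, ← hzy, ← mul_assoc, h, mul_assoc]
      exact mul_right_cancel h1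
    have hcw : c ∈ Subgroup.zpowers (x * z) := by
      have h1 : y * (x * z) * y⁻¹ ∈ Subgroup.zpowers (x * z) := (hn _).conj_mem _ (Subgroup.mem_zpowers _) y
      have h2 : y * (x * z) * y⁻¹ = (x * z) * c := by
        rw [mul_inv_eq_iff_eq_mul, ← mul_assoc, hyx', mul_assoc x z c, ← hcz, mul_assoc, ← hzy]
        simp only [mul_assoc]
      rw [h2] at h1
      exact (Subgroup.mul_mem_cancel_left _ (Subgroup.mem_zpowers _)).1 h1
    obtain ⟨k, hk⟩ := mem_powers_iff_mem_zpowers.2 hcw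
    have hk : (x * z) ^ k = c := hk
    have hk' : (x * z) ^ (k % 4) = c := by
      rw [← hk]
      conv_rhs => rw [← Nat.mod_add_div k 4, pow_add, pow_mul, hw4, one_pow, mul_one]
    have hlt := Nat.mod_lt k (show 0 < 4 by norm_num)
    have hno : x * z ≠ c := by
      intro h
      rw [h] at hnw
      exact hnw hcy
    interval_cases h : k % 4
    · rw [pow_zero] at hk'
      exact absurd hk'.symm hc1
    · rw [pow_one] at hk'
      exact absurd hk' hno
    · rw [hw2] at hk'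
      exact mul_left_cancel (a := c) (by rw [mul_one]; exact hk')
    · exfalso
      apply hno
      have h1 : (x * z) ^ 3 * (x * z) = 1 := by rw [← pow_succ]; exact hw4
      rw [hk'] at h1
      exact mul_left_cancel (a := c) (by rw [h1, hcc])
  have h4' : ∀ k : ℕ, ∀ w ∈ C, w ^ 2 ^ k = 1 → w ^ 2 = 1 := by
    intro k
    induction k with
    | zero => intro w _ h; rw [pow_zero, pow_one] at h; rw [h, one_pow]
    | succ k ih =>
      intro w hw h
      apply h4 w hw
      have := ih (w ^ 2) (pow_mem hw 2) (by rw [← pow_mul, ← pow_succ']; exact h)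
      rw [← pow_mul] at this
      exact this
  -- centraliser abelian
  have hCab : ∀ a ∈ C, ∀ b ∈ C, a * b = b * a := by
    by_contra hh
    push Not at hh
    obtain ⟨a, ha, b, hb, hab⟩ := hh
    have hnC : ∀ H : Subgroup C, H.Normal := by
      intro H
      have h1 := hn (H.map C.subtype)
      have h2 : (H.map C.subtype).comap C.subtype = H := Subgroup.comap_map_eq_self_of_injective C.subtype_injective H
      rw [← h2]
      exact Subgroup.Normal.comap h1 _
    obtain ⟨u, v, hu4, _, hu2, _⟩ := CfsgLib.H3Ded.exists_pair hnC ⟨⟨a, ha⟩, ⟨b, hb⟩, fun h => hab (congrArg Subtype.val h)⟩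
    apply hu2
    have h1 : (u : G) ^ 4 = 1 := by rw [← Subgroup.coe_pow, hu4, Subgroup.coe_one]
    have h2 := h4 u u.2 h1
    apply Subtype.ext
    rw [Subgroup.coe_pow, h2, Subgroup.coe_one]
  -- conjugation on x and y
  have hconj : ∀ (w g : G), w ^ 4 = 1 → w ^ 2 ≠ 1 → g * w * g⁻¹ = w ∨ g * w * g⁻¹ = w⁻¹ := by
    intro w g hw4 hw2
    have h1 : g * w * g⁻¹ ∈ Subgroup.zpowers w := (hn _).conj_mem _ (Subgroup.mem_zpowers w) g
    obtain ⟨k, hk⟩ := mem_powers_iff_mem_zpowers.2 h1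
    have hk : w ^ k = g * w * g⁻¹ := hk
    have hk' : w ^ (k % 4) = g * w * g⁻¹ := by
      rw [← hk]
      conv_rhs => rw [← Nat.mod_add_div k 4, pow_add, pow_mul, hw4, one_pow, mul_one]
    have hlt := Nat.mod_lt k (show 0 < 4 by norm_num)
    interval_cases h : k % 4
    · exfalso
      rw [pow_zero] at hk'
      have h2 : w = 1 := conj_eq_one_iff.1 hk'.symm
      exact hw2 (by rw [h2, one_pow])
    · left; rw [pow_one] at hk'; exact hk'.symm
    · exfalso
      have h2 : (g * w * g⁻¹) ^ 2 = 1 := by rw [← hk', ← pow_mul]; exact hw4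
      rw [conj_pow] at h2
      exact hw2 (conj_eq_one_iff.1 h2)
    · right
      rw [← hk', eq_inv_iff_mul_eq_one, ← pow_succ]
      exact hw4
  have hfac : ∀ g : G, ∃ q z, (q = 1 ∨ q = x ∨ q = y ∨ q = x * y) ∧ z ∈ C ∧ g = q * z := by
    intro g
    have e1 : ∀ q, q⁻¹ * g * x = x * (q⁻¹ * g) ↔ g * x * g⁻¹ = q * x * q⁻¹ := by
      intro q
      constructor
      · intro h
        have h1 : g * x = q * (q⁻¹ * g * x) := by group
        rw [h1, h]; group
      · intro h
        have h1 : q⁻¹ * g * x = q⁻¹ * (g * x * g⁻¹) * g := by group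
        rw [h1, h]; group
    have e2 : ∀ q, q⁻¹ * g * y = y * (q⁻¹ * g) ↔ g * y * g⁻¹ = q * y * q⁻¹ := by
      intro q
      constructor
      · intro h
        have h1 : g * y = q * (q⁻¹ * g * y) := by group
        rw [h1, h]; group
      · intro h
        have h1 : q⁻¹ * g * y = q⁻¹ * (g * y * g⁻¹) * g := by group
        rw [h1, h]; group
    have hy4 : y ^ 4 = 1 := by
      have : y ^ 4 = (y ^ 2) ^ 2 := by rw [← pow_mul]
      rw [this, ← hxy, ← pow_mul]; exact hx4
    have hy2 : y ^ 2 ≠ 1 := by rw [← hxy]; exact hx2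
    have c1 : y * x * y⁻¹ = x⁻¹ := by rw [hyx]; group
    have c2 : x * y * x⁻¹ = y⁻¹ := by
      rw [mul_inv_eq_iff_eq_mul, hyi, mul_assoc, hcx, ← mul_assoc, hyx', mul_assoc x, mul_assoc x, mul_assoc c, ← hcy,
        ← mul_assoc c, hcc, one_mul]
    have mk : ∀ q, g * x * g⁻¹ = q * x * q⁻¹ → g * y * g⁻¹ = q * y * q⁻¹ → q⁻¹ * g ∈ C := fun q h1 h2 =>
      (hC _).2 ⟨(e1 q).2 h1, (e2 q).2 h2⟩
    rcases hconj x g hx4 hx2 with h1 | h1 <;> rcases hconj y g hy4 hy2 with h2 | h2
    · exact ⟨1, 1⁻¹ * g, Or.inl rfl, mk 1 (by rw [h1]; group) (by rw [h2]; group), by group⟩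
    · exact ⟨x, x⁻¹ * g, Or.inr (Or.inl rfl), mk x (by rw [h1]; group) (by rw [h2, c2]), by group⟩
    · exact ⟨y, y⁻¹ * g, Or.inr (Or.inr (Or.inl rfl)), mk y (by rw [h1, c1]) (by rw [h2]; group), by group⟩
    · refine ⟨x * y, (x * y)⁻¹ * g, Or.inr (Or.inr (Or.inr rfl)), mk (x * y) ?_ ?_, by group⟩
      · rw [h1]
        calc x⁻¹ = x * x⁻¹ * x⁻¹ := by group
          _ = x * (y * x * y⁻¹) * x⁻¹ := by rw [c1]
          _ = x * y * x * (x * y)⁻¹ := by group
      · rw [h2, ← c2]; group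
  -- the quaternion subgroup
  obtain ⟨f, hfa, hfx⟩ := CfsgLib.H3Fld.q8_hom hx4 hxy hyx
  have ha2 : (QuaternionGroup.a 2 : QuaternionGroup 2) = (QuaternionGroup.a 1) ^ 2 := by decide
  have hQ : ∀ g : QuaternionGroup 2, g ≠ 1 → g = QuaternionGroup.a 2 ∨ g ^ 2 = QuaternionGroup.a 2 := by decide
  have hfc : f (QuaternionGroup.a 2) = c := by rw [ha2, map_pow, hfa, hc]
  have hinj : Function.Injective f := by
    rw [injective_iff_map_eq_one]
    intro g hg
    by_contra h
    rcases hQ g h with h1 | h1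
    · rw [h1, hfc] at hg
      exact hc1 hg
    · have h2 : f (g ^ 2) = 1 := by rw [map_pow, hg, one_pow]
      rw [h1, hfc] at h2
      exact hc1 h2
  have hxQ : x ∈ f.range := ⟨_, hfa⟩
  have hyQ : y ∈ f.range := ⟨_, hfx⟩
  -- odd part
  obtain ⟨k, m, hm, hkm⟩ := Nat.exists_eq_two_pow_mul_odd (Nat.card_pos (α := G)).ne'
  let A : Subgroup G :=
    { carrier := {z | z ∈ C ∧ z ^ m = 1}
      one_mem' := ⟨one_mem C, one_pow m⟩
      mul_mem' := by
        rintro a b ⟨ha, ha'⟩ ⟨hb, hb'⟩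
        refine ⟨mul_mem ha hb, ?_⟩
        have h : Commute a b := hCab a ha b hb
        rw [h.mul_pow, ha', hb', one_mul]
      inv_mem' := by
        rintro a ⟨ha, ha'⟩
        exact ⟨inv_mem ha, by rw [inv_pow, ha', inv_one]⟩ }
  have hA : ∀ z, z ∈ A ↔ z ∈ C ∧ z ^ m = 1 := fun z => Iff.rfl
  obtain ⟨E, hE⟩ := (Set.toFinite {E : Subgroup G | (∀ e ∈ E, e ∈ C ∧ e ^ 2 = 1) ∧ c ∉ E}).exists_maximal
    ⟨⊥, by
      constructor
      · intro e he
        rw [Subgroup.mem_bot.1 he]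
        exact ⟨one_mem C, one_pow 2⟩
      · intro h
        exact hc1 (Subgroup.mem_bot.1 h)⟩
  have hE1 : ∀ e ∈ E, e ∈ C ∧ e ^ 2 = 1 := hE.1.1
  have hcE : c ∉ E := hE.1.2
  have hOm : ∀ u ∈ C, u ^ 2 = 1 → u ∈ E ⊔ Subgroup.zpowers c := by
    intro u hu hu2
    by_cases huE : u ∈ E
    · exact Subgroup.mem_sup_left huE
    haveI := hn (Subgroup.zpowers u)
    have hpar : ∀ w ∈ Subgroup.zpowers u, w = 1 ∨ w = u := by
      intro w hw
      obtain ⟨i, hi⟩ := mem_powers_iff_mem_zpowers.2 hw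
      have hi : u ^ i = w := hi
      have h2 : u ^ (i % 2) = w := by
        rw [← hi]
        conv_rhs => rw [← Nat.mod_add_div i 2, pow_add, pow_mul, hu2, one_pow, mul_one]
      rcases Nat.mod_two_eq_zero_or_one i with h | h
      · left; rw [← h2, h, pow_zero]
      · right; rw [← h2, h, pow_one]
    by_cases hcE' : c ∈ E ⊔ Subgroup.zpowers u
    · rw [Subgroup.mem_sup_of_normal_right] at hcE'
      obtain ⟨e, he, w, hw, hew⟩ := hcE'
      rcases hpar w hw with h | h
      · rw [h, mul_one] at hew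
        exact absurd (hew ▸ he) hcE
      · rw [h] at hew
        have : u = e⁻¹ * c := by rw [← hew]; group
        rw [this]
        exact mul_mem (Subgroup.mem_sup_left (inv_mem he)) (Subgroup.mem_sup_right (Subgroup.mem_zpowers c))
    · exfalso
      have h1 : E ⊔ Subgroup.zpowers u ≤ E := by
        apply hE.2 _ le_sup_left
        refine ⟨?_, hcE'⟩
        intro e he
        rw [Subgroup.mem_sup_of_normal_right] at he
        obtain ⟨e', he', w, hw, rfl⟩ := he
        have hwC : w ∈ C ∧ w ^ 2 = 1 := by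
          rcases hpar w hw with h | h
          · rw [h]; exact ⟨one_mem C, one_pow 2⟩
          · rw [h]; exact ⟨hu, hu2⟩
        refine ⟨mul_mem (hE1 e' he').1 hwC.1, ?_⟩
        have h : Commute e' w := hCab _ (hE1 e' he').1 _ hwC.1
        rw [h.mul_pow, (hE1 e' he').2, hwC.2, one_mul]
      exact huE (h1 (Subgroup.mem_sup_right (Subgroup.mem_zpowers u)))
  have hodd : ∀ w : G, w ^ 2 = 1 → w ^ m = 1 → w = 1 := by
    intro w h1 h2
    obtain ⟨t, ht⟩ := hm
    rw [ht, pow_succ, pow_mul, h1, one_pow, one_mul] at h2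
    exact h2
  haveI := hn A
  refine ⟨f.range, E, A, ⟨(MonoidHom.ofInjective hinj).symm⟩, ⟨?_, fun a ha => (hE1 a ha).2⟩, ?_, ?_, ?_, ?_, ?_⟩
  · exact ⟨⟨fun a b => Subtype.ext (hCab a (hE1 a a.2).1 b (hE1 b b.2).1)⟩⟩
  · exact ⟨⟨fun a b => Subtype.ext (hCab a ((hA a).1 a.2).1 b ((hA b).1 b.2).1)⟩⟩
  · by_contra h
    rw [Nat.not_odd_iff_even, even_iff_two_dvd] at h
    haveI : Fact (Nat.Prime 2) := ⟨Nat.prime_two⟩
    obtain ⟨w, hw⟩ := exists_prime_orderOf_dvd_card' 2 h
    have h1 : w ^ 2 = 1 := by rw [← hw, pow_orderOf_eq_one]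
    have h2 : (w : G) = 1 := hodd w (by rw [← Subgroup.coe_pow, h1, Subgroup.coe_one]) ((hA w).1 w.2).2
    have h3 : w = 1 := Subtype.ext h2
    rw [h3, orderOf_one] at hw
    exact absurd hw (by norm_num)
  · rw [eq_bot_iff]
    rintro w ⟨h1, h2⟩
    exact Subgroup.mem_bot.2 (hodd w (hE1 w h1).2 ((hA w).1 h2).2)
  · rw [eq_bot_iff]
    rintro g ⟨⟨q, hq⟩, h2⟩
    have h2 : g ∈ E ⊔ A := h2
    have hgC : g ∈ C := by
      have : E ⊔ A ≤ C := sup_le (fun e he => (hE1 e he).1) (fun a ha => ((hA a).1 ha).1)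
      exact this h2
    by_contra hg1
    have hg1 : g ≠ 1 := fun h => hg1 (Subgroup.mem_bot.2 h)
    have hq1 : q ≠ 1 := by
      intro h
      rw [h, map_one] at hq
      exact hg1 hq.symm
    rcases hQ q hq1 with h | h
    · have hgc : g = c := by rw [← hq, h, hfc]
      rw [hgc, Subgroup.mem_sup_of_normal_right] at h2
      obtain ⟨e, he, a, ha, hea⟩ := h2
      have h3 : Commute e a := hCab e (hE1 e he).1 a ((hA a).1 ha).1
      have h5 : a ^ 2 = 1 := by
        have h6 : (e * a) ^ 2 = 1 := by rw [hea, pow_two]; exact hcc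
        rw [h3.mul_pow, (hE1 e he).2, one_mul] at h6
        exact h6
      have h6 := hodd a h5 ((hA a).1 ha).2
      rw [h6, mul_one] at hea
      exact hcE (hea ▸ he)
    · have h3 : g ^ 2 = c := by rw [← hq, ← map_pow, h, hfc]
      have h5 : g ^ 4 = 1 := by
        rw [show (4 : ℕ) = 2 * 2 by norm_num, pow_mul, h3, pow_two]; exact hcc
      exact hc1 (by rw [← h3]; exact h4 g hgC h5)
  · rw [eq_top_iff]
    intro g _
    obtain ⟨q, z, hq, hz, hgz⟩ := hfac g
    have hqQ : q ∈ f.range := by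
      rcases hq with h | h | h | h
      · rw [h]; exact one_mem _
      · rw [h]; exact hxQ
      · rw [h]; exact hyQ
      · rw [h]; exact mul_mem hxQ hyQ
    rw [hgz]
    refine mul_mem (Subgroup.mem_sup_left hqQ) ?_
    have hzm2 : (z ^ m) ^ 2 = 1 := by
      apply h4' k (z ^ m) (pow_mem hz m)
      rw [← pow_mul, mul_comm m, ← hkm, pow_card_eq_one']
    have h1 : z ^ m ∈ f.range ⊔ (E ⊔ A) := by
      have h2 := hOm (z ^ m) (pow_mem hz m) hzm2
      have h3 : E ⊔ Subgroup.zpowers c ≤ f.range ⊔ (E ⊔ A) := by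
        apply sup_le
        · exact le_trans le_sup_left le_sup_right
        · rw [Subgroup.zpowers_le]
          exact Subgroup.mem_sup_left ⟨_, hfc⟩
      exact h3 h2
    have h2 : z ^ 2 ∈ f.range ⊔ (E ⊔ A) := by
      apply Subgroup.mem_sup_right
      apply Subgroup.mem_sup_right
      refine (hA _).2 ⟨pow_mem hz 2, ?_⟩
      rw [← pow_mul, mul_comm, pow_mul]
      exact hzm2
    obtain ⟨t, ht⟩ := hm
    have h3 : z = z ^ m * ((z ^ 2) ^ t)⁻¹ := by
      rw [ht, pow_succ', ← pow_mul]; group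
    rw [h3]
    exact mul_mem h1 (inv_mem (pow_mem h2 t))


/-- A finite non-abelian group in which every subgroup is normal is the internal direct product of a subgroup isomorphic to the quaternion group of order `8`, an elementary abelian `2`-subgroup and an abelian subgroup of odd order. -/
theorem result {G : Type*} [Group G] [Finite G] (hna : ¬ IsMulCommutative G) (hn : ∀ H : Subgroup G, H.Normal) : ∃ Q E A : Subgroup G, Nonempty (Q ≃* QuaternionGroup 2) ∧ Cfsg.IsElementaryAbelian 2 E ∧ IsMulCommutative A ∧ Odd (Nat.card A) ∧ E ⊓ A = ⊥ ∧ Q ⊓ (E ⊔ A) = ⊥ ∧ Q ⊔ (E ⊔ A) = ⊤ := by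
  apply aux_main _ hn
  by_contra hh
  push Not at hh
  exact hna ⟨⟨fun a b => hh a b⟩⟩

end Cfsg.Agent.S4211
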