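import Cfsg.Statements.S4213
import Mathlib
import Cfsg.Agent.Lib.H3Frob
import Cfsg.Agent.Lib.SZ
import Cfsg.Agent.Lib.Core2

set_option autoImplicit false
open Cfsg

set_option linter.style.haveILetI false
namespace Cfsg.Agent.S4213

universe u
open Subgroup in
theorem card_preimage {G : Type*} [Group G] [Finite G] (A : Subgroup G) [A.Normal] (P : G ⧸ A → Prop) :
    Nat.card {x : G // P (QuotientGroup.mk' A x)} = Nat.card {y : G ⧸ A // P y} * Nat.card A := by
  classical
  rw [← Nat.card_prod]
  have hout : ∀ c : G ⧸ A, (QuotientGroup.mk' A) c.out = c := fun c => QuotientGroup.out_eq' c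
  refine Nat.card_congr ⟨fun x => ⟨⟨QuotientGroup.mk' A x.1, x.2⟩, ⟨(QuotientGroup.mk' A x.1).out⁻¹ * x.1, ?_⟩⟩,
    fun w => ⟨w.1.1.out * w.2.1, ?_⟩, ?_, ?_⟩
  · exact QuotientGroup.eq.1 (hout (QuotientGroup.mk' A x.1))
  · rw [map_mul, hout, (CfsgLib.Core2.mk_eq_one_iff A _).2 w.2.2, mul_one]; exact w.1.2
  · intro x; apply Subtype.ext; exact mul_inv_cancel_left _ _
  · rintro ⟨⟨c, hc⟩, ⟨a, ha⟩⟩
    have h1 : QuotientGroup.mk' A (c.out * a) = c := by
      rw [map_mul, hout, (CfsgLib.Core2.mk_eq_one_iff A _).2 ha, mul_one]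
    apply Prod.ext
    · exact Subtype.ext h1
    · apply Subtype.ext
      change (QuotientGroup.mk' A (c.out * a)).out⁻¹ * (c.out * a) = a
      rw [h1, inv_mul_cancel_left]

open Subgroup in
theorem eq_of_sub {X : Type*} [Finite X] (P Q : X → Prop) (h : ∀ x, P x → Q x) (hc : Nat.card {x // Q x} ≤ Nat.card {x // P x}) :
    ∀ x, Q x → P x := by
  classical
  let ι : {x // P x} → {x // Q x} := fun x => ⟨x.1, h x.1 x.2⟩
  have hι : Function.Injective ι := fun a b hab => Subtype.ext (congrArg (fun t : {x // Q x} => t.1) hab)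
  have hb := Function.Injective.bijective_of_nat_card_le hι hc
  intro x hx
  obtain ⟨y, hy⟩ := hb.2 ⟨x, hx⟩
  have : y.1 = x := congrArg (fun t : {x // Q x} => t.1) hy
  rw [← this]; exact y.2

open Subgroup in
theorem main (k : ℕ) : ∀ {G : Type u} [Group G] [Finite G], Nat.card G ≤ k → Group.IsSolvable G → ∀ n : ℕ, n ∣ Nat.card G →
    Nat.card {x : G // x ^ n = 1} = n → ∃ H : Subgroup G, (H : Set G) = {x : G | x ^ n = 1} := by
  induction k with
  | zero => intro G _ _ h; exact absurd h (by have := Nat.card_pos (α := G); omega)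
  | succ k ih =>
    intro G _ _ hk hs n hn hcount
    have hn0 : 0 < n := Nat.pos_of_dvd_of_pos hn Nat.card_pos
    by_cases htriv : (⊤ : Subgroup G) = ⊥
    · refine ⟨⊥, ?_⟩
      ext x
      have : x = 1 := by
        have := mem_top x
        rw [htriv, mem_bot] at this
        exact this
      simp [this]
    have hsT : Group.IsSolvable (⊤ : Subgroup G) := by infer_instance
    obtain ⟨A, hAn, -, hAb, -, hAc, p, hp, hAp⟩ := CfsgLib.SZ.exists_minimal_normal_le (⊤ : Subgroup G) hsT htriv
    haveI := Fact.mk hp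
    have hAcard1 : Nat.card A ≠ 1 := fun h => hAb (card_eq_one.1 h)
    have hApg : IsPGroup p A := fun x => ⟨1, Subtype.ext (by rw [pow_one]; exact hAp x x.2)⟩
    obtain ⟨j, hj⟩ := IsPGroup.iff_card.1 hApg
    have hj0 : j ≠ 0 := by rintro rfl; rw [pow_zero] at hj; exact hAcard1 hj
    have hcard := A.card_eq_card_quotient_mul_card_subgroup
    have hQlt : Nat.card (G ⧸ A) < Nat.card G := by
      have h2 : 1 < Nat.card A := by
        have := Nat.card_pos (α := A); omega
      have h3 : 0 < Nat.card (G ⧸ A) := Nat.card_pos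
      nlinarith
    have hsQ : Group.IsSolvable (G ⧸ A) := Group.isSolvable_of_surjective (QuotientGroup.mk'_surjective A)
    have hAne : ∀ x : G, (QuotientGroup.mk' A x) = 1 → x ^ p = 1 := fun x hx => hAp x ((CfsgLib.Core2.mk_eq_one_iff A x).1 hx)
    have hfr : ∀ m, m ∣ Nat.card (G ⧸ A) → m ∣ Nat.card {y : G ⧸ A // y ^ m = 1} := by
      intro m hm
      have h := CfsgLib.H3Frob.frob_central (Subgroup.one_mem (Subgroup.center (G ⧸ A))) m
      rwa [Nat.gcd_eq_left hm] at h
    have hpos : ∀ m, 0 < Nat.card {y : G ⧸ A // y ^ m = 1} := by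
      intro m
      haveI : Nonempty {y : G ⧸ A // y ^ m = 1} := ⟨1, one_pow m⟩
      exact Nat.card_pos
    by_cases hpn : p ∣ n
    · by_cases hAn' : Nat.card A ∣ n
      · obtain ⟨n', hn'⟩ := hAn'
        have hn'd : n' ∣ Nat.card (G ⧸ A) := by
          rw [hn', hcard, mul_comm (Nat.card (G ⧸ A))] at hn
          exact Nat.dvd_of_mul_dvd_mul_left Nat.card_pos hn
        have h1 : ∀ x : G, (QuotientGroup.mk' A x) ^ n' = 1 → x ^ n = 1 := by
          intro x hx
          rw [← map_pow] at hx
          have h2 := (CfsgLib.Core2.mk_eq_one_iff A _).1 hx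
          rw [hn', mul_comm, pow_mul]
          have h3 : (⟨x ^ n', h2⟩ : A) ^ Nat.card A = 1 := pow_card_eq_one'
          exact congrArg Subtype.val h3
        have h2 := card_preimage A (fun y => y ^ n' = 1)
        obtain ⟨t, ht⟩ := hfr n' hn'd
        have hcQ : Nat.card {y : G ⧸ A // y ^ n' = 1} = n' := by
          have h3 : Nat.card {x : G // (QuotientGroup.mk' A x) ^ n' = 1} ≤ Nat.card {x : G // x ^ n = 1} :=
            Nat.card_le_card_of_injective (fun x => ⟨x.1, h1 x.1 x.2⟩) (fun a b hab => Subtype.ext (congrArg (fun t : {x : G // x ^ n = 1} => t.1) hab))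
          have h4 : 0 < Nat.card A := Nat.card_pos
          rw [h2, hcount] at h3
          have h5 : Nat.card {y : G ⧸ A // y ^ n' = 1} ≤ n' := by
            apply Nat.le_of_mul_le_mul_right (c := Nat.card A) _ h4
            calc _ ≤ n := h3
              _ = n' * Nat.card A := by rw [hn', mul_comm]
          exact le_antisymm h5 (Nat.le_of_dvd (hpos n') (hfr n' hn'd))
        obtain ⟨H, hH⟩ := ih (by omega) hsQ n' hn'd hcQ
        refine ⟨H.comap (QuotientGroup.mk' A), ?_⟩
        have h6 := eq_of_sub (fun x : G => (QuotientGroup.mk' A x) ^ n' = 1) (fun x => x ^ n = 1) h1 (by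
          rw [h2, hcount, hcQ, hn', mul_comm])
        ext x
        rw [SetLike.mem_coe, mem_comap, ← SetLike.mem_coe, hH]
        exact ⟨h1 x, h6 x⟩
      · exfalso
        obtain ⟨a, m, hm, hnm⟩ := Nat.exists_eq_pow_mul_and_not_dvd hn0.ne' p hp.ne_one
        have ha : a ≠ 0 := by
          rintro rfl
          rw [pow_zero, one_mul] at hnm
          exact hm (hnm ▸ hpn)
        have hmd : m ∣ Nat.card (G ⧸ A) := by
          have h1 : m ∣ Nat.card (G ⧸ A) * Nat.card A := by
            rw [← hcard]; exact (hnm ▸ dvd_mul_left _ _ : m ∣ n).trans hn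
          refine Nat.Coprime.dvd_of_dvd_mul_right ?_ h1
          rw [hj]
          exact ((Nat.Prime.coprime_iff_not_dvd hp).2 hm).symm.pow_right _
        have h1 : ∀ x : G, (QuotientGroup.mk' A x) ^ m = 1 → x ^ n = 1 := by
          intro x hx
          rw [← map_pow] at hx
          have h2 := hAne _ hx
          rw [← pow_mul] at h2
          obtain ⟨i, rfl⟩ := Nat.exists_eq_succ_of_ne_zero ha
          rw [hnm, show p ^ (i.succ) * m = m * p * p ^ i by rw [Nat.succ_eq_add_one, pow_succ]; ring, pow_mul, h2, one_pow]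
        have h2 := card_preimage A (fun y => y ^ m = 1)
        have h3 : Nat.card {x : G // (QuotientGroup.mk' A x) ^ m = 1} ≤ Nat.card {x : G // x ^ n = 1} :=
            Nat.card_le_card_of_injective (fun x => ⟨x.1, h1 x.1 x.2⟩) (fun a b hab => Subtype.ext (congrArg (fun t : {x : G // x ^ n = 1} => t.1) hab))
        rw [h2, hcount] at h3
        have h4 := Nat.le_of_dvd (hpos m) (hfr m hmd)
        have hm0 : 0 < m := Nat.pos_of_ne_zero (fun h0 => hm (h0 ▸ dvd_zero p))
        have h5 : m * Nat.card A ≤ m * p ^ a := by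
          calc m * Nat.card A ≤ Nat.card {y : G ⧸ A // y ^ m = 1} * Nat.card A := Nat.mul_le_mul_right _ h4
            _ ≤ n := h3
            _ = m * p ^ a := by rw [hnm, mul_comm]
        have h6 := Nat.le_of_mul_le_mul_left h5 hm0
        rw [hj] at h6
        have h7 := (Nat.pow_le_pow_iff_right hp.one_lt).1 h6
        apply hAn'
        rw [hj, hnm]
        exact (pow_dvd_pow p h7).trans (dvd_mul_right _ _)
    · have hcop : n.Coprime p := ((Nat.Prime.coprime_iff_not_dvd hp).2 hpn).symm
      have hnd : n ∣ Nat.card (G ⧸ A) := by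
        rw [hcard, hj] at hn
        exact (hcop.pow_right j).dvd_of_dvd_mul_right hn
      obtain ⟨t, ht1, ht2⟩ := Nat.chineseRemainder hcop 1 0
      have hlift : Function.Surjective (fun x : {x : G // x ^ n = 1} => (⟨QuotientGroup.mk' A x.1, by rw [← map_pow, x.2, map_one]⟩ : {y : G ⧸ A // y ^ n = 1})) := by
        rintro ⟨y, hy⟩
        obtain ⟨x, rfl⟩ := QuotientGroup.mk'_surjective A y
        have h2 : (x ^ n) ^ p = 1 := hAne _ (by rw [map_pow]; exact hy)
        refine ⟨⟨x ^ t, ?_⟩, ?_⟩
        · obtain ⟨s, hs'⟩ := (Nat.modEq_zero_iff_dvd).1 ht2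
          rw [hs', ← pow_mul, show p * s * n = n * p * s by ring, pow_mul, pow_mul, h2, one_pow]
        · apply Subtype.ext
          change QuotientGroup.mk' A (x ^ t) = QuotientGroup.mk' A x
          rw [map_pow]
          conv_rhs => rw [← pow_one (QuotientGroup.mk' A x)]
          exact pow_eq_pow_iff_modEq.2 (ht1.of_dvd (orderOf_dvd_of_pow_eq_one hy))
      have hcQ : Nat.card {y : G ⧸ A // y ^ n = 1} = n := by
        refine le_antisymm ?_ (Nat.le_of_dvd (hpos n) (hfr n hnd))
        have := Nat.card_le_card_of_surjective _ hlift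
        rwa [hcount] at this
      obtain ⟨H, hH⟩ := ih (by omega) hsQ n hnd hcQ
      have hHc : Nat.card H = n := by
        rw [← hcQ]
        exact Nat.card_congr (Equiv.subtypeEquivRight fun x => by rw [← SetLike.mem_coe, hH]; rfl)
      set L := H.comap (QuotientGroup.mk' A) with hL
      have hAL : A ≤ L := by
        intro x hx
        rw [hL, mem_comap, (CfsgLib.Core2.mk_eq_one_iff A x).2 hx]
        exact H.one_mem
      have hLc : Nat.card L = n * Nat.card A := by
        have h1 := card_preimage A (fun y => y ∈ H)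
        have h2 : Nat.card {y : G ⧸ A // y ∈ H} = n := hHc
        rw [h2] at h1
        exact h1
      have hAc' : Nat.card (A.subgroupOf L) = Nat.card A := CfsgLib.SZ.card_subgroupOf hAL
      have hidx : (A.subgroupOf L).index = n := by
        have h1 := (A.subgroupOf L).card_mul_index
        rw [hAc', hLc, mul_comm n] at h1
        exact Nat.eq_of_mul_eq_mul_left Nat.card_pos h1
      obtain ⟨K, hK⟩ := exists_right_complement'_of_coprime (N := A.subgroupOf L) (by
        rw [hAc', hidx, hj]; exact (hcop.pow_right j).symm)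
      have hKc : Nat.card K = n := by
        have h1 := hK.card_mul
        rw [hAc', hLc, mul_comm n] at h1
        exact Nat.eq_of_mul_eq_mul_left Nat.card_pos h1
      refine ⟨K.map L.subtype, ?_⟩
      have hKm : Nat.card (K.map L.subtype) = n := by
        rw [← hKc]
        exact (Nat.card_congr (K.equivMapOfInjective L.subtype L.subtype_injective).toEquiv).symm
      have h1 : ∀ x : G, x ∈ K.map L.subtype → x ^ n = 1 := by
        intro x hx
        have h3 : (⟨x, hx⟩ : K.map L.subtype) ^ Nat.card (K.map L.subtype) = 1 := pow_card_eq_one'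
        rw [hKm] at h3
        exact congrArg Subtype.val h3
      have h6 := eq_of_sub (fun x : G => x ∈ K.map L.subtype) (fun x => x ^ n = 1) h1 (by
        rw [hcount]; exact hKm.ge)
      ext x
      exact ⟨h1 x, h6 x⟩


/-- If `G` is a finite solvable group and `n` divides the order of `G` and exactly `n` elements `x` of `G` satisfy `x^n = 1`, then these elements form a normal subgroup. -/
theorem result {G : Type*} [Group G] [Finite G] [Group.IsSolvable G] (n : ℕ) (hn : n ∣ Nat.card G) (hcount : Nat.card {x : G // x ^ n = 1} = n) : ∃ H : Subgroup G, H.Normal ∧ (H : Set G) = {x : G | x ^ n = 1} := by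
  obtain ⟨H, hH⟩ := main _ le_rfl inferInstance n hn hcount
  refine ⟨H, ⟨fun x hx g => ?_⟩, hH⟩
  rw [← SetLike.mem_coe, hH] at hx ⊢
  change (g * x * g⁻¹) ^ n = 1
  rw [conj_pow, (show x ^ n = 1 from hx), mul_one, mul_inv_cancel]

end Cfsg.Agent.S4213
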