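import Cfsg.Statements.S4216
import Mathlib
import Cfsg.Agent.Lib.SZ
import Cfsg.Agent.Lib.Coprime
import Cfsg.Agent.Lib.Core2

set_option autoImplicit false
open Cfsg

open scoped Pointwise
open scoped commutatorElement
namespace Cfsg.Agent.S4216

open Subgroup
open scoped Pointwise

variable {G : Type*} [Group G] [Finite G] {p : ℕ} [hp : Fact p.Prime]

/-- the Grün subgroup -/
def D (P : Sylow p G) : Subgroup G :=
  ((P : Subgroup G) ⊓ ⁅Subgroup.normalizer ((P : Subgroup G) : Set G), Subgroup.normalizer ((P : Subgroup G) : Set G)⁆) ⊔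
    ⨆ z : G, (P : Subgroup G) ⊓ (⁅(P : Subgroup G), (P : Subgroup G)⁆).map (MulAut.conj z).toMonoidHom

theorem D_norm (P : Sylow p G) {x n : G} (hx : x ∈ (P : Subgroup G)) (hn : n ∈ normalizer ((P : Subgroup G) : Set G)) :
    x⁻¹ * (n * x * n⁻¹) ∈ D P := by
  refine le_sup_left (a := (P : Subgroup G) ⊓ _) ⟨(P : Subgroup G).mul_mem ((P : Subgroup G).inv_mem hx) ((mem_normalizer_iff.1 hn x).1 hx), ?_⟩
  have h0 : x⁻¹ ∈ normalizer ((P : Subgroup G) : Set G) := Subgroup.inv_mem _ (le_normalizer hx)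
  have h1 := commutator_mem_commutator h0 hn
  have h2 : ⁅x⁻¹, n⁆ = x⁻¹ * (n * x * n⁻¹) := by rw [commutatorElement_def]; group
  rwa [h2] at h1

theorem D_pel (P : Sylow p G) {T : Subgroup G} (hT : T ≤ (P : Subgroup G)) {y a : G} (hy : y ∈ T)
    (ha : a ∈ normalizer (T : Set G)) (hap : ∃ k, a ^ p ^ k = 1) : y⁻¹ * (a * y * a⁻¹) ∈ D P := by
  have h1 : IsPGroup p (zpowers a) := by
    obtain ⟨k, hk⟩ := hap
    obtain ⟨j, -, hj⟩ := (Nat.dvd_prime_pow hp.out).1 (orderOf_dvd_of_pow_eq_one hk)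
    exact IsPGroup.of_card (n := j) (by rw [Nat.card_zpowers, hj])
  have h2 : IsPGroup p (zpowers a ⊔ T : Subgroup G) := h1.to_sup_of_normal_right' (P.2.to_le hT) (by rwa [zpowers_le])
  obtain ⟨Q, hQ⟩ := h2.exists_le_sylow
  obtain ⟨z, rfl⟩ := MulAction.exists_smul_eq G P Q
  refine le_sup_right (a := (P : Subgroup G) ⊓ _) (mem_iSup_of_mem z ⟨hT (mul_mem (inv_mem hy) ((mem_normalizer_iff.1 ha y).1 hy)), ?_⟩)
  have h3 : y⁻¹ ∈ MulAut.conj z • (P : Subgroup G) := inv_mem (hQ (le_sup_right (a := zpowers a) hy))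
  have h4 : a ∈ MulAut.conj z • (P : Subgroup G) := hQ (le_sup_left (a := zpowers a) (mem_zpowers a))
  have h5 := commutator_mem_commutator h3 h4
  have h6 : ⁅MulAut.conj z • (P : Subgroup G), MulAut.conj z • (P : Subgroup G)⁆ =
      (⁅(P : Subgroup G), (P : Subgroup G)⁆).map (MulAut.conj z).toMonoidHom := (map_commutator _ _ _).symm
  rw [h6] at h5
  have h7 : ⁅y⁻¹, a⁆ = y⁻¹ * (a * y * a⁻¹) := by rw [commutatorElement_def]; group
  rwa [h7] at h5

theorem aut (P : Sylow p G) {T : Subgroup G} (hT : T ≤ (P : Subgroup G)) (R : Sylow p (normalizer (T : Set G)))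
    (hb : ∀ b ∈ normalizer (R : Set (normalizer (T : Set G))), ∀ y ∈ T, y⁻¹ * ((b : G) * y * (b : G)⁻¹) ∈ D P) :
    ∀ n ∈ normalizer (T : Set G), ∀ y ∈ T, y⁻¹ * (n * y * n⁻¹) ∈ D P := by
  let N := normalizer (T : Set G)
  let W : Subgroup N :=
    { carrier := {a | ∀ y ∈ T, y⁻¹ * ((a : G) * y * (a : G)⁻¹) ∈ D P}
      mul_mem' := by
        intro a b ha hb' y hy
        have h1 : (b : G) * y * (b : G)⁻¹ ∈ T := (mem_normalizer_iff.1 b.2 y).1 hy
        have h2 := mul_mem (hb' y hy) (ha _ h1)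
        have h3 : y⁻¹ * ((b : G) * y * (b : G)⁻¹) * (((b : G) * y * (b : G)⁻¹)⁻¹ * ((a : G) * ((b : G) * y * (b : G)⁻¹) * (a : G)⁻¹)) =
            y⁻¹ * (((a * b : N) : G) * y * ((a * b : N) : G)⁻¹) := by
          rw [Subgroup.coe_mul]; group
        rwa [h3] at h2
      one_mem' := by
        intro y hy
        have : y⁻¹ * (((1 : N) : G) * y * ((1 : N) : G)⁻¹) = 1 := by rw [Subgroup.coe_one]; group
        rw [this]; exact one_mem _
      inv_mem' := by
        intro a ha y hy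
        have h1 : (a : G)⁻¹ * y * (a : G)⁻¹⁻¹ ∈ T := (mem_normalizer_iff.1 (inv_mem a.2) y).1 hy
        have h2 := inv_mem (ha _ h1)
        have h3 : (((a : G)⁻¹ * y * (a : G)⁻¹⁻¹)⁻¹ * ((a : G) * ((a : G)⁻¹ * y * (a : G)⁻¹⁻¹) * (a : G)⁻¹))⁻¹ =
            y⁻¹ * (((a⁻¹ : N) : G) * y * ((a⁻¹ : N) : G)⁻¹) := by
          rw [Subgroup.coe_inv]; group
        rwa [h3] at h2 }
  let M : Subgroup N := closure {a | ∃ k, a ^ p ^ k = 1}
  have hMn : M.Normal := by
    refine ⟨fun x hx g => ?_⟩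
    have h1 : M.map (MulAut.conj g).toMonoidHom ≤ M := by
      rw [MonoidHom.map_closure, closure_le]
      rintro _ ⟨a, ⟨k, hk⟩, rfl⟩
      refine subset_closure ⟨k, ?_⟩
      change (g * a * g⁻¹) ^ p ^ k = 1
      rw [conj_pow, hk, mul_one, mul_inv_cancel]
    exact h1 (mem_map_of_mem _ hx)
  have hRM : (R : Subgroup N) ≤ M := by
    intro x hx
    obtain ⟨k, hk⟩ := R.2 ⟨x, hx⟩
    exact subset_closure ⟨k, congrArg Subtype.val hk⟩
  have h1 := Sylow.normalizer_sup_eq_top' R hRM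
  have h2 : M ≤ W := by
    rw [closure_le]
    rintro a ⟨k, hk⟩ y hy
    exact D_pel P hT hy a.2 ⟨k, by rw [← Subgroup.coe_pow, hk, Subgroup.coe_one]⟩
  have h3 : (⊤ : Subgroup N) ≤ W := by
    rw [← h1]
    exact sup_le (fun b hb' => hb b hb') h2
  intro n hn y hy
  exact h3 (mem_top (⟨n, hn⟩ : N)) y hy

theorem main (P : Sylow p G) (k : ℕ) : ∀ T : Subgroup G, T ≤ (P : Subgroup G) → Nat.card (P : Subgroup G) ≤ Nat.card T + k →
    ∀ g : G, (∀ x ∈ T, g * x * g⁻¹ ∈ (P : Subgroup G)) → ∀ x ∈ T, x⁻¹ * (g * x * g⁻¹) ∈ D P := by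
  induction k with
  | zero =>
    intro T hT hk g hg x hx
    have hTP : T = P := eq_of_le_of_card_ge hT (by omega)
    subst hTP
    refine D_norm P hx (mem_normalizer_fintype fun n hn => hg n hn)
  | succ k ih =>
    intro T hT hk g hg x hx
    by_cases hTP : T = P
    · subst hTP
      exact D_norm P hx (mem_normalizer_fintype fun n hn => hg n hn)
    have hlt : T < (P : Subgroup G) := lt_of_le_of_ne hT hTP
    -- choose a good conjugate
    obtain ⟨z, hz1, hz2⟩ : ∃ z : G, MulAut.conj z • T ≤ (P : Subgroup G) ∧ ∀ w : G, MulAut.conj w • T ≤ (P : Subgroup G) →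
        Nat.card ((P : Subgroup G) ⊓ normalizer ((MulAut.conj w • T : Subgroup G) : Set G) : Subgroup G) ≤
          Nat.card ((P : Subgroup G) ⊓ normalizer ((MulAut.conj z • T : Subgroup G) : Set G) : Subgroup G) := by
      obtain ⟨z, hz1, hz2⟩ := (Set.toFinite {w : G | MulAut.conj w • T ≤ (P : Subgroup G)}).exists_maximalFor
        (fun w => Nat.card ((P : Subgroup G) ⊓ normalizer ((MulAut.conj w • T : Subgroup G) : Set G) : Subgroup G))
        _ ⟨1, by simpa using hT⟩
      refine ⟨z, hz1, fun w hw => ?_⟩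
      by_contra hcon
      push Not at hcon
      exact absurd (hz2 hw hcon.le) (not_le.2 hcon)
    set T' := MulAut.conj z • T with hT'
    have hT'c : Nat.card T' = Nat.card T := CfsgLib.SZ.card_conj z T
    set N := normalizer (T' : Set G) with hN
    have hgt : ∀ U : Subgroup G, U ≤ (P : Subgroup G) → Nat.card U = Nat.card T →
        Nat.card U < Nat.card ((P : Subgroup G) ⊓ normalizer (U : Set G) : Subgroup G) := by
      intro U hU hUc
      have hUlt : U < (P : Subgroup G) := by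
        refine lt_of_le_of_ne hU fun he => ?_
        have h1 := Set.Finite.card_lt_card (Set.toFinite _) hlt
        have h2 : Nat.card T < Nat.card (P : Subgroup G) := h1
        rw [← he, hUc] at h2
        exact lt_irrefl _ h2
      exact Set.Finite.card_lt_card (Set.toFinite _) (CfsgLib.Coprime.exists_normalizer_gt P.2 hUlt)
    -- a Sylow subgroup of N inside P
    have hQp : IsPGroup p (((P : Subgroup G) ⊓ N).subgroupOf N) :=
      (P.2.to_le inf_le_left).comap_of_injective N.subtype N.subtype_injective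
    obtain ⟨R, hR⟩ := hQp.exists_le_sylow
    have hRG : (R : Subgroup N).map N.subtype ≤ (P : Subgroup G) := by
      have hRp : IsPGroup p ((R : Subgroup N).map N.subtype) := R.2.map _
      obtain ⟨S, hS⟩ := hRp.exists_le_sylow
      obtain ⟨y, hy⟩ := MulAction.exists_smul_eq G S P
      have hyR : MulAut.conj y • ((R : Subgroup N).map N.subtype) ≤ (P : Subgroup G) := by
        rw [← hy]
        intro x hx
        rw [CfsgLib.SZ.mem_conj_iff] at hx
        exact (CfsgLib.SZ.mem_conj_iff (H := (S : Subgroup G))).2 (hS hx)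
      have hQR : (P : Subgroup G) ⊓ N ≤ (R : Subgroup N).map N.subtype := by
        intro x hx
        exact ⟨⟨x, hx.2⟩, hR (mem_subgroupOf.2 hx), rfl⟩
      have hTR : T' ≤ (R : Subgroup N).map N.subtype := (le_inf hz1 le_normalizer).trans hQR
      have hyT : MulAut.conj (y * z) • T = MulAut.conj y • T' := by rw [hT', smul_smul, map_mul]
      have h1 := hz2 (y * z) (by
        rw [hyT]
        intro x hx
        rw [CfsgLib.SZ.mem_conj_iff] at hx
        exact hyR (CfsgLib.SZ.mem_conj_iff.2 (hTR hx)))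
      rw [hyT] at h1
      have h2 : MulAut.conj y • ((R : Subgroup N).map N.subtype) ≤ (P : Subgroup G) ⊓ normalizer ((MulAut.conj y • T' : Subgroup G) : Set G) := by
        refine le_inf hyR ?_
        intro w hw
        rw [CfsgLib.SZ.mem_conj_iff] at hw
        obtain ⟨r, -, hr⟩ := hw
        have hrN : y⁻¹ * w * y ∈ N := hr ▸ r.2
        refine mem_normalizer_fintype fun n hn => ?_
        rw [SetLike.mem_coe, CfsgLib.SZ.mem_conj_iff] at hn ⊢
        have h3 := (mem_normalizer_iff.1 hrN _).1 hn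
        have h4 : y⁻¹ * w * y * (y⁻¹ * n * y) * (y⁻¹ * w * y)⁻¹ = y⁻¹ * (w * n * w⁻¹) * y := by group
        rwa [h4] at h3
      have h3 := card_le_of_le h2
      rw [CfsgLib.SZ.card_conj] at h3
      have h4 := eq_of_le_of_card_ge hQR (h3.trans h1)
      rw [← h4]; exact inf_le_left
    have hTR : T' ≤ (R : Subgroup N).map N.subtype := by
      intro x hx
      exact ⟨⟨x, le_normalizer hx⟩, hR (mem_subgroupOf.2 ⟨hz1 hx, le_normalizer hx⟩), rfl⟩
    have hRc : Nat.card T' < Nat.card ((R : Subgroup N).map N.subtype) := by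
      refine lt_of_lt_of_le (hgt T' hz1 hT'c) (card_le_of_le ?_)
      intro x hx
      exact ⟨⟨x, hx.2⟩, hR (mem_subgroupOf.2 hx), rfl⟩
    have haut := aut P hz1 R (by
      intro b hb y hy
      refine ih ((R : Subgroup N).map N.subtype) hRG (by omega) (b : G) ?_ y (hTR hy)
      rintro _ ⟨r, hr, rfl⟩
      exact hRG ⟨b * r * b⁻¹, (mem_normalizer_iff.1 hb r).1 hr, rfl⟩)
    have star : ∀ (U : Subgroup G), U ≤ (P : Subgroup G) → ∀ u : G, MulAut.conj u • U = T' → ∀ x ∈ U, x⁻¹ * (u * x * u⁻¹) ∈ D P := by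
      intro U hU u hu x hx
      have hUc : Nat.card U = Nat.card T := by rw [← hT'c, ← hu, CfsgLib.SZ.card_conj]
      set QU := (P : Subgroup G) ⊓ normalizer (U : Set G) with hQU
      have hQUN : MulAut.conj u • QU ≤ N := by
        intro w hw
        rw [CfsgLib.SZ.mem_conj_iff] at hw
        refine mem_normalizer_fintype fun n hn => ?_
        rw [SetLike.mem_coe, ← hu, CfsgLib.SZ.mem_conj_iff] at hn ⊢
        have h3 := (mem_normalizer_iff.1 hw.2 _).1 hn
        have h4 : u⁻¹ * w * u * (u⁻¹ * n * u) * (u⁻¹ * w * u)⁻¹ = u⁻¹ * (w * n * w⁻¹) * u := by group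
        rwa [h4] at h3
      have hQp : IsPGroup p (MulAut.conj u • QU : Subgroup G) := (P.2.to_le (inf_le_left : QU ≤ _)).map _
      obtain ⟨R₂, hR₂⟩ := (hQp.comap_of_injective N.subtype N.subtype_injective).exists_le_sylow
      obtain ⟨n, hn⟩ := MulAction.exists_smul_eq N R₂ R
      have h1 : ∀ q ∈ QU, ((n : G) * u) * q * ((n : G) * u)⁻¹ ∈ (P : Subgroup G) := by
        intro q hq
        have h2 : u * q * u⁻¹ ∈ MulAut.conj u • QU := CfsgLib.SZ.conj_mem_conj hq
        have h3 : (⟨u * q * u⁻¹, hQUN h2⟩ : N) ∈ (R₂ : Subgroup N) := hR₂ (mem_comap.2 h2)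
        have h4 : n * ⟨u * q * u⁻¹, hQUN h2⟩ * n⁻¹ ∈ (R : Subgroup N) := by
          rw [← hn]
          exact CfsgLib.SZ.conj_mem_conj h3
        have h5 := hRG ⟨_, h4, rfl⟩
        have h6 : N.subtype (n * ⟨u * q * u⁻¹, hQUN h2⟩ * n⁻¹) = ((n : G) * u) * q * ((n : G) * u)⁻¹ := by
          change (n : G) * (u * q * u⁻¹) * (n : G)⁻¹ = _
          group
        rwa [h6] at h5
      have h7 := ih QU inf_le_left (by have : Nat.card U < Nat.card QU := hgt U hU hUc; omega) ((n : G) * u) h1 x ⟨hU hx, le_normalizer hx⟩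
      have hy : u * x * u⁻¹ ∈ T' := hu ▸ CfsgLib.SZ.conj_mem_conj hx
      have h8 := haut n n.2 _ hy
      have h9 := mul_mem h7 (inv_mem h8)
      have h10 : x⁻¹ * ((n : G) * u * x * ((n : G) * u)⁻¹) * ((u * x * u⁻¹)⁻¹ * ((n : G) * (u * x * u⁻¹) * (n : G)⁻¹))⁻¹ =
          x⁻¹ * (u * x * u⁻¹) := by group
      rwa [h10] at h9
    have h1 := star T hT z rfl x hx
    have h2 := star (MulAut.conj g • T) (by
      intro w hw
      rw [CfsgLib.SZ.mem_conj_iff] at hw
      have := hg _ hw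
      have h3 : g * (g⁻¹ * w * g) * g⁻¹ = w := by group
      rwa [h3] at this) (z * g⁻¹) (by rw [smul_smul, ← map_mul, inv_mul_cancel_right]) (g * x * g⁻¹) (CfsgLib.SZ.conj_mem_conj hx)
    have h3 := mul_mem h1 (inv_mem h2)
    have h4 : x⁻¹ * (z * x * z⁻¹) * ((g * x * g⁻¹)⁻¹ * (z * g⁻¹ * (g * x * g⁻¹) * (z * g⁻¹)⁻¹))⁻¹ = x⁻¹ * (g * x * g⁻¹) := by group
    rwa [h4] at h3


/-- Grün's first Theorem: if `P` is a Sylow `p`-subgroup of the finite group `G`, then `P ∩ G'` is the subgroup generated by `P ∩ N_G(P)'` together with the subgroups `P ∩ z P' z⁻¹` for all `z ∈ G`, where `'` denotes the derived subgroup and `N_G(P)` the normalizer of `P`. -/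
theorem result {G : Type*} [Group G] [Finite G] {p : ℕ} [Fact p.Prime] (P : Sylow p G) : (P : Subgroup G) ⊓ commutator G = ((P : Subgroup G) ⊓ ⁅Subgroup.normalizer ((P : Subgroup G) : Set G), Subgroup.normalizer ((P : Subgroup G) : Set G)⁆) ⊔ ⨆ z : G, (P : Subgroup G) ⊓ (⁅(P : Subgroup G), (P : Subgroup G)⁆).map (MulAut.conj z).toMonoidHom := by
  apply le_antisymm
  · rw [inf_comm, Subgroup.commutator_inf_eq_focalSubgroup, Subgroup.focalSubgroup_def, Subgroup.closure_le]
    rintro g ⟨hg, x, hx, u, rfl⟩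
    have h1 : u * x⁻¹ * u⁻¹ ∈ (P : Subgroup G) := by
      have := mul_mem (inv_mem hx) hg
      simpa [commutatorElement_def, mul_assoc] using this
    have h2 := main P _ (Subgroup.zpowers x⁻¹) (by rw [Subgroup.zpowers_le]; exact inv_mem hx) (Nat.le_add_left _ _) u (by
      rintro _ ⟨i, rfl⟩
      change u * (x⁻¹) ^ i * u⁻¹ ∈ _
      rw [← conj_zpow]
      exact zpow_mem h1 i) x⁻¹ (Subgroup.mem_zpowers _)
    have h3 : x⁻¹⁻¹ * (u * x⁻¹ * u⁻¹) = ⁅x, u⁆ := by rw [commutatorElement_def]; group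
    rw [h3] at h2
    exact h2
  · refine sup_le (le_inf inf_le_left (inf_le_right.trans ?_)) (iSup_le fun z => le_inf inf_le_left (inf_le_right.trans ?_))
    · exact Subgroup.commutator_mono le_top le_top
    · rw [Subgroup.map_commutator]
      exact Subgroup.commutator_mono le_top le_top

end Cfsg.Agent.S4216
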