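import Cfsg.Statements.S4217
import Mathlib
import Cfsg.Agent.S0051
import Cfsg.Agent.Lib.SZ
import Cfsg.Agent.Lib.Core2
import Cfsg.Agent.Lib.H3Syl

set_option autoImplicit false
open Cfsg

set_option linter.style.haveILetI false
namespace Cfsg.Agent.S4217

open Subgroup in
theorem step {G : Type*} [Group G] [Finite G] (A : Subgroup G) [A.Normal] (hA : ∀ x ∈ A, ∀ y ∈ A, x * y = y * x) (p : ℕ) (hp : p.Prime)
    (T K : Subgroup G) (h1 : K ⊓ A = ⊥) (h2 : K ⊔ A = T) (h3 : ¬ p ∣ T.index) :
    ∃ L : Subgroup G, L.index = p ^ (Nat.card A).factorization p ∧ ∀ x ∈ L, x ∈ A → (orderOf x).Coprime p := by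
  haveI := Fact.mk hp
  set v := (Nat.card A).factorization p with hv
  set b := Nat.card A / p ^ v with hb
  have hab : p ^ v * b = Nat.card A := Nat.ordProj_mul_ordCompl_eq_self _ _
  have hcopb : b.Coprime p := (Nat.coprime_ordCompl hp Nat.card_pos.ne').symm
  -- the p'-part of A
  let B : Subgroup G :=
    { carrier := {x | x ∈ A ∧ x ^ b = 1}
      mul_mem' := by
        rintro x y ⟨hx1, hx2⟩ ⟨hy1, hy2⟩
        exact ⟨mul_mem hx1 hy1, by rw [(show Commute x y from hA x hx1 y hy1).mul_pow, hx2, hy2, one_mul]⟩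
      one_mem' := ⟨one_mem _, one_pow _⟩
      inv_mem' := by rintro x ⟨hx1, hx2⟩; exact ⟨inv_mem hx1, by rw [inv_pow, hx2, inv_one]⟩ }
  have hBA : B ≤ A := fun x hx => hx.1
  haveI hBn : B.Normal := ⟨fun x hx g => ⟨‹A.Normal›.conj_mem x hx.1 g, by rw [conj_pow, hx.2, mul_one, mul_inv_cancel]⟩⟩
  have hBcop : (Nat.card B).Coprime p := by
    rw [Nat.coprime_comm, Nat.Prime.coprime_iff_not_dvd hp]
    intro hd
    obtain ⟨x, hx⟩ := exists_prime_orderOf_dvd_card' (G := B) p hd
    have h4 : p ∣ b := by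
      rw [← hx, ← orderOf_coe]
      exact orderOf_dvd_of_pow_eq_one x.2.2
    exact hp.one_lt.ne' (Nat.dvd_one.1 (hcopb ▸ Nat.dvd_gcd h4 dvd_rfl))
  set f := QuotientGroup.mk' B with hf
  have hker : ∀ x : G, f x = 1 ↔ x ∈ B := fun x => CfsgLib.Core2.mk_eq_one_iff B x
  haveI : (A.map f).Normal := Subgroup.Normal.map ‹_› f (QuotientGroup.mk'_surjective B)
  have hAp : IsPGroup p (A.map f) := by
    rintro ⟨_, x, hx, rfl⟩
    refine ⟨v, Subtype.ext ?_⟩
    change f x ^ p ^ v = 1
    rw [← map_pow, hker]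
    refine ⟨pow_mem hx _, ?_⟩
    rw [← pow_mul, hab]
    have : (⟨x, hx⟩ : A) ^ Nat.card A = 1 := pow_card_eq_one'
    exact congrArg Subtype.val this
  haveI : IsMulCommutative (A.map f) := ⟨⟨by
    rintro ⟨_, x, hx, rfl⟩ ⟨_, y, hy, rfl⟩
    apply Subtype.ext
    change f x * f y = f y * f x
    rw [← map_mul, hA x hx y hy, map_mul]⟩⟩
  have hAT : A ≤ T := h2 ▸ le_sup_right
  have hidx : (T.map f).index = T.index := CfsgLib.SZ.index_map_mk B T (hBA.trans hAT)
  have hcop : (Nat.card (A.map f)).Coprime (T.map f).index := by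
    obtain ⟨j, hj⟩ := IsPGroup.iff_card.1 hAp
    rw [hj, hidx]
    exact Nat.Coprime.pow_left _ ((Nat.Prime.coprime_iff_not_dvd hp).2 h3)
  obtain ⟨H, hH⟩ := Cfsg.Agent.S0051.result (A.map f) (T.map f) (map_mono hAT) hcop (K.map f)
    (map_mono (h2 ▸ le_sup_left)) (by
      rw [eq_bot_iff]
      rintro _ ⟨⟨x, hx, rfl⟩, ⟨y, hy, hxy⟩⟩
      have h4 : f (y⁻¹ * x) = 1 := by rw [map_mul, map_inv, hxy, inv_mul_cancel]
      have h5 := hBA ((hker _).1 h4)
      have h6 : x ∈ A := by
        have := mul_mem hy h5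
        rwa [mul_inv_cancel_left] at this
      have h7 : x ∈ K ⊓ A := ⟨hx, h6⟩
      rw [h1, mem_bot] at h7
      rw [h7, map_one]; exact one_mem _) (by rw [← Subgroup.map_sup, sup_comm, h2])
  refine ⟨H.comap f, ?_, ?_⟩
  · rw [index_comap_of_surjective _ (QuotientGroup.mk'_surjective B)]
    have h4 := hH.card_mul_card
    have h5 := H.card_mul_index
    have h6 : H.index = Nat.card (A.map f) := by
      rw [← h4, mul_comm (Nat.card (A.map f))] at h5
      exact Nat.eq_of_mul_eq_mul_left Nat.card_pos h5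
    rw [h6]
    obtain ⟨j, hj⟩ := IsPGroup.iff_card.1 hAp
    have h7 : Nat.card (A.map f) * Nat.card B = Nat.card A := by
      have h8 : (A.map f).index = A.index := CfsgLib.SZ.index_map_mk B A hBA
      have h9 := (A.map f).card_mul_index
      have h10 := A.card_mul_index
      rw [B.card_eq_card_quotient_mul_card_subgroup, ← h9, h8] at h10
      have h11 : 0 < A.index := Nat.pos_of_ne_zero index_ne_zero_of_finite
      apply Nat.eq_of_mul_eq_mul_right h11
      rw [h10]; ring
    rw [hj] at h7 ⊢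
    rw [hv, ← h7, Nat.factorization_mul (pow_pos hp.pos _).ne' Nat.card_pos.ne', Finsupp.add_apply,
      Nat.Prime.factorization_pow hp, Finsupp.single_eq_same, Nat.factorization_eq_zero_of_not_dvd, add_zero]
    rw [← Nat.Prime.coprime_iff_not_dvd hp]
    exact hBcop.symm
  · intro x hx hxA
    have h4 : f x ∈ A.map f ⊓ H := ⟨mem_map_of_mem f hxA, hx⟩
    rw [hH.disjoint.eq_bot, mem_bot, hker] at h4
    have h5 : orderOf x ∣ b := orderOf_dvd_of_pow_eq_one h4.2
    exact hcopb.coprime_dvd_left h5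


/-- Let `A` be an abelian normal subgroup of the finite group `G`. Then `A` has a complement in `G` if and only if, for every prime `p` dividing the index of `A`, there are a Sylow `p`-subgroup `S` of `G/A` and a subgroup `K` of `G` with `K ∩ A = 1` and `KA` equal to the preimage of `S` (that is, `A` has a complement in the preimage of a Sylow `p`-subgroup of `G/A`). -/
theorem result {G : Type*} [Group G] [Finite G] (A : Subgroup G) [A.Normal] (hA : IsMulCommutative A) : (∃ K : Subgroup G, K.IsComplement' A) ↔ ∀ p : ℕ, p.Prime → p ∣ A.index → ∃ (S : Sylow p (G ⧸ A)) (K : Subgroup G), K ⊓ A = ⊥ ∧ K ⊔ A = (S : Subgroup (G ⧸ A)).comap (QuotientGroup.mk' A) := by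
  classical
  have hAc : ∀ x ∈ A, ∀ y ∈ A, x * y = y * x := fun x hx y hy => congrArg Subtype.val (hA.is_comm.comm ⟨x, hx⟩ ⟨y, hy⟩)
  constructor
  · rintro ⟨K, hK⟩ p hp hpd
    haveI := Fact.mk hp
    obtain ⟨S⟩ : Nonempty (Sylow p (G ⧸ A)) := inferInstance
    refine ⟨S, K ⊓ (S : Subgroup (G ⧸ A)).comap (QuotientGroup.mk' A), ?_, ?_⟩
    · rw [eq_bot_iff]
      refine le_trans (inf_le_inf_right _ inf_le_left) ?_
      rw [hK.disjoint.eq_bot]
    · apply le_antisymm
      · refine sup_le inf_le_right ?_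
        intro x hx
        rw [Subgroup.mem_comap, (CfsgLib.Core2.mk_eq_one_iff A x).2 hx]
        exact one_mem _
      · intro x hx
        have h1 : x ∈ K ⊔ A := by rw [hK.sup_eq_top]; exact Subgroup.mem_top x
        rw [Subgroup.mem_sup_of_normal_right] at h1
        obtain ⟨k, hk, a, ha, rfl⟩ := h1
        refine Subgroup.mul_mem_sup ⟨hk, ?_⟩ ha
        rw [SetLike.mem_coe, Subgroup.mem_comap, map_mul, (CfsgLib.Core2.mk_eq_one_iff A a).2 ha, mul_one] at *
        exact hx
  · intro h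
    have key : ∀ p : (Nat.card A).primeFactors, ∃ L : Subgroup G, L.index = (p : ℕ) ^ (Nat.card A).factorization p ∧
        ∀ x ∈ L, x ∈ A → (orderOf x).Coprime p := by
      rintro ⟨p, hp'⟩
      obtain ⟨hp, hpA, -⟩ := Nat.mem_primeFactors.1 hp'
      haveI := Fact.mk hp
      by_cases hpi : p ∣ A.index
      · obtain ⟨S, K, h1, h2⟩ := h p hp hpi
        refine step A hAc p hp _ K h1 h2 ?_
        rw [Subgroup.index_comap_of_surjective _ (QuotientGroup.mk'_surjective A)]
        exact S.not_dvd_index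
      · exact step A hAc p hp A ⊥ (bot_inf_eq _) (bot_sup_eq _) hpi
    choose L hL1 hL2 using key
    set K := ⨅ p, L p with hK
    have hKA : K ⊓ A = ⊥ := by
      rw [eq_bot_iff]
      rintro x ⟨hx1, hx2⟩
      rw [Subgroup.mem_bot, ← orderOf_eq_one_iff]
      by_contra hne
      obtain ⟨p, hp, hpx⟩ := Nat.exists_prime_and_dvd hne
      have hpA : p ∣ Nat.card A := by
        have h1 := orderOf_dvd_natCard (⟨x, hx2⟩ : A)
        rw [Subgroup.orderOf_mk] at h1
        exact hpx.trans h1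
      have hm : p ∈ (Nat.card A).primeFactors := Nat.mem_primeFactors.2 ⟨hp, hpA, Nat.card_pos.ne'⟩
      have h2 := hL2 ⟨p, hm⟩ x (iInf_le L ⟨p, hm⟩ hx1) hx2
      exact hp.one_lt.ne' (Nat.dvd_one.1 (h2 ▸ Nat.dvd_gcd hpx dvd_rfl))
    have hidx : K.index ≤ Nat.card A := by
      calc K.index ≤ ∏ p, (L p).index := Subgroup.index_iInf_le _
        _ = ∏ p : (Nat.card A).primeFactors, (p : ℕ) ^ (Nat.card A).factorization p := Finset.prod_congr rfl fun p _ => hL1 p
        _ = Nat.card A := by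
          rw [Finset.prod_coe_sort (Nat.card A).primeFactors (fun p => p ^ (Nat.card A).factorization p)]
          exact Nat.factorization_prod_pow_eq_self Nat.card_pos.ne'
    refine ⟨K, ?_⟩
    have h1 : Nat.card K * K.index = Nat.card G := K.card_mul_index
    have h2 : Nat.card A * Nat.card K ≤ Nat.card G := by
      rw [← Nat.card_prod]
      refine Nat.card_le_card_of_injective (fun w : A × K => (w.1 : G) * w.2) ?_
      exact Subgroup.mul_injective_of_disjoint (disjoint_iff.2 (by rw [inf_comm]; exact hKA))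
    refine Subgroup.isComplement'_of_card_mul_and_disjoint ?_ (disjoint_iff.2 hKA)
    have h3 : 0 < Nat.card K := Nat.card_pos
    nlinarith

end Cfsg.Agent.S4217
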