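import Cfsg.Statements.S4218
import Mathlib
import Cfsg.Agent.Lib.Core
import Cfsg.Agent.Lib.Core2
import Cfsg.Agent.Lib.H3Nil
import Cfsg.Agent.Lib.PChain
import Cfsg.Agent.Lib.Coprime2
import Cfsg.Agent.Lib.PGrp
import Cfsg.Agent.Lib.PSolv
import Cfsg.Agent.Lib.H6Super8

set_option autoImplicit false
open Cfsg

set_option linter.style.haveILetI false
namespace Cfsg.Agent.S4218

open Subgroup
open scoped commutatorElement
universe u

theorem core {X : Type u} [Group X] [Finite X] {p : ℕ} [hp : Fact p.Prime] (hX : Cfsg.IsPSolvable p X) (h' : Cfsg.pPrimeCore p X = ⊥)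
    (g : X) (hg : ∀ x ∈ Cfsg.pCore p X, g * x * g⁻¹ * x⁻¹ ∈ (frattini (Cfsg.pCore p X)).map (Cfsg.pCore p X).subtype) :
    g ∈ Cfsg.pCore p X := by
  have hKn := CfsgLib.Core.pCore_normal p X
  set K := Cfsg.pCore p X with hK
  have hKp : IsPGroup p K := CfsgLib.Core.pCore_isPGroup p X
  haveI hΦn : ((frattini K).map K.subtype).Normal := CfsgLib.H6Super.frattini_map_normal
  set Φ := (frattini K).map K.subtype with hΦ
  set f := QuotientGroup.mk' Φ with hf
  have hfs : Function.Surjective f := QuotientGroup.mk'_surjective Φ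
  haveI hKfn : (K.map f).Normal := hKn.map f hfs
  set C : Subgroup X := (centralizer (K.map f : Set (X ⧸ Φ))).comap f with hC
  have hCn : C.Normal := by
    have : (centralizer (K.map f : Set (X ⧸ Φ))).Normal := by infer_instance
    exact this.comap f
  have hCmem : ∀ y, y ∈ C ↔ ∀ x ∈ K, y * x * y⁻¹ * x⁻¹ ∈ Φ := by
    intro y
    rw [hC, mem_comap, mem_centralizer_iff]
    constructor
    · intro h x hx
      have h1 := h (f x) ⟨x, hx, rfl⟩
      rw [← CfsgLib.Core2.mk_eq_one_iff Φ]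
      show f (y * x * y⁻¹ * x⁻¹) = 1
      rw [map_mul, map_mul, map_mul, ← h1, map_inv, map_inv]; group
    · rintro h _ ⟨x, hx, rfl⟩
      have h1 := (CfsgLib.Core2.mk_eq_one_iff Φ _).2 (h x hx)
      have h2 : f (y * x * y⁻¹ * x⁻¹) = 1 := h1
      rw [map_mul, map_mul, map_mul, map_inv, map_inv, mul_inv_eq_one, mul_inv_eq_iff_eq_mul] at h2
      exact h2.symm
  have hCp : IsPGroup p C := by
    rintro ⟨y, hy⟩
    obtain ⟨a, m, hm, hym⟩ : ∃ a m : ℕ, ¬ p ∣ m ∧ orderOf y = p ^ a * m := by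
      obtain ⟨a, m, hm, h⟩ := Nat.exists_eq_pow_mul_and_not_dvd (orderOf_pos y).ne' p hp.out.ne_one
      exact ⟨a, m, hm, h⟩
    refine ⟨a, Subtype.ext ?_⟩
    show y ^ p ^ a = 1
    set z := y ^ p ^ a with hz
    have hzC : z ∈ C := C.pow_mem hy _
    have hzo : orderOf z = m := by
      rw [hz, orderOf_pow, hym, Nat.gcd_eq_right (dvd_mul_right _ _), Nat.mul_div_cancel_left _ (pow_pos hp.out.pos a)]
    have hzp : (orderOf z).Coprime p := by
      rw [hzo]; exact ((Nat.Prime.coprime_iff_not_dvd hp.out).2 hm).symm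
    have h1 : zpowers z ≤ centralizer (K : Set X) := by
      refine CfsgLib.Coprime.le_centralizer_of_frattini (A := zpowers z) (K := K) ?_ ?_
      · rw [Nat.card_zpowers]
        obtain ⟨k, hk⟩ := IsPGroup.iff_card.1 (hKp.to_subgroup (frattini K))
        rw [hk]
        exact Nat.Coprime.pow_right _ hzp
      · intro c hc k hk
        have hcC : c ∈ C := (zpowers_le.2 hzC) hc
        exact (hCmem c).1 hcC k hk
    have h2 : z ∈ K := CfsgLib.PChain.centralizer_pCore_le hX h' (h1 (mem_zpowers z))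
    obtain ⟨k, hk⟩ := hKp ⟨z, h2⟩
    have h3 : z ^ p ^ k = 1 := congrArg Subtype.val hk
    have h4 : orderOf z = 1 := Nat.Coprime.eq_one_of_dvd (Nat.Coprime.pow_right _ hzp) (orderOf_dvd_of_pow_eq_one h3)
    exact orderOf_eq_one_iff.1 h4
  have : C ≤ K := CfsgLib.Core.le_pCore hCn hCp
  exact this ((hCmem g).2 hg)


/-- Let `G` be a finite `p`-solvable group, `N₀ = O_{p'}(G)`, `P₁ = O_{p',p}(G)`, and let `F ≤ P₁` be the preimage of the Frattini subgroup of `P₁/N₀`. Then an element `g` of `G` induces the identity on `P₁/F` by conjugation (that is, `g x g⁻¹ x⁻¹ ∈ F` for all `x ∈ P₁`) if and only if `g ∈ P₁`: the group `G/P₁` acts faithfully on `P₁/F`. -/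
theorem result {G : Type*} [Group G] [Finite G] {p : ℕ} [Fact p.Prime] (hG : Cfsg.IsPSolvable p G) (g : G) : (∀ x ∈ Cfsg.pPrimePCore p G, g * x * g⁻¹ * x⁻¹ ∈ ((frattini (↥(Cfsg.pPrimePCore p G) ⧸ (Cfsg.pPrimeCore p G).subgroupOf (Cfsg.pPrimePCore p G))).comap (QuotientGroup.mk' ((Cfsg.pPrimeCore p G).subgroupOf (Cfsg.pPrimePCore p G)))).map (Cfsg.pPrimePCore p G).subtype) ↔ g ∈ Cfsg.pPrimePCore p G := by
  haveI hNn : (Cfsg.pPrimeCore p G).Normal := by infer_instance
  set N := Cfsg.pPrimeCore p G with hN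
  set P := Cfsg.pPrimePCore p G with hP
  haveI hPn : P.Normal := CfsgLib.PSolv.pPrimePCore_normal p G
  set f := QuotientGroup.mk' N with hf
  have hfs : Function.Surjective f := QuotientGroup.mk'_surjective N
  set K := Cfsg.pCore p (G ⧸ N) with hK
  have hPK : ∀ x : G, x ∈ P ↔ f x ∈ K := fun x => Iff.rfl
  have hKp : IsPGroup p K := CfsgLib.Core.pCore_isPGroup p _
  have hKn : K.Normal := CfsgLib.Core.pCore_normal p _
  let φ : P →* K := (f.comp P.subtype).codRestrict K (fun x => (hPK x).1 x.2)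
  have hφs : Function.Surjective φ := by
    rintro ⟨y, hy⟩
    obtain ⟨x, rfl⟩ := hfs y
    exact ⟨⟨x, (hPK x).2 hy⟩, rfl⟩
  have hker : N.subgroupOf P ≤ φ.ker := by
    intro x hx
    rw [MonoidHom.mem_ker]
    apply Subtype.ext
    exact (CfsgLib.Core2.mk_eq_one_iff N (x : G)).2 hx
  let θ : (P ⧸ N.subgroupOf P) →* K := QuotientGroup.lift (N.subgroupOf P) φ hker
  have hθs : Function.Surjective θ := by
    intro y
    obtain ⟨x, rfl⟩ := hφs y
    exact ⟨QuotientGroup.mk' _ x, rfl⟩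
  have hθi : Function.Injective θ := by
    rw [injective_iff_map_eq_one]
    intro y hy
    obtain ⟨x, rfl⟩ := QuotientGroup.mk'_surjective (N.subgroupOf P) y
    rw [CfsgLib.Core2.mk_eq_one_iff]
    have : φ x = 1 := hy
    have h2 : f x = 1 := congrArg Subtype.val this
    exact (CfsgLib.Core2.mk_eq_one_iff N (x : G)).1 h2
  let e : (P ⧸ N.subgroupOf P) ≃* K := MulEquiv.ofBijective θ ⟨hθi, hθs⟩
  have hfr : ∀ y, y ∈ frattini (P ⧸ N.subgroupOf P) ↔ e y ∈ frattini K := by
    intro y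
    constructor
    · intro h
      exact frattini_le_comap_frattini_of_surjective (φ := e.toMonoidHom) e.surjective h
    · intro h
      have h2 := frattini_le_comap_frattini_of_surjective (φ := e.symm.toMonoidHom) e.symm.surjective h
      have h3 : e.symm (e y) ∈ frattini (P ⧸ N.subgroupOf P) := h2
      rwa [e.symm_apply_apply] at h3
  set F := ((frattini (P ⧸ N.subgroupOf P)).comap (QuotientGroup.mk' (N.subgroupOf P))).map P.subtype with hF
  have hFmem : ∀ z : G, z ∈ P → (z ∈ F ↔ f z ∈ (frattini K).map K.subtype) := by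
    intro z hz
    have h0 : e (QuotientGroup.mk' (N.subgroupOf P) ⟨z, hz⟩) = ⟨f z, (hPK z).1 hz⟩ := rfl
    constructor
    · rintro ⟨w, hw, rfl⟩
      refine ⟨e (QuotientGroup.mk' (N.subgroupOf P) w), ?_, rfl⟩
      exact (hfr _).1 hw
    · rintro ⟨w, hw, hw2⟩
      refine ⟨⟨z, hz⟩, ?_, rfl⟩
      rw [SetLike.mem_coe, mem_comap, hfr, h0]
      have : w = ⟨f z, (hPK z).1 hz⟩ := Subtype.ext hw2
      rw [← this]; exact hw
  constructor
  · intro h
    rw [hPK]
    refine core (CfsgLib.PChain.quotient Fact.out hG N) (CfsgLib.PChain.pPrimeCore_quotient p G) (f g) ?_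
    intro x hx
    obtain ⟨y, rfl⟩ := hfs x
    have hyP : y ∈ P := (hPK y).2 hx
    have h1 := h y hyP
    have h2 : g * y * g⁻¹ * y⁻¹ ∈ P := P.mul_mem (hPn.conj_mem y hyP g) (P.inv_mem hyP)
    have h3 := (hFmem _ h2).1 h1
    rw [map_mul, map_mul, map_mul, map_inv, map_inv] at h3
    exact h3
  · intro hg x hx
    have h2 : g * x * g⁻¹ * x⁻¹ ∈ P := P.mul_mem (hPn.conj_mem x hx g) (P.inv_mem hx)
    rw [hFmem _ h2]
    refine ⟨⟨f g, (hPK g).1 hg⟩ * ⟨f x, (hPK x).1 hx⟩ * ⟨f g, (hPK g).1 hg⟩⁻¹ * ⟨f x, (hPK x).1 hx⟩⁻¹, ?_, ?_⟩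
    · apply CfsgLib.PGrp.commutator_le_frattini hKp
      have := commutator_mem_commutator (G := K) (H₁ := ⊤) (H₂ := ⊤) (mem_top (⟨f g, (hPK g).1 hg⟩ : K)) (mem_top (⟨f x, (hPK x).1 hx⟩ : K))
      rw [commutatorElement_def] at this
      exact this
    · simp

end Cfsg.Agent.S4218
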