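import Cfsg.Statements.S4219
import Mathlib
import Cfsg.Agent.Lib.H7Basic
import Cfsg.Agent.Lib.SZ

set_option autoImplicit false
open Cfsg

open scoped Pointwise
namespace Cfsg.Agent.S4219

/-- Let a finite group `G` act `t`-fold transitively on a finite set, let `H` be the stabilizer of `t` distinct points and `P` a Sylow `p`-subgroup of `H`. Then the normalizer of `P` in `G` is `t`-fold transitive on the fixed points of `P`: any `t` distinct fixed points of `P` can be carried to any other `t` distinct fixed points of `P` by an element normalizing `P`. -/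
theorem result {G : Type*} [Group G] [Finite G] {α : Type*} [Fintype α] [MulAction G α] {t : ℕ} (hG : MulAction.IsMultiplyPretransitive G α t) (x : Fin t ↪ α) {p : ℕ} [Fact p.Prime] (P : Sylow p (MulAction.stabilizer G x)) (a b : Fin t ↪ α) (ha : ∀ i, a i ∈ MulAction.fixedPoints ((P : Subgroup (MulAction.stabilizer G x)).map (MulAction.stabilizer G x).subtype) α) (hb : ∀ i, b i ∈ MulAction.fixedPoints ((P : Subgroup (MulAction.stabilizer G x)).map (MulAction.stabilizer G x).subtype) α) : ∃ g ∈ Subgroup.normalizer ((((P : Subgroup (MulAction.stabilizer G x)).map (MulAction.stabilizer G x).subtype) : Subgroup G) : Set G), g • a = b := by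
  open Subgroup MulAction CfsgLib.H7Basic in
  let Q : Subgroup G := (P : Subgroup (stabilizer G x)).map (stabilizer G x).subtype
  have hQp : IsPGroup p Q := P.isPGroup'.map _
  -- g with g • a = b
  obtain ⟨g, hg⟩ := hG.exists_smul_eq a b
  obtain ⟨u, hu⟩ := hG.exists_smul_eq x b
  have hmem : ∀ (y : Fin t ↪ α), (∀ i, y i ∈ fixedPoints Q α) → Q ≤ stabilizer G y := by
    intro y hy q hq
    rw [mem_stabilizer_iff]
    ext i
    exact hy i ⟨q, hq⟩
  have h1 : Q ≤ stabilizer G b := hmem b hb
  have h2 : Q.map (MulAut.conj g).toMonoidHom ≤ stabilizer G b := by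
    rintro _ ⟨q, hq, rfl⟩
    change g * q * g⁻¹ ∈ stabilizer G b
    rw [mem_stabilizer_iff, mul_smul, mul_smul, ← hg, inv_smul_smul]
    congr 1
    exact hmem a ha hq
  -- Sylow in the stabilizer of b
  have hstab : Nat.card (stabilizer G b) = Nat.card (stabilizer G x) := by
    rw [← hu, stabilizer_smul_eq_stabilizer_map_conj]
    exact card_cj u (stabilizer G x)
  have hPc : Nat.card Q = p ^ (Nat.card (stabilizer G x)).factorization p := by
    rw [card_map_of_injective (subtype_injective _)]
    exact P.card_eq_multiplicity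
  have hsyl : ∀ R : Subgroup G, R ≤ stabilizer G b → Nat.card R = Nat.card Q → ∃ T : Sylow p (stabilizer G b), (T : Subgroup (stabilizer G b)).map (stabilizer G b).subtype = R := by
    intro R hR hRc
    have h3 : Nat.card (R.subgroupOf (stabilizer G b)) = p ^ (Nat.card (stabilizer G b)).factorization p := by
      rw [Nat.card_congr (subgroupOfEquivOfLe hR).toEquiv, hRc, hstab, hPc]
    refine ⟨Sylow.ofCard _ h3, ?_⟩
    change (R.subgroupOf (stabilizer G b)).map (stabilizer G b).subtype = R
    rw [subgroupOf_map_subtype, inf_eq_left.2 hR]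
  obtain ⟨T1, hT1⟩ := hsyl Q h1 rfl
  obtain ⟨T2, hT2⟩ := hsyl (Q.map (MulAut.conj g).toMonoidHom) h2 (card_cj g Q)
  obtain ⟨h, hh⟩ := exists_cj_sylow_eq T2 T1
  have h4 : (Q.map (MulAut.conj g).toMonoidHom).map (MulAut.conj (h : G)).toMonoidHom = Q := by
    rw [← hT2, ← hT1, ← hh, map_map, map_map]
    congr 1
  rw [cj_cj] at h4
  refine ⟨h * g, cj_eq_self_iff.1 h4, ?_⟩
  rw [mul_smul, hg]
  exact h.2

end Cfsg.Agent.S4219
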