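import Cfsg.Statements.S4275
import Mathlib

set_option autoImplicit false
open Cfsg

namespace Cfsg.Agent.S4275

/-- Let G be a transitive group of permutations of a finite set Ω, let o ∈ Ω, and let α be an automorphism of G. Then α is induced by conjugation by a permutation of Ω normalizing G if and only if the image under α of the stabilizer of o fixes some point of Ω. -/
theorem result {Ω : Type*} [Fintype Ω] (G : Subgroup (Equiv.Perm Ω)) (htr : MulAction.IsPretransitive G Ω) (o : Ω) (α : G ≃* G) : (∃ σ : Equiv.Perm Ω, σ ∈ Subgroup.normalizer (G : Set (Equiv.Perm Ω)) ∧ ∀ g : G, ((α g : G) : Equiv.Perm Ω) = σ * (g : Equiv.Perm Ω) * σ⁻¹) ↔ ∃ ω : Ω, ∀ g ∈ (MulAction.stabilizer G o).map α.toMonoidHom, g • ω = ω := by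
  constructor
  · rintro ⟨σ, hσ, hα⟩
    refine ⟨σ o, ?_⟩
    rintro _ ⟨g, hg, rfl⟩
    have h1 : (g : Equiv.Perm Ω) o = o := hg
    have h2 : ((α g : G) : Equiv.Perm Ω) (σ o) = σ o := by
      rw [hα g]
      simp [h1]
    exact h2
  · rintro ⟨ω, hω⟩
    have hst : ∀ g : G, (g : Equiv.Perm Ω) o = o → ((α g : G) : Equiv.Perm Ω) ω = ω := by
      intro g hg
      exact hω _ ⟨g, hg, rfl⟩
    have hcard : ∀ x : Ω, (MulAction.stabilizer G x).index = Fintype.card Ω := by
      intro x
      rw [MulAction.index_stabilizer_of_transitive, Nat.card_eq_fintype_card]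
    have hG : Finite G := inferInstance
    have hst2 : (MulAction.stabilizer G o).map α.toMonoidHom = MulAction.stabilizer G ω := by
      have h1 : (MulAction.stabilizer G o).map α.toMonoidHom ≤ MulAction.stabilizer G ω := fun g hg => hω g hg
      apply Subgroup.eq_of_le_of_card_ge h1
      have h2 := (MulAction.stabilizer G o).card_mul_index
      have h3 := (MulAction.stabilizer G ω).card_mul_index
      rw [hcard] at h2 h3
      have h4 : Nat.card ((MulAction.stabilizer G o).map α.toMonoidHom) = Nat.card (MulAction.stabilizer G o) :=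
        Nat.card_congr (Subgroup.equivMapOfInjective _ _ α.injective).symm.toEquiv
      rw [h4]
      have h5 : 0 < Fintype.card Ω := Fintype.card_pos_iff.2 ⟨o⟩
      rw [← h2] at h3
      exact (Nat.eq_of_mul_eq_mul_right h5 h3).le
    have key : ∀ g h : G, (g : Equiv.Perm Ω) o = (h : Equiv.Perm Ω) o ↔ ((α g : G) : Equiv.Perm Ω) ω = ((α h : G) : Equiv.Perm Ω) ω := by
      intro g h
      have h1 : (g : Equiv.Perm Ω) o = (h : Equiv.Perm Ω) o ↔ h⁻¹ * g ∈ MulAction.stabilizer G o := by
        rw [MulAction.mem_stabilizer_iff]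
        change _ ↔ ((h : Equiv.Perm Ω)⁻¹ * (g : Equiv.Perm Ω)) o = o
        rw [Equiv.Perm.mul_apply, Equiv.Perm.inv_eq_iff_eq]
      have h2 : ((α g : G) : Equiv.Perm Ω) ω = ((α h : G) : Equiv.Perm Ω) ω ↔ α (h⁻¹ * g) ∈ MulAction.stabilizer G ω := by
        rw [MulAction.mem_stabilizer_iff, map_mul, map_inv]
        change _ ↔ (((α h : G) : Equiv.Perm Ω)⁻¹ * ((α g : G) : Equiv.Perm Ω)) ω = ω
        rw [Equiv.Perm.mul_apply, Equiv.Perm.inv_eq_iff_eq]
      rw [h1, h2, ← hst2]
      constructor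
      · intro h; exact ⟨_, h, rfl⟩
      · rintro ⟨z, hz, hz2⟩
        have : z = h⁻¹ * g := α.injective hz2
        rw [← this]; exact hz
    have hs : ∀ x : Ω, ∃ g : G, (g : Equiv.Perm Ω) o = x := fun x => MulAction.exists_smul_eq G o x
    choose t ht using hs
    have hinj : Function.Injective (fun x => ((α (t x) : G) : Equiv.Perm Ω) ω) := by
      intro x y hxy
      have := (key (t x) (t y)).2 hxy
      rw [ht, ht] at this
      exact this
    let σ : Equiv.Perm Ω := Equiv.ofBijective _ (Finite.injective_iff_bijective.1 hinj)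
    have hσ : ∀ g : G, σ ((g : Equiv.Perm Ω) o) = ((α g : G) : Equiv.Perm Ω) ω := by
      intro g
      exact (key (t ((g : Equiv.Perm Ω) o)) g).1 (ht _)
    have hcon : ∀ g : G, ((α g : G) : Equiv.Perm Ω) = σ * (g : Equiv.Perm Ω) * σ⁻¹ := by
      intro g
      rw [eq_mul_inv_iff_mul_eq]
      ext x
      obtain ⟨h, rfl⟩ : ∃ h : G, (h : Equiv.Perm Ω) o = x := MulAction.exists_smul_eq G o x
      rw [Equiv.Perm.mul_apply, Equiv.Perm.mul_apply, hσ]
      have h1 : (g : Equiv.Perm Ω) ((h : Equiv.Perm Ω) o) = ((g * h : G) : Equiv.Perm Ω) o := rfl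
      rw [h1, hσ, map_mul]; rfl
    refine ⟨σ, ?_, hcon⟩
    rw [Subgroup.mem_normalizer_iff]
    intro h
    constructor
    · intro hh
      have := hcon ⟨h, hh⟩
      rw [← this]
      exact (α ⟨h, hh⟩).2
    · intro hh
      obtain ⟨g, hg⟩ := α.surjective ⟨σ * h * σ⁻¹, hh⟩
      have h1 := hcon g
      rw [hg] at h1
      have h2 : h = g := by
        have : σ * h * σ⁻¹ = σ * (g : Equiv.Perm Ω) * σ⁻¹ := h1
        exact mul_left_cancel (mul_right_cancel this)
      rw [h2]; exact g.2

end Cfsg.Agent.S4275
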