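import Cfsg.Statements.S4283
import Mathlib
import Cfsg.Agent.Lib.FrobThm
import Cfsg.Agent.Lib.FrobAct
import Cfsg.Agent.Lib.FrobStruct

set_option autoImplicit false
open Cfsg

open scoped Pointwise
namespace Cfsg.Agent.S4283

theorem aux {G : Type*} [Group G] [Finite G] (K H : Subgroup G) (hZK : Subgroup.center G ≤ K) (hZH : Subgroup.center G ≤ H)
    (hK : ∀ a ∈ K, ∀ b ∈ K, a * b = b * a) (hH : ∀ a ∈ H, ∀ b ∈ H, a * b = b * a)
    (hFrob : Cfsg.IsFrobeniusComplement (H.map (QuotientGroup.mk' (Subgroup.center G))))
    (hker : Cfsg.frobeniusKernel (H.map (QuotientGroup.mk' (Subgroup.center G))) = (K.map (QuotientGroup.mk' (Subgroup.center G)) : Set (G ⧸ Subgroup.center G))) :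
    Set.range (fun x : G => (Subgroup.centralizer ({x} : Set G)).index) = ({1, K.index, H.index} : Set ℕ) ∧ K.index.Coprime H.index := by
  classical
  obtain ⟨f, hf⟩ : ∃ f, f = QuotientGroup.mk' (Subgroup.center G) := ⟨_, rfl⟩
  have hfs : Function.Surjective f := by rw [hf]; exact QuotientGroup.mk'_surjective _
  have hfk : f.ker = Subgroup.center G := by rw [hf]; exact QuotientGroup.ker_mk' _
  rw [← hf] at hFrob hker
  obtain ⟨N, hNs, hNn, hNc⟩ := CfsgLib.FrobThm.frobenius_theorem _ hFrob
  have hNK : N = K.map f := SetLike.coe_injective (hNs.trans hker)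
  subst hNK
  have hcomapK : (K.map f).comap f = K := Subgroup.comap_map_eq_self (by rw [hfk]; exact hZK)
  have hcomapH : (H.map f).comap f = H := Subgroup.comap_map_eq_self (by rw [hfk]; exact hZH)
  have hmK : ∀ x, f x ∈ K.map f ↔ x ∈ K := fun x => by
    constructor
    · intro h
      have : x ∈ (K.map f).comap f := h
      rwa [hcomapK] at this
    · intro h
      exact Subgroup.mem_map_of_mem f h
  have hmH : ∀ x, f x ∈ H.map f ↔ x ∈ H := fun x => by
    constructor
    · intro h
      have : x ∈ (H.map f).comap f := h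
      rwa [hcomapH] at this
    · intro h
      exact Subgroup.mem_map_of_mem f h
  have hf1 : ∀ x, f x = 1 ↔ x ∈ Subgroup.center G := fun x => by rw [← MonoidHom.mem_ker, hfk]
  have hKne : K.map f ≠ ⊥ := by
    intro h
    have := hNc.sup_eq_top
    rw [h, bot_sup_eq] at this
    exact hFrob.2.1 this
  have hfix := (CfsgLib.FrobAct.frobenius_iff (K.map f) (H.map f) hNc hKne hFrob.1).1 hFrob
  have hout : ∀ x, x ∉ K.map f → ∃ g, g⁻¹ * x * g ∈ H.map f := by
    intro x hx
    have h1 : x ∉ Cfsg.frobeniusKernel (H.map f) := by rw [hker]; exact hx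
    have h2 : ¬ (x = 1 ∨ ∀ g : G ⧸ Subgroup.center G, x ∉ MulAut.conj g • H.map f) := h1
    push Not at h2
    obtain ⟨g, hg⟩ := h2.2
    exact ⟨g, CfsgLib.FrobThm.mem_conj_iff.1 hg⟩
  have hCK : ∀ k ∈ K.map f, k ≠ 1 → Subgroup.centralizer ({k} : Set (G ⧸ Subgroup.center G)) ≤ K.map f := by
    intro k hk hk1 c hc
    by_contra hcK
    have hkc : k * c = c * k := (Subgroup.mem_centralizer_iff.1 hc) k rfl
    obtain ⟨g, hg⟩ := hout c hcK
    have hg1 : g⁻¹ * c * g ≠ 1 := by
      intro h
      apply hcK
      have : c = 1 := by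
        have e : c = g * (g⁻¹ * c * g) * g⁻¹ := by group
        rw [e, h]; group
      rw [this]; exact one_mem _
    have h1 := hfix _ hg hg1
    have h2 : g⁻¹ * k * g ∈ K.map f ⊓ Subgroup.centralizer {g⁻¹ * c * g} := by
      refine ⟨?_, Subgroup.mem_centralizer_iff.2 (fun w hw => ?_)⟩
      · have := hNn.conj_mem k hk g⁻¹
        rwa [inv_inv] at this
      · rw [Set.mem_singleton_iff.1 hw]
        calc g⁻¹ * c * g * (g⁻¹ * k * g) = g⁻¹ * (c * k) * g := by group
          _ = g⁻¹ * k * g * (g⁻¹ * c * g) := by rw [← hkc]; group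
    rw [h1, Subgroup.mem_bot] at h2
    apply hk1
    have e : k = g * (g⁻¹ * k * g) * g⁻¹ := by group
    rw [e, h2]; group
  have hcenK : ∀ x ∈ K, x ∉ Subgroup.center G → Subgroup.centralizer ({x} : Set G) = K := by
    intro x hx hxZ
    apply le_antisymm
    · intro c hc
      have h1 : x * c = c * x := (Subgroup.mem_centralizer_iff.1 hc) x rfl
      rw [← hmK]
      apply hCK (f x) ((hmK x).2 hx) (fun h => hxZ ((hf1 x).1 h))
      rw [Subgroup.mem_centralizer_iff]
      intro w hw
      rw [Set.mem_singleton_iff.1 hw, ← map_mul, h1, map_mul]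
    · intro k hk
      rw [Subgroup.mem_centralizer_iff]
      intro w hw
      rw [Set.mem_singleton_iff.1 hw]
      exact hK x hx k hk
  have hcenH : ∀ x ∈ H, x ∉ Subgroup.center G → Subgroup.centralizer ({x} : Set G) = H := by
    intro x hx hxZ
    apply le_antisymm
    · intro c hc
      have h1 : x * c = c * x := (Subgroup.mem_centralizer_iff.1 hc) x rfl
      rw [← hmH]
      apply CfsgLib.FrobThm.mem_of_conj hFrob ((hmH x).2 hx) (fun h => hxZ ((hf1 x).1 h))
      have h2 : (f c)⁻¹ * f x * f c = f x := by
        rw [mul_assoc, ← map_mul, h1, map_mul, inv_mul_cancel_left]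
      rw [h2]
      exact (hmH x).2 hx
    · intro k hk
      rw [Subgroup.mem_centralizer_iff]
      intro w hw
      rw [Set.mem_singleton_iff.1 hw]
      exact hH x hx k hk
  have hindK : K.index = (K.map f).index := by
    conv_lhs => rw [← hcomapK]
    exact Subgroup.index_comap_of_surjective _ hfs
  have hindH : H.index = (H.map f).index := by
    conv_lhs => rw [← hcomapH]
    exact Subgroup.index_comap_of_surjective _ hfs
  refine ⟨?_, ?_⟩
  · apply Set.Subset.antisymm
    · rintro _ ⟨x, rfl⟩
      by_cases hxZ : x ∈ Subgroup.center G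
      · left
        have : Subgroup.centralizer ({x} : Set G) = ⊤ := by
          rw [eq_top_iff]
          intro g _
          rw [Subgroup.mem_centralizer_iff]
          intro w hw
          rw [Set.mem_singleton_iff.1 hw]
          exact (Subgroup.mem_center_iff.1 hxZ g).symm
        change (Subgroup.centralizer ({x} : Set G)).index = 1
        rw [this, Subgroup.index_top]
      by_cases hxK : x ∈ K
      · right; left
        change (Subgroup.centralizer ({x} : Set G)).index = K.index
        rw [hcenK x hxK hxZ]
      · right; right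
        change (Subgroup.centralizer ({x} : Set G)).index = H.index
        obtain ⟨g, hg⟩ := hout (f x) (fun h => hxK ((hmK x).1 h))
        obtain ⟨g, rfl⟩ := hfs g
        have hg' : g⁻¹ * x * g ∈ H := by
          rw [← hmH, map_mul, map_mul, map_inv]
          exact hg
        have hgZ : g⁻¹ * x * g ∉ Subgroup.center G := by
          intro h
          apply hxZ
          have h1 := (inferInstance : (Subgroup.center G).Normal).conj_mem _ h g
          have e : g * (g⁻¹ * x * g) * g⁻¹ = x := by group
          rwa [e] at h1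
        have hmap : Subgroup.centralizer ({x} : Set G) = H.map (MulAut.conj g).toMonoidHom := by
          rw [← hcenH _ hg' hgZ]
          ext c
          constructor
          · intro hc
            have h1 : x * c = c * x := (Subgroup.mem_centralizer_iff.1 hc) x rfl
            refine ⟨g⁻¹ * c * g, Subgroup.mem_centralizer_iff.2 (fun w hw => ?_), ?_⟩
            · rw [Set.mem_singleton_iff.1 hw]
              calc g⁻¹ * x * g * (g⁻¹ * c * g) = g⁻¹ * (x * c) * g := by group
                _ = g⁻¹ * c * g * (g⁻¹ * x * g) := by rw [h1]; group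
            · change g * (g⁻¹ * c * g) * g⁻¹ = c
              group
          · rintro ⟨d, hd, rfl⟩
            have h1 : (g⁻¹ * x * g) * d = d * (g⁻¹ * x * g) := (Subgroup.mem_centralizer_iff.1 hd) _ rfl
            rw [Subgroup.mem_centralizer_iff]
            intro w hw
            rw [Set.mem_singleton_iff.1 hw]
            change x * (g * d * g⁻¹) = g * d * g⁻¹ * x
            calc x * (g * d * g⁻¹) = g * ((g⁻¹ * x * g) * d) * g⁻¹ := by group
              _ = g * d * g⁻¹ * x := by rw [h1]; group
        rw [hmap]
        exact Subgroup.index_map_equiv H (MulAut.conj g)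
    · rintro n (hn | hn | hn)
      · refine ⟨1, ?_⟩
        change (Subgroup.centralizer ({1} : Set G)).index = n
        have : Subgroup.centralizer ({1} : Set G) = ⊤ := by
          rw [eq_top_iff]
          intro g _
          rw [Subgroup.mem_centralizer_iff]
          intro w hw
          rw [Set.mem_singleton_iff.1 hw, one_mul, mul_one]
        rw [this, Subgroup.index_top, hn]
      · obtain ⟨⟨k, hk⟩, hk1⟩ := Subgroup.ne_bot_iff_exists_ne_one.1 hKne
        obtain ⟨x, hx, rfl⟩ := hk
        refine ⟨x, ?_⟩
        change (Subgroup.centralizer ({x} : Set G)).index = n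
        rw [hcenK x hx (fun h => hk1 (Subtype.ext ((hf1 x).2 h))), hn]
      · obtain ⟨⟨k, hk⟩, hk1⟩ := Subgroup.ne_bot_iff_exists_ne_one.1 hFrob.1
        obtain ⟨x, hx, rfl⟩ := hk
        refine ⟨x, ?_⟩
        change (Subgroup.centralizer ({x} : Set G)).index = n
        rw [hcenH x hx (fun h => hk1 (Subtype.ext ((hf1 x).2 h))), hn]
  · have h1 := CfsgLib.FrobStruct.coprime_index hCK
    rw [hindK, hindH, hNc.index_eq_card]
    exact h1.symm


/-- Let G be a finite group with centre Z and let K, H be abelian subgroups of G containing Z such that G/Z is a Frobenius group with complement H/Z and kernel K/Z. Then the conjugacy class sizes of G are exactly 1, [G : K] and [G : H], and these two indices are coprime. (This is the converse half of the characterization of finite groups whose conjugacy class sizes are exactly 1, m and n with m and n coprime.) -/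
theorem result {G : Type*} [Group G] [Finite G] (K H : Subgroup G) (hZK : Subgroup.center G ≤ K) (hZH : Subgroup.center G ≤ H) (hK : IsMulCommutative K) (hH : IsMulCommutative H) (hFrob : Cfsg.IsFrobeniusComplement (H.map (QuotientGroup.mk' (Subgroup.center G)))) (hker : Cfsg.frobeniusKernel (H.map (QuotientGroup.mk' (Subgroup.center G))) = (K.map (QuotientGroup.mk' (Subgroup.center G)) : Set (G ⧸ Subgroup.center G))) : Set.range (fun x : G => (Subgroup.centralizer ({x} : Set G)).index) = ({1, K.index, H.index} : Set ℕ) ∧ K.index.Coprime H.index := by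
  exact aux K H hZK hZH (fun a ha b hb => congrArg Subtype.val (hK.is_comm.comm ⟨a, ha⟩ ⟨b, hb⟩))
    (fun a ha b hb => congrArg Subtype.val (hH.is_comm.comm ⟨a, ha⟩ ⟨b, hb⟩)) hFrob hker

end Cfsg.Agent.S4283
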