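import Cfsg.Statements.S4291
import Mathlib
import Cfsg.Agent.Lib.H3FC5
import Cfsg.Agent.Lib.H3Zas20

set_option autoImplicit false
open Cfsg

set_option linter.style.haveILetI false
namespace Cfsg.Agent.S4291

/-- Let G be a finite group that occurs as a Frobenius complement. Then G has exactly one normal subgroup N such that every Sylow subgroup of N is cyclic and the quotient of G by N is trivial or isomorphic to one of the following five groups: the Klein four-group, the alternating group of degree 4, the symmetric group of degree 4, the alternating group of degree 5, the symmetric group of degree 5. (The quotient is described by a surjective homomorphism with kernel N; the Klein four-group is written as the dihedral group of order 4.) -/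
theorem result {G : Type*} [Group G] [Finite G]
    (hFC : (∃ (L : Type) (_ : Group L) (_ : Finite L) (H : Subgroup L), Cfsg.IsFrobeniusComplement H ∧ Nonempty (G ≃* H))) :
    ∃! N : Subgroup G, N.Normal ∧ (∀ (p : ℕ) [Fact p.Prime] (P : Sylow p N), IsCyclic P) ∧
      (N = ⊤ ∨
        (∃ f : G →* DihedralGroup 2, Function.Surjective f ∧ f.ker = N) ∨
        (∃ f : G →* alternatingGroup (Fin 4), Function.Surjective f ∧ f.ker = N) ∨
        (∃ f : G →* Equiv.Perm (Fin 4), Function.Surjective f ∧ f.ker = N) ∨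
        (∃ f : G →* alternatingGroup (Fin 5), Function.Surjective f ∧ f.ker = N) ∨
        (∃ f : G →* Equiv.Perm (Fin 5), Function.Surjective f ∧ f.ker = N)) := by
  classical
  have act := CfsgLib.H3Zas.act_of_FC hFC
  obtain ⟨A, _, _, _, φ, hφ⟩ := act
  have hz_iff : ∀ N : Subgroup G, (∀ (p : ℕ) [Fact p.Prime] (P : Sylow p N), IsCyclic P) ↔ IsZGroup N :=
    fun N => ⟨fun h => ⟨fun p hp P => by haveI : Fact p.Prime := ⟨hp⟩; exact h p P⟩, fun h p hp P => h.isZGroup p hp.out P⟩
  have hodd : ¬ 2 ∣ Nat.card G → IsZGroup G := fun h => CfsgLib.H3Zas.isZGroup_of_fpf φ hφ h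
  have heven : 2 ∣ Nat.card G → CfsgLib.H3Zas.HasFree.{0} G := fun h => CfsgLib.H3Zas.hasFree_of_even φ hφ h
  have hG : IsZGroup G → IsZGroup (⊤ : Subgroup G) := fun h => by
    exact IsZGroup.of_injective (f := (⊤ : Subgroup G).subtype) (⊤ : Subgroup G).subtype_injective
  have hex : ∃ N : Subgroup G, N.Normal ∧ IsZGroup N ∧
      (N = ⊤ ∨
        (∃ f : G →* DihedralGroup 2, Function.Surjective f ∧ f.ker = N) ∨
        (∃ f : G →* alternatingGroup (Fin 4), Function.Surjective f ∧ f.ker = N) ∨
        (∃ f : G →* Equiv.Perm (Fin 4), Function.Surjective f ∧ f.ker = N) ∨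
        (∃ f : G →* alternatingGroup (Fin 5), Function.Surjective f ∧ f.ker = N) ∨
        (∃ f : G →* Equiv.Perm (Fin 5), Function.Surjective f ∧ f.ker = N)) := by
    by_cases hz : IsZGroup G
    · exact ⟨⊤, inferInstance, hG hz, Or.inl rfl⟩
    · have h2 : 2 ∣ Nat.card G := by
        by_contra h2
        exact hz (hodd h2)
      have hF := heven h2
      by_cases hs : Group.IsSolvable G
      · obtain ⟨N, h3, h4, h5⟩ := CfsgLib.H3FC.exists_solv hs hz (CfsgLib.H3Ti.CQ_of_hasFree hF)
        refine ⟨N, h3, h4, Or.inr ?_⟩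
        rcases h5 with h5 | h5 | h5
        · exact Or.inl h5
        · exact Or.inr (Or.inl h5)
        · exact Or.inr (Or.inr (Or.inl h5))
      · obtain ⟨N, h3, h4, h5⟩ := CfsgLib.H3FC.exists_nonsolv hF hs
        exact ⟨N, h3, h4, Or.inr (Or.inr (Or.inr (Or.inr h5)))⟩
  obtain ⟨N, hN, hZ, hor⟩ := hex
  have hCQ : ∀ f : G →* DihedralGroup 2, Function.Surjective f → CfsgLib.H3Ti.CQ G := by
    intro f hf
    apply CfsgLib.H3Ti.CQ_of_hasFree
    apply heven
    have h3 : Nat.card (DihedralGroup 2) ∣ Nat.card G := Subgroup.card_dvd_of_surjective f hf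
    rw [CfsgLib.H3FC.d2_card] at h3
    exact dvd_trans (by norm_num) h3
  refine ⟨N, ⟨hN, (hz_iff N).2 hZ, hor⟩, ?_⟩
  rintro N' ⟨hN', hZ', hor'⟩
  refine CfsgLib.H3FC.uniq hCQ N' N hN' ((hz_iff N').1 hZ') hN hZ ?_ ?_
  · rcases hor' with h | h | h
    · exact Or.inl h
    · exact Or.inr (Or.inl h)
    · exact Or.inr (Or.inr (CfsgLib.H3FC.big_of h))
  · rcases hor with h | h | h
    · exact Or.inl h
    · exact Or.inr (Or.inl h)
    · exact Or.inr (Or.inr (CfsgLib.H3FC.big_of h))

end Cfsg.Agent.S4291
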