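import Cfsg.Statements.S4297
import Mathlib
import Cfsg.Agent.Lib.FrobC

set_option autoImplicit false
open Cfsg

set_option linter.style.haveILetI false
namespace Cfsg.Agent.S4297

/-- For every n ≥ 2 the dicyclic group of order 4n (generated by an element a of order 2n and an element x with x² = aⁿ and x a x⁻¹ = a⁻¹) occurs as a Frobenius complement of some finite Frobenius group. -/
theorem result (n : ℕ) (hn : 2 ≤ n) :
    ∃ (L : Type) (_ : Group L) (_ : Finite L) (H : Subgroup L), Cfsg.IsFrobeniusComplement H ∧ Nonempty (H ≃* QuaternionGroup n) := by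
  open Subgroup CfsgLib.FrobC in
  haveI : NeZero n := ⟨by omega⟩
  haveI : NeZero (2 * n) := ⟨by omega⟩
  obtain ⟨q, hq, hq2, hmod⟩ := Nat.exists_prime_gt_modEq_one 2 (show 2 * n ≠ 0 by omega)
  haveI : Fact q.Prime := ⟨hq⟩
  have hdvd : 2 * n ∣ Nat.card (ZMod q)ˣ := by
    rw [Nat.card_eq_fintype_card, ZMod.card_units]
    exact (Nat.modEq_iff_dvd' hq.one_lt.le).1 hmod.symm
  obtain ⟨g, hg⟩ := IsCyclic.exists_generator (α := (ZMod q)ˣ)
  obtain ⟨d, hd⟩ := hdvd
  have hgo : orderOf g = Nat.card (ZMod q)ˣ := orderOf_eq_card_of_forall_mem_zpowers hg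
  have hz : orderOf (g ^ d) = 2 * n := by
    rw [orderOf_pow, hgo, hd, Nat.gcd_mul_left_left]
    have : 0 < d := by
      rcases Nat.eq_zero_or_pos d with rfl | h
      · have : 0 < Nat.card (ZMod q)ˣ := Nat.card_pos
        omega
      · exact h
    exact Nat.mul_div_cancel _ this
  set ζ := g ^ d with hζ
  let E : ZMod (2 * n) → ZMod q := fun i => ((ζ ^ i.val : (ZMod q)ˣ) : ZMod q)
  have hEadd : ∀ i j, E (i + j) = E i * E j := by
    intro i j
    change ((ζ ^ (i + j).val : (ZMod q)ˣ) : ZMod q) = ((ζ ^ i.val : (ZMod q)ˣ) : ZMod q) * ((ζ ^ j.val : (ZMod q)ˣ) : ZMod q)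
    rw [ZMod.val_add, ← Units.val_mul, ← pow_add]
    congr 1
    have hmod' : ∀ m : ℕ, ζ ^ (m % (2 * n)) = ζ ^ m := by
      intro m
      have := pow_mod_orderOf ζ m
      rwa [hz] at this
    exact hmod' _
  have hE0 : E 0 = 1 := by
    change ((ζ ^ (0 : ZMod (2 * n)).val : (ZMod q)ˣ) : ZMod q) = 1
    rw [ZMod.val_zero, pow_zero, Units.val_one]
  have hEinj : ∀ i, E i = 1 → i = 0 := by
    intro i hi
    have h1 : ζ ^ i.val = 1 := Units.ext hi
    have h2 := orderOf_dvd_of_pow_eq_one h1
    rw [hz] at h2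
    have h3 := ZMod.val_lt i
    have h4 : i.val = 0 := Nat.eq_zero_of_dvd_of_lt h2 h3
    exact (ZMod.val_eq_zero i).1 h4
  have h2q : (2 : ZMod q) ≠ 0 := by
    intro h
    have : ((2 : ℕ) : ZMod q) = 0 := by exact_mod_cast h
    rw [ZMod.natCast_eq_zero_iff] at this
    have := Nat.le_of_dvd (by norm_num) this
    omega
  have hn0 : (n : ZMod (2 * n)) ≠ 0 := by
    intro h
    rw [ZMod.natCast_eq_zero_iff] at h
    have := Nat.le_of_dvd (by omega) h
    omega
  have hnn : (n : ZMod (2 * n)) + n = 0 := by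
    have : ((2 * n : ℕ) : ZMod (2 * n)) = 0 := ZMod.natCast_self _
    push_cast at this
    linear_combination this
  have hEn : E n = -1 := by
    have h1 : E n * E n = 1 := by rw [← hEadd, hnn, hE0]
    rcases mul_self_eq_one_iff.1 h1 with h | h
    · exact absurd (hEinj _ h) hn0
    · exact h
  have hEneg : ∀ i, E (-i) * E i = 1 := by intro i; rw [← hEadd, neg_add_cancel, hE0]
  let act : QuaternionGroup n → ZMod q × ZMod q → ZMod q × ZMod q := fun x v => match x with
    | .a i => (E i * v.1, E (-i) * v.2)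
    | .xa i => (E (-i) * v.2, - (E i * v.1))
  have hcomm : ∀ i j : ZMod (2 * n), E (n + j - i) = - (E j * E (-i)) := by
    intro i j
    rw [sub_eq_add_neg, hEadd, hEadd, hEn]; ring
  have hcomm' : ∀ i j : ZMod (2 * n), E (-(n + j - i)) = - (E (-j) * E i) := by
    intro i j
    have : -(n + j - i) = (n : ZMod (2 * n)) + (-j) + i := by linear_combination (-1 : ZMod (2 * n)) * hnn
    rw [this, hEadd, hEadd, hEn]; ring
  have : Nontrivial (QuaternionGroup n) := inferInstance
  apply frob_of_action (V := ZMod q × ZMod q) (H := QuaternionGroup n) act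
  · rintro ⟨u, v⟩
    change act (.a 0) (u, v) = (u, v)
    change (E 0 * u, E (-0) * v) = (u, v)
    rw [neg_zero, hE0, one_mul, one_mul]
  · rintro (i | i) (j | j) ⟨u, v⟩
    · change (E (i + j) * u, E (-(i + j)) * v) = (E i * (E j * u), E (-i) * (E (-j) * v))
      rw [neg_add, hEadd, hEadd, mul_assoc, mul_assoc]
    · change (E (-(j - i)) * v, -(E (j - i) * u)) = (E i * (E (-j) * v), E (-i) * -(E j * u))
      rw [show -(j - i) = i + -j by ring, sub_eq_add_neg, hEadd, hEadd]
      ext <;> simp only <;> ring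
    · change (E (-(i + j)) * v, -(E (i + j) * u)) = (E (-i) * (E (-j) * v), - (E i * (E j * u)))
      rw [neg_add, hEadd, hEadd, mul_assoc, mul_assoc]
    · change (E (n + j - i) * u, E (-(n + j - i)) * v) = (E (-i) * -(E j * u), -(E i * (E (-j) * v)))
      rw [hcomm, hcomm']
      ext <;> simp only <;> ring
  · rintro (i | i) ⟨u, v⟩ ⟨u', v'⟩
    · change (E i * (u + u'), E (-i) * (v + v')) = (E i * u + E i * u', E (-i) * v + E (-i) * v')
      rw [mul_add, mul_add]
    · change (E (-i) * (v + v'), -(E i * (u + u'))) = (E (-i) * v + E (-i) * v', -(E i * u) + -(E i * u'))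
      ext <;> simp only <;> ring
  · rintro (i | i) hi ⟨u, v⟩ hv
    · have hi0 : i ≠ 0 := by
        rintro rfl
        exact hi rfl
      have h1 : E i * u = u := congrArg Prod.fst hv
      have h2 : E (-i) * v = v := congrArg Prod.snd hv
      have h3 : E i ≠ 1 := fun h => hi0 (hEinj i h)
      have h4 : E (-i) ≠ 1 := fun h => hi0 (neg_eq_zero.1 (hEinj _ h))
      have h5 : u = 0 := by
        have : (E i - 1) * u = 0 := by linear_combination h1
        exact (mul_eq_zero.1 this).resolve_left (sub_ne_zero.2 h3)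
      have h6 : v = 0 := by
        have : (E (-i) - 1) * v = 0 := by linear_combination h2
        exact (mul_eq_zero.1 this).resolve_left (sub_ne_zero.2 h4)
      rw [h5, h6]; rfl
    · have h1 : E (-i) * v = u := congrArg Prod.fst hv
      have h2 : -(E i * u) = v := congrArg Prod.snd hv
      have h3 : (2 : ZMod q) * v = 0 := by
        rw [← h1] at h2
        have := hEneg i
        linear_combination (-1 : ZMod q) * h2 - v * this
      have h4 : v = 0 := (mul_eq_zero.1 h3).resolve_left h2q
      rw [h4, mul_zero] at h1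
      rw [← h1, h4]; rfl

end Cfsg.Agent.S4297
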