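import Cfsg.Statements.S4298
import Mathlib
import Cfsg.Agent.Lib.FrobC

set_option autoImplicit false
open Cfsg

set_option linter.style.haveILetI false
namespace Cfsg.Agent.S4298

def tab : List ℕ := [0, 0, 0, 0, 0, 0, 0, 0, 0, 0, 0, 0, 0, 0, 0, 105, 369, 431, 0, 0, 0, 45, 349, 411, 0, 0, 0, 0, 126, 0, 0, 183, 0, 0, 471, 0, 0, 163, 0, 0, 0, 60, 557, 0, 0, 0, 491, 0, 537, 0, 0, 0, 0, 377, 0, 0, 504, 0, 0, 309, 0, 0, 597, 0, 0, 289, 0, 253, 0, 243, 0, 0, 0, 0, 617, 223, 0, 0, 0, 90, 0]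
def code (a b c d : ZMod 3) : ℕ := tab.getD (27 * a.val + 9 * b.val + 3 * c.val + d.val) 0
def ent (k n : ℕ) : ZMod 5 := ((n / 5 ^ k : ℕ) : ZMod 5)
theorem code_mul : ∀ a b c d : ZMod 3, a * d - b * c = 1 → ∀ a' b' c' d' : ZMod 3, a' * d' - b' * c' = 1 →
    ent 3 (code (a * a' + b * c') (a * b' + b * d') (c * a' + d * c') (c * b' + d * d')) = ent 3 (code a b c d) * ent 3 (code a' b' c' d') + ent 2 (code a b c d) * ent 1 (code a' b' c' d') ∧
    ent 2 (code (a * a' + b * c') (a * b' + b * d') (c * a' + d * c') (c * b' + d * d')) = ent 3 (code a b c d) * ent 2 (code a' b' c' d') + ent 2 (code a b c d) * ent 0 (code a' b' c' d') ∧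
    ent 1 (code (a * a' + b * c') (a * b' + b * d') (c * a' + d * c') (c * b' + d * d')) = ent 1 (code a b c d) * ent 3 (code a' b' c' d') + ent 0 (code a b c d) * ent 1 (code a' b' c' d') ∧
    ent 0 (code (a * a' + b * c') (a * b' + b * d') (c * a' + d * c') (c * b' + d * d')) = ent 1 (code a b c d) * ent 2 (code a' b' c' d') + ent 0 (code a b c d) * ent 0 (code a' b' c' d') := by
  decide +kernel
theorem code_fix : ∀ a b c d : ZMod 3, a * d - b * c = 1 → ¬ (a = 1 ∧ b = 0 ∧ c = 0 ∧ d = 1) → ∀ u v : ZMod 5,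
    ent 3 (code a b c d) * u + ent 2 (code a b c d) * v = u → ent 1 (code a b c d) * u + ent 0 (code a b c d) * v = v → u = 0 ∧ v = 0 := by
  decide +kernel
theorem code_one : ent 3 (code 1 0 0 1) = 1 ∧ ent 2 (code 1 0 0 1) = 0 ∧ ent 1 (code 1 0 0 1) = 0 ∧ ent 0 (code 1 0 0 1) = 1 := by
  decide +kernel


/-- The group SL(2,3) of order 24 (the binary tetrahedral group) occurs as a Frobenius complement of some finite Frobenius group. -/
theorem result :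
    ∃ (L : Type) (_ : Group L) (_ : Finite L) (H : Subgroup L), Cfsg.IsFrobeniusComplement H ∧ Nonempty (H ≃* Matrix.SpecialLinearGroup (Fin 2) (ZMod 3)) := by
  open Subgroup CfsgLib.FrobC Matrix in
  let cd : SpecialLinearGroup (Fin 2) (ZMod 3) → ℕ := fun g => code (g 0 0) (g 0 1) (g 1 0) (g 1 1)
  have hdet : ∀ g : SpecialLinearGroup (Fin 2) (ZMod 3), g 0 0 * g 1 1 - g 0 1 * g 1 0 = 1 := by
    intro g
    have := g.det_coe
    rwa [det_fin_two] at this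
  let act : SpecialLinearGroup (Fin 2) (ZMod 3) → ZMod 5 × ZMod 5 → ZMod 5 × ZMod 5 := fun g v =>
    (ent 3 (cd g) * v.1 + ent 2 (cd g) * v.2, ent 1 (cd g) * v.1 + ent 0 (cd g) * v.2)
  haveI : Fact (Nat.Prime 5) := ⟨by norm_num⟩
  haveI : Nontrivial (ZMod 5 × ZMod 5) := inferInstance
  haveI : Nontrivial (SpecialLinearGroup (Fin 2) (ZMod 3)) := ⟨⟨1, ⟨!![1, 1; 0, 1], by simp [det_fin_two]⟩, fun h => by
    have := congrArg (fun g : SpecialLinearGroup (Fin 2) (ZMod 3) => g 0 1) h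
    simp at this⟩⟩
  apply frob_of_action (V := ZMod 5 × ZMod 5) (H := SpecialLinearGroup (Fin 2) (ZMod 3)) act
  · rintro ⟨u, v⟩
    obtain ⟨h1, h2, h3, h4⟩ := code_one
    have hc : cd 1 = code 1 0 0 1 := rfl
    change (ent 3 (cd 1) * u + ent 2 (cd 1) * v, ent 1 (cd 1) * u + ent 0 (cd 1) * v) = (u, v)
    rw [hc, h1, h2, h3, h4]; simp
  · rintro g h ⟨u, v⟩
    obtain ⟨h1, h2, h3, h4⟩ := code_mul (g 0 0) (g 0 1) (g 1 0) (g 1 1) (hdet g) (h 0 0) (h 0 1) (h 1 0) (h 1 1) (hdet h)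
    have hc : cd (g * h) = code (g 0 0 * h 0 0 + g 0 1 * h 1 0) (g 0 0 * h 0 1 + g 0 1 * h 1 1) (g 1 0 * h 0 0 + g 1 1 * h 1 0) (g 1 0 * h 0 1 + g 1 1 * h 1 1) := by
      have hcm : ∀ i j, (g * h) i j = g i 0 * h 0 j + g i 1 * h 1 j := fun i j => by
        change (g.1 * h.1) i j = _
        rw [Matrix.mul_apply, Fin.sum_univ_two]
      change code ((g * h) 0 0) ((g * h) 0 1) ((g * h) 1 0) ((g * h) 1 1) = _
      rw [hcm, hcm, hcm, hcm]
    change (ent 3 (cd (g * h)) * u + ent 2 (cd (g * h)) * v, ent 1 (cd (g * h)) * u + ent 0 (cd (g * h)) * v) = (ent 3 (cd g) * (ent 3 (cd h) * u + ent 2 (cd h) * v) + ent 2 (cd g) * (ent 1 (cd h) * u + ent 0 (cd h) * v), ent 1 (cd g) * (ent 3 (cd h) * u + ent 2 (cd h) * v) + ent 0 (cd g) * (ent 1 (cd h) * u + ent 0 (cd h) * v))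
    rw [hc, h1, h2, h3, h4]
    ext <;> simp only [cd] <;> ring
  · rintro g ⟨u, v⟩ ⟨u', v'⟩
    change (ent 3 (cd g) * (u + u') + ent 2 (cd g) * (v + v'), ent 1 (cd g) * (u + u') + ent 0 (cd g) * (v + v')) = (ent 3 (cd g) * u + ent 2 (cd g) * v + (ent 3 (cd g) * u' + ent 2 (cd g) * v'), ent 1 (cd g) * u + ent 0 (cd g) * v + (ent 1 (cd g) * u' + ent 0 (cd g) * v'))
    ext <;> simp only <;> ring
  · rintro g hg ⟨u, v⟩ hv
    have h1 : ent 3 (cd g) * u + ent 2 (cd g) * v = u := congrArg Prod.fst hv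
    have h2 : ent 1 (cd g) * u + ent 0 (cd g) * v = v := congrArg Prod.snd hv
    obtain ⟨h3, h4⟩ := code_fix (g 0 0) (g 0 1) (g 1 0) (g 1 1) (hdet g) (by
      rintro ⟨a1, a2, a3, a4⟩
      apply hg
      ext i j
      fin_cases i <;> fin_cases j <;> simp [a1, a2, a3, a4]) u v h1 h2
    rw [h3, h4]; rfl

end Cfsg.Agent.S4298
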