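import Cfsg.Statements.S4299
import Mathlib
import Cfsg.Agent.Lib.FrobC

set_option autoImplicit false
open Cfsg

set_option linter.style.haveILetI false
namespace Cfsg.Agent.S4299

/-- Every nontrivial finite cyclic group occurs as a Frobenius complement of some finite Frobenius group. -/
theorem result {C : Type*} [Group C] [Finite C] [IsCyclic C] [Nontrivial C] :
    ∃ (L : Type) (_ : Group L) (_ : Finite L) (H : Subgroup L), Cfsg.IsFrobeniusComplement H ∧ Nonempty (C ≃* H) := by
  open Subgroup CfsgLib.FrobC in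
  have hn : 1 < Nat.card C := Finite.one_lt_card
  set n := Nat.card C with hnd
  obtain ⟨q, hq, -, hmod⟩ := Nat.exists_prime_gt_modEq_one 1 (show n ≠ 0 by omega)
  haveI : Fact q.Prime := ⟨hq⟩
  haveI : NeZero n := ⟨by omega⟩
  have hdvd : n ∣ Nat.card (ZMod q)ˣ := by
    rw [Nat.card_eq_fintype_card, ZMod.card_units]
    exact (Nat.modEq_iff_dvd' hq.one_lt.le).1 hmod.symm
  obtain ⟨g, hg⟩ := IsCyclic.exists_generator (α := (ZMod q)ˣ)
  obtain ⟨d, hd⟩ := hdvd
  have hgo : orderOf g = Nat.card (ZMod q)ˣ := orderOf_eq_card_of_forall_mem_zpowers hg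
  have hz : orderOf (g ^ d) = n := by
    rw [orderOf_pow, hgo, hd, Nat.gcd_mul_left_left]
    have : 0 < d := by
      rcases Nat.eq_zero_or_pos d with rfl | h
      · have : 0 < Nat.card (ZMod q)ˣ := Nat.card_pos
        omega
      · exact h
    exact Nat.mul_div_cancel _ this
  let U := zpowers (g ^ d)
  have hU : Nat.card U = n := by rw [Nat.card_zpowers, hz]
  haveI : Nontrivial U := Finite.one_lt_card_iff_nontrivial.1 (by rw [hU]; exact hn)
  have e : C ≃* U := mulEquivOfCyclicCardEq (by rw [hU])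
  obtain ⟨L, i1, i2, K, hK, ⟨e2⟩⟩ := frob_of_action (V := ZMod q) (H := U) (fun u v => ((u : (ZMod q)ˣ) : ZMod q) * v)
    (fun v => by simp) (fun g h v => by simp [mul_assoc]) (fun g v w => by ring) (by
      intro u hu v hv
      by_contra hne
      apply hu
      have : ((u : (ZMod q)ˣ) : ZMod q) = 1 := by
        have h1 : ((u : (ZMod q)ˣ) : ZMod q) * v = 1 * v := by rw [one_mul]; exact hv
        exact mul_right_cancel₀ hne h1
      ext
      simpa using this)
  exact ⟨L, i1, i2, K, hK, ⟨e.trans e2.symm⟩⟩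

end Cfsg.Agent.S4299
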