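import Cfsg.Statements.S4300
import Mathlib

set_option autoImplicit false
open Cfsg

open scoped Pointwise
namespace Cfsg.Agent.S4300

/-- Let G act faithfully and primitively on a set X, and suppose the stabilizer of some point is a simple group. Then either G is simple, or G has a normal subgroup, neither trivial nor the whole group, that acts regularly on X (transitively with trivial point stabilizers). -/
theorem result {G : Type*} [Group G] {X : Type*} [MulAction G X] [FaithfulSMul G X]
    (hprim : MulAction.IsPreprimitive G X) (x : X) (hsimple : IsSimpleGroup (MulAction.stabilizer G x)) :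
    IsSimpleGroup G ∨ ∃ N : Subgroup G, N.Normal ∧ N ≠ ⊥ ∧ N ≠ ⊤ ∧
      MulAction.IsPretransitive N X ∧ ∀ y : X, MulAction.stabilizer N y = ⊥ := by
  open Subgroup MulAction in
  by_cases hG : IsSimpleGroup G
  · exact Or.inl hG
  right
  have hx1 : Nontrivial (stabilizer G x) := hsimple.toNontrivial
  have hGnt : Nontrivial G := by
    obtain ⟨a, b, hab⟩ := hx1
    exact ⟨a, b, fun h => hab (Subtype.ext h)⟩
  have : ∃ N : Subgroup G, N.Normal ∧ N ≠ ⊥ ∧ N ≠ ⊤ := by
    by_contra hcon
    push Not at hcon
    exact hG ⟨fun N hN => by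
      by_cases hb : N = ⊥
      · exact Or.inl hb
      · exact Or.inr (hcon N hN hb)⟩
  obtain ⟨N, hN, hNb, hNt⟩ := this
  have hfix : fixedPoints N X ≠ .univ := by
    intro h
    apply hNb
    rw [eq_bot_iff]
    intro n hn
    rw [mem_bot]
    apply FaithfulSMul.eq_of_smul_eq_smul (α := X)
    intro y
    have : y ∈ fixedPoints N X := h ▸ Set.mem_univ y
    rw [one_smul]
    exact this ⟨n, hn⟩
  have htr : IsPretransitive N X := IsQuasiPreprimitive.isPretransitive_of_normal hfix
  refine ⟨N, hN, hNb, hNt, htr, ?_⟩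
  have hx : stabilizer G x ⊓ N = ⊥ := by
    have h1 : (N.subgroupOf (stabilizer G x)).Normal := inferInstance
    rcases hsimple.eq_bot_or_eq_top_of_normal _ h1 with h | h
    · rw [subgroupOf_eq_bot, disjoint_iff, inf_comm] at h
      exact h
    · rw [subgroupOf_eq_top] at h
      exfalso
      apply hNt
      rw [eq_top_iff]
      intro g _
      obtain ⟨n, hn⟩ := htr.exists_smul_eq x (g • x)
      have h2 : (n : G)⁻¹ * g ∈ stabilizer G x := by
        rw [mem_stabilizer_iff, mul_smul, inv_smul_eq_iff]
        exact hn.symm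
      have h3 := mul_mem n.2 (h h2)
      rwa [mul_inv_cancel_left] at h3
  intro y
  rw [eq_bot_iff]
  intro n hn
  rw [mem_stabilizer_iff] at hn
  obtain ⟨m, hm⟩ := htr.exists_smul_eq x y
  have h2 : (m : G)⁻¹ * n * m ∈ stabilizer G x ⊓ N := by
    refine mem_inf.2 ⟨?_, ?_⟩
    · rw [mem_stabilizer_iff, mul_smul, mul_smul, inv_smul_eq_iff]
      have h3 : (m : G) • x = y := hm
      rw [h3]
      exact hn
    · exact mul_mem (mul_mem (inv_mem m.2) n.2) m.2
  rw [hx, mem_bot] at h2
  rw [mem_bot]
  apply Subtype.ext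
  have h4 : (n : G) = (m : G) * ((m : G)⁻¹ * n * m) * (m : G)⁻¹ := by group
  rw [h4, h2]; simp

end Cfsg.Agent.S4300
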