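import Cfsg.Statements.S4304
import Mathlib
import Cfsg.Agent.Lib.SylCount
import Cfsg.Agent.Lib.PGrp
import Cfsg.Agent.Lib.Transfer

set_option autoImplicit false
open Cfsg

namespace Cfsg.Agent.S4304

universe u
open CfsgLib.Core CfsgLib.Core2 CfsgLib.SylCount CfsgLib.NPC CfsgLib.Transfer Subgroup

theorem sylow_eq_of_le {G : Type*} [Group G] {p : ℕ} (P Q : Sylow p G) (h : (P : Subgroup G) ≤ Q) : P = Q :=
  Sylow.ext (P.is_maximal' Q.isPGroup' h).symm

theorem stabilizer_eq {G : Type*} [Group G] [Finite G] {p : ℕ} [Fact p.Prime] (P Q : Sylow p G) :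
    MulAction.stabilizer (P : Subgroup G) Q = (Q : Subgroup G).subgroupOf (P : Subgroup G) := by
  ext u
  rw [MulAction.mem_stabilizer_iff, mem_subgroupOf]
  have h1 : u • Q = Q ↔ (u : G) • Q = Q := Iff.rfl
  rw [h1, Sylow.smul_eq_iff_mem_normalizer]
  constructor
  · intro h
    have h3 := P.isPGroup'.inf_normalizer_sylow Q
    exact (mem_inf.1 (h3.le (mem_inf.2 ⟨u.2, h⟩))).2
  · intro h
    exact le_normalizer h

theorem card_orbit {G : Type*} [Group G] [Finite G] {p : ℕ} [Fact p.Prime] (P Q : Sylow p G) :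
    (MulAction.orbit (P : Subgroup G) Q).ncard = (Q : Subgroup G).relIndex P := by
  rw [← MulAction.index_stabilizer, stabilizer_eq]
  rfl

section
variable {G : Type u} [Group G] [Finite G]

theorem relIndex_eq_seven [Fact (Nat.Prime 7)] (h15 : Nat.card (Sylow 7 G) = 15) (P Q : Sylow 7 G) (hPQ : Q ≠ P) :
    (Q : Subgroup G).relIndex P = 7 := by
  have hfin : Finite (Sylow 7 G) := inferInstance
  have h1 : (Q : Subgroup G).relIndex P ≤ 14 := by
    rw [← card_orbit]
    have h2 : MulAction.orbit (P : Subgroup G) Q ⊆ {P}ᶜ := by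
      intro R hR
      rw [Set.mem_compl_singleton_iff]
      rintro rfl
      obtain ⟨u, hu⟩ := hR
      have h3 : (u : G) • Q = R := hu
      have h4 : Q = (u : G)⁻¹ • R := (inv_smul_eq_iff.2 h3.symm).symm
      apply hPQ
      rw [h4]
      exact Sylow.smul_eq_iff_mem_normalizer.2 (le_normalizer (inv_mem u.2))
    have h5 := Set.ncard_le_ncard h2 (Set.toFinite _)
    have h6 : ({P}ᶜ : Set (Sylow 7 G)).ncard = 14 := by
      have := Set.ncard_add_ncard_compl ({P} : Set (Sylow 7 G))
      rw [Set.ncard_singleton, h15] at this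
      omega
    omega
  obtain ⟨k, hk⟩ := IsPGroup.index P.isPGroup' ((Q : Subgroup G).subgroupOf P)
  have hk' : (Q : Subgroup G).relIndex P = 7 ^ k := hk
  rw [hk'] at h1 ⊢
  have h2 : k < 2 := by
    by_contra h
    have : 7 ^ 2 ≤ 7 ^ k := Nat.pow_le_pow_right (by norm_num) (by omega)
    omega
  have h3 : k ≠ 0 := by
    rintro rfl
    rw [pow_zero, Subgroup.relIndex_eq_one] at hk'
    exact hPQ (sylow_eq_of_le P Q hk').symm
  have : k = 1 := by omega
  rw [this, pow_one]

/-- `P ⊓ uQu⁻¹ = P ⊓ Q` -/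
theorem inf_smul [Fact (Nat.Prime 7)] (h15 : Nat.card (Sylow 7 G) = 15) (P Q R : Sylow 7 G) (hPQ : Q ≠ P)
    (hR : R ∈ MulAction.orbit (P : Subgroup G) Q) : (P : Subgroup G) ⊓ R = (P : Subgroup G) ⊓ Q := by
  obtain ⟨u, rfl⟩ := hR
  have h1 : ((Q : Subgroup G).subgroupOf P).index = 7 := relIndex_eq_seven h15 P Q hPQ
  have h2 : ((Q : Subgroup G).subgroupOf P).Normal := CfsgLib.PGrp.normal_of_index_prime P.isPGroup' h1
  ext x
  rw [mem_inf, mem_inf]
  constructor
  · rintro ⟨hx1, hx2⟩
    refine ⟨hx1, ?_⟩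
    obtain ⟨y, hy, hyx⟩ := hx2
    have hyx' : (u : G) * y * (u : G)⁻¹ = x := hyx
    have hyP : y ∈ (P : Subgroup G) := by
      have : y = (u : G)⁻¹ * x * u := by rw [← hyx']; group
      rw [this]
      exact mul_mem (mul_mem (inv_mem u.2) hx1) u.2
    have h3 : (⟨y, hyP⟩ : (P : Subgroup G)) ∈ (Q : Subgroup G).subgroupOf P := hy
    have h4 := h2.conj_mem _ h3 u
    rw [mem_subgroupOf] at h4
    rw [← hyx']
    exact h4
  · rintro ⟨hx1, hx2⟩
    refine ⟨hx1, ?_⟩
    have h3 : (⟨x, hx1⟩ : (P : Subgroup G)) ∈ (Q : Subgroup G).subgroupOf P := hx2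
    have h4 := h2.conj_mem _ h3 u⁻¹
    rw [mem_subgroupOf] at h4
    refine ⟨(u : G)⁻¹ * x * u, ?_, ?_⟩
    · have h5 : ((u⁻¹ * (⟨x, hx1⟩ : (P : Subgroup G)) * u⁻¹⁻¹ : (P : Subgroup G)) : G) = (u : G)⁻¹ * x * u := by simp
      rw [h5] at h4
      exact h4
    · change (u : G) * ((u : G)⁻¹ * x * u) * (u : G)⁻¹ = x
      group

/-- structure of the intersections when the order is bigger than 7 -/
theorem two_inf [Fact (Nat.Prime 7)] (h15 : Nat.card (Sylow 7 G) = 15) (hcore : Cfsg.pCore 7 G = ⊥) (P : Sylow 7 G)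
    (hP : Nat.card (P : Subgroup G) ≠ 7) : ∃ B1 B2 : Subgroup G, B1 ≠ B2 ∧ Nat.card B1 = 7 ∧ Nat.card B2 = 7 ∧
      (∀ Q : Sylow 7 G, Q ≠ P → (P : Subgroup G) ⊓ Q = B1 ∨ (P : Subgroup G) ⊓ Q = B2) ∧
      {Q : Sylow 7 G | Q ≠ P ∧ (P : Subgroup G) ⊓ Q = B1}.ncard = 7 ∧ {Q : Sylow 7 G | Q ≠ P ∧ (P : Subgroup G) ⊓ Q = B2}.ncard = 7 := by
  have hfin : Finite (Sylow 7 G) := inferInstance
  have hex : ∀ B : Subgroup G, B ≠ ⊥ → ∃ Q : Sylow 7 G, ¬ B ≤ (Q : Subgroup G) := by
    intro B hB
    by_contra hcon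
    push Not at hcon
    apply hB
    rw [eq_bot_iff, ← hcore, pCore_eq_iInf]
    exact le_iInf hcon
  obtain ⟨Q1, hQ1⟩ : ∃ Q : Sylow 7 G, Q ≠ P := by
    by_contra hcon
    push Not at hcon
    have : Nat.card (Sylow 7 G) = 1 := by
      rw [Nat.card_eq_one_iff_unique]
      exact ⟨⟨fun a b => (hcon a).trans (hcon b).symm⟩, ⟨P⟩⟩
    omega
  have hcardinf : ∀ Q : Sylow 7 G, Q ≠ P → Nat.card ((P : Subgroup G) ⊓ Q : Subgroup G) * 7 = Nat.card (P : Subgroup G) := by
    intro Q hQ
    have h1 := relIndex_eq_seven h15 P Q hQ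
    have h2 := Subgroup.card_mul_index ((Q : Subgroup G).subgroupOf P)
    have h3 : ((Q : Subgroup G).subgroupOf P).index = 7 := h1
    rw [h3] at h2
    rw [← h2]
    congr 1
    rw [inf_comm, ← Subgroup.subgroupOf_map_subtype, Subgroup.card_map_of_injective (subtype_injective _)]
  obtain ⟨Q2, hQ2⟩ := hex ((P : Subgroup G) ⊓ Q1) (by
    intro h
    have := hcardinf Q1 hQ1
    rw [h, Subgroup.card_bot, one_mul] at this
    exact hP this.symm)
  have hQ2P : Q2 ≠ P := by
    rintro rfl
    exact hQ2 inf_le_left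
  have hne : (P : Subgroup G) ⊓ Q1 ≠ (P : Subgroup G) ⊓ Q2 := by
    intro h
    apply hQ2
    rw [h]
    exact inf_le_right
  have ho : ∀ Q : Sylow 7 G, Q ≠ P → (MulAction.orbit (P : Subgroup G) Q).ncard = 7 := by
    intro Q hQ
    rw [card_orbit, relIndex_eq_seven h15 P Q hQ]
  have hsub : ∀ Q : Sylow 7 G, Q ≠ P → MulAction.orbit (P : Subgroup G) Q ⊆ {R : Sylow 7 G | R ≠ P ∧ (P : Subgroup G) ⊓ R = (P : Subgroup G) ⊓ Q} := by
    intro Q hQ R hR
    refine ⟨?_, inf_smul h15 P Q R hQ hR⟩
    rintro rfl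
    obtain ⟨u, hu⟩ := hR
    have h3 : (u : G) • Q = R := hu
    have h4 : Q = (u : G)⁻¹ • R := (inv_smul_eq_iff.2 h3.symm).symm
    apply hQ
    rw [h4]
    exact Sylow.smul_eq_iff_mem_normalizer.2 (le_normalizer (inv_mem u.2))
  set S1 := {R : Sylow 7 G | R ≠ P ∧ (P : Subgroup G) ⊓ R = (P : Subgroup G) ⊓ Q1} with hS1
  set S2 := {R : Sylow 7 G | R ≠ P ∧ (P : Subgroup G) ⊓ R = (P : Subgroup G) ⊓ Q2} with hS2
  have h7a : 7 ≤ S1.ncard := by
    have h1 : _ ≤ S1.ncard := Set.ncard_le_ncard (hsub Q1 hQ1) (Set.toFinite _)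
    have h2 := ho Q1 hQ1
    omega
  have h7b : 7 ≤ S2.ncard := by
    have h1 : _ ≤ S2.ncard := Set.ncard_le_ncard (hsub Q2 hQ2P) (Set.toFinite _)
    have h2 := ho Q2 hQ2P
    omega
  have hdisj : Disjoint S1 S2 := by
    rw [Set.disjoint_left]
    rintro R ⟨_, h1⟩ ⟨_, h2⟩
    exact hne (h1.symm.trans h2)
  have hun : S1 ∪ S2 ⊆ {P}ᶜ := by
    rintro R (h | h)
    · exact h.1
    · exact h.1
  have hcompl : ({P}ᶜ : Set (Sylow 7 G)).ncard = 14 := by
    have := Set.ncard_add_ncard_compl ({P} : Set (Sylow 7 G))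
    rw [Set.ncard_singleton, h15] at this
    omega
  have hsum : (S1 ∪ S2).ncard = S1.ncard + S2.ncard := Set.ncard_union_eq hdisj (Set.toFinite _) (Set.toFinite _)
  have hle := Set.ncard_le_ncard hun (Set.toFinite _)
  have heq : S1 ∪ S2 = {P}ᶜ := Set.eq_of_subset_of_ncard_le hun (by omega) (Set.toFinite _)
  -- the intersection of all is trivial
  have hBB : ((P : Subgroup G) ⊓ Q1) ⊓ ((P : Subgroup G) ⊓ Q2) = ⊥ := by
    rw [eq_bot_iff, ← hcore, pCore_eq_iInf]
    apply le_iInf
    intro R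
    by_cases hR : R = P
    · subst hR
      exact inf_le_left.trans inf_le_left
    · have hR' : R ∈ S1 ∪ S2 := by rw [heq]; exact hR
      rcases hR' with h | h
      · exact (inf_le_left.trans (le_of_eq h.2.symm)).trans inf_le_right
      · exact (inf_le_right.trans (le_of_eq h.2.symm)).trans inf_le_right
  have hprod : Nat.card ((P : Subgroup G) ⊓ Q1 : Subgroup G) * Nat.card ((P : Subgroup G) ⊓ Q2 : Subgroup G) ≤ Nat.card (P : Subgroup G) := by
    have hinj : Function.Injective (fun z : ((P : Subgroup G) ⊓ Q1 : Subgroup G) × ((P : Subgroup G) ⊓ Q2 : Subgroup G) =>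
        (⟨(z.1 : G) * z.2, mul_mem (mem_inf.1 z.1.2).1 (mem_inf.1 z.2.2).1⟩ : (P : Subgroup G))) := by
      rintro ⟨a, b⟩ ⟨c, d⟩ h
      have h1 : (a : G) * b = c * d := congrArg Subtype.val h
      have h2 : (c : G)⁻¹ * a = d * (b : G)⁻¹ := by
        rw [inv_mul_eq_iff_eq_mul, ← mul_assoc, ← h1]; group
      have h3 : (c : G)⁻¹ * a ∈ ((P : Subgroup G) ⊓ Q1) ⊓ ((P : Subgroup G) ⊓ Q2) :=
        mem_inf.2 ⟨mul_mem (inv_mem c.2) a.2, h2 ▸ mul_mem d.2 (inv_mem b.2)⟩
      rw [hBB, mem_bot] at h3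
      have h4 : (a : G) = c := by
        rw [inv_mul_eq_one] at h3; exact h3.symm
      have h5 : (b : G) = d := by
        rw [h4] at h1; exact mul_left_cancel h1
      exact Prod.ext (Subtype.ext h4) (Subtype.ext h5)
    have := Nat.card_le_card_of_injective _ hinj
    rwa [Nat.card_prod] at this
  have hc1 := hcardinf Q1 hQ1
  have hc2 := hcardinf Q2 hQ2P
  have hPpos : 0 < Nat.card (P : Subgroup G) := Nat.card_pos
  obtain ⟨a, ha⟩ := IsPGroup.iff_card.1 (P.isPGroup'.to_le (inf_le_left : (P : Subgroup G) ⊓ Q1 ≤ P))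
  have hc12 : Nat.card ((P : Subgroup G) ⊓ Q1 : Subgroup G) = Nat.card ((P : Subgroup G) ⊓ Q2 : Subgroup G) := by omega
  have hle7 : Nat.card ((P : Subgroup G) ⊓ Q2 : Subgroup G) ≤ 7 := by
    rw [← hc1] at hprod
    exact Nat.le_of_mul_le_mul_left hprod Nat.card_pos
  have ha1 : a ≠ 0 := by
    rintro rfl
    rw [pow_zero] at ha
    rw [ha] at hc1
    omega
  have hge7 : 7 ≤ Nat.card ((P : Subgroup G) ⊓ Q1 : Subgroup G) := by
    rw [ha]
    calc 7 = 7 ^ 1 := (pow_one 7).symm
      _ ≤ 7 ^ a := Nat.pow_le_pow_right (by norm_num) (by omega)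
  have hc7 : S1.ncard = 7 := by omega
  have hc8 : S2.ncard = 7 := by omega
  refine ⟨_, _, hne, by omega, by omega, ?_, hc7, hc8⟩
  intro R hR
  have hR' : R ∈ S1 ∪ S2 := by rw [heq]; exact hR
  rcases hR' with h | h
  · exact Or.inl h.2
  · exact Or.inr h.2

theorem card_sylow_seven [Fact (Nat.Prime 7)] (h15 : Nat.card (Sylow 7 G) = 15) (hcore : Cfsg.pCore 7 G = ⊥) (P : Sylow 7 G) :
    Nat.card (P : Subgroup G) = 7 := by
  classical
  by_contra hP
  have hfin : Finite (Sylow 7 G) := inferInstance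
  have : Fintype (Sylow 7 G) := Fintype.ofFinite _
  have hPP : ∀ Q : Sylow 7 G, Nat.card (Q : Subgroup G) ≠ 7 := by
    intro Q
    rw [Nat.card_congr (Q.equiv P).toEquiv]; exact hP
  have hst := fun Q : Sylow 7 G => two_inf h15 hcore Q (hPP Q)
  let 𝓑 : Finset (Subgroup G) := ((Finset.univ : Finset (Sylow 7 G × Sylow 7 G)).filter (fun z => z.2 ≠ z.1)).image (fun z => (z.1 : Subgroup G) ⊓ z.2)
  have hmem : ∀ B : Subgroup G, B ∈ 𝓑 ↔ ∃ P Q : Sylow 7 G, Q ≠ P ∧ (P : Subgroup G) ⊓ Q = B := by
    intro B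
    simp only [𝓑, Finset.mem_image, Finset.mem_filter, Finset.mem_univ, true_and, Prod.exists]
  have hB7 : ∀ B ∈ 𝓑, Nat.card B = 7 := by
    intro B hB
    obtain ⟨P, Q, hPQ, rfl⟩ := (hmem B).1 hB
    obtain ⟨B1, B2, _, h1, h2, h3, _⟩ := hst P
    rcases h3 Q hPQ with h | h <;> rw [h] <;> assumption
  have hcount := Finset.card_mul_eq_card_mul (s := (Finset.univ : Finset (Sylow 7 G))) (t := 𝓑)
    (fun (P : Sylow 7 G) (B : Subgroup G) => B ≤ (P : Subgroup G)) (m := 2) (n := 8) (by
      intro P _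
      obtain ⟨B1, B2, hne, h1, h2, h3, h4, h5⟩ := hst P
      have : Finset.bipartiteAbove (fun (P : Sylow 7 G) (B : Subgroup G) => B ≤ (P : Subgroup G)) 𝓑 P = {B1, B2} := by
        ext B
        rw [Finset.mem_bipartiteAbove, Finset.mem_insert, Finset.mem_singleton]
        constructor
        · rintro ⟨hB, hBP⟩
          obtain ⟨R, Q, hRQ, hBR⟩ := (hmem B).1 hB
          have hc := hB7 B hB
          -- there is a Sylow other than P containing B
          have : ∃ T : Sylow 7 G, T ≠ P ∧ B ≤ (T : Subgroup G) := by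
            by_cases hRP : R = P
            · exact ⟨Q, hRP ▸ hRQ, hBR ▸ inf_le_right⟩
            · exact ⟨R, hRP, hBR ▸ inf_le_left⟩
          obtain ⟨T, hTP, hBT⟩ := this
          have h6 : B ≤ (P : Subgroup G) ⊓ T := le_inf hBP hBT
          have h7 : Nat.card ((P : Subgroup G) ⊓ T : Subgroup G) = 7 := hB7 _ ((hmem _).2 ⟨P, T, hTP, rfl⟩)
          have h8 : B = (P : Subgroup G) ⊓ T := Subgroup.eq_of_le_of_card_ge h6 (by rw [h7, hc])
          rw [h8]
          exact h3 T hTP
        · have hnon : ∀ B : Subgroup G, {Q : Sylow 7 G | Q ≠ P ∧ (P : Subgroup G) ⊓ Q = B}.ncard = 7 → B ∈ 𝓑 ∧ B ≤ P := by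
            intro B hB
            have : {Q : Sylow 7 G | Q ≠ P ∧ (P : Subgroup G) ⊓ Q = B}.Nonempty := by
              rw [Set.nonempty_iff_ne_empty]
              intro h
              rw [h, Set.ncard_empty] at hB
              omega
            obtain ⟨Q, hQ1, hQ2⟩ := this
            exact ⟨(hmem B).2 ⟨P, Q, hQ1, hQ2⟩, hQ2 ▸ inf_le_left⟩
          rintro (rfl | rfl)
          · exact hnon _ h4
          · exact hnon _ h5
      rw [this, Finset.card_pair hne]) (by
      intro B hB
      obtain ⟨P, Q, hPQ, hBQ⟩ := (hmem B).1 hB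
      obtain ⟨B1, B2, hne, h1, h2, h3, h4, h5⟩ := hst P
      have h7 : {Q : Sylow 7 G | Q ≠ P ∧ (P : Subgroup G) ⊓ Q = B}.ncard = 7 := by
        rcases h3 Q hPQ with h | h
        · rw [← hBQ, h]; exact h4
        · rw [← hBQ, h]; exact h5
      have : ((Finset.bipartiteBelow (fun (P : Sylow 7 G) (B : Subgroup G) => B ≤ (P : Subgroup G)) Finset.univ B : Finset (Sylow 7 G)) : Set (Sylow 7 G)) =
          insert P {Q : Sylow 7 G | Q ≠ P ∧ (P : Subgroup G) ⊓ Q = B} := by
        ext T
        rw [Finset.mem_coe, Finset.mem_bipartiteBelow, Set.mem_insert_iff]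
        constructor
        · rintro ⟨_, hT⟩
          by_cases hTP : T = P
          · exact Or.inl hTP
          · right
            refine ⟨hTP, ?_⟩
            symm
            apply Subgroup.eq_of_le_of_card_ge (le_inf (hBQ ▸ inf_le_left) hT)
            rw [hB7 B hB, hB7 _ ((hmem _).2 ⟨P, T, hTP, rfl⟩)]
        · rintro (rfl | h)
          · exact ⟨Finset.mem_univ _, hBQ ▸ inf_le_left⟩
          · exact ⟨Finset.mem_univ _, h.2 ▸ inf_le_right⟩
      rw [← Set.ncard_coe_finset, this, Set.ncard_insert_of_notMem (by intro h; exact h.1 rfl) (Set.toFinite _), h7])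
  rw [Finset.card_univ, ← Nat.card_eq_fintype_card, h15] at hcount
  omega
end

section
open MulAction
variable {G : Type u} [Group G] [Finite G]

/-- if nothing normal and proper has index prime to 7, centralizers of Sylow 7-subgroups are 7-groups -/
theorem centralizer_elt [Fact (Nat.Prime 7)] (h15 : Nat.card (Sylow 7 G) = 15)
    (hnorm : ∀ M : Subgroup G, M.Normal → M ≠ ⊤ → 7 ∣ M.index)
    (hfaith : ∀ g : G, (∀ Q : Sylow 7 G, g • Q = Q) → g = 1)
    (P : Sylow 7 G) (hP7 : Nat.card (P : Subgroup G) = 7) (c : G) (hc : c ∈ centralizer ((P : Subgroup G) : Set G))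
    (r : ℕ) (hr : r.Prime) (hcr : orderOf c = r) : r = 7 := by
  classical
  by_contra hr7
  have hfin : Finite (Sylow 7 G) := inferInstance
  have : Fintype (Sylow 7 G) := Fintype.ofFinite _
  have : Fact r.Prime := ⟨hr⟩
  set F : Set (Sylow 7 G) := {Q | c • Q = Q} with hF
  -- P acts on F
  letI : MulAction (P : Subgroup G) F :=
    { smul := fun u Q => ⟨(u : G) • (Q : Sylow 7 G), by
        have h1 : (u : G) * c = c * u := mem_centralizer_iff.1 hc u u.2
        change c • ((u : G) • (Q : Sylow 7 G)) = _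
        rw [← mul_smul, ← h1, mul_smul]
        congr 1
        exact Q.2⟩
      one_smul := fun Q => Subtype.ext (one_smul G (Q : Sylow 7 G))
      mul_smul := fun u v Q => Subtype.ext (mul_smul (u : G) (v : G) (Q : Sylow 7 G)) }
  have hPF : c • P = P := by
    refine Sylow.smul_eq_iff_mem_normalizer.2 (?_ : c ∈ normalizer ((P : Subgroup G) : Set G))
    rw [Subgroup.mem_normalizer_iff]
    intro x
    constructor
    · intro hx
      rw [← mem_centralizer_iff.1 hc x hx, mul_inv_cancel_right]; exact hx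
    · intro hx
      have h2 := mem_centralizer_iff.1 hc _ hx
      have h3 : c * x * c⁻¹ = x := by
        have h4 : c * x = c * (c * x * c⁻¹) := by rw [← h2]; group
        exact (mul_left_cancel h4).symm
      rw [h3] at hx; exact hx
  have hfix : fixedPoints (P : Subgroup G) F = {⟨P, hPF⟩} := by
    ext ⟨Q, hQ⟩
    rw [mem_fixedPoints, Set.mem_singleton_iff]
    constructor
    · intro h
      apply Subtype.ext
      symm
      apply sylow_eq_of_le
      intro u hu
      have h1 : (⟨u, hu⟩ : (P : Subgroup G)) ∈ stabilizer (P : Subgroup G) Q := by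
        rw [mem_stabilizer_iff]
        exact congrArg Subtype.val (h ⟨u, hu⟩)
      rw [stabilizer_eq] at h1
      exact h1
    · rintro h u
      have h0 : Q = P := congrArg Subtype.val h
      subst h0
      apply Subtype.ext
      exact Sylow.smul_eq_iff_mem_normalizer.2 (le_normalizer u.2)
  have hF7 : Nat.card F ≡ 1 [MOD 7] := by
    have h1 := IsPGroup.card_modEq_card_fixedPoints P.isPGroup' F
    rw [hfix] at h1
    simpa using h1
  have hFr : 15 ≡ Nat.card F [MOD r] := by
    have hz : IsPGroup r (zpowers c) := IsPGroup.of_card (n := 1) (by rw [Nat.card_zpowers, hcr, pow_one])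
    have h1 := IsPGroup.card_modEq_card_fixedPoints hz (Sylow 7 G)
    rw [h15] at h1
    have h2 : fixedPoints (zpowers c) (Sylow 7 G) = F := by
      ext Q
      rw [mem_fixedPoints]
      constructor
      · intro h
        exact h ⟨c, mem_zpowers c⟩
      · rintro h ⟨_, k, rfl⟩
        change (c ^ k) • Q = Q
        have : c ∈ stabilizer G Q := h
        exact (stabilizer G Q).zpow_mem this k
    rw [h2] at h1
    exact h1
  have hFle : Nat.card F ≤ 15 := by
    rw [← h15]
    exact Nat.card_le_card_of_injective _ Subtype.val_injective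
  have hF15 : Nat.card F ≠ 15 := by
    intro h
    have h1 : F = Set.univ := Set.eq_of_subset_of_ncard_le (Set.subset_univ F)
      (by rw [Set.ncard_univ, h15, ← Nat.card_coe_set_eq, h]) (Set.toFinite _)
    have h2 : c = 1 := hfaith c (fun Q => by
      have : Q ∈ F := h1 ▸ Set.mem_univ Q
      exact this)
    rw [h2, orderOf_one] at hcr
    exact hr.ne_one hcr.symm
  have hF1 : Nat.card F = 1 := by
    have h1 : Nat.card F = 1 ∨ Nat.card F = 8 ∨ Nat.card F = 15 := by
      unfold Nat.ModEq at hF7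
      omega
    rcases h1 with h | h | h
    · exact h
    · exfalso
      rw [h] at hFr
      have h2 : (r : ℕ) ∣ 15 - 8 := (Nat.modEq_iff_dvd' (by norm_num)).1 hFr.symm
      exact hr7 ((Nat.prime_dvd_prime_iff_eq hr (by norm_num)).1 h2)
    · exact absurd h hF15
  have hr2 : r = 2 := by
    rw [hF1] at hFr
    have h2 : (r : ℕ) ∣ 15 - 1 := (Nat.modEq_iff_dvd' (by norm_num)).1 hFr.symm
    have h3 : r ∣ 2 * 7 := h2
    rcases hr.dvd_mul.1 h3 with h | h
    · exact (Nat.prime_dvd_prime_iff_eq hr (by norm_num)).1 h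
    · exact absurd ((Nat.prime_dvd_prime_iff_eq hr (by norm_num)).1 h) hr7
  subst hr2
  -- sign
  let φ := MulAction.toPermHom G (Sylow 7 G)
  have hσ1 : orderOf (φ c) = 2 := by
    apply orderOf_eq_prime
    · rw [← map_pow, ← hcr, pow_orderOf_eq_one, map_one]
    · intro h
      have h1 : c = 1 := hfaith c (fun Q => by
        have := congrArg (fun f : Equiv.Perm (Sylow 7 G) => f Q) h
        exact this)
      rw [h1, orderOf_one] at hcr
      norm_num at hcr
  have hsupp : (φ c).support.card = 14 := by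
    have h1 : (φ c).support = Finset.univ.erase P := by
      ext Q
      rw [Equiv.Perm.mem_support, Finset.mem_erase]
      have h2 : F = {P} := by
        rw [Nat.card_coe_set_eq, Set.ncard_eq_one] at hF1
        obtain ⟨a, ha⟩ := hF1
        have : P ∈ F := hPF
        rw [ha, Set.mem_singleton_iff] at this
        rw [ha, this]
      constructor
      · intro h
        refine ⟨?_, Finset.mem_univ _⟩
        rintro rfl
        exact h hPF
      · rintro ⟨h, _⟩ h3
        apply h
        have : Q ∈ F := h3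
        rw [h2] at this
        exact this
    rw [h1, Finset.card_erase_of_mem (Finset.mem_univ _), Finset.card_univ, ← Nat.card_eq_fintype_card, h15]
  have hsign : Equiv.Perm.sign (φ c) = -1 := by
    obtain ⟨n, hn⟩ := Equiv.Perm.cycleType_prime_order (σ := φ c) (by rw [hσ1]; norm_num)
    rw [hσ1] at hn
    have h1 := Equiv.Perm.sum_cycleType (φ c)
    rw [hsupp, hn, Multiset.sum_replicate] at h1
    have h2 : n = 6 := by simp at h1; omega
    rw [Equiv.Perm.sign_of_cycleType, hn, h2]
    simp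
    decide
  let ψ : G →* ℤˣ := Equiv.Perm.sign.comp φ
  have h1 : ψ.ker ≠ ⊤ := by
    intro h
    have : c ∈ ψ.ker := h ▸ mem_top c
    rw [MonoidHom.mem_ker] at this
    change Equiv.Perm.sign (φ c) = 1 at this
    rw [hsign] at this
    exact absurd this (by decide)
  have h2 := hnorm ψ.ker inferInstance h1
  have h3 : ψ.ker.index ∣ 2 := by
    rw [Subgroup.index_ker]
    have := Subgroup.card_subgroup_dvd_card ψ.range
    have h4 : Nat.card ℤˣ = 2 := by simp
    rwa [h4] at this
  have h5 := Nat.le_of_dvd (by norm_num) (h2.trans h3)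
  omega
end

section
variable {G : Type u} [Group G] [Finite G]

omit [Finite G] [Group G] in
theorem pow_idx {b i n : ℕ} (h : 3 ^ b * i = n) (h3 : ¬ 3 ∣ i) (m : ℕ) (hn : n = 3 ^ m * 35) : b = m := by
  rw [hn] at h
  rcases lt_trichotomy b m with h1 | h1 | h1
  · exfalso
    apply h3
    have h2 : 3 ^ m = 3 ^ b * 3 ^ (m - b) := by rw [← pow_add]; congr 1; omega
    rw [h2, mul_assoc] at h
    have h4 : i = 3 ^ (m - b) * 35 := Nat.eq_of_mul_eq_mul_left (by positivity) h
    rw [h4]
    exact (dvd_pow_self 3 (by omega)).mul_right _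
  · exact h1
  · exfalso
    have h2 : 3 ^ b = 3 ^ m * 3 ^ (b - m) := by rw [← pow_add]; congr 1; omega
    rw [h2, mul_assoc] at h
    have h4 : 3 ^ (b - m) * i = 35 := Nat.eq_of_mul_eq_mul_left (by positivity) h
    have h5 : 3 ∣ 35 := by
      rw [← h4]
      exact (dvd_pow_self 3 (by omega)).mul_right _
    revert h5; decide

theorem card_normalizer_dvd [Fact (Nat.Prime 7)] (P : Sylow 7 G) (hP7 : Nat.card (P : Subgroup G) = 7)
    (hC : centralizer ((P : Subgroup G) : Set G) = P) : Nat.card (normalizer ((P : Subgroup G) : Set G)) ∣ 42 := by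
  have h1 := Subgroup.normalizerMonoidHom_ker (P : Subgroup G)
  have h2 := Subgroup.card_mul_index (Subgroup.normalizerMonoidHom (P : Subgroup G)).ker
  rw [Subgroup.index_ker] at h2
  have hcyc : IsCyclic (P : Subgroup G) := isCyclic_of_prime_card hP7
  have h3 : Nat.card (Subgroup.normalizerMonoidHom (P : Subgroup G)).range ∣ 6 := by
    have := Subgroup.card_subgroup_dvd_card (Subgroup.normalizerMonoidHom (P : Subgroup G)).range
    rw [hcyc.card_mulAut, hP7, Nat.totient_prime (by norm_num)] at this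
    exact this
  have h4 : Nat.card (Subgroup.normalizerMonoidHom (P : Subgroup G)).ker = 7 := by
    rw [h1, hC]
    exact (Nat.card_congr (subgroupOfEquivOfLe le_normalizer).toEquiv).trans hP7
  rw [← h2, h4]
  exact Nat.mul_dvd_mul_left 7 h3

theorem no15 [Fact (Nat.Prime 7)] (h15 : Nat.card (Sylow 7 G) = 15)
    (hnorm : ∀ M : Subgroup G, M.Normal → M ≠ ⊤ → 7 ∣ M.index)
    (hcore' : ∀ (P : Sylow 7 G) (M : Subgroup G), M.Normal → M ≤ normalizer ((P : Subgroup G) : Set G) → M = ⊥) : False := by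
  obtain ⟨P⟩ : Nonempty (Sylow 7 G) := inferInstance
  have hcore : Cfsg.pCore 7 G = ⊥ :=
    hcore' P _ (pCore_normal 7 G) ((pCore_le_sylow P).trans le_normalizer)
  have hfaith : ∀ g : G, (∀ Q : Sylow 7 G, g • Q = Q) → g = 1 := by
    intro g hg
    have h1 : (MulAction.toPermHom G (Sylow 7 G)).ker = ⊥ := by
      apply hcore' P _ inferInstance
      intro x hx
      have h2 : x • P = P := by
        have := congrArg (fun f : Equiv.Perm (Sylow 7 G) => f P) (MonoidHom.mem_ker.1 hx)
        exact this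
      exact Sylow.smul_eq_iff_mem_normalizer.1 h2
    have h2 : g ∈ (MulAction.toPermHom G (Sylow 7 G)).ker := by
      rw [MonoidHom.mem_ker]
      ext Q
      rw [MulAction.toPermHom_apply, MulAction.toPerm_apply, hg Q]; rfl
    rwa [h1, mem_bot] at h2
  have hP7 := card_sylow_seven h15 hcore P
  -- centralizer of P is P
  have hPab : (P : Subgroup G) ≤ centralizer ((P : Subgroup G) : Set G) := by
    have hcyc : IsCyclic (P : Subgroup G) := isCyclic_of_prime_card hP7
    intro x hx
    rw [mem_centralizer_iff]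
    intro y hy
    exact congrArg Subtype.val ((IsCyclic.commGroup (α := (P : Subgroup G))).mul_comm ⟨y, hy⟩ ⟨x, hx⟩)
  have hC : centralizer ((P : Subgroup G) : Set G) = P := by
    apply P.is_maximal' _ hPab
    have h1 := Nat.eq_prime_pow_of_unique_prime_dvd (n := Nat.card (centralizer ((P : Subgroup G) : Set G))) (p := 7) Nat.card_pos.ne' (by
      intro r hr hrd
      have : Fact r.Prime := ⟨hr⟩
      obtain ⟨c, hc⟩ := exists_prime_orderOf_dvd_card' r hrd
      exact centralizer_elt h15 hnorm hfaith P hP7 c c.2 r hr (by rw [Subgroup.orderOf_coe]; exact hc))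
    exact IsPGroup.of_card h1
  have hN := card_normalizer_dvd P hP7 hC
  have hG : Nat.card G = Nat.card (normalizer ((P : Subgroup G) : Set G)) * 15 := by
    rw [← h15, P.card_eq_index_normalizer]
    exact (Subgroup.card_mul_index _).symm
  have hGd : Nat.card G ∣ 630 := by
    rw [hG]
    exact Nat.mul_dvd_mul_right hN 15
  have h105 : 105 ∣ Nat.card G := by
    have h1 : 7 ∣ Nat.card (normalizer ((P : Subgroup G) : Set G)) := by
      have := Subgroup.card_dvd_of_le (le_normalizer : (P : Subgroup G) ≤ _)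
      rwa [hP7] at this
    rw [hG]
    exact Nat.mul_dvd_mul_right h1 15
  -- no prime r≠7 with NPC
  have hnpc : ∀ r : ℕ, r.Prime → r ≠ 7 → r ∣ Nat.card G → ¬ NPC r G := by
    rintro r hr hr7 hrd ⟨N, hN, hNc, k, hk⟩
    have h1 : N ≠ ⊤ := by
      rintro rfl
      rw [Subgroup.card_top, Nat.coprime_comm, Nat.Prime.coprime_iff_not_dvd hr] at hNc
      exact hNc hrd
    have h2 := hnorm N hN h1
    rw [hk] at h2
    have h3 : 7 ∣ r := Nat.Prime.dvd_of_dvd_pow (by norm_num) h2
    exact hr7 ((Nat.prime_dvd_prime_iff_eq (by norm_num) hr).1 h3).symm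
  -- order is odd
  have h2G : ¬ 2 ∣ Nat.card G := by
    intro h2
    apply hnpc 2 Nat.prime_two (by norm_num) h2
    obtain ⟨T⟩ : Nonempty (Sylow 2 G) := inferInstance
    apply npc_of_normalizer_le T
    obtain ⟨k, hk⟩ := IsPGroup.iff_card.1 T.isPGroup'
    have hk1 : k ≤ 1 := by
      by_contra hk2
      have h3 : 2 ^ 2 ∣ Nat.card G := (pow_dvd_pow 2 (by omega : 2 ≤ k)).trans (hk ▸ Subgroup.card_subgroup_dvd_card _)
      have h4 := h3.trans hGd
      revert h4; decide
    have hT2 : Nat.card (T : Subgroup G) ≤ 2 := by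
      rw [hk]
      calc 2 ^ k ≤ 2 ^ 1 := Nat.pow_le_pow_right (by norm_num) hk1
        _ = 2 := by norm_num
    intro g hg
    rw [mem_centralizer_iff]
    intro t ht
    by_cases ht1 : t = 1
    · rw [ht1, one_mul, mul_one]
    · have h5 : g * t * g⁻¹ ∈ (T : Subgroup G) := (mem_normalizer_iff.1 hg t).1 ht
      have h6 : g * t * g⁻¹ ≠ 1 := by
        intro h
        apply ht1
        have : t = g⁻¹ * (g * t * g⁻¹) * g := by group
        rw [this, h]; group
      have h7 : g * t * g⁻¹ = t := by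
        by_contra hne
        have h8 : ({1, t, g * t * g⁻¹} : Set G).ncard = 3 := by
          rw [Set.ncard_eq_three]
          exact ⟨1, t, g * t * g⁻¹, fun h => ht1 h.symm, fun h => h6 h.symm, fun h => hne h.symm, rfl⟩
        have h9 : ({1, t, g * t * g⁻¹} : Set G) ⊆ ((T : Subgroup G) : Set G) := by
          rintro x (rfl | rfl | rfl)
          · exact one_mem _
          · exact ht
          · exact h5
        have h10 := Set.ncard_le_ncard h9 (Set.toFinite _)
        rw [h8, ← Nat.card_coe_set_eq] at h10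
        have h11 : Nat.card (((T : Subgroup G) : Set G)) = Nat.card (T : Subgroup G) := rfl
        omega
      calc t * g = (g * t * g⁻¹) * g := by rw [h7]
        _ = g * t := by group
  have hG2 : Nat.card G = 105 ∨ Nat.card G = 315 := by
    obtain ⟨e, he⟩ := h105
    have h1 : e ∣ 6 := by
      rw [he] at hGd
      exact Nat.dvd_of_mul_dvd_mul_left (by norm_num) (by simpa using hGd : 105 * e ∣ 105 * 6)
    have h2 : e ≤ 6 := Nat.le_of_dvd (by norm_num) h1
    interval_cases e <;> omega
  -- Sylow 3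
  obtain ⟨R⟩ : Nonempty (Sylow 3 G) := inferInstance
  obtain ⟨b, hb⟩ := IsPGroup.iff_card.1 R.isPGroup'
  have hb' : (b = 1 ∧ Nat.card G = 3 ^ b * 35) ∨ (b = 2 ∧ Nat.card G = 3 ^ b * 35) := by
    have h1 := Subgroup.card_mul_index (R : Subgroup G)
    rw [hb] at h1
    rcases hG2 with h | h
    · left
      have h2 := pow_idx h1 R.not_dvd_index 1 (by rw [h]; norm_num)
      exact ⟨h2, by rw [h, h2]; norm_num⟩
    · right
      have h2 := pow_idx h1 R.not_dvd_index 2 (by rw [h]; norm_num)
      exact ⟨h2, by rw [h, h2]; norm_num⟩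
  have hGb : Nat.card G = 3 ^ b * 35 := by rcases hb' with h | h <;> exact h.2
  have hRab : IsMulCommutative (R : Subgroup G) := by
    rcases hb' with h | h
    · have hcyc : IsCyclic (R : Subgroup G) := isCyclic_of_prime_card (p := 3) (by rw [hb, h.1, pow_one])
      exact ⟨⟨fun x y => (IsCyclic.commGroup (α := (R : Subgroup G))).mul_comm x y⟩⟩
    · exact IsPGroup.isMulCommutative_of_card_eq_prime_sq (p := 3) (G := (R : Subgroup G)) (by rw [hb, h.1])
  have hidx : (normalizer ((R : Subgroup G) : Set G)).index ∣ 35 := by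
    have h1 : (R : Subgroup G).index = 35 := by
      have := Subgroup.card_mul_index (R : Subgroup G)
      rw [hb, hGb] at this
      exact Nat.eq_of_mul_eq_mul_left (by positivity) this
    rw [← h1]
    exact Subgroup.index_dvd_of_le le_normalizer
  have hmod : (normalizer ((R : Subgroup G) : Set G)).index ≡ 1 [MOD 3] := by
    have h1 := card_sylow_modEq_one 3 G
    rwa [R.card_eq_index_normalizer] at h1
  have hidx' : (normalizer ((R : Subgroup G) : Set G)).index = 1 ∨ (normalizer ((R : Subgroup G) : Set G)).index = 7 := by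
    have h1 : (normalizer ((R : Subgroup G) : Set G)).index ∈ Nat.divisors 35 := Nat.mem_divisors.2 ⟨hidx, by norm_num⟩
    have h2 : Nat.divisors 35 = {1, 5, 7, 35} := by decide
    rw [h2] at h1
    unfold Nat.ModEq at hmod
    simp only [Finset.mem_insert, Finset.mem_singleton] at h1
    omega
  rcases hidx' with h1 | h7
  · -- R normal
    rw [Subgroup.index_eq_one] at h1
    have h2 := card_modEq_centralizer (R := (P : Subgroup G)) (T := (R : Subgroup G)) P.isPGroup' (by rw [h1]; exact le_top)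
    have h3 : (R : Subgroup G) ⊓ centralizer ((P : Subgroup G) : Set G) = ⊥ := by
      rw [hC]
      apply Subgroup.inf_eq_bot_of_coprime
      rw [hb, hP7]
      exact Nat.Coprime.pow_left _ (by norm_num)
    rw [h3, Subgroup.card_bot, hb] at h2
    rcases hb' with h | h
    · rw [h.1] at h2; revert h2; decide
    · rw [h.1] at h2; revert h2; decide
  · apply hnpc 3 (by norm_num) (by norm_num) (by rw [hGb]; rcases hb' with h | h <;> rw [h.1] <;> norm_num)
    apply npc_of_normalizer_le R
    apply normalizer_le_centralizer_of_abelian R hRab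
    rintro g hg ⟨r, j, hr, hr3, hgo⟩
    have hNc : Nat.card (normalizer ((R : Subgroup G) : Set G)) = 3 ^ b * 5 := by
      have h8 := Subgroup.card_mul_index (normalizer ((R : Subgroup G) : Set G))
      rw [h7, hGb] at h8
      omega
    have h9 : r ^ j ∣ 3 ^ b * 5 := by
      rw [← hNc, ← hgo]
      exact Subgroup.orderOf_dvd_natCard _ hg
    have h10 : r ^ j ∣ 5 := by
      apply Nat.Coprime.dvd_of_dvd_mul_left _ h9
      exact Nat.Coprime.pow _ _ ((Nat.coprime_primes hr (by norm_num)).2 hr3)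
    have hg5 : IsPGroup 5 (zpowers g) := by
      rcases (Nat.dvd_prime (by norm_num : Nat.Prime 5)).1 h10 with h | h
      · exact IsPGroup.of_card (n := 0) (by rw [Nat.card_zpowers, hgo, h, pow_zero])
      · exact IsPGroup.of_card (n := 1) (by rw [Nat.card_zpowers, hgo, h, pow_one])
    have h5 : Fact (Nat.Prime 5) := ⟨by norm_num⟩
    have h11 : (R : Subgroup G) ≤ centralizer (zpowers g : Set G) := by
      apply centralizes_of_card_eq_pow (q := 3) (n := b) (by norm_num) hg5 (by rw [zpowers_le]; exact hg) hb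
      rcases hb' with h | h
      · rw [h.1]; decide
      · rw [h.1]; decide
    rw [mem_centralizer_iff]
    intro x hx
    exact (mem_centralizer_iff.1 (h11 hx) g (mem_zpowers g)).symm
end

theorem main (c : ℕ) [Fact (Nat.Prime 7)] : ∀ {G : Type u} [Group G] [Finite G], Nat.card G ≤ c → Nat.card (Sylow 7 G) ≠ 15 := by
  induction c with
  | zero => intro G _ _ h; exact absurd (Nat.card_pos (α := G)) (by omega)
  | succ c ih =>
    intro G _ _ hc h15
    apply no15 h15
    · intro M hM hMt
      by_contra h7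
      have h1 := card_sylow_of_normal M h7
      have h2 := card_lt_of_ne_top hMt
      exact ih (by omega) (h1.trans h15)
    · intro P M hM hMP
      by_contra hMb
      have h1 := card_sylow_quotient P M hMP
      have h2 := CfsgLib.Hall.card_quotient_lt M hMb
      exact ih (by omega) (h1.trans h15)


/-- No finite group has exactly 15 Sylow 7-subgroups. -/
theorem result {G : Type*} [Group G] [Finite G] : Nat.card (Sylow 7 G) ≠ 15 := by
  have : Fact (Nat.Prime 7) := ⟨by norm_num⟩
  exact main (Nat.card G) le_rfl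

end Cfsg.Agent.S4304
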