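import Cfsg.Statements.S4305
import Mathlib
import Cfsg.Agent.Lib.H7S3h

set_option autoImplicit false
open Cfsg

open scoped Pointwise
namespace Cfsg.Agent.S4305

open scoped commutatorElement


/-- Let the symmetric group of degree 3 act by automorphisms on a finite solvable group `G` of order prime to 6, so that only the identity of `G` is fixed by all of it. Then the derived subgroup of `G` is nilpotent. -/
theorem result {G : Type*} [Group G] [Finite G] [Group.IsSolvable G]
    [MulDistribMulAction (Equiv.Perm (Fin 3)) G] (hcop : (Nat.card G).Coprime 6)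
    (hfpf : ∀ g : G, (∀ a : Equiv.Perm (Fin 3), a • g = g) → g = 1) :
    Group.IsNilpotent ↥(commutator G) := by
  classical
  let φ : Equiv.Perm (Fin 3) →* MulAut G := MulDistribMulAction.toMulAut (Equiv.Perm (Fin 3)) G
  have hφ : ∀ a g, φ a g = a • g := fun a g => rfl
  let ρ : Equiv.Perm (Fin 3) := Equiv.swap 0 1 * Equiv.swap 1 2
  let τ : Equiv.Perm (Fin 3) := Equiv.swap 0 1
  have h1 : ρ ^ 3 = 1 := by decide
  have h2 : τ ^ 2 = 1 := by decide
  have h3 : τ * ρ * τ⁻¹ = ρ⁻¹ := by decide
  have h4 : ∀ a : Equiv.Perm (Fin 3), ∃ i : Fin 3, ∃ j : Fin 2, a = ρ ^ (i : ℕ) * τ ^ (j : ℕ) := by decide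
  refine CfsgLib.H7S3.main (Nat.card G) G le_rfl inferInstance hcop (φ ρ) (φ τ) ?_ ?_ ?_ ?_
  · rw [← map_pow, h1, map_one]
  · rw [← map_pow, h2, map_one]
  · rw [← map_inv, ← map_mul, ← map_mul, h3, map_inv]
  · intro g hg1 hg2
    rw [hφ] at hg1 hg2
    apply hfpf
    intro a
    obtain ⟨i, j, rfl⟩ := h4 a
    have k1 : ∀ n : ℕ, ρ ^ n • g = g := by
      intro n
      induction n with
      | zero => simp
      | succ n ih => rw [pow_succ, mul_smul, hg1, ih]
    have k2 : ∀ n : ℕ, τ ^ n • g = g := by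
      intro n
      induction n with
      | zero => simp
      | succ n ih => rw [pow_succ, mul_smul, hg2, ih]
    rw [mul_smul, k2, k1]

end Cfsg.Agent.S4305
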