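import Cfsg.Statements.S4422
import Mathlib

set_option autoImplicit false
open Cfsg

namespace Cfsg.Agent.S4422

theorem aux (e : ℕ) (n : ℕ) : n ≠ 0 → (∀ r : ℕ, r.Prime → r ∣ n → r ≡ 1 [MOD e]) → n ≡ 1 [MOD e] := by
  induction n using Nat.recOnMul with
  | zero => intro h; exact absurd rfl h
  | one => intro _ _; rfl
  | prime p hp => intro _ h; exact h p hp dvd_rfl
  | mul a b iha ihb =>
    intro h hr
    have ha : a ≠ 0 := left_ne_zero_of_mul h
    have hb : b ≠ 0 := right_ne_zero_of_mul h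
    have h1 := iha ha (fun r hr1 hd => hr r hr1 (hd.mul_right _))
    have h2 := ihb hb (fun r hr1 hd => hr r hr1 (hd.mul_left _))
    exact h1.mul h2


/-- Primitive divisors of `q^e - 1` are congruent to 1 modulo `e`. Let `q ≥ 2` and `e ≥ 1` be natural numbers and let `m` be a divisor of `q^e - 1` that is coprime to `q^i - 1` for every `1 ≤ i < e` (so `m` divides the primitive part of `q^e - 1`, the largest such divisor). Then `m ≡ 1 (mod e)`. -/
theorem result (q e m : ℕ) (hq : 2 ≤ q) (he : 1 ≤ e)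
    (hm : m ∣ q ^ e - 1) (hcop : ∀ i : ℕ, 1 ≤ i → i < e → Nat.Coprime m (q ^ i - 1)) :
    m % e = 1 % e := by
  have hm0 : m ≠ 0 := by
    rintro rfl
    rw [zero_dvd_iff] at hm
    have : 1 < q ^ e := Nat.one_lt_pow (by omega) (by omega)
    omega
  apply aux e m hm0
  intro r hr hrm
  have : Fact r.Prime := ⟨hr⟩
  have h1 : r ∣ q ^ e - 1 := hrm.trans hm
  have h2 : ((q : ZMod r)) ^ e = 1 := by
    have : ((q ^ e - 1 : ℕ) : ZMod r) = 0 := (ZMod.natCast_eq_zero_iff _ _).2 h1
    rw [Nat.cast_sub (Nat.one_le_pow _ _ (by omega))] at this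
    push_cast at this
    exact sub_eq_zero.1 this
  have hq0 : (q : ZMod r) ≠ 0 := by
    intro h
    rw [h, zero_pow (by omega)] at h2
    exact zero_ne_one h2
  have h3 : orderOf (q : ZMod r) ∣ e := orderOf_dvd_of_pow_eq_one h2
  have h4 : orderOf (q : ZMod r) = e := by
    by_contra hne
    have h5 : orderOf (q : ZMod r) < e := lt_of_le_of_ne (Nat.le_of_dvd (by omega) h3) hne
    have h6 : 1 ≤ orderOf (q : ZMod r) := Nat.pos_of_dvd_of_pos h3 (by omega)
    have h7 := hcop _ h6 h5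
    have h8 : r ∣ q ^ (orderOf (q : ZMod r)) - 1 := by
      rw [← ZMod.natCast_eq_zero_iff, Nat.cast_sub (Nat.one_le_pow _ _ (by omega))]
      push_cast
      rw [pow_orderOf_eq_one, sub_self]
    have h9 := Nat.dvd_gcd hrm h8
    rw [h7] at h9
    exact hr.one_lt.ne' (Nat.dvd_one.1 h9)
  have h5 : e ∣ r - 1 := h4 ▸ ZMod.orderOf_dvd_card_sub_one hq0
  exact ((Nat.modEq_iff_dvd' hr.one_lt.le).2 h5).symm

end Cfsg.Agent.S4422
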