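import Cfsg.Statements.S4435
import Cfsg.Agent.Lib.BFR3

set_option autoImplicit false
open Cfsg

namespace Cfsg.Agent.S4435

/-- Let N be a normal subgroup of the finite group G, b a block of N (relative to a maximal ideal M of the algebraic integers containing p), and T the stabilizer of b in G (the elements g such that conjugating any member of b by g gives a member of b); N ≤ T. Say that a block of T (or of G) covers b when some member has a constituent in b on restriction to N. Then: (i) every block B′ of T covering b induces a block B of G, B covers b, every ψ ∈ B′ induces to an irreducible character of G, and B consists exactly of the characters induced from members of B′; (ii) distinct blocks of T covering b induce distinct blocks of G; (iii) every block of G covering b is induced by some block of T covering b. -/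
theorem result {G : Type*} [Group G] [Fintype G] (p : ℕ) [Fact p.Prime] (M : Ideal Cfsg.AlgInt) (hM : Cfsg.IsPModular p M) (N : Subgroup G) [hN : N.Normal] [Fintype N] (b : Set (Cfsg.IrrCharacter N)) (hb : Cfsg.IsPBlock M b) (T : Subgroup G) [Fintype T] (hT : ∀ g : G, g ∈ T ↔ ∀ θ ∈ b, ∀ θ' : Cfsg.IrrCharacter N, (∀ n : N, (θ' : N → ℂ) n = (θ : N → ℂ) ⟨g * n * g⁻¹, hN.conj_mem n n.2 g⟩) → θ' ∈ b) (hNT : N ≤ T) : (∀ B' : Set (Cfsg.IrrCharacter T), Cfsg.IsPBlock M B' → (∃ ψ ∈ B', ∃ θ ∈ b, Cfsg.classInner (fun n : N => (ψ : T → ℂ) ⟨(n : G), hNT n.2⟩) (θ : N → ℂ) ≠ 0) → ∃ B : Set (Cfsg.IrrCharacter G), Cfsg.IsInducedBlock M T B' B ∧ (∃ χ ∈ B, ∃ θ ∈ b, Cfsg.classInner (fun n : N => (χ : G → ℂ) n) (θ : N → ℂ) ≠ 0) ∧ (∀ ψ ∈ B', Cfsg.IsIrrCharacter G (Cfsg.indFun T (ψ : T → ℂ))) ∧ ∀ χ : Cfsg.IrrCharacter G, χ ∈ B ↔ ∃ ψ ∈ B', (χ : G → ℂ) = Cfsg.indFun T (ψ :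 T → ℂ)) ∧ (∀ B'₁ B'₂ : Set (Cfsg.IrrCharacter T), Cfsg.IsPBlock M B'₁ → Cfsg.IsPBlock M B'₂ → (∃ ψ ∈ B'₁, ∃ θ ∈ b, Cfsg.classInner (fun n : N => (ψ : T → ℂ) ⟨(n : G), hNT n.2⟩) (θ : N → ℂ) ≠ 0) → (∃ ψ ∈ B'₂, ∃ θ ∈ b, Cfsg.classInner (fun n : N => (ψ : T → ℂ) ⟨(n : G), hNT n.2⟩) (θ : N → ℂ) ≠ 0) → ∀ B : Set (Cfsg.IrrCharacter G), Cfsg.IsInducedBlock M T B'₁ B → Cfsg.IsInducedBlock M T B'₂ B → B'₁ = B'₂) ∧ (∀ B : Set (Cfsg.IrrCharacter G), Cfsg.IsPBlock M B → (∃ χ ∈ B, ∃ θ ∈ b, Cfsg.classInner (fun n : N => (χ : G → ℂ) n) (θ : N → ℂ) ≠ 0) → ∃ B' : Set (Cfsg.IrrCharacter T), Cfsg.IsPBlock M B' ∧ (∃ ψ ∈ B', ∃ θ ∈ b, Cfsg.classInner (fun n : N => (ψ : T → ℂ) ⟨(n : G), hNT n.2⟩) (θ : N → ℂ) ≠ 0) ∧ Cfsg.IsInducedBlock M T B' B) := by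
  open CfsgLib.Block CfsgLib.CharBasic in
    refine ⟨?_, ?_, ?_⟩
    · intro B' hB' hcov
      have hcov' : ∃ ψ ∈ B', OvT hNT b (ψ : T → ℂ) := hcov
      have hall := fr_all hM hb hNT hT hB' hcov'
      refine ⟨_, fr_main hM hb hNT hT hB' hcov', ?_, ?_, ?_⟩
      · obtain ⟨ψ, hψ, h⟩ := hcov'
        obtain ⟨h1, h2⟩ := ovT_ind hM hb hNT hT ψ.2 h
        exact ⟨⟨_, h1⟩, ⟨ψ, hψ, rfl⟩, h2⟩
      · intro ψ hψ
        exact (ovT_ind hM hb hNT hT ψ.2 (hall ψ hψ)).1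
      · intro χ
        exact Iff.rfl
    · intro B₁ B₂ hB₁ hB₂ hc₁ hc₂ B hi₁ hi₂
      have hc₁' : ∃ ψ ∈ B₁, OvT hNT b (ψ : T → ℂ) := hc₁
      have hc₂' : ∃ ψ ∈ B₂, OvT hNT b (ψ : T → ℂ) := hc₂
      have e1 := fr_eq hM hb hNT hT hB₁ hc₁' hi₁
      have e2 := fr_eq hM hb hNT hT hB₂ hc₂' hi₂
      obtain ⟨ψ, hψ, h⟩ := hc₁'
      obtain ⟨h1, h2⟩ := ovT_ind hM hb hNT hT ψ.2 h
      have h3 : (⟨_, h1⟩ : IrrCharacter G) ∈ B := by rw [e1]; exact ⟨ψ, hψ, rfl⟩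
      rw [e2] at h3
      obtain ⟨ψ', hψ', h4⟩ := h3
      have h5 := ovT_inj hM hb hNT hT ψ.2 h ψ'.2 (fr_all hM hb hNT hT hB₂ hc₂' ψ' hψ') h4
      have h6 : ψ = ψ' := Subtype.ext h5
      exact IsPBlock.eq_of_mem hM hB₁ hB₂ hψ (h6 ▸ hψ')
    · rintro B hB ⟨χ, hχ, hθ⟩
      obtain ⟨ψ, h1, h2⟩ := ovT_surj hM hb hNT hT χ.2 hθ
      have h3 := isInducedBlock_of_indFun hM ψ χ h2
      have h4 : B = blockOf M (χ : G → ℂ) := IsPBlock.eq_of_mem hM hB (isPBlock_blockOf χ) hχ (mem_blockOf_self hM χ)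
      refine ⟨blockOf M (ψ : T → ℂ), isPBlock_blockOf ψ, ⟨ψ, mem_blockOf_self hM ψ, h1⟩, ?_⟩
      rw [h4]
      exact h3

end Cfsg.Agent.S4435
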