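import Cfsg.Statements.S4437
import Cfsg.Agent.Lib.BRoot1

set_option autoImplicit false
open Cfsg

namespace Cfsg.Agent.S4437

/-- Let P be a p-subgroup of the finite group G, H = P·C_G(P), and b a block of H (relative to a maximal ideal M of the algebraic integers containing p) having P as a defect group; let B be the block of G induced by b. Let T be the stabilizer of b in N_G(P): the elements g of N_G(P) such that the g-conjugate of every member of b is again a member of b. Then B has defect group P if and only if p does not divide the index of H in T. -/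
theorem result {G : Type*} [Group G] [Fintype G] (p : ℕ) [Fact p.Prime] (M : Ideal Cfsg.AlgInt) (hM : Cfsg.IsPModular p M) (P : Subgroup G) (hP : IsPGroup p P) (H : Subgroup G) [Fintype H] (hH : H = P ⊔ Subgroup.centralizer (P : Set G)) (b : Set (Cfsg.IrrCharacter H)) (hb : Cfsg.IsPBlock M b) (hbP : Cfsg.IsDefectGroup p M b (P.subgroupOf H)) (B : Set (Cfsg.IrrCharacter G)) (hind : Cfsg.IsInducedBlock M H b B) (T : Subgroup G) (hT : ∀ g : G, g ∈ T ↔ (g ∈ Subgroup.normalizer (P : Set G) ∧ ∀ θ ∈ b, ∀ θ' : Cfsg.IrrCharacter H, (∀ h h' : H, (h' : G) = g * h * g⁻¹ → (θ' : H → ℂ) h' = (θ : H → ℂ) h) → θ' ∈ b)) : Cfsg.IsDefectGroup p M B P ↔ ¬ p ∣ H.relIndex T := by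
  open CfsgLib.Block CfsgLib.CharBasic in
    obtain ⟨e, ha, he, hmaxb, hcoef, hdef⟩ := exists_root hM hP hH hb hbP
    have hBP : BP p M B (⟨P, e⟩ : BrauerPairIdx G) := bp_of_induced hM hind ha hmaxb.1
    have hNH : ∀ g ∈ Subgroup.normalizer (P : Set G), g ∈ Subgroup.normalizer (H : Set G) := by
      intro g hg
      have h1 := normalizer_le_normalizer_cen P hg
      have h2 : H.map (MulAut.conj g).toMonoidHom = H := by
        rw [hH, Subgroup.map_sup, map_conj_eq_of_normalizer hg]
        congr 1
        exact map_conj_eq_of_normalizer h1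
      exact normalizer_of_map_conj_eq h2
    have hTS : T = Stb (⟨P, e⟩ : BrauerPairIdx G) := by
      ext g
      rw [hT, mem_Stb_iff_coeff]
      apply and_congr_right
      intro hg
      rw [stab_iff_coeff hM hb (hNH g hg)]
      constructor
      · intro h x
        rw [← hcoef, ← hcoef]; exact h x
      · intro h x
        rw [hcoef, hcoef]; exact h x
    rw [hTS, Subgroup.relIndex, hH]
    constructor
    · intro hD
      exact (maxP_of_isDefectGroup hM hBP hD).not_dvd_index hM
    · intro hnd
      have hn : ((P ⊔ Cen P).subgroupOf (Stb (⟨P, e⟩ : BrauerPairIdx G))).Normal := by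
        constructor
        intro x hx g
        have hg := hNH g (Stb_le_normalizer _ g.2)
        rw [hH] at hg
        exact (Subgroup.mem_normalizer_iff.mp hg x).mp hx
      have hmax : MaxP p M B (⟨P, e⟩ : BrauerPairIdx G) := by
        apply maxP_of hM hBP hdef
        rintro g hg ⟨k, hk⟩
        have h1 := Subgroup.pow_index_mem ((P ⊔ Cen P).subgroupOf (Stb (⟨P, e⟩ : BrauerPairIdx G))) ⟨g, hg⟩
        have h2 : (g : G) ^ ((P ⊔ Cen P).subgroupOf (Stb (⟨P, e⟩ : BrauerPairIdx G))).index ∈ P ⊔ Cen P := h1
        have h3 : Nat.Coprime (orderOf g) ((P ⊔ Cen P).subgroupOf (Stb (⟨P, e⟩ : BrauerPairIdx G))).index := by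
          rw [hk]
          exact Nat.Coprime.pow_left k ((Nat.Prime.coprime_iff_not_dvd Fact.out).mpr hnd)
        have h4 := exists_pow_eq_self_of_coprime h3.symm
        obtain ⟨m, hm⟩ := h4
        rw [← hm]
        exact Subgroup.pow_mem _ h2 m
      exact MaxP.isDefectGroup hM hmax

end Cfsg.Agent.S4437
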