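import Cfsg.Statements.S4444
import Cfsg.Agent.Lib.BGlau1

set_option autoImplicit false
open Cfsg

open scoped Pointwise
set_option linter.style.haveILetI false
namespace Cfsg.Agent.S4444

open CfsgLib.Block CfsgLib.CharBasic in
theorem main {Γ : Type*} [Group Γ] [Fintype Γ] (G S : Subgroup Γ) [iG : Fintype G] (hnorm : ∀ s ∈ S, ∀ g ∈ G, s * g * s⁻¹ ∈ G) (hcop : (Nat.card G).Coprime (Nat.card S)) (p : ℕ) (hp : p.Prime) (hS : IsPGroup p S) (C : Subgroup Γ) [iC : Fintype C] (hC : C = G ⊓ Subgroup.centralizer (S : Set Γ)) (hCG : C ≤ G) :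
    (∀ χ : IrrCharacter G, (∀ s ∈ S, ∀ g g' : G, (g' : Γ) = s * g * s⁻¹ → (χ : G → ℂ) g' = (χ : G → ℂ) g) → ∃ (β : IrrCharacter C) (n : ℕ), classInner (fun c : C => (χ : G → ℂ) ⟨c, hCG c.2⟩) (β : C → ℂ) = (n : ℂ) ∧ ¬ p ∣ n) ∧
    (∀ χ : IrrCharacter G, (∀ s ∈ S, ∀ g g' : G, (g' : Γ) = s * g * s⁻¹ → (χ : G → ℂ) g' = (χ : G → ℂ) g) → ∀ (β β' : IrrCharacter C) (n n' : ℕ), classInner (fun c : C => (χ : G → ℂ) ⟨c, hCG c.2⟩) (β : C → ℂ) = (n : ℂ) → ¬ p ∣ n → classInner (fun c : C => (χ : G → ℂ) ⟨c, hCG c.2⟩) (β' : C → ℂ) = (n' : ℂ) → ¬ p ∣ n' → β = β') ∧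
    (∀ χ : IrrCharacter G, (∀ s ∈ S, ∀ g g' : G, (g' : Γ) = s * g * s⁻¹ → (χ : G → ℂ) g' = (χ : G → ℂ) g) → ∀ (β : IrrCharacter C) (n : ℕ), classInner (fun c : C => (χ : G → ℂ) ⟨c, hCG c.2⟩) (β : C → ℂ) = (n : ℂ) → ¬ p ∣ n → ((n : ℤ) ≡ 1 [ZMOD p] ∨ (n : ℤ) ≡ -1 [ZMOD p])) ∧
    (∀ χ χ' : IrrCharacter G, (∀ s ∈ S, ∀ g g' : G, (g' : Γ) = s * g * s⁻¹ → (χ : G → ℂ) g' = (χ : G → ℂ) g) → (∀ s ∈ S, ∀ g g' : G, (g' : Γ) = s * g * s⁻¹ → (χ' : G → ℂ) g' = (χ' : G → ℂ) g) → ∀ (β : IrrCharacter C) (n n' : ℕ), classInner (fun c : C => (χ : G → ℂ) ⟨c, hCG c.2⟩) (β : C → ℂ) = (n : ℂ) → ¬ p ∣ n → classInner (fun c : C => (χ' : G → ℂ) ⟨c, hCG c.2⟩) (β : C → ℂ) = (n' : ℂ) → ¬ p ∣ n' → χ = χ') ∧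
    (∀ β : IrrCharacter C, ∃ (χ : IrrCharacter G) (n : ℕ), (∀ s ∈ S, ∀ g g' : G, (g' : Γ) = s * g * s⁻¹ → (χ : G → ℂ) g' = (χ : G → ℂ) g) ∧ classInner (fun c : C => (χ : G → ℂ) ⟨c, hCG c.2⟩) (β : C → ℂ) = (n : ℂ) ∧ ¬ p ∣ n) := by
  classical
  obtain ⟨M, hM⟩ := exists_isPModular hp
  by_cases hS1 : S = ⊥
  · have hCG' : C = G := by
      rw [hC, hS1, inf_eq_left]
      intro g _
      rw [Subgroup.mem_centralizer_iff]
      intro x hx
      rw [Subgroup.coe_bot, Set.mem_singleton_iff] at hx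
      rw [hx]; group
    subst hCG'
    obtain rfl : iG = iC := Subsingleton.elim _ _
    have key : ∀ (χ β : IrrCharacter C) (n : ℕ), classInner (fun c : C => (χ : C → ℂ) ⟨c, hCG c.2⟩) (β : C → ℂ) = (n : ℂ) → ¬ p ∣ n → χ = β ∧ n = 1 := by
      intro χ β n hn hnp
      have e1 : (fun c : C => (χ : C → ℂ) ⟨c, hCG c.2⟩) = (χ : C → ℂ) := rfl
      rw [e1] at hn
      by_cases h : χ = β
      · rw [h, IsIrrCharacter.inner_self β.2] at hn
        exact ⟨h, by exact_mod_cast hn.symm⟩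
      · rw [IsIrrCharacter.inner_eq_zero χ.2 β.2 (fun h' => h (Subtype.ext h'))] at hn
        exfalso; apply hnp
        have : n = 0 := by exact_mod_cast hn.symm
        rw [this]; exact dvd_zero p
    have h1 : ∀ χ : IrrCharacter C, classInner (fun c : C => (χ : C → ℂ) ⟨c, hCG c.2⟩) (χ : C → ℂ) = ((1 : ℕ) : ℂ) := by
      intro χ
      have e1 : (fun c : C => (χ : C → ℂ) ⟨c, hCG c.2⟩) = (χ : C → ℂ) := rfl
      rw [e1, IsIrrCharacter.inner_self χ.2, Nat.cast_one]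
    have hinv : ∀ χ : IrrCharacter C, (∀ s ∈ S, ∀ g g' : C, (g' : Γ) = s * g * s⁻¹ → (χ : C → ℂ) g' = (χ : C → ℂ) g) := by
      intro χ s hs g g' hg
      rw [hS1, Subgroup.mem_bot] at hs
      rw [hs] at hg
      have : g' = g := Subtype.ext (by rw [hg]; group)
      rw [this]
    refine ⟨fun χ _ => ⟨χ, 1, h1 χ, hp.one_lt.ne' ∘ Nat.dvd_one.mp⟩, ?_, ?_, ?_, fun β => ⟨β, 1, hinv β, h1 β, hp.one_lt.ne' ∘ Nat.dvd_one.mp⟩⟩
    · intro χ _ β β' n n' hn hnp hn' hnp'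
      rw [← (key χ β n hn hnp).1, ← (key χ β' n' hn' hnp').1]
    · intro χ _ β n hn hnp
      left
      rw [(key χ β n hn hnp).2]
      exact Int.ModEq.refl _
    · intro χ χ' _ _ β n n' hn hnp hn' hnp'
      rw [(key χ β n hn hnp).1, (key χ' β n' hn' hnp').1]
  · letI : MulDistribMulAction S G :=
      { smul := fun s g => ⟨s * g * (s : Γ)⁻¹, hnorm s s.2 g g.2⟩
        one_smul := fun g => Subtype.ext (by show (1 : Γ) * g * (1 : Γ)⁻¹ = g; group)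
        mul_smul := fun s t g => Subtype.ext (by
          show ((s * t : S) : Γ) * g * ((s * t : S) : Γ)⁻¹ = s * (t * g * (t : Γ)⁻¹) * (s : Γ)⁻¹
          rw [Subgroup.coe_mul]; group)
        smul_mul := fun s g h => Subtype.ext (by
          show (s : Γ) * (g * h) * (s : Γ)⁻¹ = (s * g * (s : Γ)⁻¹) * (s * h * (s : Γ)⁻¹)
          group)
        smul_one := fun s => Subtype.ext (by
          show (s : Γ) * 1 * (s : Γ)⁻¹ = 1
          group) }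
    have hsm : ∀ (s : S) (g : G), ((s • g : G) : Γ) = s * g * (s : Γ)⁻¹ := fun s g => rfl
    have hpS : p ∣ Nat.card S := by
      have : Nontrivial S := (Subgroup.nontrivial_iff_ne_bot S).mpr hS1
      haveI : Fact p.Prime := ⟨hp⟩
      obtain ⟨n, hn⟩ := IsPGroup.iff_card.mp hS
      rw [hn]
      apply dvd_pow_self
      rintro rfl
      rw [pow_zero] at hn
      exact (Finite.one_lt_card).ne' hn
    have hg : GSet (Subgroup.inclusion hCG) p S := by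
      refine ⟨Subgroup.inclusion_injective hCG, ?_, hS, ?_⟩
      · intro g
        constructor
        · intro h
          have : (g : Γ) ∈ C := by
            rw [hC]
            refine ⟨g.2, ?_⟩
            show (g : Γ) ∈ Subgroup.centralizer (S : Set Γ)
            rw [Subgroup.mem_centralizer_iff]
            intro s hs
            have h1 := congrArg Subtype.val (h ⟨s, hs⟩)
            rw [hsm] at h1
            exact mul_inv_eq_iff_eq_mul.mp h1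
          exact ⟨⟨g, this⟩, Subtype.ext rfl⟩
        · rintro ⟨c, rfl⟩ s
          apply Subtype.ext
          rw [hsm]
          have h1 : (c : Γ) ∈ G ⊓ Subgroup.centralizer (S : Set Γ) := hC ▸ c.2
          have h2 := Subgroup.mem_centralizer_iff.mp h1.2 s s.2
          exact mul_inv_eq_iff_eq_mul.mpr h2
      · intro h1
        exact hp.one_lt.ne' (Nat.dvd_one.mp (hcop ▸ Nat.dvd_gcd h1 hpS))
    have hA : ∀ χ : IrrCharacter G, (∀ s ∈ S, ∀ g g' : G, (g' : Γ) = s * g * s⁻¹ → (χ : G → ℂ) g' = (χ : G → ℂ) g) ↔ AInv S (χ : G → ℂ) := by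
      intro χ
      constructor
      · intro h s g
        exact h s s.2 g (s • g) rfl
      · intro h s hs g g' hg'
        have : g' = (⟨s, hs⟩ : S) • g := Subtype.ext hg'
        rw [this]
        exact h _ _
    refine ⟨?_, ?_, ?_, ?_, ?_⟩
    · intro χ hχ
      exact glau_exists_beta hM hg χ
    · intro χ hχ β β' n n' hn hnp hn' hnp'
      exact glau_beta_unique hM hg ((hA χ).mp hχ) hn hnp hn' hnp'
    · intro χ hχ β n hn hnp
      exact glau_mod hM hg ((hA χ).mp hχ) hn hnp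
    · intro χ χ' hχ hχ' β n n' hn hnp hn' hnp'
      exact glau_chi_unique hM hg ((hA χ).mp hχ) ((hA χ').mp hχ') hn hnp hn' hnp'
    · intro β
      obtain ⟨χ, n, h1, h2, h3⟩ := glau_exists_chi hM hg β
      exact ⟨χ, n, (hA χ).mpr h1, h2, h3⟩


/-- The Glauberman correspondence for a p-group of operators. Inside a finite group Γ let S normalise G with the orders of G and S coprime, S a p-group, and let C = G ⊓ C(S) be the fixed points. Call an irreducible character χ of G S-invariant when χ(s g s⁻¹) = χ(g) for s ∈ S, g ∈ G. Then: (i) for every S-invariant χ there is exactly one irreducible character β of C whose multiplicity [χ_C, β] in the restriction of χ is not divisible by p; (ii) that multiplicity is ≡ 1 or ≡ −1 (mod p); (iii) distinct S-invariant χ give distinct β; (iv) every irreducible character of C arises in this way. So χ ↦ β is a bijection from the S-invariant irreducible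 characters of G onto the irreducible characters of C. -/
theorem result {Γ : Type*} [Group Γ] [Fintype Γ] (G S : Subgroup Γ) [Fintype G] (hnorm : ∀ s ∈ S, ∀ g ∈ G, s * g * s⁻¹ ∈ G) (hcop : (Nat.card G).Coprime (Nat.card S)) (p : ℕ) (hp : p.Prime) (hS : IsPGroup p S) (C : Subgroup Γ) [Fintype C] (hC : C = G ⊓ Subgroup.centralizer (S : Set Γ)) (hCG : C ≤ G) : (∀ χ : Cfsg.IrrCharacter G, (∀ s ∈ S, ∀ g g' : G, (g' : Γ) = s * g * s⁻¹ → (χ : G → ℂ) g' = (χ : G → ℂ) g) → ∃! β : Cfsg.IrrCharacter C, ∃ m : ℕ, Cfsg.classInner (fun c : C => (χ : G → ℂ) ⟨c, hCG c.2⟩) (β : C → ℂ) = (m : ℂ) ∧ ¬ p ∣ m) ∧ (∀ χ : Cfsg.IrrCharacter G, (∀ s ∈ S, ∀ g g' : G, (g' : Γ) = s * g * s⁻¹ → (χ : G → ℂ) g' = (χ : G → ℂ) g) → ∀ β : Cfsg.IrrCharacter C, ∀ m : ℕ, Cfsg.classInner (fun c : C => (χ : G → ℂ) ⟨c, hCG c.2⟩) (β : C → ℂ) = (m : ℂ) → ¬ p ∣ m → ((m : ℤ) ≡ 1 [ZMOD p] ∨ (m : ℤ) ≡ -1 [ZMOD p])) ∧ (∀ χ χ'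 : Cfsg.IrrCharacter G, (∀ s ∈ S, ∀ g g' : G, (g' : Γ) = s * g * s⁻¹ → (χ : G → ℂ) g' = (χ : G → ℂ) g) → (∀ s ∈ S, ∀ g g' : G, (g' : Γ) = s * g * s⁻¹ → (χ' : G → ℂ) g' = (χ' : G → ℂ) g) → ∀ β : Cfsg.IrrCharacter C, ∀ m m' : ℕ, Cfsg.classInner (fun c : C => (χ : G → ℂ) ⟨c, hCG c.2⟩) (β : C → ℂ) = (m : ℂ) → ¬ p ∣ m → Cfsg.classInner (fun c : C => (χ' : G → ℂ) ⟨c, hCG c.2⟩) (β : C → ℂ) = (m' : ℂ) → ¬ p ∣ m' → χ = χ') ∧ (∀ β : Cfsg.IrrCharacter C, ∃ χ : Cfsg.IrrCharacter G, (∀ s ∈ S, ∀ g g' : G, (g' : Γ) = s * g * s⁻¹ → (χ : G → ℂ) g' = (χ : G → ℂ) g) ∧ ∃ m : ℕ, Cfsg.classInner (fun c : C => (χ : G → ℂ) ⟨c, hCG c.2⟩) (β : C → ℂ) = (m : ℂ) ∧ ¬ p ∣ m) := by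
  obtain ⟨h1, h2, h3, h4, h5⟩ := main G S hnorm hcop p hp hS C hC hCG
  refine ⟨?_, h3, ?_, ?_⟩
  · intro χ hχ
    obtain ⟨β, n, hn, hnp⟩ := h1 χ hχ
    refine ⟨β, ⟨n, hn, hnp⟩, ?_⟩
    rintro β' ⟨n', hn', hnp'⟩
    exact h2 χ hχ β' β n' n hn' hnp' hn hnp
  · intro χ χ' hχ hχ' β m m' hm hmp hm' hmp'
    exact h4 χ χ' hχ hχ' β m m' hm hmp hm' hmp'
  · intro β
    obtain ⟨χ, n, h6, h7, h8⟩ := h5 β
    exact ⟨χ, h6, n, h7, h8⟩

end Cfsg.Agent.S4444
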