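import Cfsg.Statements.S4445
import Cfsg.Agent.Lib.BGlau2

set_option autoImplicit false
open Cfsg

namespace Cfsg.Agent.S4445

/-- Inside a finite group Γ let the solvable subgroup S normalise G with the orders of G and S coprime. Then the number of S-invariant irreducible characters of G (χ(s g s⁻¹) = χ(g) for all s ∈ S, g ∈ G) equals the number of conjugacy classes of G mapped to themselves by conjugation by every element of S. -/
theorem result {Γ : Type*} [Group Γ] [Fintype Γ] (G S : Subgroup Γ) [Fintype G] (hnorm : ∀ s ∈ S, ∀ g ∈ G, s * g * s⁻¹ ∈ G) (hcop : (Nat.card G).Coprime (Nat.card S)) (hsolv : Group.IsSolvable S) : Nat.card {χ : Cfsg.IrrCharacter G // (∀ s ∈ S, ∀ g g' : G, (g' : Γ) = s * g * s⁻¹ → (χ : G → ℂ) g' = (χ : G → ℂ) g)} = Nat.card {K : ConjClasses G // ∀ s ∈ S, ∀ g g' : G, (g' : Γ) = s * g * s⁻¹ → ConjClasses.mk g = K → ConjClasses.mk g' = K} := by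
  open CfsgLib.Block CfsgLib.CharBasic in
    classical
    let φ : S →* MulAut G :=
      { toFun := fun s =>
          { toFun := fun g => ⟨s * g * (s : Γ)⁻¹, hnorm s s.2 g g.2⟩
            invFun := fun g => ⟨(s : Γ)⁻¹ * g * s, by
              have := hnorm (s : Γ)⁻¹ (S.inv_mem s.2) g g.2
              simpa using this⟩
            left_inv := fun g => Subtype.ext (by simp only; group)
            right_inv := fun g => Subtype.ext (by simp only; group)
            map_mul' := fun g h => Subtype.ext (by
              simp only [Subgroup.coe_mul]; group) }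
        map_one' := by
          ext g
          show (1 : Γ) * g * (1 : Γ)⁻¹ = g
          group
        map_mul' := by
          intro s t
          ext g
          show ((s : Γ) * t) * g * ((s : Γ) * t)⁻¹ = s * (t * g * (t : Γ)⁻¹) * (s : Γ)⁻¹
          group }
    have hφ : ∀ (s : S) (g : G), ((φ s g : G) : Γ) = s * g * (s : Γ)⁻¹ := fun s g => rfl
    have h := card_inv_aux _ S G φ rfl hsolv hcop
    have e1 : ∀ χ : IrrCharacter G, InvIrr φ χ ↔ (∀ s ∈ S, ∀ g g' : G, (g' : Γ) = s * g * s⁻¹ → (χ : G → ℂ) g' = (χ : G → ℂ) g) := by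
      intro χ
      constructor
      · intro h s hs g g' hg
        have : g' = φ ⟨s, hs⟩ g := Subtype.ext hg
        rw [this]; exact h _ _
      · intro h s g
        exact h s s.2 g _ rfl
    have e2 : ∀ K : ConjClasses G, InvCls φ K ↔ (∀ s ∈ S, ∀ g g' : G, (g' : Γ) = s * g * s⁻¹ → ConjClasses.mk g = K → ConjClasses.mk g' = K) := by
      intro K
      constructor
      · intro h s hs g g' hg hK
        have : g' = φ ⟨s, hs⟩ g := Subtype.ext hg
        rw [this]; exact h _ _ hK
      · intro h s g hK
        exact h s s.2 g _ rfl hK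
    rw [Nat.card_congr (Equiv.subtypeEquivRight e1), Nat.card_congr (Equiv.subtypeEquivRight e2)] at h
    exact h

end Cfsg.Agent.S4445
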