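import Cfsg.Statements.S4446
import Cfsg.Agent.Lib.BGlau6

set_option autoImplicit false
open Cfsg

namespace Cfsg.Agent.S4446

/-- Let the finite group Γ be generated by a normal subgroup G and a cyclic subgroup S of coprime orders, C = G ⊓ C(S), and let χ be an S-invariant irreducible character of G with canonical extension χ̂ to Γ (the extension whose determinantal order is coprime to the order of S). Then there are exactly one irreducible character β of C and one sign ε such that χ̂(c s) = ε β(c) for every c ∈ C and every generator s of S; this β is a constituent of the restriction of χ to C; distinct S-invariant χ give distinct β; and every irreducible character of C arises in this way. -/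
theorem result {Γ : Type*} [Group Γ] [Fintype Γ] (G S : Subgroup Γ) [Fintype G] (hnorm : ∀ s ∈ S, ∀ g ∈ G, s * g * s⁻¹ ∈ G) (hcop : (Nat.card G).Coprime (Nat.card S)) (htop : G ⊔ S = ⊤) (hcyc : IsCyclic S) (C : Subgroup Γ) [Fintype C] (hC : C = G ⊓ Subgroup.centralizer (S : Set Γ)) (hCG : C ≤ G) : (∀ (χ : Cfsg.IrrCharacter G) (χh : Cfsg.IrrCharacter Γ), (∀ s ∈ S, ∀ g g' : G, (g' : Γ) = s * g * s⁻¹ → (χ : G → ℂ) g' = (χ : G → ℂ) g) → (∀ g : G, (χh : Γ → ℂ) g = (χ : G → ℂ) g) → (Cfsg.detOrder (χh : Γ → ℂ)).Coprime (Nat.card S) → (∃! βε : Cfsg.IrrCharacter C × ℤ, (βε.2 = 1 ∨ βε.2 = -1) ∧ ∀ c : C, ∀ s : Γ, Subgroup.zpowers s = S → (χh : Γ → ℂ) ((c : Γ) * s) = (βε.2 : ℂ) * (βε.1 : C → ℂ) c) ∧ ∀ β : Cfsg.IrrCharacter C, ∀ ε : ℤ, (ε = 1 ∨ ε = -1) → (∀ c : C, ∀ s : Γ, Subgroup.zpowers s = S → (χh : Γ → ℂ) ((c : Γ) * s) = (ε : ℂ) * (β : C → ℂ) c) → Cfsg.classInner (fun c : C => (χ : G → ℂ) ⟨c, hCG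 c.2⟩) (β : C → ℂ) ≠ 0) ∧ (∀ (χ χ' : Cfsg.IrrCharacter G) (χh χh' : Cfsg.IrrCharacter Γ), (∀ s ∈ S, ∀ g g' : G, (g' : Γ) = s * g * s⁻¹ → (χ : G → ℂ) g' = (χ : G → ℂ) g) → (∀ s ∈ S, ∀ g g' : G, (g' : Γ) = s * g * s⁻¹ → (χ' : G → ℂ) g' = (χ' : G → ℂ) g) → (∀ g : G, (χh : Γ → ℂ) g = (χ : G → ℂ) g) → (∀ g : G, (χh' : Γ → ℂ) g = (χ' : G → ℂ) g) → (Cfsg.detOrder (χh : Γ → ℂ)).Coprime (Nat.card S) → (Cfsg.detOrder (χh' : Γ → ℂ)).Coprime (Nat.card S) → ∀ β : Cfsg.IrrCharacter C, ∀ ε ε' : ℤ, (ε = 1 ∨ ε = -1) → (ε' = 1 ∨ ε' = -1) → (∀ c : C, ∀ s : Γ, Subgroup.zpowers s = S → (χh : Γ → ℂ) ((c : Γ) * s) = (ε : ℂ) * (β : C → ℂ) c) → (∀ c : C, ∀ s : Γ, Subgroup.zpowers s = S → (χh' : Γ → ℂ) ((c : Γ) * s) = (ε' : ℂ) * (β : C → ℂ) c) → χ = χ') ∧ (∀ β : Cfsg.IrrCharacter C, ∃ (χ : Cfsg.IrrCharacter G) (χh : Cfsg.IrrCharacter Γ) (ε : ℤ), (∀ s ∈ S, ∀ g g' : G, (g' : Γ) = s * g * s⁻¹ → (χ : G → ℂ) g' = (χ : G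 → ℂ) g) ∧ (∀ g : G, (χh : Γ → ℂ) g = (χ : G → ℂ) g) ∧ (Cfsg.detOrder (χh : Γ → ℂ)).Coprime (Nat.card S) ∧ (ε = 1 ∨ ε = -1) ∧ ∀ c : C, ∀ s : Γ, Subgroup.zpowers s = S → (χh : Γ → ℂ) ((c : Γ) * s) = (ε : ℂ) * (β : C → ℂ) c) := by
  open CfsgLib.Block CfsgLib.CharBasic CfsgLib.CharClifford in
    classical
    have hGn : G.Normal := by
      have h1 : G ⊔ S ≤ Subgroup.normalizer (G : Set Γ) := by
        apply sup_le Subgroup.le_normalizer
        intro s hs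
        rw [Subgroup.mem_normalizer_iff]
        intro g
        constructor
        · intro hg; exact hnorm s hs g hg
        · intro hg
          have h2 := hnorm s⁻¹ (S.inv_mem hs) _ hg
          have h3 : s⁻¹ * (s * g * s⁻¹) * s⁻¹⁻¹ = g := by group
          rwa [h3] at h2
      rw [htop, top_le_iff] at h1
      exact Subgroup.normalizer_eq_top_iff.mp h1
    have hCm : ∀ x : Γ, x ∈ C ↔ x ∈ G ∧ x ∈ Subgroup.centralizer (S : Set Γ) := by
      intro x; subst hC; exact Subgroup.mem_inf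
    obtain ⟨s₀, hs₀⟩ := hcyc.exists_generator
    have hs : Subgroup.zpowers (s₀ : Γ) = S := by
      apply le_antisymm
      · rw [Subgroup.zpowers_le]; exact s₀.2
      · intro x hx
        obtain ⟨i, hi⟩ := hs₀ ⟨x, hx⟩
        exact ⟨i, congrArg Subtype.val hi⟩
    refine ⟨?_, ?_, ?_⟩
    · intro χ χh hinv hext hdet
      refine ⟨?_, ?_⟩
      · obtain ⟨β, ε, hε, hv⟩ := cyc_main hcop htop hcyc C hCm χ.2 χh.2 hext hdet
        refine ⟨(β, ε), ⟨hε, hv⟩, ?_⟩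
        rintro ⟨β', ε'⟩ ⟨hε', hv'⟩
        obtain ⟨h1, h2⟩ := cyc_unique C hε' hε (fun c => (hv' c s₀ hs).symm.trans (hv c s₀ hs))
        exact Prod.ext h1 h2
      · intro β ε hε hv h0
        apply cyc_constituent (G := G) hcyc C hCm (irr_isCharacter χh) hε s₀.2 (fun c => hv c s₀ hs)
        rw [← h0]
        congr 1
        funext c
        exact hext ⟨(c : Γ), hCG c.2⟩
    · intro χ χ' χh χh' hinv hinv' hext hext' hdet hdet' β ε ε' hε hε' hv hv'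
      exact cyc_inj hcop C hCm (irr_isCharacter χh) (irr_isCharacter χh') hext hext' hε hε' hs (fun c => hv c s₀ hs) (fun c => hv' c s₀ hs)
    · intro β
      obtain ⟨χ, χh, ε, h1, h2, h3, h4, h5⟩ := cyc_surj hcop htop hcyc C hCm β
      refine ⟨χ, χh, ε, ?_, h2, h3, h4, h5⟩
      intro s hs g g' hg
      have := congrFun (h1 s) g
      rw [conjFn_apply] at this
      rw [← this]
      exact congrArg _ (Subtype.ext hg)

end Cfsg.Agent.S4446
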