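import Cfsg.Statements.S4447
import Cfsg.Agent.Lib.BGlau4

set_option autoImplicit false
open Cfsg

set_option linter.style.haveILetI false
namespace Cfsg.Agent.S4447

/-- Inside a finite group Γ let S normalise G and also normalise a normal subgroup N of G, with the order of S coprime to the index of N in G and S or G/N solvable. Then for every S-invariant irreducible character χ of G, the restriction of χ to N has an S-invariant irreducible constituent. -/
theorem result {Γ : Type*} [Group Γ] [Fintype Γ] (G S N : Subgroup Γ) [Fintype G] [Fintype N] (hnorm : ∀ s ∈ S, ∀ g ∈ G, s * g * s⁻¹ ∈ G) (hNG : N ≤ G) [hNn : (N.subgroupOf G).Normal] (hNS : ∀ s ∈ S, ∀ n ∈ N, s * n * s⁻¹ ∈ N) (hcop : (N.relIndex G).Coprime (Nat.card S)) (hsolv : Group.IsSolvable S ∨ Group.IsSolvable (G ⧸ N.subgroupOf G)) (χ : Cfsg.IrrCharacter G) (hinv : (∀ s ∈ S, ∀ g g' : G, (g' : Γ) = s * g * s⁻¹ → (χ : G → ℂ) g' = (χ : G → ℂ) g)) : ∃ θ : Cfsg.IrrCharacter N, Cfsg.classInner (fun n : N => (χ : G → ℂ) ⟨n, hNG n.2⟩) (θ : N → ℂ) ≠ 0 ∧ (∀ s ∈ S,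 ∀ g g' : N, (g' : Γ) = s * g * s⁻¹ → (θ : N → ℂ) g' = (θ : N → ℂ) g) := by
  open CfsgLib.Block CfsgLib.CharBasic in
    classical
    let φ : S →* MulAut G :=
      { toFun := fun s =>
          { toFun := fun g => ⟨s * g * (s : Γ)⁻¹, hnorm s s.2 g g.2⟩
            invFun := fun g => ⟨(s : Γ)⁻¹ * g * s, by
              have := hnorm (s : Γ)⁻¹ (S.inv_mem s.2) g g.2
              simpa using this⟩
            left_inv := fun g => Subtype.ext (by simp only; group)
            right_inv := fun g => Subtype.ext (by simp only; group)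
            map_mul' := fun g h => Subtype.ext (by
              simp only [Subgroup.coe_mul]; group) }
        map_one' := by
          ext g
          show (1 : Γ) * g * (1 : Γ)⁻¹ = g
          group
        map_mul' := by
          intro s t
          ext g
          show ((s : Γ) * t) * g * ((s : Γ) * t)⁻¹ = s * (t * g * (t : Γ)⁻¹) * (s : Γ)⁻¹
          group }
    have hφ : ∀ (s : S) (g : G), ((φ s g : G) : Γ) = s * g * (s : Γ)⁻¹ := fun s g => rfl
    let N1 : Subgroup G := N.subgroupOf G
    haveI : N1.Normal := hNn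
    haveI : Fintype N1 := Fintype.ofFinite _
    let e : N1 ≃* N := Subgroup.subgroupOfEquivOfLe hNG
    have he : ∀ x : N1, ((e x : N) : Γ) = ((x : G) : Γ) := fun x => rfl
    have hN1 : ∀ (a : S), ∀ n ∈ N1, φ a n ∈ N1 := fun a n hn => hNS a a.2 n hn
    obtain ⟨θ, hθ, hθχ⟩ := under_aux φ hN1 hcop hsolv χ (by
      intro a g
      exact hinv a a.2 g _ rfl)
    refine ⟨irrCongr e.symm θ, ?_, ?_⟩
    · intro h
      apply hθχ
      rw [← h]
      unfold classInner
      congr 1
      · rw [Nat.card_congr e.toEquiv]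
      · rw [← Equiv.sum_comp e.toEquiv]
        apply Finset.sum_congr rfl
        intro x _
        rw [irrCongr_apply]
        show (χ : G → ℂ) x * _ = _ * (starRingEnd ℂ) ((θ : N1 → ℂ) (e.symm (e x)))
        rw [MulEquiv.symm_apply_apply]
        rfl
    · intro s hs g g' hg
      rw [irrCongr_apply, irrCongr_apply]
      have h1 := hθ ⟨s, hs⟩ (e.symm g)
      rw [← h1]
      refine congrArg _ ?_
      apply e.injective
      rw [MulEquiv.apply_symm_apply]
      apply Subtype.ext
      exact hg

end Cfsg.Agent.S4447
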