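import Cfsg.Statements.S4448
import Cfsg.Agent.Lib.BGlau4

set_option autoImplicit false
open Cfsg

set_option linter.style.haveILetI false
namespace Cfsg.Agent.S4448

/-- Inside a finite group Γ let S normalise G and also normalise a normal subgroup N of G, with the order of S coprime to the index of N in G and G/N solvable. Then for every S-invariant irreducible character ϑ of N, the induced character ϑ^G has an S-invariant irreducible constituent. -/
theorem result {Γ : Type*} [Group Γ] [Fintype Γ] (G S N : Subgroup Γ) [Fintype G] [Fintype N] (hnorm : ∀ s ∈ S, ∀ g ∈ G, s * g * s⁻¹ ∈ G) (hNG : N ≤ G) [hNn : (N.subgroupOf G).Normal] (hNS : ∀ s ∈ S, ∀ n ∈ N, s * n * s⁻¹ ∈ N) (hcop : (N.relIndex G).Coprime (Nat.card S)) (hsolv : Group.IsSolvable (G ⧸ N.subgroupOf G)) (θ : Cfsg.IrrCharacter N) (hinv : (∀ s ∈ S, ∀ g g' : N, (g' : Γ) = s * g * s⁻¹ → (θ : N → ℂ) g' = (θ : N → ℂ) g)) : ∃ χ : Cfsg.IrrCharacter G, Cfsg.classInner (fun n : N => (χ : G → ℂ) ⟨n, hNG n.2⟩) (θ : N → ℂ) ≠ 0 ∧ (∀ s ∈ S, ∀ g g'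 : G, (g' : Γ) = s * g * s⁻¹ → (χ : G → ℂ) g' = (χ : G → ℂ) g) := by
  open CfsgLib.Block CfsgLib.CharBasic in
    classical
    let φ : S →* MulAut G :=
      { toFun := fun s =>
          { toFun := fun g => ⟨s * g * (s : Γ)⁻¹, hnorm s s.2 g g.2⟩
            invFun := fun g => ⟨(s : Γ)⁻¹ * g * s, by
              have := hnorm (s : Γ)⁻¹ (S.inv_mem s.2) g g.2
              simpa using this⟩
            left_inv := fun g => Subtype.ext (by simp only; group)
            right_inv := fun g => Subtype.ext (by simp only; group)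
            map_mul' := fun g h => Subtype.ext (by
              simp only [Subgroup.coe_mul]; group) }
        map_one' := by
          ext g
          show (1 : Γ) * g * (1 : Γ)⁻¹ = g
          group
        map_mul' := by
          intro s t
          ext g
          show ((s : Γ) * t) * g * ((s : Γ) * t)⁻¹ = s * (t * g * (t : Γ)⁻¹) * (s : Γ)⁻¹
          group }
    have hφ : ∀ (s : S) (g : G), ((φ s g : G) : Γ) = s * g * (s : Γ)⁻¹ := fun s g => rfl
    let N1 : Subgroup G := N.subgroupOf G
    haveI : N1.Normal := hNn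
    haveI : Fintype N1 := Fintype.ofFinite _
    let e : N1 ≃* N := Subgroup.subgroupOfEquivOfLe hNG
    have he : ∀ x : N1, ((e x : N) : Γ) = ((x : G) : Γ) := fun x => rfl
    let θ1 : IrrCharacter N1 := irrCongr e θ
    have hθ1 : ∀ x : N1, (θ1 : N1 → ℂ) x = (θ : N → ℂ) (e x) := fun x => irrCongr_apply _ _ _
    have hN1 : ∀ (a : S), ∀ n ∈ N1, φ a n ∈ N1 := fun a n hn => hNS a a.2 n hn
    obtain ⟨χ, hχ, hχθ⟩ := over_solv _ S G φ rfl N1 hN1 hcop hsolv θ1 (by
      intro a x
      rw [hθ1, hθ1]
      exact hinv a a.2 _ _ rfl)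
    refine ⟨χ, ?_, ?_⟩
    · intro h
      apply hχθ
      rw [← h]
      unfold classInner
      congr 1
      · rw [Nat.card_congr e.toEquiv]
      · rw [← Equiv.sum_comp e.toEquiv]
        apply Finset.sum_congr rfl
        intro x _
        rw [hθ1]
        rfl
    · intro s hs g g' hg
      have : g' = φ ⟨s, hs⟩ g := Subtype.ext hg
      rw [this]; exact hχ _ _

end Cfsg.Agent.S4448
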