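import Cfsg.Statements.S4452
import Cfsg.Agent.Lib.BGlau5

set_option autoImplicit false
open Cfsg

set_option linter.style.haveILetI false
namespace Cfsg.Agent.S4452

/-- Let the finite group G be the product of a normal subgroup K and a solvable subgroup H of coprime orders, and let N = N_G(H). Then the number of irreducible characters of G of degree coprime to the order of H equals the number of irreducible characters of N of degree coprime to the order of H. (The two sets are in fact in a canonical bijection; only the equality of their sizes is stated here.) -/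
theorem result {G : Type*} [Group G] [Finite G] (K H : Subgroup G) [K.Normal] (hKH : K ⊔ H = ⊤) (hcop : (Nat.card K).Coprime (Nat.card H)) (hsolv : Group.IsSolvable H) : Nat.card {χ : Cfsg.IrrCharacter G // (Cfsg.charDegree (χ : G → ℂ)).Coprime (Nat.card H)} = Nat.card {η : Cfsg.IrrCharacter (Subgroup.normalizer (H : Set G)) // (Cfsg.charDegree (η : Subgroup.normalizer (H : Set G) → ℂ)).Coprime (Nat.card H)} := by
  open CfsgLib.Block CfsgLib.CharBasic CfsgLib.CharClifford in
    classical
    haveI : Fintype G := Fintype.ofFinite _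
    haveI : Fintype K := Fintype.ofFinite _
    have hinf : K ⊓ H = ⊥ := (Subgroup.disjoint_of_coprime_natCard hcop).eq_bot
    have hidx : K.index = Nat.card H := by
      have h1 := CfsgLib.Coprime.card_sup (A := H) (K := K) (by rw [Subgroup.normalizer_eq_top]; exact le_top) hcop.symm
      rw [hKH, Subgroup.card_top] at h1
      have h2 := Subgroup.card_mul_index K
      rw [h1] at h2
      exact Nat.eq_of_mul_eq_mul_left Nat.card_pos h2
    rw [card_coprime_degree (K := K) (m := Nat.card H) (by rw [hidx]; exact hcop.symm) (fun q => by rw [hidx])]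
    rw [card_linTriv H hKH hcop]
    let N := Subgroup.normalizer (H : Set G)
    have hHN : H ≤ N := Subgroup.le_normalizer
    haveI : Fintype N := Fintype.ofFinite _
    let K1 : Subgroup N := K.subgroupOf N
    let H1 : Subgroup N := H.subgroupOf N
    haveI : K1.Normal := inferInstanceAs (K.subgroupOf N).Normal
    haveI : Fintype K1 := Fintype.ofFinite _
    have hKH1 : K1 ⊔ H1 = ⊤ := by
      rw [eq_top_iff]
      intro x _
      rw [Subgroup.mem_sup_of_normal_left]
      have hx : (x : G) ∈ K ⊔ H := by rw [hKH]; exact Subgroup.mem_top _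
      rw [Subgroup.mem_sup_of_normal_left] at hx
      obtain ⟨k, hk, h, hh, hx⟩ := hx
      have hkN : k ∈ N := by
        have : k = x * h⁻¹ := by rw [← hx]; group
        rw [this]
        exact N.mul_mem x.2 (N.inv_mem (hHN hh))
      exact ⟨⟨k, hkN⟩, hk, ⟨h, hHN hh⟩, hh, Subtype.ext hx⟩
    have hcK1 : Nat.card K1 ∣ Nat.card K := by
      have e : K1 ≃* (K ⊓ N : Subgroup G) := by
        have e1 : K1 = (K ⊓ N).subgroupOf N := (Subgroup.inf_subgroupOf_right K N).symm
        rw [e1]
        exact Subgroup.subgroupOfEquivOfLe inf_le_right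
      rw [Nat.card_congr e.toEquiv]
      exact Subgroup.card_dvd_of_le inf_le_left
    have eH : H1 ≃* H := Subgroup.subgroupOfEquivOfLe hHN
    have hcH1 : Nat.card H1 = Nat.card H := Nat.card_congr eH.toEquiv
    have hcop1 : (Nat.card K1).Coprime (Nat.card H1) := by
      rw [hcH1]; exact Nat.Coprime.coprime_dvd_left hcK1 hcop
    have hidx1 : K1.index = Nat.card H := by
      have h1 := CfsgLib.Coprime.card_sup (A := H1) (K := K1) (by rw [Subgroup.normalizer_eq_top]; exact le_top) hcop1.symm
      rw [hKH1, Subgroup.card_top] at h1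
      have h2 := Subgroup.card_mul_index K1
      rw [h1, hcH1] at h2
      exact Nat.eq_of_mul_eq_mul_left Nat.card_pos h2
    have hR := card_coprime_degree (K := K1) (m := Nat.card H) (by rw [hidx1, ← hcH1]; exact hcop1.symm) (fun q => by rw [hidx1])
    rw [card_linTriv H1 hKH1 hcop1] at hR
    have hcent : ∀ x : N, (x : G) ∈ K → ∀ h ∈ H, h * x * h⁻¹ = (x : G) := by
      intro x hx h hh
      have h1 : h * x * h⁻¹ * (x : G)⁻¹ ∈ K := K.mul_mem ((inferInstance : K.Normal).conj_mem _ hx _) (K.inv_mem hx)
      have h2 : h * x * h⁻¹ * (x : G)⁻¹ ∈ H := by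
        have h3 := (Subgroup.mem_normalizer_iff.mp x.2 h⁻¹).mp (H.inv_mem hh)
        have h4 : h * x * h⁻¹ * (x : G)⁻¹ = h * (x * h⁻¹ * (x : G)⁻¹) := by group
        rw [h4]; exact H.mul_mem hh h3
      have h3 : h * x * h⁻¹ * (x : G)⁻¹ ∈ K ⊓ H := ⟨h1, h2⟩
      rw [hinf, Subgroup.mem_bot] at h3
      exact mul_inv_eq_one.mp h3
    have hall : ∀ θ : IrrCharacter K1, ∀ g : N, conjFn g (θ : K1 → ℂ) = θ := by
      intro θ g
      have hg : g ∈ K1 ⊔ H1 := by rw [hKH1]; exact Subgroup.mem_top _
      rw [Subgroup.mem_sup_of_normal_left] at hg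
      obtain ⟨k, hk, h, hh, rfl⟩ := hg
      rw [conjFn_mul, conjFn_of_mem (IsCharacter.isClassFunction (irr_isCharacter θ)) hk]
      funext x
      rw [conjFn_apply]
      refine congrArg _ (Subtype.ext (Subtype.ext ?_))
      exact hcent x x.2 h hh
    rw [Nat.card_congr (Equiv.subtypeUnivEquiv hall)] at hR
    have hhom : Nat.card (H1 →* ℂˣ) = Nat.card (H →* ℂˣ) :=
      Nat.card_congr
        { toFun := fun f => f.comp eH.symm.toMonoidHom
          invFun := fun f => f.comp eH.toMonoidHom
          left_inv := fun f => MonoidHom.ext fun x => by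
            show f (eH.symm (eH x)) = f x
            rw [eH.symm_apply_apply]
          right_inv := fun f => MonoidHom.ext fun x => by
            show f (eH (eH.symm x)) = f x
            rw [eH.apply_symm_apply] }
    rw [hhom] at hR
    refine Eq.trans ?_ hR.symm
    congr 1
    -- the invariant characters of `K`
    let φ : H →* MulAut K := (MulAut.conjNormal (H := K)).comp H.subtype
    have hφ : ∀ (h : H) (k : K), ((φ h k : K) : G) = h * k * (h : G)⁻¹ := fun h k => MulAut.conjNormal_apply _ _
    have e1 : ∀ θ : IrrCharacter K, (∀ g : G, conjFn g (θ : K → ℂ) = θ) ↔ InvIrr φ θ := by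
      intro θ
      constructor
      · intro h a k
        have := congrFun (h a) k
        rw [conjFn_apply] at this
        rw [← this]
        exact congrArg _ (Subtype.ext (hφ a k))
      · intro h g
        have hg : g ∈ K ⊔ H := by rw [hKH]; exact Subgroup.mem_top _
        rw [Subgroup.mem_sup_of_normal_left] at hg
        obtain ⟨k, hk, a, ha, rfl⟩ := hg
        rw [conjFn_mul, conjFn_of_mem (IsCharacter.isClassFunction (irr_isCharacter θ)) hk]
        funext x
        rw [conjFn_apply, ← h ⟨a, ha⟩ x]
        exact congrArg _ (Subtype.ext (hφ ⟨a, ha⟩ x).symm)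
    rw [Nat.card_congr (Equiv.subtypeEquivRight e1), card_inv_fix _ H K φ rfl hsolv hcop]
    let e : K1 ≃* fixS φ (⊤ : Subgroup H) :=
      { toFun := fun x => ⟨⟨(x : N), x.2⟩, fun a _ => Subtype.ext (by
          rw [hφ]; exact hcent x x.2 a a.2)⟩
        invFun := fun x => ⟨⟨((x : K) : G), by
          have hx := x.2
          rw [Subgroup.mem_normalizer_iff]
          have h0 : ∀ h ∈ H, ((x : K) : G) * h * ((x : K) : G)⁻¹ = h := by
            intro h hh
            have h1 := congrArg (fun y : K => (y : G)) (hx ⟨h, hh⟩ (Subgroup.mem_top _))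
            simp only [hφ] at h1
            rw [← mul_inv_eq_iff_eq_mul.mp h1]; group
          intro h
          constructor
          · intro hh; rw [h0 h hh]; exact hh
          · intro hh
            have h1 := h0 _ hh
            have h2 : ((x : K) : G) * h * ((x : K) : G)⁻¹ = h := by
              have h3 := congrArg (fun z => ((x : K) : G)⁻¹ * z * ((x : K) : G)) h1
              have h4 : ((x : K) : G)⁻¹ * (((x : K) : G) * (((x : K) : G) * h * ((x : K) : G)⁻¹) * ((x : K) : G)⁻¹) * ((x : K) : G) = ((x : K) : G) * h * ((x : K) : G)⁻¹ := by group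
              have h5 : ((x : K) : G)⁻¹ * (((x : K) : G) * h * ((x : K) : G)⁻¹) * ((x : K) : G) = h := by group
              rw [h4, h5] at h3
              exact h3
            rw [h2] at hh; exact hh⟩, (x : K).2⟩
        left_inv := fun x => rfl
        right_inv := fun x => rfl
        map_mul' := fun x y => rfl }
    exact (Nat.card_congr (irrCongr e))

end Cfsg.Agent.S4452
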