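import Cfsg.Statements.S4456
import Cfsg.Agent.Lib.BThomp

set_option autoImplicit false
open Cfsg

set_option linter.style.haveILetI false
namespace Cfsg.Agent.S4456

/-- Let p be a prime and G a finite group such that p divides the degree of every irreducible character of G of degree greater than one. Then G has a normal p-complement: a normal subgroup of order prime to p whose index is a power of p. -/
theorem result {G : Type*} [Group G] [Finite G] (p : ℕ) (hp : p.Prime) (hdeg : ∀ χ : Cfsg.IrrCharacter G, Cfsg.charDegree (χ : G → ℂ) ≠ 1 → p ∣ Cfsg.charDegree (χ : G → ℂ)) : ∃ N : Subgroup G, N.Normal ∧ (Nat.card N).Coprime p ∧ ∃ k : ℕ, N.index = p ^ k := by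
  open CfsgLib.Block CfsgLib.CharBasic CfsgLib.CharClifford in
    classical
    haveI : Fintype G := Fintype.ofFinite _
    haveI : Fact p.Prime := ⟨hp⟩
    haveI : Finite (G →* ℂˣ) := by
      have hinj : Function.Injective (fun L : G →* ℂˣ => (⟨fun g => (L g : ℂ), isIrr_linear L⟩ : IrrCharacter G)) := by
        intro L L' h
        apply MonoidHom.ext
        intro g
        apply Units.ext
        exact congrFun (congrArg Subtype.val h) g
      exact Finite.of_injective _ hinj
    have h := thompson_sum (G := G) (p := p)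
    -- the group of linear characters of order prime to p
    let H : Subgroup (G →* ℂˣ) :=
      { carrier := {L | (orderOf L).Coprime p}
        mul_mem' := by
          intro a b ha hb
          exact Nat.Coprime.coprime_dvd_left ((Commute.all a b).orderOf_mul_dvd_mul_orderOf) (Nat.Coprime.mul_left ha hb)
        one_mem' := by
          show (orderOf (1 : G →* ℂˣ)).Coprime p
          rw [orderOf_one]; exact Nat.coprime_one_left p
        inv_mem' := by
          intro a ha
          have h1 : orderOf a⁻¹ = orderOf a := orderOf_inv a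
          show (orderOf a⁻¹).Coprime p
          exact h1 ▸ ha }
    have hHmem : ∀ L, L ∈ H ↔ (orderOf L).Coprime p := fun _ => Iff.rfl
    have hHc : ¬ p ∣ Nat.card H := by
      intro hd
      obtain ⟨x, hx⟩ := exists_prime_orderOf_dvd_card' p hd
      have h1 := (hHmem x.1).mp x.2
      rw [Subgroup.orderOf_coe, hx] at h1
      exact hp.one_lt.ne' (by rwa [Nat.coprime_self] at h1)
    have hlin : ∀ χ : IrrCharacter G, ¬ p ∣ charDegree (χ : G → ℂ) → charDegree (χ : G → ℂ) = 1 := by
      intro χ hχ
      by_contra hne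
      exact hχ (hdeg χ hne)
    have hsum : ∑ χ ∈ (Finset.univ.filter (fun χ : IrrCharacter G => ¬ p ∣ charDegree (χ : G → ℂ) ∧ ¬ p ∣ detOrder (χ : G → ℂ))),
      charDegree (χ : G → ℂ) ^ 2 = Nat.card H := by
      have h1 : ∑ χ ∈ (Finset.univ.filter (fun χ : IrrCharacter G => ¬ p ∣ charDegree (χ : G → ℂ) ∧ ¬ p ∣ detOrder (χ : G → ℂ))),
          charDegree (χ : G → ℂ) ^ 2 = (Finset.univ.filter (fun χ : IrrCharacter G => ¬ p ∣ charDegree (χ : G → ℂ) ∧ ¬ p ∣ detOrder (χ : G → ℂ))).card := by
        rw [Finset.card_eq_sum_ones]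
        apply Finset.sum_congr rfl
        intro χ hχ
        rw [hlin χ (Finset.mem_filter.mp hχ).2.1, one_pow]
      rw [h1]
      have hdo : ∀ L : G →* ℂˣ, detOrder (fun g => (L g : ℂ)) = orderOf L := by
        intro L
        unfold detOrder
        rw [CfsgLib.DetChar.detChar_linear, CfsgLib.DetExt3.orderOf_linear]
      have h2 : (Finset.univ.filter (fun χ : IrrCharacter G => ¬ p ∣ charDegree (χ : G → ℂ) ∧ ¬ p ∣ detOrder (χ : G → ℂ))).card =
          Nat.card {χ : IrrCharacter G // ¬ p ∣ charDegree (χ : G → ℂ) ∧ ¬ p ∣ detOrder (χ : G → ℂ)} := by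
        rw [Nat.card_eq_fintype_card, Fintype.card_subtype]
      rw [h2]
      symm
      refine Nat.card_congr (Equiv.ofBijective (fun L : H => (⟨⟨fun g => (L.1 g : ℂ), isIrr_linear L.1⟩, ?_, ?_⟩ :
        {χ : IrrCharacter G // ¬ p ∣ charDegree (χ : G → ℂ) ∧ ¬ p ∣ detOrder (χ : G → ℂ)})) ⟨?_, ?_⟩)
      · show ¬ p ∣ charDegree (fun g => (L.1 g : ℂ))
        have : charDegree (fun g => (L.1 g : ℂ)) = 1 := by
          unfold charDegree
          simp
        rw [this]
        exact hp.one_lt.ne' ∘ Nat.dvd_one.mp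
      · show ¬ p ∣ detOrder (fun g => (L.1 g : ℂ))
        rw [hdo]
        exact (Nat.Prime.coprime_iff_not_dvd hp).mp ((hHmem L.1).mp L.2).symm
      · intro L L' hLL
        apply Subtype.ext
        apply MonoidHom.ext
        intro g
        apply Units.ext
        exact congrFun (congrArg (fun χ : {χ : IrrCharacter G // ¬ p ∣ charDegree (χ : G → ℂ) ∧ ¬ p ∣ detOrder (χ : G → ℂ)} => (χ.1 : G → ℂ)) hLL) g
      · rintro ⟨χ, h3, h4⟩
        have h5 : (χ : G → ℂ) 1 = 1 := by
          rw [one_eq_charDegree (irr_isCharacter χ), hlin χ h3, Nat.cast_one]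
        obtain ⟨L, hL⟩ := IsCharacter.exists_linear (irr_isCharacter χ) h5
        have hL' : (χ : G → ℂ) = fun g => (L g : ℂ) := funext hL
        refine ⟨⟨L, ?_⟩, ?_⟩
        · rw [hHmem, ← hdo, ← hL']
          exact ((Nat.Prime.coprime_iff_not_dvd hp).mpr h4).symm
        · exact Subtype.ext (Subtype.ext hL'.symm)
    rw [hsum] at h
    refine ⟨pResidual p G, CfsgLib.Transfer.pResidual_normal p, ?_, CfsgLib.Transfer.pResidual_index p⟩
    apply Nat.Coprime.symm
    rw [Nat.Prime.coprime_iff_not_dvd hp]
    intro hd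
    exact hHc ((Nat.ModEq.dvd_iff h dvd_rfl).mp hd)

end Cfsg.Agent.S4456
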