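import Cfsg.Statements.S4483
import Cfsg.Agent.Lib.BlockReal

set_option autoImplicit false
open Cfsg

namespace Cfsg.Agent.S4483

/-- Let G be a finite group of order 2^n·g₀ with g₀ odd, and M a maximal ideal of the algebraic integers containing 2. Every real-valued irreducible character of G of odd degree lies in the principal 2-block; consequently G has at most 2^(2n) real-valued irreducible characters of odd degree. -/
theorem result {G : Type*} [Group G] [Finite G] (M : Ideal Cfsg.AlgInt) (hM : Cfsg.IsPModular 2 M) : (∀ χ : Cfsg.IrrCharacter G, (∀ g : G, ((χ : G → ℂ) g).im = 0) → Odd (Cfsg.charDegree (χ : G → ℂ)) → χ ∈ Cfsg.principalBlock M G) ∧ Nat.card {χ : Cfsg.IrrCharacter G // (∀ g : G, ((χ : G → ℂ) g).im = 0) ∧ Odd (Cfsg.charDegree (χ : G → ℂ))} ≤ 2 ^ (2 * (Nat.card G).factorization 2) := by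
  open CfsgLib.Block CfsgLib.CharBasic in
  classical
  have : Fintype G := Fintype.ofFinite G
  have h1 : ∀ χ : Cfsg.IrrCharacter G, (∀ g : G, ((χ : G → ℂ) g).im = 0) → Odd (Cfsg.charDegree (χ : G → ℂ)) →
      χ ∈ Cfsg.principalBlock M G := by
    intro χ hχ hodd
    apply mem_principalBlock_of_real hM χ _ hodd
    intro g _
    rw [IsCharacter.inv_apply (irr_isCharacter χ)]
    exact Complex.conj_eq_iff_im.mpr (hχ g)
  refine ⟨h1, ?_⟩
  have h2 := card_block_le hM (isPBlock_principalBlock (M := M) (G := G))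
  have h3 : Nat.card {χ : Cfsg.IrrCharacter G // (∀ g : G, ((χ : G → ℂ) g).im = 0) ∧ Odd (Cfsg.charDegree (χ : G → ℂ))} ≤
      Nat.card (Cfsg.principalBlock M G) := by
    have hfin : (Cfsg.principalBlock M G).Finite := Set.toFinite _
    exact Nat.card_mono hfin (fun χ hχ => h1 χ hχ.1 hχ.2)
  have h4 : Cfsg.blockDefect 2 (Cfsg.principalBlock M G) ≤ (Nat.card G).factorization 2 := by
    obtain ⟨D, hD⟩ := exists_defectGroup hM (isPBlock_principalBlock (M := M) (G := G))
    rw [blockDefect_eq hM (isPBlock_principalBlock (M := M) (G := G)) hD]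
    exact (Nat.factorization_le_iff_dvd Nat.card_pos.ne' Nat.card_pos.ne').mpr (Subgroup.card_subgroup_dvd_card D) 2
  generalize (Nat.card G).factorization 2 = n at h4 ⊢
  generalize Cfsg.blockDefect 2 (Cfsg.principalBlock M G) = d at h2 h4
  have h5 : 2 ^ (2 * d) ≤ 2 ^ (2 * n) :=
    Nat.pow_le_pow_right Nat.two_pos (Nat.mul_le_mul_left 2 h4)
  have h6 : 1 ≤ 2 ^ (2 * n) := Nat.one_le_pow _ _ Nat.two_pos
  generalize 2 ^ (2 * n) = X at h5 h6 ⊢
  generalize 2 ^ (2 * d) = Y at h5 h2
  omega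

end Cfsg.Agent.S4483
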