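import Cfsg.Statements.S4492
import Cfsg.Agent.Lib.BFong2

set_option autoImplicit false
open Cfsg

set_option linter.style.haveILetI false
namespace Cfsg.Agent.S4492

/-- Let G be a finite p-solvable group, N = O_{p'}(G) its largest normal subgroup of order prime to p, and θ an irreducible character of N invariant under conjugation by G; fix a maximal ideal M of the algebraic integers containing p. Then the irreducible characters of G lying over θ (those whose restriction to N contains θ) form a single p-block of G, and the defect groups of that block are exactly the Sylow p-subgroups of G. -/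
theorem result {G : Type*} [Group G] [Fintype G] (p : ℕ) [Fact p.Prime] (M : Ideal Cfsg.AlgInt) (hM : Cfsg.IsPModular p M) (hsolv : Cfsg.IsPSolvable p G) (N : Subgroup G) [hN : N.Normal] [Fintype N] (hNdef : N = Cfsg.pPrimeCore p G) (θ : Cfsg.IrrCharacter N) (hinv : ∀ (g : G) (n : N), (θ : N → ℂ) ⟨g * n * g⁻¹, hN.conj_mem n n.2 g⟩ = (θ : N → ℂ) n) : ∃ B : Set (Cfsg.IrrCharacter G), Cfsg.IsPBlock M B ∧ (∀ χ : Cfsg.IrrCharacter G, χ ∈ B ↔ Cfsg.classInner (fun n : N => (χ : G → ℂ) n) (θ : N → ℂ) ≠ 0) ∧ (∀ P : Sylow p G, Cfsg.IsDefectGroup p M B (P : Subgroup G)) ∧ ∀ D : Subgroup G, Cfsg.IsDefectGroup p M B D → ∃ P : Sylow p G, D = (P : Subgroup G) := by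
  open CfsgLib CfsgLib.Block CfsgLib.CharBasic CfsgLib.CharClifford in
    classical
    subst hNdef
    have hc := (PSolv.isPConstrained_iff (p := p) (G := G)).mp (PChain.isPConstrained hsolv)
    haveI := PSolv.pPrimePCore_normal p G
    have hNp : ¬ p ∣ Nat.card (pPrimeCore p G) := by
      rw [← Nat.Prime.coprime_iff_not_dvd (Fact.out : p.Prime)]
      exact (Core.card_pPrimeCore_coprime p G).symm
    have hinv' : ∀ g : G, conjFn g (θ : pPrimeCore p G → ℂ) = θ := fun g => by
      funext n
      rw [conjFn_apply]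
      exact hinv g n
    have hB := fong_block hM hNp θ hinv' (pPrimePCore p G) (PSolv.pPrimeCore_le_pPrimePCore p G)
      (fun l hl => pPrimePCore_pow hl) (fun x hx hxN => reg_of_constrained hc hx hxN)
    obtain ⟨χ, hχ, hχp⟩ := exists_pprime_over (Fact.out : p.Prime) hNp θ hinv'
    obtain ⟨h1, h2⟩ := sylow_defect hM hB (χ := χ) hχ hχp
    exact ⟨_, hB, fun χ => Iff.rfl, h1, h2⟩

end Cfsg.Agent.S4492
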