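import Cfsg.Statements.S4499
import Cfsg.Agent.Lib.BlockFeit

set_option autoImplicit false
open Cfsg

namespace Cfsg.Agent.S4499

/-- Let G be a finite group whose order has p-part p^a (a ≥ 1), and fix a maximal ideal M of the algebraic integers containing p. If the degree of one irreducible character of a p-block B is divisible by p^(a−1), then the degree of every irreducible character in B is divisible by p^(a−1) (so B has defect at most 1). -/
theorem result {G : Type*} [Group G] [Finite G] (p : ℕ) [Fact p.Prime] (M : Ideal Cfsg.AlgInt) (hM : Cfsg.IsPModular p M) (hpa : p ∣ Nat.card G) (B : Set (Cfsg.IrrCharacter G)) (hB : Cfsg.IsPBlock M B) (χ : Cfsg.IrrCharacter G) (hχ : χ ∈ B) (hdiv : p ^ ((Nat.card G).factorization p - 1) ∣ Cfsg.charDegree (χ : G → ℂ)) (ψ : Cfsg.IrrCharacter G) (hψ : ψ ∈ B) : p ^ ((Nat.card G).factorization p - 1) ∣ Cfsg.charDegree (ψ : G → ℂ) := by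
  open CfsgLib.Block in
  have : Fintype G := Fintype.ofFinite G
  obtain ⟨D, hD⟩ := exists_defectGroup hM hB
  have h1 := degree_eq_height hM hB hD hχ
  have h2 := degree_eq_height hM hB hD hψ
  have hχ0 := charDegree_ne_zero χ.2
  have hψ0 := charDegree_ne_zero ψ.2
  have hp := hM.1
  rw [← blockDefect_eq hM hB hD] at h1 h2
  rw [hp.pow_dvd_iff_le_factorization hψ0]
  rw [hp.pow_dvd_iff_le_factorization hχ0] at hdiv
  have h4 : 1 ≤ (Nat.card G).factorization p := by
    exact (hp.dvd_iff_one_le_factorization Nat.card_pos.ne').mp hpa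
  have h3 : Cfsg.blockDefect p B ≤ 1 := by
    by_contra hcon
    push Not at hcon
    by_cases h0 : Cfsg.blockHeight p B (χ : G → ℂ) = 0
    · omega
    · have := (brauerFeit_pos hM hB hχ h0).1
      omega
  omega

end Cfsg.Agent.S4499
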