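import Cfsg.Statements.S4633
import Cfsg.Agent.Lib.BEasy1

set_option autoImplicit false
open Cfsg

set_option linter.style.haveILetI false
namespace Cfsg.Agent.S4633

/-- Let B be a block of the finite group G relative to a maximal ideal M of the algebraic integers containing the prime p, with a nontrivial cyclic defect group P. Let c be a block of C_G(P) inducing B and T the stabilizer of c in N_G(P) (the elements of N_G(P) conjugating c to itself); T contains C_G(P). Then T/C_G(P) is cyclic of order dividing p − 1, and it acts freely on the non-identity elements of P: an element of T fixing some non-identity element of P under conjugation lies in C_G(P). -/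
theorem result {G : Type*} [Group G] [Finite G] (p : ℕ) [Fact p.Prime] (M : Ideal Cfsg.AlgInt) (hM : Cfsg.IsPModular p M) (B : Set (Cfsg.IrrCharacter G)) (hB : Cfsg.IsPBlock M B) (P : Subgroup G) (hPD : Cfsg.IsDefectGroup p M B P) (hP1 : P ≠ ⊥) (hcyc : IsCyclic P) (c : Set (Cfsg.IrrCharacter (Subgroup.centralizer (P : Set G)))) (hc : Cfsg.IsInducedBlock M (Subgroup.centralizer (P : Set G)) c B) (T : Subgroup G) (hT : ∀ g : G, g ∈ T ↔ (g ∈ Subgroup.normalizer (P : Set G) ∧ Cfsg.StabilizesBlock (Subgroup.centralizer (P : Set G)) c g)) [hn : ((Subgroup.centralizer (P : Set G)).subgroupOf T).Normal] : IsCyclic (T ⧸ (Subgroup.centralizer (P : Set G)).subgroupOf T) ∧ (Subgroup.centralizer (P : Set G)).relIndex T ∣ p - 1 ∧ ∀ g ∈ T, ∀ x ∈ P, x ≠ 1 → g * x * g⁻¹ = x → g ∈ Subgroup.centralizer (P : Set G) := by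
  classical
  haveI : Fintype G := Fintype.ofFinite G
  open CfsgLib.Block CfsgLib.CharBasic in
    have hmax := maxP_of_induced hM hPD hc
    have hPp := hmax.1.isP.1
    have hPab : ∀ x ∈ P, ∀ y ∈ P, x * y = y * x := by
      intro x hx y hy
      haveI := hcyc
      obtain ⟨⟨z, hz⟩, hgen⟩ := hcyc.exists_generator
      obtain ⟨j, hj⟩ := Subgroup.mem_zpowers_iff.mp (hgen ⟨x, hx⟩)
      obtain ⟨k, hk⟩ := Subgroup.mem_zpowers_iff.mp (hgen ⟨y, hy⟩)
      have hj' : z ^ j = x := congrArg Subtype.val hj
      have hk' : z ^ k = y := congrArg Subtype.val hk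
      rw [← hj', ← hk', ← zpow_add, ← zpow_add, add_comm]
    have hab : P ≤ Subgroup.centralizer (P : Set G) := fun x hx y hy => hPab y hy x hx
    have hTS : T = Stb (⟨P, c⟩ : BrauerPairIdx G) := by
      ext x
      rw [hT, mem_Stb_iff]
    have hCT : Subgroup.centralizer (P : Set G) ≤ T := by
      rw [hTS]
      exact cen_le_Stb P c
    have hTN : T ≤ Subgroup.normalizer (P : Set G) := by
      rw [hTS]
      exact Stb_le_normalizer _
    have hidx : ¬ p ∣ ((Subgroup.centralizer (P : Set G)).subgroupOf T).index := by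
      have h1 := MaxP.not_dvd_index hM hmax
      rw [sup_eq_right.mpr hab, ← hTS] at h1
      exact h1
    have hfree : ∀ Q : Subgroup G, Q ≤ P → Q ≠ ⊥ → ∀ g ∈ T, g ∈ Subgroup.centralizer (Q : Set G) → g ∈ Subgroup.centralizer (P : Set G) :=
      fun Q hQ hQ1 g hg hgQ => cyclic_free hM.1 hPp hcyc hTN hCT hidx hQ hQ1 hg hgQ
    have h1 := cyclic_quot hPp hP1 hcyc hTN hCT hfree
    refine ⟨h1.1, h1.2, ?_⟩
    intro g hg x hx hx1 hxg
    apply hfree (Subgroup.zpowers x) _ _ g hg
    · rw [Subgroup.mem_centralizer_iff]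
      intro y hy
      obtain ⟨k, hk⟩ := Subgroup.mem_zpowers_iff.mp hy
      have h2 : g * x = x * g := by
        rw [← mul_inv_eq_iff_eq_mul]
        exact hxg
      have h3 : Commute g x := h2
      rw [← hk]
      exact (h3.zpow_right k).eq.symm
    · rw [Subgroup.zpowers_le]
      exact hx
    · intro h2
      rw [Subgroup.zpowers_eq_bot] at h2
      exact hx1 h2

end Cfsg.Agent.S4633
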