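import Cfsg.Statements.S4640
import Cfsg.Agent.Lib.BAb2
import Cfsg.Agent.Lib.BCor1

set_option autoImplicit false
open Cfsg

namespace Cfsg.Agent.S4640

/-- Let N be a normal subgroup of the finite group G of index a power of the prime p, M a maximal ideal of the algebraic integers containing p, b a block of N stabilized by every element of G, and B a block of G covering b (some member of B has a member of b as a constituent of its restriction to N). Suppose that B has a commutative defect group P. Then G = NP and P ∩ N is a defect group of b; every member of B restricts to a member of b; every member of b is the restriction of exactly [G : N] members of B; B contains exactly [G : N] times as many irreducible characters as b; and B and b have the same p-regular rank. -/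
theorem result {G : Type*} [Group G] [Fintype G] (p : ℕ) [Fact p.Prime] (M : Ideal Cfsg.AlgInt) (hM : Cfsg.IsPModular p M) (N : Subgroup G) [N.Normal] [Fintype N] (hNi : ∃ k : ℕ, N.index = p ^ k) (b : Set (Cfsg.IrrCharacter N)) (hb : Cfsg.IsPBlock M b) (hstab : ∀ g : G, Cfsg.StabilizesBlock N b g) (B : Set (Cfsg.IrrCharacter G)) (hB : Cfsg.IsPBlock M B) (hcov : ∃ χ ∈ B, ∃ θ ∈ b, Cfsg.classInner (fun n : N => (χ : G → ℂ) n) (θ : N → ℂ) ≠ 0) (P : Subgroup G) (hPD : Cfsg.IsDefectGroup p M B P) (hPab : ∀ x ∈ P, ∀ y ∈ P, x * y = y * x) : N ⊔ P = ⊤ ∧ Cfsg.IsDefectGroup p M b ((P ⊓ N).subgroupOf N) ∧ (∀ χ ∈ B, ∃ θ ∈ b, ∀ n : N, (χ : G → ℂ) n = (θ : N → ℂ) n) ∧ (∀ θ ∈ b, Nat.card {χ : Cfsg.IrrCharacter G // χ ∈ B ∧ ∀ n : N, (χ : G → ℂ) n = (θ : N → ℂ) n} = N.index) ∧ Nat.card B = N.index * Nat.card b ∧ Cfsg.blockRank p B = Cfsg.blockRank p b := by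
  open CfsgLib.Block CfsgLib.CharBasic in
    classical
    obtain ⟨k, hk⟩ := hNi
    obtain ⟨B', hB', hcoef'⟩ := exists_coeff_of_stable hM hk hb hstab
    have hBB : B = B' := covers_unique hM hk hB hB' hb hcov (covers_of_coeff hM hB' hcoef')
    subst hBB
    have hNP := sup_eq_top_of_coeff hM hk hB hb hcoef' hPD
    have hDb := defect_inf_of_coeff hM hB hb hcoef' hPD
    obtain ⟨e, hmax⟩ := exists_maxP_on hM hB hPD
    have hirr : ∀ χ ∈ B, ∃ θ ∈ b, ∀ n : N, (χ : G → ℂ) n = (θ : N → ℂ) n := by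
      intro χ hχ
      have h1 := res_irr_of_abelian hM hk hmax hPab hNP hχ
      refine ⟨⟨_, h1⟩, ?_, fun n => rfl⟩
      apply mem_of_coeff hcoef' hχ
      have h2 := irr_inner (⟨_, h1⟩ : Cfsg.IrrCharacter N) ⟨_, h1⟩
      rw [if_pos rfl] at h2
      have h3 : Cfsg.classInner (fun n : N => (χ : G → ℂ) n) ((⟨_, h1⟩ : Cfsg.IrrCharacter N) : N → ℂ) = 1 := h2
      rw [h3]
      exact one_ne_zero
    have hmemB : ∀ θ ∈ b, ∀ χ : Cfsg.IrrCharacter G, Cfsg.classInner (fun n : N => (χ : G → ℂ) n) (θ : N → ℂ) ≠ 0 → χ ∈ B := by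
      intro θ hθ χ hne
      have hB2 : Cfsg.IsPBlock M (Cfsg.blockOf M (χ : G → ℂ)) := ⟨χ, rfl⟩
      have h2 : Covers (Cfsg.blockOf M (χ : G → ℂ)) b := ⟨χ, mem_blockOf_self hM χ, θ, hθ, hne⟩
      rw [covers_unique hM hk hB hB2 hb hcov h2]
      exact mem_blockOf_self hM χ
    have hexists : ∀ θ ∈ b, ∃ χ ∈ B, ∀ n : N, (χ : G → ℂ) n = (θ : N → ℂ) n := by
      intro θ hθ
      obtain ⟨χ, hχ⟩ := exists_over (N := N) θ
      have hχB := hmemB θ hθ χ hχ
      obtain ⟨θ', hθ', h'⟩ := hirr χ hχB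
      refine ⟨χ, hχB, ?_⟩
      have h3 : (fun n : N => (χ : G → ℂ) n) = (θ' : N → ℂ) := funext h'
      rw [h3, irr_inner] at hχ
      have h4 : θ' = θ := by
        by_contra hc
        rw [if_neg hc] at hχ
        exact hχ rfl
      rw [← h4]
      exact h'
    have hcard : ∀ θ ∈ b, Nat.card {χ : Cfsg.IrrCharacter G // χ ∈ B ∧ ∀ n : N, (χ : G → ℂ) n = (θ : N → ℂ) n} = N.index := by
      intro θ hθ
      obtain ⟨χ₀, hχ₀, h0⟩ := hexists θ hθ
      refine card_over hM hk hmax hPab hNP hχ₀ h0 ?_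
      intro χ hχ
      apply hmemB θ hθ χ
      have : (fun n : N => (χ : G → ℂ) n) = (θ : N → ℂ) := funext hχ
      rw [this, irr_inner, if_pos rfl]
      exact one_ne_zero
    refine ⟨hNP, hDb, hirr, hcard, ?_, ?_⟩
    · have e : B ≃ Σ θ : b, {χ : Cfsg.IrrCharacter G // χ ∈ B ∧ ∀ n : N, (χ : G → ℂ) n = ((θ : Cfsg.IrrCharacter N) : N → ℂ) n} :=
        { toFun := fun χ => ⟨⟨(hirr χ.1 χ.2).choose, (hirr χ.1 χ.2).choose_spec.1⟩, ⟨χ.1, χ.2, (hirr χ.1 χ.2).choose_spec.2⟩⟩
          invFun := fun x => ⟨x.2.1, x.2.2.1⟩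
          left_inv := fun χ => rfl
          right_inv := by
            rintro ⟨⟨θ, hθ⟩, ⟨χ, hχ, h⟩⟩
            have h2 := (hirr χ hχ).choose_spec.2
            have h3 : (hirr χ hχ).choose = θ := by
              apply Subtype.ext
              funext n
              rw [← h2 n, h n]
            have h4 : (⟨(hirr χ hχ).choose, (hirr χ hχ).choose_spec.1⟩ : b) = ⟨θ, hθ⟩ := Subtype.ext h3
            apply Sigma.subtype_ext h4
            rfl }
      rw [Nat.card_congr e, Nat.card_sigma, Finset.sum_congr rfl (fun θ _ => hcard θ.1 θ.2), Finset.sum_const, Finset.card_univ,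
        smul_eq_mul, Nat.card_eq_fintype_card, mul_comm]
    · exact blockRank_of_res (fun g hg => mem_of_regular_of_index hM.1 hk hg) hM.1 hirr hexists

end Cfsg.Agent.S4640
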