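import Cfsg.Statements.S4642
import Cfsg.Agent.Lib.BFong3

set_option autoImplicit false
open Cfsg

set_option linter.style.haveILetI false
namespace Cfsg.Agent.S4642

/-- Let G be a finite group, p a prime, M a maximal ideal of the algebraic integers containing p, K the largest normal subgroup of G of order prime to p, and L the preimage in G of the largest normal p-subgroup of G/K. Let Q be a Sylow p-subgroup of L and suppose C_G(Q) ≤ L. Let θ be an irreducible character of K invariant under conjugation by every element of G, and let B be the set of irreducible characters of G whose restriction to K contains θ. Then B is a block of G, every Sylow p-subgroup of G is a defect group of B, and B is of principal type: for every p-subgroup R of G exactly one block of C_G(R) induces B. -/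
theorem result {G : Type*} [Group G] [Fintype G] (p : ℕ) [Fact p.Prime] (M : Ideal Cfsg.AlgInt) (hM : Cfsg.IsPModular p M) (K : Subgroup G) (hK : K = Cfsg.pPrimeCore p G) [Fintype K] (L : Subgroup G) (hL : L = Cfsg.pPrimePCore p G) (Q : Subgroup G) (hQL : Q ≤ L) (hQp : IsPGroup p Q) (hQS : ¬ p ∣ Q.relIndex L) (hCQ : Subgroup.centralizer (Q : Set G) ≤ L) (θ : Cfsg.IrrCharacter K) (hθ : ∀ g : G, Cfsg.IsConjCharOf K g (θ : K → ℂ) (θ : K → ℂ)) (B : Set (Cfsg.IrrCharacter G)) (hBdef : ∀ χ : Cfsg.IrrCharacter G, χ ∈ B ↔ Cfsg.classInner (fun k : K => (χ : G → ℂ) k) (θ : K → ℂ) ≠ 0) : Cfsg.IsPBlock M B ∧ (∀ S : Sylow p G, Cfsg.IsDefectGroup p M B S) ∧ ∀ R : Subgroup G, IsPGroup p R → ∃! f : Set (Cfsg.IrrCharacter (Subgroup.centralizer (R : Set G))), Cfsg.IsInducedBlock M (Subgroup.centralizer (R : Set G)) f B := by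
  open CfsgLib CfsgLib.Block CfsgLib.CharBasic CfsgLib.CharClifford in
    classical
    subst hK
    subst hL
    haveI := PSolv.pPrimePCore_normal p G
    haveI := Core.pPrimeCore_normal p G
    have hp : p.Prime := Fact.out
    have hQS' : Coprime.IsSyl p Q (pPrimePCore p G) := by
      refine ⟨hQL, ?_⟩
      obtain ⟨k, hk⟩ := IsPGroup.iff_card.mp hQp
      have h1 := Subgroup.card_mul_index (Q.subgroupOf (pPrimePCore p G))
      have h2 : Nat.card (Q.subgroupOf (pPrimePCore p G)) = Nat.card Q := Nat.card_congr (Subgroup.subgroupOfEquivOfLe hQL).toEquiv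
      rw [h2] at h1
      rw [← h1, Nat.factorization_mul Nat.card_pos.ne' Subgroup.index_ne_zero_of_finite, Finsupp.add_apply,
        Nat.factorization_eq_zero_of_not_dvd (show ¬ p ∣ (Q.subgroupOf (pPrimePCore p G)).index from hQS), add_zero, hk,
        Nat.factorization_pow, Finsupp.smul_apply, Nat.Prime.factorization_self hp, smul_eq_mul, mul_one]
    have hcons : IsPConstrained p G := by
      intro P
      obtain ⟨l, hl, hlP⟩ := Coprime.IsSyl.exists_conj hQS' (Coprime.isSyl_of_sylow P)
      rw [← hlP]
      intro x hx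
      have h1 : l⁻¹ * x * l ∈ Subgroup.centralizer (Q : Set G) := by
        rw [Subgroup.mem_centralizer_iff] at hx ⊢
        intro q hq
        have h2 := hx (l * q * l⁻¹) (by
          rw [SetLike.mem_coe]
          exact ⟨q, hq, rfl⟩)
        have h3 : l⁻¹ * (l * q * l⁻¹ * x) * l = q * (l⁻¹ * x * l) := by group
        have h4 : l⁻¹ * (x * (l * q * l⁻¹)) * l = l⁻¹ * x * l * q := by group
        rw [← h3, h2, h4]
      have h2 := hCQ h1
      have h3 := (inferInstance : (pPrimePCore p G).Normal).conj_mem _ h2 l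
      have h4 : l * (l⁻¹ * x * l) * l⁻¹ = x := by group
      rwa [h4] at h3
    have hc := (PSolv.isPConstrained_iff (p := p) (G := G)).mp hcons
    have hNp : ¬ p ∣ Nat.card (pPrimeCore p G) := by
      rw [← Nat.Prime.coprime_iff_not_dvd hp]
      exact (Core.card_pPrimeCore_coprime p G).symm
    have hinv' : ∀ g : G, conjFn g (θ : pPrimeCore p G → ℂ) = θ := fun g => by
      funext n
      rw [conjFn_apply]
      exact hθ g _ _ rfl
    have hBeq : B = {χ : IrrCharacter G | classInner (fun k : pPrimeCore p G => (χ : G → ℂ) k) (θ : pPrimeCore p G → ℂ) ≠ 0} := by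
      ext χ; exact hBdef χ
    have hB := fong_block hM hNp θ hinv' (pPrimePCore p G) (PSolv.pPrimeCore_le_pPrimePCore p G)
      (fun l hl => pPrimePCore_pow hl) (fun x hx hxN => reg_of_constrained hc hx hxN)
    obtain ⟨χ, hχ, hχp⟩ := exists_pprime_over hp hNp θ hinv'
    obtain ⟨h1, h2⟩ := sylow_defect hM hB (χ := χ) hχ hχp
    rw [hBeq]
    refine ⟨hB, h1, ?_⟩
    intro R hR
    exact principal_type hM hNp θ hinv' (pPrimePCore p G) (PSolv.pPrimeCore_le_pPrimePCore p G)
      (fun l hl => pPrimePCore_pow hl) (fun x hx hxN => reg_of_constrained hc hx hxN) hR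

end Cfsg.Agent.S4642
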