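import Cfsg.Statements.S4689
import Cfsg.Agent.Lib.BPg23

set_option autoImplicit false
open Cfsg

namespace Cfsg.Agent.S4689

/-- Fix a prime p and a maximal ideal M of the algebraic integers containing p, and a nilpotent p-block B of the finite group G. Then B has p-regular rank one (a single irreducible Brauer character), and some χ₀ ∈ B restricts to that Brauer character: every χ ∈ B agrees on the p-regular elements with a natural-number multiple of χ₀. -/
theorem result {G : Type*} [Group G] [Fintype G] (p : ℕ) [Fact p.Prime] (M : Ideal Cfsg.AlgInt) (hM : Cfsg.IsPModular p M) (B : Set (Cfsg.IrrCharacter G)) (hnil : Cfsg.IsNilpotentBlock p M B) : Cfsg.blockRank p B = 1 ∧ ∃ χ₀ ∈ B, ∀ χ ∈ B, ∃ d : ℕ, ∀ x : G, Cfsg.pRegularPart p (χ : G → ℂ) x = (d : ℂ) * Cfsg.pRegularPart p (χ₀ : G → ℂ) x := by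
  open CfsgLib.Block CfsgLib.CharBasic in
    have hB : Cfsg.IsPBlock M B := (nil_iff.mp hnil).1
    obtain ⟨D, hD⟩ := exists_defectGroup hM hB
    obtain ⟨e, hmax⟩ := exists_maxP_on hM hB hD
    obtain ⟨χ₀, hχ₀, h0⟩ := exists_height_zero hM hB
    obtain ⟨Φ, hΦ⟩ := nil_equiv hM hmax hnil hχ₀ h0
    have h1 : ∀ χ ∈ B, ∃ d : ℕ, ∀ g : G, ¬ p ∣ orderOf g → (χ : G → ℂ) g = (d : ℂ) * (χ₀ : G → ℂ) g := by
      intro χ hχ
      obtain ⟨ψ, hψ⟩ := Φ.surjective ⟨χ, hχ⟩
      obtain ⟨m, hm, hm2⟩ := IsIrrCharacter.exists_pos ψ.2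
      refine ⟨m, fun g hg => ?_⟩
      have h2 := hΦ ψ
      rw [hψ] at h2
      have h3 : (χ : G → ℂ) g = star hM (etaOf p M (⟨D, e⟩ : BrauerPairIdx G) (exF D (ψ : D → ℂ))) (χ₀ : G → ℂ) g := congrFun h2 g
      have h4 := nil_reg hM hmax hχ₀ (ψ : D → ℂ) hg
      rw [h3, ← hm2]
      exact h4
    constructor
    · apply rank_one_of_prop hχ₀ _ hM.1
      intro χ hχ g hg
      obtain ⟨d, hd⟩ := h1 χ hχ
      rw [hd g hg, hd 1 (not_dvd_orderOf_one hM)]
      ring
    · refine ⟨χ₀, hχ₀, fun χ hχ => ?_⟩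
      obtain ⟨d, hd⟩ := h1 χ hχ
      refine ⟨d, fun x => ?_⟩
      unfold Cfsg.pRegularPart
      split_ifs with hx
      · exact hd x hx
      · rw [mul_zero]

end Cfsg.Agent.S4689
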