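import Cfsg.Statements.S4645
import Cfsg.Agent.Lib.BInd2
import Cfsg.Agent.S4689

set_option autoImplicit false
open Cfsg

set_option linter.style.haveILetI false
namespace Cfsg.Agent.S4645

/-- Let B be a block of the finite group G relative to a maximal ideal M of the algebraic integers containing the prime p, with a nontrivial cyclic defect group P; let c be a block of C_G(P) inducing B and T the stabilizer of c in N_G(P). Let Q be a nontrivial subgroup of P (so C_G(P) ≤ C_G(Q)), f the block of C_G(Q) induced by c inside C_G(Q), and T' the stabilizer of f in N_G(Q). Then T' = T·C_G(Q), the index of C_G(Q) in T' equals the index of C_G(P) in T, f has p-regular rank 1, and f is a nilpotent block of C_G(Q). -/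
theorem result {G : Type*} [Group G] [Finite G] (p : ℕ) [Fact p.Prime] (M : Ideal Cfsg.AlgInt) (hM : Cfsg.IsPModular p M) (B : Set (Cfsg.IrrCharacter G)) (hB : Cfsg.IsPBlock M B) (P : Subgroup G) (hPD : Cfsg.IsDefectGroup p M B P) (hP1 : P ≠ ⊥) (hcyc : IsCyclic P) (c : Set (Cfsg.IrrCharacter (Subgroup.centralizer (P : Set G)))) (hc : Cfsg.IsInducedBlock M (Subgroup.centralizer (P : Set G)) c B) (T : Subgroup G) (hT : ∀ g : G, g ∈ T ↔ (g ∈ Subgroup.normalizer (P : Set G) ∧ Cfsg.StabilizesBlock (Subgroup.centralizer (P : Set G)) c g)) (Q : Subgroup G) (hQP : Q ≤ P) (hQ1 : Q ≠ ⊥) (f : Set (Cfsg.IrrCharacter (Subgroup.centralizer (Q : Set G)))) (hf : Cfsg.IsInducedBlockIn M (Subgroup.centralizer (Q : Set G)) (Subgroup.centralizer (P : Set G)) c f) (T' : Subgroup G) (hT' : ∀ g : G, g ∈ T' ↔ (g ∈ Subgroup.normalizer (Q : Set G) ∧ Cfsg.StabilizesBlock (Subgroup.centralizer (Q : Set G)) f g)) : T' = T ⊔ Subgroup.centralizer (Q : Set G) ∧ (Subgroup.centralizer (Q : Set G)).relIndex T' = (Subgroup.centralizer (P : Set G)).relIndex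 T ∧ Cfsg.blockRank p f = 1 ∧ Cfsg.IsNilpotentBlock p M f := by
  classical
  haveI : Fintype G := Fintype.ofFinite G
  open CfsgLib.Block CfsgLib.CharBasic in
    have hmax := maxP_of_induced hM hPD hc
    have hPp := hmax.1.isP.1
    have hPab : ∀ x ∈ P, ∀ y ∈ P, x * y = y * x := by
      intro x hx y hy
      haveI := hcyc
      obtain ⟨⟨z, hz⟩, hgen⟩ := hcyc.exists_generator
      obtain ⟨j, hj⟩ := Subgroup.mem_zpowers_iff.mp (hgen ⟨x, hx⟩)
      obtain ⟨k, hk⟩ := Subgroup.mem_zpowers_iff.mp (hgen ⟨y, hy⟩)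
      have hj' : z ^ j = x := congrArg Subtype.val hj
      have hk' : z ^ k = y := congrArg Subtype.val hk
      rw [← hj', ← hk', ← zpow_add, ← zpow_add, add_comm]
    have hab : P ≤ Subgroup.centralizer (P : Set G) := fun x hx y hy => hPab y hy x hx
    have hTS : T = Stb (⟨P, c⟩ : BrauerPairIdx G) := by
      ext x
      rw [hT, mem_Stb_iff]
    have hTS' : T' = Stb (⟨Q, f⟩ : BrauerPairIdx G) := by
      ext x
      rw [hT', mem_Stb_iff]
    have hPQ : P ≤ Subgroup.centralizer (Q : Set G) := hab.trans (cen_anti hQP)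
    have hle := (inducedIn_iff_le hM hPp hQP hPQ hmax.1.isP.2).mp hf
    have hCT' : Subgroup.centralizer (Q : Set G) ≤ T' := by
      rw [hTS']
      exact cen_le_Stb Q f
    have hCT : Subgroup.centralizer (P : Set G) ≤ T := by
      rw [hTS]
      exact cen_le_Stb P c
    have hTN : T ≤ Subgroup.normalizer (P : Set G) := by
      rw [hTS]
      exact Stb_le_normalizer _
    have hTT' : T ≤ T' := by
      intro x hx
      rw [hTS']
      have hx' : x ∈ Stb (⟨P, c⟩ : BrauerPairIdx G) := hTS ▸ hx
      obtain ⟨k, hk⟩ := exists_zpow_of_cyclic hcyc (hTN hx)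
      have hxN : x ∈ Subgroup.normalizer (Q : Set G) := by
        apply mem_normalizer_of_conj_le
        intro r hr
        rw [hk r (hQP hr)]
        exact Q.zpow_mem hr k
      have h1 := hle.cj x
      rw [mem_Stb.mp hx'] at h1
      apply LE.unique' hM h1 hle
      apply Subgroup.eq_of_le_of_card_ge
      · rintro _ ⟨r, hr, rfl⟩
        exact (Subgroup.mem_normalizer_iff.mp hxN r).mp hr
      · rw [cj_fst, card_map_conj]
    have hsup : T' = T ⊔ Subgroup.centralizer (Q : Set G) := by
      apply le_antisymm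
      · intro x hx
        rw [hTS'] at hx
        obtain ⟨l, hl, hlx⟩ := abelian_control hM hmax hle hPQ hx
        have h2 : x = l⁻¹ * (l * x) := by group
        rw [h2]
        apply Subgroup.mul_mem
        · exact (le_sup_right : _ ≤ T ⊔ Subgroup.centralizer (Q : Set G)) (Subgroup.inv_mem _ hl)
        · apply (le_sup_left : T ≤ T ⊔ Subgroup.centralizer (Q : Set G))
          rw [hTS]
          exact hlx
      · exact sup_le hTT' hCT'
    have hidx : ¬ p ∣ ((Subgroup.centralizer (P : Set G)).subgroupOf T).index := by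
      have h1 := MaxP.not_dvd_index hM hmax
      rw [sup_eq_right.mpr hab, ← hTS] at h1
      exact h1
    have hinf : T ⊓ Subgroup.centralizer (Q : Set G) = Subgroup.centralizer (P : Set G) := by
      apply le_antisymm
      · intro g hg
        exact cyclic_free hM.1 hPp hcyc hTN hCT hidx hQP hQ1 hg.1 hg.2
      · exact le_inf hCT (cen_anti hQP)
    have hnil : Cfsg.IsNilpotentBlock p M f := by
      rw [nil_cen_iff hM hmax hab hle]
      intro x hx hxQ
      rw [← hTS] at hx
      exact hinf.le ⟨hx, hxQ⟩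
    refine ⟨hsup, ?_, ?_, hnil⟩
    · have h1 := index_eq_of_mul hCT' hTT' (by
        intro x hx
        rw [hTS'] at hx
        obtain ⟨l, hl, hlx⟩ := abelian_control hM hmax hle hPQ hx
        have hTx : l * x ∈ T := by
          rw [hTS]
          exact hlx
        refine ⟨l * x, hTx, x⁻¹ * l⁻¹ * x, ?_, by group⟩
        have hxN := normalizer_le_normalizer_cen Q (Stb_le_normalizer _ ((Stb (⟨Q, f⟩ : BrauerPairIdx G)).inv_mem hx))
        have h2 := (Subgroup.mem_normalizer_iff.mp hxN l⁻¹).mp (Subgroup.inv_mem _ hl)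
        rwa [inv_inv] at h2)
      rw [hinf] at h1
      exact h1
    · haveI : Fintype (Subgroup.centralizer (Q : Set G)) := Fintype.ofFinite _
      exact (Cfsg.Agent.S4689.result p M hM f hnil).1

end Cfsg.Agent.S4645
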