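import Cfsg.Statements.S4646
import Cfsg.Agent.Lib.BNil1
import Cfsg.Agent.S0938

set_option autoImplicit false
open Cfsg

namespace Cfsg.Agent.S4646

/-- For a finite group G, a prime p and a maximal ideal M of the algebraic integers containing p: the principal block of G is nilpotent if and only if its p-regular rank is 1 (the trivial Brauer character is its only irreducible Brauer character). -/
theorem result {G : Type*} [Group G] [Finite G] (p : ℕ) [Fact p.Prime] (M : Ideal Cfsg.AlgInt) (hM : Cfsg.IsPModular p M) : Cfsg.IsNilpotentBlock p M (Cfsg.principalBlock M G) ↔ Cfsg.blockRank p (Cfsg.principalBlock M G) = 1 := by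
  open CfsgLib.Block CfsgLib.CharBasic CfsgLib.NPC in
    have : Fintype G := Fintype.ofFinite _
    have hp : p.Prime := Fact.out
    rw [nil_principal_iff hM]
    constructor
    · rintro ⟨N, hN, hNc, k, hk⟩
      exact blockRank_principal_pnilp hM N ((Nat.Prime.coprime_iff_not_dvd hp).mp hNc.symm) hk
    · intro h
      have hB : IsPBlock M (principalBlock M G) :=
        ((bp_principal_iff hM (Q := (⊥ : Subgroup G)) IsPGroup.of_bot).mpr rfl).bB
      obtain ⟨χ₀, hχ₀, hone⟩ : ∃ χ₀ ∈ principalBlock M G, (χ₀ : G → ℂ) = 1 :=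
        ⟨irrOne G, SameBlock.refl hM _, rfl⟩
      obtain ⟨K, hK1, hK2, hK3, hK4, hK5⟩ := Cfsg.Agent.S0938.result p M hM (principalBlock M G) hB χ₀ hχ₀
      refine ⟨K, hK1, ((Nat.Prime.coprime_iff_not_dvd hp).mpr hK3).symm, ?_⟩
      have := exists_index_eq_pow (p := p) (C := K) (by
        intro g hg
        have : g ∈ (K : Set G) := by
          rw [hK2]
          intro χ hχ
          have h1 := prop_of_rank_one hp h hχ hχ₀ ((Nat.Prime.coprime_iff_not_dvd hp).mp hg.symm)
          rwa [hone, Pi.one_apply, mul_one, Pi.one_apply, one_mul] at h1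
        exact this)
      exact this

end Cfsg.Agent.S4646
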