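import Cfsg.Statements.S4650
import Cfsg.Agent.Lib.BInd2

set_option autoImplicit false
open Cfsg

set_option linter.style.haveILetI false
namespace Cfsg.Agent.S4650

/-- Let B be a block of the finite group G relative to a maximal ideal M of the algebraic integers containing the prime p, with a nontrivial commutative defect group P; let c be a block of C_G(P) inducing B and T the stabilizer of c in N_G(P). Then T/C_G(P) acts freely on the non-identity elements of P (an element of T fixing a non-identity element of P under conjugation lies in C_G(P)) if and only if, for every nontrivial subgroup Q of P, the block of C_G(Q) induced by c inside C_G(Q) is a nilpotent block of C_G(Q). -/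
theorem result {G : Type*} [Group G] [Finite G] (p : ℕ) [Fact p.Prime] (M : Ideal Cfsg.AlgInt) (hM : Cfsg.IsPModular p M) (B : Set (Cfsg.IrrCharacter G)) (hB : Cfsg.IsPBlock M B) (P : Subgroup G) (hPD : Cfsg.IsDefectGroup p M B P) (hPab : ∀ x ∈ P, ∀ y ∈ P, x * y = y * x) (hP1 : P ≠ ⊥) (c : Set (Cfsg.IrrCharacter (Subgroup.centralizer (P : Set G)))) (hc : Cfsg.IsInducedBlock M (Subgroup.centralizer (P : Set G)) c B) (T : Subgroup G) (hT : ∀ g : G, g ∈ T ↔ (g ∈ Subgroup.normalizer (P : Set G) ∧ Cfsg.StabilizesBlock (Subgroup.centralizer (P : Set G)) c g)) : (∀ g ∈ T, ∀ x ∈ P, x ≠ 1 → g * x * g⁻¹ = x → g ∈ Subgroup.centralizer (P : Set G)) ↔ ∀ Q : Subgroup G, Q ≤ P → Q ≠ ⊥ → ∀ f : Set (Cfsg.IrrCharacter (Subgroup.centralizer (Q : Set G))), Cfsg.IsInducedBlockIn M (Subgroup.centralizer (Q : Set G)) (Subgroup.centralizer (P : Set G)) c f → Cfsg.IsNilpotentBlock p M f := by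
  classical
  haveI : Fintype G := Fintype.ofFinite G
  open CfsgLib.Block CfsgLib.CharBasic in
    have hmax := maxP_of_induced hM hPD hc
    have hPp := hmax.1.isP.1
    have hab : P ≤ Subgroup.centralizer (P : Set G) := fun x hx y hy => hPab y hy x hx
    have hTS : T = Stb (⟨P, c⟩ : BrauerPairIdx G) := by
      ext x
      rw [hT, mem_Stb_iff]
    constructor
    · intro hfree Q hQP hQ1 f hf
      have hPQ : P ≤ Subgroup.centralizer (Q : Set G) := hab.trans (cen_anti hQP)
      have hle := (inducedIn_iff_le hM hPp hQP hPQ hmax.1.isP.2).mp hf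
      rw [nil_cen_iff hM hmax hab hle]
      intro x hx hxQ
      obtain ⟨y, hy, hy1⟩ : ∃ y, y ∈ Q ∧ y ≠ 1 := by
        obtain ⟨a, ha⟩ := Subgroup.ne_bot_iff_exists_ne_one.mp hQ1
        exact ⟨a.1, a.2, fun h => ha (Subtype.ext h)⟩
      rw [← hTS] at hx
      refine hfree x hx y (hQP hy) hy1 ?_
      have h1 := Subgroup.mem_centralizer_iff.mp hxQ y hy
      rw [← h1, mul_inv_cancel_right]
    · intro h g hg x hx hx1 hgx
      have hQP : Subgroup.zpowers x ≤ P := (Subgroup.zpowers_le).mpr hx
      have hQ1 : Subgroup.zpowers x ≠ ⊥ := fun h' => hx1 (Subgroup.zpowers_eq_bot.mp h')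
      have hPQ : P ≤ Subgroup.centralizer ((Subgroup.zpowers x : Subgroup G) : Set G) := hab.trans (cen_anti hQP)
      obtain ⟨f, hle⟩ := exists_le hM hmax.1.isP hQP
      have hf := (inducedIn_iff_le hM hPp hQP hPQ hmax.1.isP.2).mpr hle
      have hn := h _ hQP hQ1 f hf
      rw [nil_cen_iff hM hmax hab hle] at hn
      apply hn g (hTS ▸ hg)
      rw [mem_cen_zp]
      calc g * x = g * x * g⁻¹ * g := by group
        _ = x * g := by rw [hgx]

end Cfsg.Agent.S4650
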