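import Cfsg.Statements.S4652
import Cfsg.Agent.Lib.BNorm1

set_option autoImplicit false
open Cfsg

namespace Cfsg.Agent.S4652

/-- Fix a prime p and a maximal ideal M of the algebraic integers containing p. The defect groups of the principal p-block of a finite group G are exactly the Sylow p-subgroups of G: a subgroup D is a defect group of the principal block if and only if D is a Sylow p-subgroup. -/
theorem result {G : Type*} [Group G] [Fintype G] (p : ℕ) [Fact p.Prime] (M : Ideal Cfsg.AlgInt) (hM : Cfsg.IsPModular p M) (D : Subgroup G) : Cfsg.IsDefectGroup p M (Cfsg.principalBlock M G) D ↔ ∃ S : Sylow p G, (S : Subgroup G) = D := by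
  open CfsgLib.Block CfsgLib.CharBasic in
    have hS : ∀ S : Sylow p G, Cfsg.IsDefectGroup p M (Cfsg.principalBlock M G) (S : Subgroup G) := fun S =>
      MaxP.isDefectGroup hM (maxP_principal hM S)
    constructor
    · intro hD
      have hp := IsDefectGroup.isPGroup hM hD
      obtain ⟨S, hDS⟩ := hp.exists_le_sylow
      have hB := (maxP_principal hM S).1.bB
      have h1 := card_defectGroup hM hB hD
      have h2 := card_defectGroup hM hB (hS S)
      exact ⟨S, (Subgroup.eq_of_le_of_card_ge hDS (by rw [h1, h2])).symm⟩
    · rintro ⟨S, rfl⟩
      exact hS S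

end Cfsg.Agent.S4652
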