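import Cfsg.Statements.S4662
import Cfsg.Agent.Lib.BPair7

set_option autoImplicit false
open Cfsg

namespace Cfsg.Agent.S4662

/-- Fix a prime p and a maximal ideal M of the algebraic integers containing p. Let (P, e) be a maximal Brauer pair of the p-block B of the finite group G, Q ≤ P, and f the p-block of C_G(Q) with (Q, f) ≤ (P, e). Let T be the stabilizer of f in N_G(Q). Then the idempotent of f is a block idempotent of T, and N_P(Q) is contained in a defect group of that block of T; moreover for some x in G the conjugate pair (x Q x⁻¹, conjugate of f) again lies below (P, e) and, with T' the stabilizer of the conjugate of f in N_G(x Q x⁻¹), N_P(x Q x⁻¹) is a defect group of the block of T' whose idempotent is that of the conjugate of f. -/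
theorem result {G : Type*} [Group G] [Fintype G] (p : ℕ) [Fact p.Prime] (M : Ideal Cfsg.AlgInt) (hM : Cfsg.IsPModular p M) (B : Set (Cfsg.IrrCharacter G)) (P Q : Subgroup G) (e : Set (Cfsg.IrrCharacter (Subgroup.centralizer (P : Set G)))) (f : Set (Cfsg.IrrCharacter (Subgroup.centralizer (Q : Set G)))) (hmax : Cfsg.IsMaximalBrauerPair p M B P e) (hQP : Q ≤ P) (hf : Cfsg.IsPBlock M f) (hle : Cfsg.SubpairLE p M Q f P e) (T : Subgroup G) (hT : ∀ y : G, y ∈ T ↔ y ∈ Subgroup.normalizer (Q : Set G) ∧ Cfsg.StabilizesBlock (Subgroup.centralizer (Q : Set G)) f y) : (∃ F : Set (Cfsg.IrrCharacter T), Cfsg.IsPBlock M F ∧ (∀ t : T, Cfsg.blockCoeff F t = Cfsg.subgroupBlockCoeff (Subgroup.centralizer (Q : Set G)) f (t : G)) ∧ ∃ D : Subgroup T, Cfsg.IsDefectGroup p M F D ∧ (P ⊓ Subgroup.normalizer (Q : Set G)).subgroupOf T ≤ D) ∧ ∃ x : G, Cfsg.SubpairLE p M (Q.map (MulAut.conj x).toMonoidHom) (Cfsg.conjBlock Q x f) P e ∧ ∀ (T' : Subgroup G), (∀ y : G,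 y ∈ T' ↔ y ∈ Subgroup.normalizer ((Q.map (MulAut.conj x).toMonoidHom) : Set G) ∧ Cfsg.StabilizesBlock (Subgroup.centralizer ((Q.map (MulAut.conj x).toMonoidHom) : Set G)) (Cfsg.conjBlock Q x f) y) → ∃ F' : Set (Cfsg.IrrCharacter T'), Cfsg.IsPBlock M F' ∧ (∀ t : T', Cfsg.blockCoeff F' t = Cfsg.subgroupBlockCoeff (Subgroup.centralizer ((Q.map (MulAut.conj x).toMonoidHom) : Set G)) (Cfsg.conjBlock Q x f) (t : G)) ∧ Cfsg.IsDefectGroup p M F' ((P ⊓ Subgroup.normalizer ((Q.map (MulAut.conj x).toMonoidHom) : Set G)).subgroupOf T') := by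
  open CfsgLib.Block CfsgLib.CharBasic in
    have hTS : T = Stb (⟨Q, f⟩ : BrauerPairIdx G) := by
      ext y
      rw [hT, mem_Stb, cj_eq_iff]
    subst hTS
    have : Fintype (Stb (⟨Q, f⟩ : BrauerPairIdx G)) := Fintype.ofFinite _
    have hmax' := maxP_iff (a := ⟨P, e⟩) |>.mpr hmax
    have hP := hmax'.1.isP
    have hle' : CfsgLib.Block.LE p M (⟨Q, f⟩ : BrauerPairIdx G) ⟨P, e⟩ := hle
    have hQp : IsPGroup p Q := (hle'.isP_left hP).1
    obtain ⟨F, hF1, hF2, _⟩ := stabBlock hM hQp (self_le_Stb Q f) (cen_le_Stb Q f) hf le_rfl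
    refine ⟨⟨F, hF1, hF2, local_card hM hmax' hle' (cen_le_Stb Q f) inf_le_left
      (inf_normalizer_le_Stb hM hP hle') inf_le_right hF1 hF2⟩, ?_⟩
    obtain ⟨D, hD⟩ := exists_defectGroup hM hF1
    obtain ⟨x, hx, hDx⟩ := local_conj hM hmax' hle' le_rfl hF2 hD
    refine ⟨x, hx, ?_⟩
    intro T' hT'
    have hTS' : T' = Stb (cj x (⟨Q, f⟩ : BrauerPairIdx G)) := by
      ext y
      rw [hT', mem_Stb]
      exact (cj_eq_iff (Q := Q.map (MulAut.conj x).toMonoidHom) (f := conjBlock Q x f) (x := y)).symm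
    subst hTS'
    have : Fintype (Stb (cj x (⟨Q, f⟩ : BrauerPairIdx G))) := Fintype.ofFinite _
    obtain ⟨F', hF1', hF2', _⟩ := stabBlock (T := Stb (cj x (⟨Q, f⟩ : BrauerPairIdx G)))
      (P := Q.map (MulAut.conj x).toMonoidHom) (f := conjBlock Q x f) hM (hQp.map _)
      (self_le_Stb' (cj x (⟨Q, f⟩ : BrauerPairIdx G))) (cen_le_Stb' (cj x (⟨Q, f⟩ : BrauerPairIdx G)))
      (isPBlock_cj x (a := ⟨Q, f⟩) hf) le_rfl
    refine ⟨F', hF1', hF2', ?_⟩
    have h1 := local_exact hM hmax' hF1 hF2 hD hx hDx (T' := Stb (cj x (⟨Q, f⟩ : BrauerPairIdx G))) (by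
      intro g
      rw [mem_Stb, mem_Stb, cj_mul, cj_mul]
      constructor
      · intro h
        rw [h, cj_inv_cj]
      · intro h
        have h2 := congrArg (cj x) h
        rwa [cj_cj_inv] at h2) (cen_le_Stb' (cj x (⟨Q, f⟩ : BrauerPairIdx G)))
        (Stb_le_normalizer (cj x (⟨Q, f⟩ : BrauerPairIdx G))) hF1' hF2'
    have h2 : P ⊓ Subgroup.normalizer ((Q.map (MulAut.conj x).toMonoidHom : Subgroup G) : Set G) =
        P ⊓ Stb (cj x (⟨Q, f⟩ : BrauerPairIdx G)) := by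
      apply le_antisymm
      · exact le_inf inf_le_left (inf_normalizer_le_Stb hM hP hx)
      · exact inf_le_inf_left _ (Stb_le_normalizer (cj x (⟨Q, f⟩ : BrauerPairIdx G)))
    rw [h2]
    exact h1

end Cfsg.Agent.S4662
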