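import Cfsg.Statements.S4681
import Cfsg.Agent.Lib.BFus1

set_option autoImplicit false
open Cfsg

namespace Cfsg.Agent.S4681

/-- Fix a prime p and a maximal ideal M of the algebraic integers containing p. Let B₀ be the principal p-block of the finite group G, P a Sylow p-subgroup and e₀ the principal p-block of C_G(P). Then (P, e₀) is a maximal Brauer pair of B₀, and the fusion system of B₀ on (P, e₀) is the fusion system of G on P: its maps from each subgroup of P are exactly the conjugation maps into P by elements of G. -/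
theorem result {G : Type*} [Group G] [Fintype G] (p : ℕ) [Fact p.Prime] (M : Ideal Cfsg.AlgInt) (hM : Cfsg.IsPModular p M) (S : Sylow p G) : Cfsg.IsMaximalBrauerPair p M (Cfsg.principalBlock M G) (S : Subgroup G) (Cfsg.principalBlock M (Subgroup.centralizer ((S : Subgroup G) : Set G))) ∧ ∀ F : Cfsg.FusionSystem (S : Subgroup G), Cfsg.IsBlockFusionSystemOn p M (Cfsg.principalBlock M G) (S : Subgroup G) (Cfsg.principalBlock M (Subgroup.centralizer ((S : Subgroup G) : Set G))) F → ∀ Q : Subgroup G, F.Hom Q = (Cfsg.groupFusionSystem (S : Subgroup G)).Hom Q := by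
  open CfsgLib.Block CfsgLib.CharBasic in
    refine ⟨maxP_iff.mp (maxP_principal hM S), ?_⟩
    intro F hF Q
    ext φ
    constructor
    · intro h
      obtain ⟨h1, g, h2, h3, _⟩ := (hF.2 Q φ).mp h
      exact ⟨h1, fun x => by
        rw [h2]; exact h3 ⟨x, x.2, rfl⟩, g, h2⟩
    · rintro ⟨h1, h2, g, h3⟩
      have h4 : Q.map (MulAut.conj g).toMonoidHom ≤ (S : Subgroup G) := by
        rintro _ ⟨u, hu, rfl⟩
        have := h2 ⟨u, hu⟩
        rwa [h3] at this
      refine (hF.2 Q φ).mpr ⟨h1, g, h3, h4, principalBlock M (Cen Q), subpairLE_iff.mpr (LE.principal hM h1), ?_⟩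
      have h5 : BP p M (principalBlock M G) (⟨Q, principalBlock M (Cen Q)⟩ : BrauerPairIdx G) :=
        (bp_principal_iff hM (S.isPGroup'.to_le h1)).mpr rfl
      have h6 := h5.cj g
      have h7 := (bp_principal_iff hM h6.pa).mp h6
      have h8 : conjBlock Q g (principalBlock M (Cen Q)) =
          principalBlock M (Cen (Q.map (MulAut.conj g).toMonoidHom)) := h7
      show SubpairLE p M (Q.map (MulAut.conj g).toMonoidHom) (conjBlock Q g (principalBlock M (Cen Q))) _ _
      rw [h8]
      exact subpairLE_iff.mpr (LE.principal hM h4)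

end Cfsg.Agent.S4681
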