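import Cfsg.Statements.S4682
import Cfsg.Agent.Lib.BPair9

set_option autoImplicit false
open Cfsg

namespace Cfsg.Agent.S4682

/-- Fix a prime p and a maximal ideal M of the algebraic integers containing p, a p-block B of the finite group G with maximal Brauer pair (P, e), P abelian, and a Brauer pair (Q, f) ≤ (P, e). Let T_Q be the stabilizer of f in N_G(Q) and T_P the stabilizer of e in N_G(P). Then every element of T_Q is a product of an element of T_P and an element of C_G(Q); and the index of C_G(Q) in T_Q equals the index of T_P ∩ C_G(Q) in T_P ∩ N_G(Q). -/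
theorem result {G : Type*} [Group G] [Fintype G] (p : ℕ) [Fact p.Prime] (M : Ideal Cfsg.AlgInt) (hM : Cfsg.IsPModular p M) (B : Set (Cfsg.IrrCharacter G)) (P : Subgroup G) (e : Set (Cfsg.IrrCharacter (Subgroup.centralizer (P : Set G)))) (hmax : Cfsg.IsMaximalBrauerPair p M B P e) (hab : ∀ x ∈ P, ∀ y ∈ P, x * y = y * x) (Q : Subgroup G) (f : Set (Cfsg.IrrCharacter (Subgroup.centralizer (Q : Set G)))) (hQP : Q ≤ P) (hf : Cfsg.IsPBlock M f) (hle : Cfsg.SubpairLE p M Q f P e) (TQ : Subgroup G) (hTQ : ∀ y : G, y ∈ TQ ↔ y ∈ Subgroup.normalizer (Q : Set G) ∧ Cfsg.StabilizesBlock (Subgroup.centralizer (Q : Set G)) f y) (TP : Subgroup G) (hTP : ∀ y : G, y ∈ TP ↔ y ∈ Subgroup.normalizer (P : Set G) ∧ Cfsg.StabilizesBlock (Subgroup.centralizer (P : Set G)) e y) : (∀ x ∈ TQ, ∃ y ∈ TP, ∃ c ∈ Subgroup.centralizer (Q : Set G), x = y * c) ∧ ((Subgroup.centralizer (Q : Set G)).subgroupOf TQ).index = ((TP ⊓ Subgroup.centralizer (Q : Set G)).subgroupOf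 (TP ⊓ Subgroup.normalizer (Q : Set G))).index := by
  open CfsgLib.Block CfsgLib.CharBasic in
    have hTQ' : TQ = Stb (⟨Q, f⟩ : BrauerPairIdx G) := by
      ext y
      rw [hTQ, mem_Stb, cj_eq_iff]
    have hTP' : TP = Stb (⟨P, e⟩ : BrauerPairIdx G) := by
      ext y
      rw [hTP, mem_Stb, cj_eq_iff]
    subst hTQ' hTP'
    have hmax' := maxP_iff (a := ⟨P, e⟩) |>.mpr hmax
    have hle' : CfsgLib.Block.LE p M (⟨Q, f⟩ : BrauerPairIdx G) ⟨P, e⟩ := hle
    have hPC : P ≤ Cen Q := by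
      intro x hx
      rw [Subgroup.mem_centralizer_iff]
      intro q hq
      exact hab q (hQP hq) x hx
    have key : ∀ x ∈ Stb (⟨Q, f⟩ : BrauerPairIdx G), ∃ y ∈ Stb (⟨P, e⟩ : BrauerPairIdx G) ⊓ Subgroup.normalizer (Q : Set G),
        ∃ c ∈ Cen Q, x = y * c := by
      intro x hx
      obtain ⟨l, hl, h1⟩ := abelian_control hM hmax' hle' hPC hx
      have hyN : l * x ∈ Subgroup.normalizer (Q : Set G) :=
        Subgroup.mul_mem _ (le_cen_normalizer Q hl) (Stb_le_normalizer _ hx)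
      refine ⟨l * x, ⟨h1, hyN⟩, (l * x)⁻¹ * l⁻¹ * (l * x), ?_, by group⟩
      have h2 := (Subgroup.mem_normalizer_iff.mp (Subgroup.inv_mem _ (normalizer_le_normalizer_cen Q hyN)) l⁻¹).mp
        ((Cen Q).inv_mem hl)
      rwa [inv_inv] at h2
    have hH : Stb (⟨P, e⟩ : BrauerPairIdx G) ⊓ Subgroup.normalizer (Q : Set G) ≤ Stb (⟨Q, f⟩ : BrauerPairIdx G) := by
      rintro y ⟨hy, hyN⟩
      have h1 := hle'.cj y
      rw [mem_Stb.mp hy] at h1
      exact h1.unique' hM hle' (by rw [cj_fst]; exact map_conj_eq_of_normalizer hyN)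
    refine ⟨?_, ?_⟩
    · intro x hx
      obtain ⟨y, hy, c, hc, h⟩ := key x hx
      exact ⟨y, hy.1, c, hc, h⟩
    · have h1 := index_eq_of_mul (cen_le_Stb Q f) hH key
      have h2 : Stb (⟨P, e⟩ : BrauerPairIdx G) ⊓ Subgroup.normalizer (Q : Set G) ⊓ Cen Q =
          Stb (⟨P, e⟩ : BrauerPairIdx G) ⊓ Cen Q := by
        rw [inf_assoc, inf_eq_right.mpr (le_cen_normalizer Q)]
      rw [h2] at h1
      exact h1

end Cfsg.Agent.S4682
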