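import Cfsg.Statements.S4686
import Cfsg.Agent.Lib.BFus4
import Cfsg.Agent.S5083

set_option autoImplicit false
open Cfsg

namespace Cfsg.Agent.S4686

/-- Fix a prime p and a maximal ideal M of the algebraic integers containing p, a p-block B of the finite group G with maximal Brauer pair (P, e) and fusion system F on P. Then B is nilpotent (for every Brauer pair (Q, f) of B the stabilizer of f in N_G(Q) is C_G(Q) extended by a p-group) if and only if F is the inner fusion system of P: its maps from each subgroup of P are exactly the conjugations by elements of P. -/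
theorem result {G : Type*} [Group G] [Fintype G] (p : ℕ) [Fact p.Prime] (M : Ideal Cfsg.AlgInt) (hM : Cfsg.IsPModular p M) (B : Set (Cfsg.IrrCharacter G)) (P : Subgroup G) (e : Set (Cfsg.IrrCharacter (Subgroup.centralizer (P : Set G)))) (hmax : Cfsg.IsMaximalBrauerPair p M B P e) (F : Cfsg.FusionSystem P) (hF : Cfsg.IsBlockFusionSystemOn p M B P e F) : Cfsg.IsNilpotentBlock p M B ↔ ∀ Q : Subgroup G, F.Hom Q = (Cfsg.innerFusionSystem P).Hom Q := by
  open CfsgLib.Block CfsgLib.CharBasic in
    have hm : MaxP p M B (⟨P, e⟩ : BrauerPairIdx G) := maxP_iff.mpr hmax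
    constructor
    · intro hnil Q
      rw [Cfsg.Agent.S5083.result p hm.1.isP.1 F (blkFus_saturated hM hm hF) (fun R hR => nil_autGroup hM hm hF hnil hR)]
    · exact fun h => nil_of_inner hM hm hF h

end Cfsg.Agent.S4686
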