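import Cfsg.Statements.S4688
import Cfsg.Agent.Lib.BFus4
import Cfsg.Agent.S5083

set_option autoImplicit false
open Cfsg

namespace Cfsg.Agent.S4688

/-- Fix a prime p and a maximal ideal M of the algebraic integers containing p, and a nilpotent p-block B of the finite group G with maximal Brauer pair (P, e). Then for every Brauer pair (Q, f) of B, f is a nilpotent block of C_G(Q); and if moreover (Q, f) ≤ (P, e), then C_P(Q) is a defect group of f as a block of C_G(Q). -/
theorem result {G : Type*} [Group G] [Fintype G] (p : ℕ) [Fact p.Prime] (M : Ideal Cfsg.AlgInt) (hM : Cfsg.IsPModular p M) (B : Set (Cfsg.IrrCharacter G)) (P : Subgroup G) (e : Set (Cfsg.IrrCharacter (Subgroup.centralizer (P : Set G)))) (hmax : Cfsg.IsMaximalBrauerPair p M B P e) (hnil : Cfsg.IsNilpotentBlock p M B) (Q : Subgroup G) (f : Set (Cfsg.IrrCharacter (Subgroup.centralizer (Q : Set G)))) (hQf : Cfsg.IsBrauerPairOf p M B Q f) : Cfsg.IsNilpotentBlock p M f ∧ (Cfsg.SubpairLE p M Q f P e → Cfsg.IsDefectGroup p M f ((P ⊓ Subgroup.centralizer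 (Q : Set G)).subgroupOf (Subgroup.centralizer (Q : Set G)))) := by
  open CfsgLib.Block CfsgLib.CharBasic in
    have hm : MaxP p M B (⟨P, e⟩ : BrauerPairIdx G) := maxP_iff.mpr hmax
    have hQ := bp_iff (a := ⟨Q, f⟩) |>.mpr hQf
    refine ⟨nil_local hM hnil hQ, ?_⟩
    intro hle
    have hF := blkFus_on hM hm
    have hin : ∀ R, (blkFus hM hm.1.isP).Hom R = (innerFusionSystem P).Hom R := by
      intro R
      rw [Cfsg.Agent.S5083.result p hm.1.isP.1 _ (blkFus_saturated hM hm hF) (fun R hR => nil_autGroup hM hm hF hnil hR)]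
    exact (fus_fullyCentralized_iff hM hF (subpairLE_iff.mp hle)).mp (fullyCentralized_of_inner hin (subpairLE_iff.mp hle).le)

end Cfsg.Agent.S4688
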