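import Cfsg.Statements.S4717
import Cfsg.Agent.Lib.BlockIdem

set_option autoImplicit false
open Cfsg

namespace Cfsg.Agent.S4717

/-- Let p be a prime, M a maximal ideal of the algebraic integers containing p, and r a natural number; say that a finite group X has deficiency class r when X has no non-principal p-block of defect ≥ r. If G has deficiency class r then so does the centralizer of every p-element of G; conversely, if r > 0 and the centralizer of every element of order p has deficiency class r, then G has deficiency class r. -/
theorem result {G : Type*} [Group G] [Finite G] (p : ℕ) [Fact p.Prime] (M : Ideal Cfsg.AlgInt) (hM : Cfsg.IsPModular p M) (r : ℕ) : ((∀ B' : Set (Cfsg.IrrCharacter G), Cfsg.IsPBlock M B' → B' ≠ Cfsg.principalBlock M G → Cfsg.blockDefect p B' < r) → ∀ y : G, (∃ k : ℕ, orderOf y = p ^ k) → (∀ B' : Set (Cfsg.IrrCharacter ↥(Subgroup.centralizer ({y} : Set G))), Cfsg.IsPBlock M B' → B' ≠ Cfsg.principalBlock M ↥(Subgroup.centralizer ({y} : Set G)) → Cfsg.blockDefect p B' < r)) ∧ (0 < r → (∀ y : G, orderOf y = p → (∀ B' : Set (Cfsg.IrrCharacter ↥(Subgroup.centralizer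 ({y} : Set G))), Cfsg.IsPBlock M B' → B' ≠ Cfsg.principalBlock M ↥(Subgroup.centralizer ({y} : Set G)) → Cfsg.blockDefect p B' < r)) → (∀ B' : Set (Cfsg.IrrCharacter G), Cfsg.IsPBlock M B' → B' ≠ Cfsg.principalBlock M G → Cfsg.blockDefect p B' < r)) := by
  open CfsgLib.Block in
  classical
  have : Fintype G := Fintype.ofFinite G
  have hp := hM.1
  refine ⟨?_, ?_⟩
  · intro h y hy B' hB' hne
    have : Fintype (Subgroup.centralizer ({y} : Set G)) := Fintype.ofFinite _
    obtain ⟨B, hB⟩ := exists_inducedBlock_centralizer hM hy hB'
    have h1 : B ≠ Cfsg.principalBlock M G := by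
      intro h2
      exact hne ((thirdMain hM hB).mp h2)
    exact lt_of_le_of_lt (blockDefect_le_of_induced hM hB) (h B hB.2.1 h1)
  · intro hr h B hB hne
    by_contra hcon
    push Not at hcon
    obtain ⟨g, hg⟩ := exists_defectClass hM hB
    obtain ⟨D, hD⟩ := exists_isSylowOf (p := p) (Subgroup.centralizer ({g} : Set G))
    have hDB : Cfsg.IsDefectGroup p M B D := isDefectGroup_iff.mpr ⟨g, hg, hD⟩
    have hDp := hD.isPGroup
    have hcard := card_defectGroup hM hB hDB
    have hDnt : Nontrivial D := by
      rw [← Finite.one_lt_card_iff_nontrivial, hcard]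
      exact Nat.one_lt_pow (by omega) hp.one_lt
    -- a central element of order p
    have hZ : Nontrivial (Subgroup.center D) := hDp.center_nontrivial
    obtain ⟨z, hz⟩ : ∃ z : Subgroup.center D, orderOf z = p := by
      have hpd : p ∣ Nat.card (Subgroup.center D) := by
        have h2 : IsPGroup p (Subgroup.center D) := hDp.to_subgroup _
        obtain ⟨n, hn⟩ := IsPGroup.iff_card.mp h2
        rw [hn]
        apply dvd_pow_self
        rintro rfl
        rw [pow_zero] at hn
        have := Finite.one_lt_card_iff_nontrivial.mpr hZ
        omega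
      exact exists_prime_orderOf_dvd_card' p hpd
    set y : G := ((z : D) : G) with hy
    have hyo : orderOf y = p := by
      rw [← hz, hy, Subgroup.orderOf_coe, Subgroup.orderOf_coe]
    have hDy : D ≤ Subgroup.centralizer ({y} : Set G) := by
      intro d hd
      rw [Subgroup.mem_centralizer_singleton_iff]
      have := Subgroup.mem_center_iff.mp z.2 ⟨d, hd⟩
      have h3 := congrArg (Subtype.val) this
      exact h3
    have hyg : g ∈ Subgroup.centralizer ({y} : Set G) := by
      rw [Subgroup.mem_centralizer_singleton_iff]
      have := hD.le (z : D).2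
      rw [Subgroup.mem_centralizer_singleton_iff] at this
      exact this.symm
    have hyk : ∃ k, orderOf y = p ^ k := ⟨1, by rw [hyo, pow_one]⟩
    have hP := isPGroup_zpowers hyk
    have hCeq := centralizer_zpowers y
    obtain ⟨b, hb, hbg⟩ := exists_block_inducing_coeff hM (P := Subgroup.zpowers y)
      (H := Subgroup.centralizer ({y} : Set G)) hP (by
        rw [Subgroup.zpowers_le]
        exact Subgroup.mem_centralizer_singleton_iff.mpr rfl) (by rw [hCeq]) (by
        rw [← hCeq]; exact Subgroup.centralizer_le_normalizer _) hB hg.2.1 (by rw [hCeq]; exact hyg)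
    have : Fintype (Subgroup.centralizer ({y} : Set G)) := Fintype.ofFinite _
    have hbne : b ≠ Cfsg.principalBlock M ↥(Subgroup.centralizer ({y} : Set G)) := by
      intro h2
      exact hne ((thirdMain hM hb).mpr h2)
    have h3 := h y hyo b hb.1 hbne
    -- the defect of b is at least that of B
    obtain ⟨E, hE, hDE⟩ := exists_defectGroup_ge hM hb.1 hbg (Q := D.subgroupOf (Subgroup.centralizer ({y} : Set G)))
      (by
        intro q
        obtain ⟨k, hk⟩ := hDp ⟨q, q.2⟩
        refine ⟨k, ?_⟩
        apply Subtype.ext
        apply Subtype.ext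
        have := congrArg (Subtype.val) hk
        simpa using this) (by
        intro q hq
        apply Subtype.ext
        have := hD.le (Subgroup.mem_subgroupOf.mp hq)
        rw [Subgroup.mem_centralizer_singleton_iff] at this
        exact this)
    have h4 := card_defectGroup hM hb.1 hE
    have h5 : Nat.card D ∣ Nat.card E := by
      have : Nat.card D = Nat.card (D.subgroupOf (Subgroup.centralizer ({y} : Set G))) :=
        Nat.card_congr (Subgroup.subgroupOfEquivOfLe hDy).symm.toEquiv
      rw [this]
      exact Subgroup.card_dvd_of_le hDE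
    rw [h4, hcard, Nat.pow_dvd_pow_iff_le_right hp.one_lt] at h5
    omega

end Cfsg.Agent.S4717
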