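import Cfsg.Statements.S4736
import Cfsg.Agent.Lib.BEasy21

set_option autoImplicit false
open Cfsg

set_option linter.style.haveILetI false
namespace Cfsg.Agent.S4736

/-- Let p be a prime, M a maximal ideal of the algebraic integers containing p, and G a finite p-solvable group with Sylow p-subgroup P. Then P is abelian if and only if every irreducible character in the principal p-block of G has height zero. -/
theorem result {G : Type*} [Group G] [Finite G] (p : ℕ) [Fact p.Prime] (M : Ideal Cfsg.AlgInt) (hM : Cfsg.IsPModular p M) (hsolv : Cfsg.IsPSolvable p G) (P : Sylow p G) : IsMulCommutative P ↔ ∀ χ ∈ Cfsg.principalBlock M G, Cfsg.blockHeight p (Cfsg.principalBlock M G) (χ : G → ℂ) = 0 := by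
  haveI : Fintype G := Fintype.ofFinite G
  rw [← CfsgLib.Block.s4736 hM hsolv P]
  constructor
  · intro h2 x hx y hy
    exact congrArg Subtype.val (h2.is_comm.comm ⟨x, hx⟩ ⟨y, hy⟩)
  · intro h2
    exact ⟨⟨fun x y => Subtype.ext (h2 x x.2 y y.2)⟩⟩

end Cfsg.Agent.S4736
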