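import Cfsg.Statements.S5014
import Cfsg.Agent.Lib.RankOne

set_option autoImplicit false
open Cfsg

namespace Cfsg.Agent.S5014

/-- Let X = ⟨A, B⟩ be a rank one group with unipotent subgroups A and B and let Ω be the set of conjugates of A under X. Then Ω has at least three members, X acts doubly transitively on Ω by conjugation (any two ordered pairs of distinct members are carried to one another by a single element of X), and A acts regularly on Ω with A removed: for C, D in Ω different from A there is exactly one element of A conjugating C to D. -/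
theorem result {G : Type*} [Group G] {A B : Subgroup G} (h : Cfsg.IsRankOnePair A B) :
    (∃ C₁ ∈ Cfsg.unipotentSubgroups A B, ∃ C₂ ∈ Cfsg.unipotentSubgroups A B, ∃ C₃ ∈ Cfsg.unipotentSubgroups A B,
      C₁ ≠ C₂ ∧ C₁ ≠ C₃ ∧ C₂ ≠ C₃) ∧
    (∀ C₁ ∈ Cfsg.unipotentSubgroups A B, ∀ C₂ ∈ Cfsg.unipotentSubgroups A B, ∀ D₁ ∈ Cfsg.unipotentSubgroups A B,
      ∀ D₂ ∈ Cfsg.unipotentSubgroups A B, C₁ ≠ C₂ → D₁ ≠ D₂ →
        ∃ x ∈ A ⊔ B, Cfsg.conjBy C₁ x = D₁ ∧ Cfsg.conjBy C₂ x = D₂) ∧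
    (∀ C ∈ Cfsg.unipotentSubgroups A B, ∀ D ∈ Cfsg.unipotentSubgroups A B, C ≠ A → D ≠ A →
      ∃! a : G, a ∈ A ∧ Cfsg.conjBy C a = D) := by
  refine ⟨?_, ?_, ?_⟩
  · obtain ⟨E, hE, hEA, hEB⟩ := CfsgLib.RankOne.exists_third h (CfsgLib.RankOne.left_mem h) (CfsgLib.RankOne.right_mem h) h.ne
    exact ⟨A, CfsgLib.RankOne.left_mem h, B, CfsgLib.RankOne.right_mem h, E, hE, h.ne, hEA.symm, hEB.symm⟩
  · intro C₁ hC₁ C₂ hC₂ D₁ hD₁ D₂ hD₂ hC hD
    obtain ⟨x, hx, hx1, hx2⟩ := CfsgLib.RankOne.exists_two_transitive h hC₁ hC₂ hC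
    obtain ⟨y, hy, hy1, hy2⟩ := CfsgLib.RankOne.exists_two_transitive h hD₁ hD₂ hD
    refine ⟨y * x⁻¹, mul_mem hy (inv_mem hx), ?_, ?_⟩
    · rw [← hx1, CfsgLib.RankOne.conjBy_conjBy, inv_mul_cancel_right, hy1]
    · rw [← hx2, CfsgLib.RankOne.conjBy_conjBy, inv_mul_cancel_right, hy2]
  · intro C hC D hD hCA hDA
    obtain ⟨a, ha, haD⟩ := CfsgLib.RankOne.exists_regular h hC hD hCA hDA
    refine ⟨a, ⟨ha, haD⟩, ?_⟩
    rintro b ⟨hb, hbD⟩
    have h1 := CfsgLib.RankOne.conjBy_eq_of_mul (hbD.trans haD.symm)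
    have h2 := CfsgLib.RankOne.eq_one_of_fix h hC hCA (mul_mem (inv_mem ha) hb) h1
    exact (inv_mul_eq_one.mp h2).symm

end Cfsg.Agent.S5014
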