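import Cfsg.Statements.S5015
import Cfsg.Agent.Lib.RankOne

set_option autoImplicit false
open Cfsg

namespace Cfsg.Agent.S5015

/-- Let a group Y act doubly transitively on a set Ω with at least three points, and suppose that the stabilizer of a point α contains a nilpotent subgroup A, normalized by that stabilizer, which acts regularly on the points other than α. Then for any y in Y moving α, the subgroups A and y A y⁻¹ are the unipotent subgroups of a rank one group, and the normal closure of A in Y (the subgroup generated by all conjugates of A) is generated by A and y A y⁻¹ alone. -/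
theorem result {Y Ω : Type*} [Group Y] [MulAction Y Ω]
    (h2 : MulAction.IsMultiplyPretransitive Y Ω 2) (hΩ : 3 ≤ ENat.card Ω) (α : Ω) (A : Subgroup Y)
    (hA : A ≤ MulAction.stabilizer Y α) (hAn : ∀ y ∈ MulAction.stabilizer Y α, Cfsg.conjBy A y = A)
    (hnil : Group.IsNilpotent A) (hreg : ∀ β γ : Ω, β ≠ α → γ ≠ α → ∃! a : Y, a ∈ A ∧ a • β = γ)
    (y : Y) (hy : y ∉ MulAction.stabilizer Y α) :
    Cfsg.IsRankOnePair A (Cfsg.conjBy A y) ∧ Subgroup.normalClosure (A : Set Y) = A ⊔ Cfsg.conjBy A y := by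
  have hfix : ∀ a ∈ A, a • α = α := fun a ha => hA ha
  obtain ⟨β, hβ⟩ : ∃ β, β = y • α := ⟨_, rfl⟩
  have hβα : β ≠ α := by rw [hβ]; exact hy
  -- third point
  obtain ⟨δ, hδα, hδβ⟩ : ∃ δ : Ω, δ ≠ α ∧ δ ≠ β := by
    by_contra hcon
    push Not at hcon
    have h1 : (Set.univ : Set Ω) ⊆ {α, β} := by
      intro x _
      by_cases h : x = α
      · exact Or.inl h
      · exact Or.inr (hcon x h)
    have h3 := Set.encard_le_encard h1
    have h4 : (({α, β} : Set Ω)).encard ≤ 2 := by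
      refine (Set.encard_insert_le {β} α).trans ?_
      rw [Set.encard_singleton]; norm_num
    rw [← Set.encard_univ] at hΩ
    have h5 := (hΩ.trans h3).trans h4
    exact absurd h5 (by decide)
  have hwell : ∀ g g' : Y, g • α = g' • α → Cfsg.conjBy A g = Cfsg.conjBy A g' := by
    intro g g' hgg
    have h1 : g'⁻¹ * g ∈ MulAction.stabilizer Y α := by
      rw [MulAction.mem_stabilizer_iff, mul_smul, hgg, inv_smul_smul]
    have h3 := hAn _ h1
    have h4 : g = g' * (g'⁻¹ * g) := by group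
    rw [h4, ← CfsgLib.RankOne.conjBy_conjBy, h3]
  have huA : ∀ a ∈ A, ∀ γ, γ ≠ α → a • γ = γ → a = 1 := by
    intro a ha γ hγ h
    exact (hreg γ γ hγ hγ).unique ⟨ha, h⟩ ⟨one_mem _, one_smul _ _⟩
  have hBmem : ∀ b, b ∈ Cfsg.conjBy A y ↔ ∃ a ∈ A, b = y * a * y⁻¹ := by
    intro b
    rw [CfsgLib.RankOne.mem_conjBy]
    constructor
    · intro h; exact ⟨_, h, by group⟩
    · rintro ⟨a, ha, rfl⟩
      have : y⁻¹ * (y * a * y⁻¹) * y = a := by group
      rw [this]; exact ha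
  have hfixB : ∀ b ∈ Cfsg.conjBy A y, b • β = β := by
    intro b hb
    obtain ⟨a, ha, rfl⟩ := (hBmem b).mp hb
    rw [hβ, mul_smul, inv_smul_smul, mul_smul, hfix a ha]
  have hyne : ∀ γ, γ ≠ β → y⁻¹ • γ ≠ α := by
    intro γ hγ h
    apply hγ
    rw [hβ, ← h, smul_inv_smul]
  have htrB : ∀ γ δ : Ω, γ ≠ β → δ ≠ β → ∃ b ∈ Cfsg.conjBy A y, b • γ = δ := by
    intro γ δ hγ hδ
    obtain ⟨a, ⟨ha, hav⟩, -⟩ := hreg (y⁻¹ • γ) (y⁻¹ • δ) (hyne γ hγ) (hyne δ hδ)
    exact ⟨y * a * y⁻¹, (hBmem _).mpr ⟨a, ha, rfl⟩, by rw [mul_smul, mul_smul, hav, smul_inv_smul]⟩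
  have huB : ∀ b ∈ Cfsg.conjBy A y, ∀ γ, γ ≠ β → b • γ = γ → b = 1 := by
    intro b hb γ hγ h
    obtain ⟨a, ha, rfl⟩ := (hBmem b).mp hb
    have h1 : a • (y⁻¹ • γ) = y⁻¹ • γ := by
      have h3 : y⁻¹ • ((y * a * y⁻¹) • γ) = y⁻¹ • γ := by rw [h]
      rw [mul_smul, mul_smul, inv_smul_smul] at h3
      exact h3
    rw [huA a ha _ (hyne γ hγ) h1]; group
  refine ⟨⟨?_, hnil, ?_, ?_, ?_⟩, ?_⟩
  · intro hAB
    obtain ⟨a, ⟨ha, haδ⟩, -⟩ := hreg β δ hβα hδα
    rw [hAB] at ha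
    rw [hfixB a ha] at haδ
    exact hδβ haδ.symm
  · haveI := hnil
    exact Group.nilpotent_of_mulEquiv (A.equivMapOfInjective _ (MulAut.conj y).injective)
  · intro a ha ha1
    have h1 : a⁻¹ • β ≠ β := fun h => ha1 (inv_eq_one.mp (huA _ (inv_mem ha) β hβα h))
    obtain ⟨b, hb, hbα⟩ := htrB α (a⁻¹ • β) hβα.symm h1
    refine ⟨b⁻¹, inv_mem hb, ?_, ?_⟩
    · intro h
      rw [inv_eq_one] at h
      rw [h, one_smul] at hbα
      have h3 : a • α = β := by rw [hbα, smul_inv_smul]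
      rw [hfix a ha] at h3
      exact hβα h3.symm
    · rw [inv_inv, CfsgLib.RankOne.conjBy_conjBy]
      apply hwell
      rw [hbα, mul_smul, hβ]
  · intro b hb hb1
    have h1 : b⁻¹ • α ≠ α := fun h => hb1 (inv_eq_one.mp (huB _ (inv_mem hb) α hβα.symm h))
    obtain ⟨a, ⟨ha, haβ⟩, -⟩ := hreg β (b⁻¹ • α) hβα h1
    refine ⟨a⁻¹, inv_mem ha, ?_, ?_⟩
    · intro h
      rw [inv_eq_one] at h
      rw [h, one_smul] at haβ
      have h3 : b • β = α := by rw [haβ, smul_inv_smul]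
      rw [hfixB b hb] at h3
      exact hβα h3
    · rw [inv_inv, CfsgLib.RankOne.conjBy_conjBy]
      apply hwell
      rw [mul_smul, ← hβ, haβ]
  · apply le_antisymm
    · rw [Subgroup.normalClosure, Subgroup.closure_le]
      intro g hg
      rw [Group.mem_conjugatesOfSet_iff] at hg
      obtain ⟨a, ha, hag⟩ := hg
      obtain ⟨c, hc⟩ := isConj_iff.mp hag
      have h1 : ∃ x ∈ A ⊔ Cfsg.conjBy A y, x • α = c • α := by
        by_cases h : c • α = β
        · obtain ⟨b, hb, hbα⟩ := htrB α δ hβα.symm hδβ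
          obtain ⟨a, ⟨ha, haβ⟩, -⟩ := hreg δ β hδα hβα
          exact ⟨a * b, mul_mem (Subgroup.mem_sup_left ha) (Subgroup.mem_sup_right hb), by rw [mul_smul, hbα, haβ, h]⟩
        · obtain ⟨b, hb, hbα⟩ := htrB α (c • α) hβα.symm h
          exact ⟨b, Subgroup.mem_sup_right hb, hbα⟩
      obtain ⟨x, hx, hxc⟩ := h1
      have h3 : g ∈ Cfsg.conjBy A c := by rw [← hc]; exact CfsgLib.RankOne.mul_mem_conjBy ha
      rw [← hwell x c hxc, CfsgLib.RankOne.mem_conjBy] at h3
      have : g = x * (x⁻¹ * g * x) * x⁻¹ := by group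
      rw [this]
      exact mul_mem (mul_mem hx (Subgroup.mem_sup_left h3)) (inv_mem hx)
    · apply sup_le
      · exact Subgroup.subset_normalClosure
      · rintro _ ⟨a, ha, rfl⟩
        exact (Subgroup.normalClosure_normal (s := (A : Set Y))).conj_mem a (Subgroup.subset_normalClosure ha) y

end Cfsg.Agent.S5015
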