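import Cfsg.Statements.S5016
import Cfsg.Agent.Lib.RankOne

set_option autoImplicit false
open Cfsg

namespace Cfsg.Agent.S5016

open Matrix

/-- upper transvection -/
def up {k : Type*} [Field k] (t : k) : SpecialLinearGroup (Fin 2) k := ⟨!![1, t; 0, 1], by simp [det_fin_two]⟩
/-- lower transvection -/
def lo {k : Type*} [Field k] (t : k) : SpecialLinearGroup (Fin 2) k := ⟨!![1, 0; t, 1], by simp [det_fin_two]⟩

theorem coe_up {k : Type*} [Field k] (t : k) : (up t : Matrix (Fin 2) (Fin 2) k) = !![1, t; 0, 1] := rfl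
theorem coe_lo {k : Type*} [Field k] (t : k) : (lo t : Matrix (Fin 2) (Fin 2) k) = !![1, 0; t, 1] := rfl

section
variable {k : Type*} [Field k]

theorem up_mul (s t : k) : up s * up t = up (s + t) := by
  ext i j; fin_cases i <;> fin_cases j <;> simp [coe_up, add_comm]

theorem lo_mul (s t : k) : lo s * lo t = lo (s + t) := by
  ext i j; fin_cases i <;> fin_cases j <;> simp [coe_lo]

theorem up_zero : up (0 : k) = 1 := by
  ext i j; fin_cases i <;> fin_cases j <;> simp [coe_up]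

theorem lo_zero : lo (0 : k) = 1 := by
  ext i j; fin_cases i <;> fin_cases j <;> simp [coe_lo]

theorem up_inv (s : k) : (up s)⁻¹ = up (-s) := by
  rw [inv_eq_iff_mul_eq_one, up_mul, add_neg_cancel, up_zero]

theorem lo_inv (s : k) : (lo s)⁻¹ = lo (-s) := by
  rw [inv_eq_iff_mul_eq_one, lo_mul, add_neg_cancel, lo_zero]

theorem mem_upper {g : SpecialLinearGroup (Fin 2) k} : g ∈ Cfsg.upperUnipotentSL2 k ↔ ∃ t, g = up t := by
  constructor
  · intro hg
    induction hg using Subgroup.closure_induction with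
    | mem x hx =>
      obtain ⟨h1, h2, h3⟩ := hx
      refine ⟨x 0 1, ?_⟩
      ext i j; fin_cases i <;> fin_cases j <;> simp [coe_up, h1, h2, h3]
    | one => exact ⟨0, up_zero.symm⟩
    | mul x y _ _ hx hy =>
      obtain ⟨s, rfl⟩ := hx; obtain ⟨t, rfl⟩ := hy
      exact ⟨s + t, up_mul s t⟩
    | inv x _ hx =>
      obtain ⟨s, rfl⟩ := hx; exact ⟨-s, up_inv s⟩
  · rintro ⟨t, rfl⟩
    apply Subgroup.subset_closure
    exact ⟨by simp [coe_up], by simp [coe_up], by simp [coe_up]⟩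

theorem mem_lower {g : SpecialLinearGroup (Fin 2) k} : g ∈ Cfsg.lowerUnipotentSL2 k ↔ ∃ t, g = lo t := by
  constructor
  · intro hg
    induction hg using Subgroup.closure_induction with
    | mem x hx =>
      obtain ⟨h1, h2, h3⟩ := hx
      refine ⟨x 1 0, ?_⟩
      ext i j; fin_cases i <;> fin_cases j <;> simp [coe_lo, h1, h2, h3]
    | one => exact ⟨0, lo_zero.symm⟩
    | mul x y _ _ hx hy =>
      obtain ⟨s, rfl⟩ := hx; obtain ⟨t, rfl⟩ := hy
      exact ⟨s + t, lo_mul s t⟩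
    | inv x _ hx =>
      obtain ⟨s, rfl⟩ := hx; exact ⟨-s, lo_inv s⟩
  · rintro ⟨t, rfl⟩
    apply Subgroup.subset_closure
    exact ⟨by simp [coe_lo], by simp [coe_lo], by simp [coe_lo]⟩

theorem up_eq_one {t : k} : up t = 1 ↔ t = 0 := by
  constructor
  · intro h
    have := congrArg (fun g : SpecialLinearGroup (Fin 2) k => (g : Matrix (Fin 2) (Fin 2) k) 0 1) h
    simpa [coe_up] using this
  · rintro rfl; exact up_zero

theorem lo_eq_one {t : k} : lo t = 1 ↔ t = 0 := by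
  constructor
  · intro h
    have := congrArg (fun g : SpecialLinearGroup (Fin 2) k => (g : Matrix (Fin 2) (Fin 2) k) 1 0) h
    simpa [coe_lo] using this
  · rintro rfl; exact lo_zero

theorem conj_eq {s t : k} (h : s * t = 1) (u : k) :
    (up t)⁻¹ * lo u * up t = (lo s)⁻¹ * up (-u * t ^ 2) * lo s := by
  rw [up_inv, lo_inv]
  have h2 : t * s = 1 := by rw [mul_comm]; exact h
  ext i j; fin_cases i <;> fin_cases j <;> simp [coe_up, coe_lo]
  · linear_combination (-u * t) * h2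
  · ring
  · linear_combination (-u * (1 + s * t)) * h2
  · linear_combination (-u*t) * h2

theorem conj_eq' {s t : k} (h : s * t = 1) (u : k) :
    (lo s)⁻¹ * up u * lo s = (up t)⁻¹ * lo (-u * s ^ 2) * up t := by
  rw [conj_eq h]
  congr 2
  have h2 : t * s = 1 := by rw [mul_comm]; exact h
  congr 1
  linear_combination (-u * (1 + s * t)) * h2

theorem cond1 {s t : k} (h : s * t = 1) :
    Cfsg.conjBy (Cfsg.lowerUnipotentSL2 k) (up t)⁻¹ = Cfsg.conjBy (Cfsg.upperUnipotentSL2 k) (lo s)⁻¹ := by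
  ext g
  rw [CfsgLib.RankOne.mem_conjBy, CfsgLib.RankOne.mem_conjBy, mem_lower, mem_upper, inv_inv, inv_inv]
  constructor
  · rintro ⟨u, hu⟩
    refine ⟨-u * t ^ 2, ?_⟩
    have h1 : g = (up t)⁻¹ * lo u * up t := by rw [← hu]; group
    rw [h1, conj_eq h]; group
  · rintro ⟨u, hu⟩
    refine ⟨-u * s ^ 2, ?_⟩
    have h1 : g = (lo s)⁻¹ * up u * lo s := by rw [← hu]; group
    rw [h1, conj_eq' h]; group

theorem comm_upper : IsMulCommutative (Cfsg.upperUnipotentSL2 k) := by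
  constructor; constructor
  rintro ⟨a, ha⟩ ⟨b, hb⟩
  obtain ⟨s, rfl⟩ := mem_upper.mp ha
  obtain ⟨t, rfl⟩ := mem_upper.mp hb
  apply Subtype.ext
  show up s * up t = up t * up s
  rw [up_mul, up_mul, add_comm]

theorem comm_lower : IsMulCommutative (Cfsg.lowerUnipotentSL2 k) := by
  constructor; constructor
  rintro ⟨a, ha⟩ ⟨b, hb⟩
  obtain ⟨s, rfl⟩ := mem_lower.mp ha
  obtain ⟨t, rfl⟩ := mem_lower.mp hb
  apply Subtype.ext
  show lo s * lo t = lo t * lo s
  rw [lo_mul, lo_mul, add_comm]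

theorem nil_of_comm {H : Type*} [Group H] (h : IsMulCommutative H) : Group.IsNilpotent H := by
  rw [Group.isNilpotent_iff]
  refine ⟨1, ?_⟩
  rw [Subgroup.upperCentralSeries_one, eq_top_iff]
  intro x _
  rw [Subgroup.mem_center_iff]
  intro g; exact h.is_comm.comm g x

theorem pair : Cfsg.IsRankOnePair (Cfsg.lowerUnipotentSL2 k) (Cfsg.upperUnipotentSL2 k) := by
  refine ⟨?_, nil_of_comm comm_lower, nil_of_comm comm_upper, ?_, ?_⟩
  · intro h
    have h1 : lo (1 : k) ∈ Cfsg.upperUnipotentSL2 k := by rw [← h, mem_lower]; exact ⟨1, rfl⟩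
    obtain ⟨t, ht⟩ := mem_upper.mp h1
    have := congrArg (fun g : SpecialLinearGroup (Fin 2) k => (g : Matrix (Fin 2) (Fin 2) k) 1 0) ht
    simp [coe_up, coe_lo] at this
  · intro a ha ha1
    obtain ⟨s, rfl⟩ := mem_lower.mp ha
    have hs : s ≠ 0 := fun h => ha1 (lo_eq_one.mpr h)
    exact ⟨up s⁻¹, mem_upper.mpr ⟨_, rfl⟩, fun h => inv_ne_zero hs (up_eq_one.mp h), cond1 (mul_inv_cancel₀ hs)⟩
  · intro b hb hb1
    obtain ⟨t, rfl⟩ := mem_upper.mp hb
    have ht : t ≠ 0 := fun h => hb1 (up_eq_one.mpr h)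
    exact ⟨lo t⁻¹, mem_lower.mpr ⟨_, rfl⟩, fun h => inv_ne_zero ht (lo_eq_one.mp h), (cond1 (inv_mul_cancel₀ ht)).symm⟩

theorem gen : Cfsg.lowerUnipotentSL2 k ⊔ Cfsg.upperUnipotentSL2 k = ⊤ := by
  have hlo : ∀ t : k, lo t ∈ Cfsg.lowerUnipotentSL2 k ⊔ Cfsg.upperUnipotentSL2 k := fun t =>
    Subgroup.mem_sup_left (mem_lower.mpr ⟨t, rfl⟩)
  have hup : ∀ t : k, up t ∈ Cfsg.lowerUnipotentSL2 k ⊔ Cfsg.upperUnipotentSL2 k := fun t =>
    Subgroup.mem_sup_right (mem_upper.mpr ⟨t, rfl⟩)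
  have key : ∀ g : SpecialLinearGroup (Fin 2) k, g 1 0 ≠ 0 → g ∈ Cfsg.lowerUnipotentSL2 k ⊔ Cfsg.upperUnipotentSL2 k := by
    intro g hg
    have hdet := g.det_coe
    rw [det_fin_two] at hdet
    have h1 : g = up ((g 0 0 - 1) / g 1 0) * lo (g 1 0) * up ((g 1 1 - 1) / g 1 0) := by
      ext i j; fin_cases i <;> fin_cases j <;> simp [coe_up, coe_lo]
      · field_simp; ring
      · field_simp; linear_combination (-1 : k) * hdet
      · field_simp; ring
    rw [h1]
    exact mul_mem (mul_mem (hup _) (hlo _)) (hup _)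
  rw [eq_top_iff]
  intro g _
  by_cases hg : g 1 0 = 0
  · have hdet := g.det_coe
    rw [det_fin_two, hg, mul_zero, sub_zero] at hdet
    have h2 : ((g * lo 1 : SpecialLinearGroup (Fin 2) k) : Matrix (Fin 2) (Fin 2) k) 1 0 ≠ 0 := by
      have : ((g * lo 1 : SpecialLinearGroup (Fin 2) k) : Matrix (Fin 2) (Fin 2) k) 1 0 = g 1 1 := by
        simp [coe_lo, Matrix.mul_apply, hg]
      rw [this]
      intro h3
      rw [h3, mul_zero] at hdet; exact zero_ne_one hdet
    have h3 := key _ h2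
    have h4 : g = (g * lo 1) * (lo 1)⁻¹ := by group
    rw [h4]; exact mul_mem h3 (inv_mem (hlo 1))
  · exact key g hg

end


/-- For any field k, the special linear group SL₂(k) is a special rank one group with abelian unipotent subgroups, the unipotent subgroups being the group of lower unitriangular matrices and the group of upper unitriangular matrices. -/
theorem result (k : Type*) [Field k] :
    Cfsg.IsRankOneGroup (Matrix.SpecialLinearGroup (Fin 2) k) (Cfsg.lowerUnipotentSL2 k) (Cfsg.upperUnipotentSL2 k) ∧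
    Cfsg.IsSpecialRankOnePair (Cfsg.lowerUnipotentSL2 k) (Cfsg.upperUnipotentSL2 k) ∧
    Cfsg.HasAbelianUnipotents (Cfsg.lowerUnipotentSL2 k) (Cfsg.upperUnipotentSL2 k) := by
  refine ⟨⟨gen, pair⟩, ⟨pair, ?_⟩, comm_lower, comm_upper⟩
  intro a ha ha1 b hb hb1 hab
  obtain ⟨s, rfl⟩ := mem_lower.mp ha
  have hs : s ≠ 0 := fun h => ha1 (lo_eq_one.mpr h)
  have h1 := cond1 (mul_inv_cancel₀ hs)
  have h2 := CfsgLib.RankOne.conjBy_eq_of_mul (hab.trans h1.symm)
  rw [inv_inv] at h2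
  have h3 := CfsgLib.RankOne.eq_one_of_normalizes' pair (mul_mem (mem_upper.mpr ⟨s⁻¹, rfl⟩) (inv_mem hb)) h2
  have h4 : b = up s⁻¹ := (mul_inv_eq_one.mp h3).symm
  rw [h4, conj_eq (mul_inv_cancel₀ hs), up_inv]
  congr 2
  congr 1
  field_simp

end Cfsg.Agent.S5016
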