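import Cfsg.Statements.S5017
import Cfsg.Agent.Lib.RankOne

set_option autoImplicit false
open Cfsg

namespace Cfsg.Agent.S5017

theorem normal_or {X : Type*} [Group X] {A B : Subgroup X} (h : Cfsg.IsRankOneGroup X A B)
    (N : Subgroup X) (hN : N.Normal) : N ⊔ A = ⊤ ∨ N ≤ Subgroup.center X := by
  obtain ⟨htop, h⟩ := h
  by_cases h1 : ∀ n ∈ N, ∀ C ∈ Cfsg.unipotentSubgroups A B, Cfsg.conjBy C n = C
  · right
    intro n hn
    rw [Subgroup.mem_center_iff]
    intro g
    have := CfsgLib.RankOne.centralizes_of_fix_all h (h1 n hn) g (by rw [htop]; trivial)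
    exact this.symm
  · left
    push Not at h1
    obtain ⟨n, hn, C, ⟨x, hx, rfl⟩, hne⟩ := h1
    have hn' : x⁻¹ * n * x ∈ N := by
      have := hN.conj_mem n hn x⁻¹
      rwa [inv_inv] at this
    have hne' : Cfsg.conjBy A (x⁻¹ * n * x) ≠ A := by
      intro h2
      apply hne
      rw [CfsgLib.RankOne.conjBy_conjBy]
      have : n * x = x * (x⁻¹ * n * x) := by group
      rw [this, ← CfsgLib.RankOne.conjBy_conjBy, h2]
    have hm : Cfsg.conjBy A (x⁻¹ * n * x) ∈ Cfsg.unipotentSubgroups A B :=
      ⟨_, by rw [htop]; trivial, rfl⟩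
    obtain ⟨a, ha, haB⟩ := CfsgLib.RankOne.exists_regular h hm (CfsgLib.RankOne.right_mem h) hne' h.ne.symm
    rw [CfsgLib.RankOne.conjBy_conjBy] at haB
    rw [eq_top_iff, ← htop]
    apply sup_le le_sup_right
    rw [← haB]
    intro b hb
    rw [CfsgLib.RankOne.mem_conjBy] at hb
    have hg : a * (x⁻¹ * n * x) ∈ N ⊔ A := mul_mem (Subgroup.mem_sup_right ha) (Subgroup.mem_sup_left hn')
    generalize a * (x⁻¹ * n * x) = g at *
    have : b = g * (g⁻¹ * b * g) * g⁻¹ := by group
    rw [this]
    exact mul_mem (mul_mem hg (Subgroup.mem_sup_right hb)) (inv_mem hg)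

theorem surj_of_sup {X : Type*} [Group X] {A N : Subgroup X} [hN : N.Normal] (h : N ⊔ A = ⊤) :
    Function.Surjective ((QuotientGroup.mk' N).comp A.subtype) := by
  intro q
  obtain ⟨x, rfl⟩ := QuotientGroup.mk'_surjective N q
  have hx : x ∈ N ⊔ A := by rw [h]; trivial
  obtain ⟨n, hn, a, ha, rfl⟩ := Subgroup.mem_sup_of_normal_left.mp hx
  refine ⟨⟨a, ha⟩, ?_⟩
  simp only [MonoidHom.comp_apply, Subgroup.coe_subtype, QuotientGroup.mk'_apply]
  rw [QuotientGroup.mk_mul, (QuotientGroup.eq_one_iff n).mpr hn, one_mul]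


/-- Let X be a rank one group with unipotent subgroups A and B and N a normal subgroup of X. Then either X = N A or N lies in the centre of X. Consequently a perfect rank one group is quasisimple. -/
theorem result {X : Type*} [Group X] {A B : Subgroup X} (h : Cfsg.IsRankOneGroup X A B) :
    (∀ N : Subgroup X, N.Normal → N ⊔ A = ⊤ ∨ N ≤ Subgroup.center X) ∧
    (Group.IsPerfect X → Cfsg.IsQuasisimple X) := by
  refine ⟨fun N hN => normal_or h N hN, ?_⟩
  intro hperf
  refine ⟨hperf, ?_⟩
  obtain ⟨htop, h'⟩ := id h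
  have hZ : Subgroup.center X ≠ ⊤ := by
    intro hZ
    obtain ⟨x, hx, hxB⟩ := CfsgLib.RankOne.exists_conj h'
    apply h'.ne
    rw [← hxB]
    symm
    rw [CfsgLib.RankOne.conjBy_eq_self_iff, Subgroup.mem_normalizer_iff]
    intro y
    have hx' : x ∈ Subgroup.center X := by rw [hZ]; trivial
    have := (Subgroup.mem_center_iff.mp hx') y
    rw [← this, mul_inv_cancel_right]
  have hnt : Nontrivial (X ⧸ Subgroup.center X) := QuotientGroup.nontrivial_iff.mpr hZ
  refine ⟨fun H hH => ?_⟩
  have hsurj := QuotientGroup.mk'_surjective (Subgroup.center X)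
  have hHN : (H.comap (QuotientGroup.mk' (Subgroup.center X))).Normal := hH.comap _
  rcases normal_or h _ hHN with h1 | h1
  · right
    haveI := h'.nilpotent_left
    have h2 : Group.IsNilpotent (X ⧸ (H.comap (QuotientGroup.mk' (Subgroup.center X)))) :=
      Group.nilpotent_of_surjective _ (surj_of_sup h1)
    have h3 : Subsingleton (X ⧸ (H.comap (QuotientGroup.mk' (Subgroup.center X)))) := by
      by_contra hns
      rw [not_subsingleton_iff_nontrivial] at hns
      haveI := hns
      haveI := hperf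
      exact Group.IsPerfect.not_isNilpotent _ h2
    have h4 : H.comap (QuotientGroup.mk' (Subgroup.center X)) = ⊤ := QuotientGroup.subgroup_eq_top_of_subsingleton _ h3
    rw [eq_top_iff]
    intro q _
    obtain ⟨x, rfl⟩ := hsurj q
    have : x ∈ H.comap (QuotientGroup.mk' (Subgroup.center X)) := by rw [h4]; trivial
    exact this
  · left
    rw [eq_bot_iff]
    intro q hq
    obtain ⟨x, rfl⟩ := hsurj q
    have : x ∈ Subgroup.center X := h1 hq
    exact (QuotientGroup.eq_one_iff x).mpr this

end Cfsg.Agent.S5017
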