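import Cfsg.Statements.S5018
import Cfsg.Agent.Lib.RankOne
import Cfsg.Agent.S5017

set_option autoImplicit false
open Cfsg

namespace Cfsg.Agent.S5018

/-- A rank one group is not nilpotent, and its second centre equals its centre. -/
theorem result {X : Type*} [Group X] {A B : Subgroup X} (h : Cfsg.IsRankOneGroup X A B) :
    Subgroup.upperCentralSeries X 2 = Subgroup.center X ∧ ¬ Group.IsNilpotent X := by
  have hnn : ¬ Group.IsNilpotent X := by
    intro hnil
    obtain ⟨htop, h'⟩ := h
    have hM : Subgroup.normalizer (A : Set X) < ⊤ := by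
      rw [lt_top_iff_ne_top]
      intro hM
      obtain ⟨x, hx, hxB⟩ := CfsgLib.RankOne.exists_conj h'
      apply h'.ne
      rw [← hxB]; symm
      rw [CfsgLib.RankOne.conjBy_eq_self_iff, hM]; trivial
    have h1 := Group.normalizerCondition_of_isNilpotent _ hM
    obtain ⟨g, hg, hg'⟩ := SetLike.exists_of_lt h1
    have hne : Cfsg.conjBy A g ≠ A := fun h2 => hg' (CfsgLib.RankOne.conjBy_eq_self_iff.mp h2)
    have hmem : Cfsg.conjBy A g ∈ Cfsg.unipotentSubgroups A B := ⟨g, by rw [htop]; trivial, rfl⟩
    obtain ⟨a, ha, ha1⟩ := CfsgLib.RankOne.exists_left h'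
    apply ha1
    apply CfsgLib.RankOne.eq_one_of_fix h' hmem hne ha
    rw [CfsgLib.RankOne.conjBy_conjBy]
    have h2 : g⁻¹ * a * g ∈ Subgroup.normalizer (A : Set X) := by
      have h3 := Subgroup.mem_normalizer_iff.mp (inv_mem hg) a
      rw [inv_inv] at h3
      exact h3.mp (Subgroup.le_normalizer ha)
    have h4 : a * g = g * (g⁻¹ * a * g) := by group
    rw [h4, ← CfsgLib.RankOne.conjBy_conjBy, CfsgLib.RankOne.conjBy_eq_self_iff.mpr h2]
  refine ⟨?_, hnn⟩
  have hle : Subgroup.center X ≤ Subgroup.upperCentralSeries X 2 := by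
    rw [← Subgroup.upperCentralSeries_one]
    exact Subgroup.upperCentralSeries_mono X (by norm_num)
  rcases Cfsg.Agent.S5017.normal_or h (Subgroup.upperCentralSeries X 2) inferInstance with h1 | h1
  · exfalso
    apply hnn
    haveI := h.2.nilpotent_left
    have h2 : Group.IsNilpotent (X ⧸ (Subgroup.upperCentralSeries X 2)) :=
      Group.nilpotent_of_surjective _ (Cfsg.Agent.S5017.surj_of_sup h1)
    rw [Subgroup.nilpotent_iff_lowerCentralSeries] at h2 ⊢
    obtain ⟨n, hn⟩ := h2
    have h3 : (Subgroup.lowerCentralSeries (⊤ : Subgroup X) n) ≤ Subgroup.upperCentralSeries X 2 := by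
      have h4 := Subgroup.map_lowerCentralSeries (⊤ : Subgroup X) (QuotientGroup.mk' (Subgroup.upperCentralSeries X 2)) n
      rw [Subgroup.map_top_of_surjective _ (QuotientGroup.mk'_surjective _), hn, Subgroup.map_eq_bot_iff, QuotientGroup.ker_mk'] at h4
      exact h4
    refine ⟨n + 2, ?_⟩
    have h5 : (Subgroup.lowerCentralSeries (⊤ : Subgroup X) (n + 1)) ≤ Subgroup.upperCentralSeries X 1 := by
      rw [Subgroup.lowerCentralSeries_succ]
      exact (Subgroup.commutator_mono h3 le_rfl).trans (Subgroup.commutator_upperCentralSeries_top_le X 1)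
    rw [eq_bot_iff, Subgroup.lowerCentralSeries_succ]
    exact (Subgroup.commutator_mono h5 le_rfl).trans (Subgroup.commutator_upperCentralSeries_top_le X 0)
  · exact le_antisymm h1 hle

end Cfsg.Agent.S5018
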