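import Cfsg.Statements.S5024
import Cfsg.Agent.Lib.RankOne

set_option autoImplicit false
open Cfsg

namespace Cfsg.Agent.S5024

/-- Let S be a set of abstract root subgroups of G, A and C members of S, B a rank one partner of A in S and D a rank one partner of C in S. If the rank one group ⟨A, B⟩ is contained in ⟨C, D⟩ then the two coincide, and C and D are conjugates of A inside ⟨A, B⟩. -/
theorem result {G : Type*} [Group G] {S : Set (Subgroup G)} (hS : Cfsg.IsRootSubgroupSet S)
    {A B C D : Subgroup G} (hA : A ∈ S) (hC : C ∈ S) (hB : B ∈ Cfsg.rankOnePartners S A) (hD : D ∈ Cfsg.rankOnePartners S C)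
    (hle : A ⊔ B ≤ C ⊔ D) : A ⊔ B = C ⊔ D ∧ C ∈ Cfsg.unipotentSubgroups A B ∧ D ∈ Cfsg.unipotentSubgroups A B := by
  obtain ⟨hBS, hAB⟩ := hB
  obtain ⟨hDS, hCD⟩ := hD
  have key : ∀ {E F : Subgroup G}, E ∈ S → F ≤ C ⊔ D → Cfsg.IsRankOnePair E F → E ≤ C ⊔ D → E ∈ Cfsg.unipotentSubgroups C D := by
    intro E F hE hF hEF hEle
    rcases CfsgLib.RankOne.mem_of_le hS hE hC hCD hEle with h1 | h1
    · exact h1
    · exfalso
      obtain ⟨e, he, he1⟩ := CfsgLib.RankOne.exists_left hEF
      apply he1
      apply CfsgLib.RankOne.eq_one_of_normalizes hEF he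
      rw [CfsgLib.RankOne.conjBy_eq_self_iff, Subgroup.mem_normalizer_iff]
      intro f
      constructor
      · intro hf
        rw [h1 e he f (hF hf), mul_inv_cancel_right]; exact hf
      · intro hf
        have h2 := h1 e he _ (hF hf)
        have h3 : f = e * f * e⁻¹ := by
          have : e * (e * f * e⁻¹) * e⁻¹ = e * f * e⁻¹ := by rw [h2, mul_inv_cancel_right]
          have h4 := mul_left_cancel (mul_right_cancel this)
          exact h4.symm
        rw [h3]; exact hf
  have h1 := key hA (le_sup_right.trans hle) hAB (le_sup_left.trans hle)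
  have h2 := key hBS (le_sup_left.trans hle) (Cfsg.RankOnePair_symm hAB) (le_sup_right.trans hle)
  obtain ⟨-, h3, h4⟩ := CfsgLib.RankOne.pair_of_mem hCD h1 h2 hAB.ne
  refine ⟨h3, ?_, ?_⟩
  · rw [h4]; exact CfsgLib.RankOne.left_mem hCD
  · rw [h4]; exact CfsgLib.RankOne.right_mem hCD

end Cfsg.Agent.S5024
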