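import Cfsg.Statements.S5025
import Cfsg.Agent.Lib.RankOne

set_option autoImplicit false
open Cfsg

namespace Cfsg.Agent.S5025

/-- Let S be a set of abstract root subgroups of G, A ∈ S and B a rank one partner of A in S. If z ≠ 1 centralizes ⟨A, B⟩, then no product z a with a a non-identity element of A is a non-identity element of a member of S. -/
theorem result {G : Type*} [Group G] {S : Set (Subgroup G)} (hS : Cfsg.IsRootSubgroupSet S)
    {A B : Subgroup G} (hA : A ∈ S) (hB : B ∈ Cfsg.rankOnePartners S A) {z : G}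
    (hz : z ∈ Subgroup.centralizer ((A ⊔ B : Subgroup G) : Set G)) (hz1 : z ≠ 1) :
    ∀ a ∈ A, a ≠ 1 → z * a ∉ Cfsg.rootElements S := by
  obtain ⟨hBS, hAB⟩ := hB
  rintro a ha ha1 ⟨hza1, E, hE, hzaE⟩
  have hz' : ∀ x ∈ A ⊔ B, x * z = z * x := Subgroup.mem_centralizer_iff.mp hz
  have hfixz : ∀ F ≤ A ⊔ B, Cfsg.conjBy F z = F := by
    intro F hF
    ext y
    rw [CfsgLib.RankOne.mem_conjBy]
    constructor
    · intro hy
      have h1 := hz' _ (hF hy)
      have h2 : y = z⁻¹ * y * z := by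
        have : z⁻¹ * y * z * z = y * z := by rw [h1]; group
        exact (mul_right_cancel this).symm
      rw [h2]; exact hy
    · intro hy
      have : z⁻¹ * y * z = y := by rw [mul_assoc, hz' y (hF hy)]; group
      rw [this]; exact hy
  have hBa : Cfsg.conjBy B a ≤ A ⊔ B := by
    have h3 : Cfsg.conjBy B a ≤ Cfsg.conjBy (A ⊔ B) a := Subgroup.map_mono le_sup_right
    rwa [CfsgLib.RankOne.conjBy_self (Subgroup.mem_sup_left ha)] at h3
  have h1 : Cfsg.conjBy B (z * a) = Cfsg.conjBy B a := by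
    rw [← CfsgLib.RankOne.conjBy_conjBy, hfixz _ hBa]
  have h2 : Cfsg.conjBy B a ≠ B := fun h2 => ha1 (CfsgLib.RankOne.eq_one_of_normalizes hAB ha h2)
  have hm : Cfsg.conjBy B a ∈ Cfsg.unipotentSubgroups A B :=
    CfsgLib.RankOne.mem_conjBy_unipotent hAB (CfsgLib.RankOne.right_mem hAB) (Subgroup.mem_sup_left ha)
  have hEm : E ∈ Cfsg.unipotentSubgroups A B :=
    CfsgLib.RankOne.mem_of_moves hS hE hA hAB (CfsgLib.RankOne.right_mem hAB) hzaE hza1 (by rw [h1]; exact hm) (by rw [h1]; exact h2)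
  by_cases hEA : E = A
  · subst hEA
    have hzE : z ∈ E := by
      have : z = (z * a) * a⁻¹ := by group
      rw [this]; exact mul_mem hzaE (inv_mem ha)
    exact hz1 (CfsgLib.RankOne.eq_one_of_normalizes hAB hzE (hfixz B le_sup_right))
  · have hcomm : a * (z * a) = (z * a) * a := by
      rw [← mul_assoc, hz' a (Subgroup.mem_sup_left ha)]
    exact hza1 (CfsgLib.RankOne.eq_one_of_commute hAB (hS.commutative A hA) (CfsgLib.RankOne.left_mem hAB) hEm (Ne.symm hEA) ha hzaE ha1 hcomm)

end Cfsg.Agent.S5025
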