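import Cfsg.Statements.S5026
import Cfsg.Agent.Lib.RankOne

set_option autoImplicit false
open Cfsg

namespace Cfsg.Agent.S5026

/-- Let S be a degenerate set of abstract root subgroups of G (a set of abstract transvection groups) and let a, b be commuting non-identity elements of members of S with a b ≠ 1. Then the members of S centralizing a b are exactly those centralizing both a and b. -/
theorem result {G : Type*} [Group G] {S : Set (Subgroup G)} (hS : Cfsg.IsRootSubgroupSet S) (hdeg : Cfsg.IsDegenerateRootSet S)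
    {a b : G} (ha : a ∈ Cfsg.rootElements S) (hb : b ∈ Cfsg.rootElements S) (hab : a * b = b * a) (hab1 : a * b ≠ 1) :
    Cfsg.centralizingMembers S (Subgroup.zpowers (a * b)) =
      Cfsg.centralizingMembers S (Subgroup.zpowers a) ∩ Cfsg.centralizingMembers S (Subgroup.zpowers b) := by
  have hmem : ∀ (x : G) (E : Subgroup G), E ∈ Cfsg.centralizingMembers S (Subgroup.zpowers x) ↔ E ∈ S ∧ ∀ e ∈ E, e * x = x * e := by
    intro x E
    constructor
    · rintro ⟨hE, hle⟩
      refine ⟨hE, fun e he => ?_⟩
      exact (Subgroup.mem_centralizer_iff.mp (hle he) x (Subgroup.mem_zpowers x)).symm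
    · rintro ⟨hE, hle⟩
      refine ⟨hE, fun e he => ?_⟩
      rw [Subgroup.mem_centralizer_iff]
      rintro _ ⟨k, rfl⟩
      have h9 : Commute e x := hle e he
      exact (h9.zpow_right k).symm.eq
  obtain ⟨ha1, A, hA, haA⟩ := ha
  obtain ⟨hb1, B, hB, hbB⟩ := hb
  ext E
  rw [Set.mem_inter_iff, hmem, hmem, hmem]
  constructor
  · rintro ⟨hE, hEab⟩
    -- if E centralizes b then it centralizes a and vice versa
    have hba : (∀ e ∈ E, e * b = b * e) → ∀ e ∈ E, e * a = a * e := by
      intro h e he
      have h1 : e * (a * b) = a * b * e := hEab e he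
      have h2 : e * a * b = a * e * b := by rw [mul_assoc, h1, mul_assoc, ← h e he, mul_assoc]
      exact mul_right_cancel h2
    by_contra hcon
    have hna : ¬ ∀ e ∈ E, e * a = a * e := by
      intro h
      apply hcon
      refine ⟨⟨hE, h⟩, hE, ?_⟩
      intro e he
      have h1 : e * (a * b) = a * b * e := hEab e he
      have h2 : a * (e * b) = a * (b * e) := by rw [← mul_assoc, ← h e he, mul_assoc, h1, mul_assoc]
      exact mul_left_cancel h2
    have hnb : ¬ ∀ e ∈ E, e * b = b * e := fun h => hna (hba h)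
    have hpair : ∀ {C : Subgroup G} {c : G}, C ∈ S → c ∈ C → (¬ ∀ e ∈ E, e * c = c * e) → Cfsg.IsRankOnePair E C := by
      intro C c hC hc hn
      rcases hS.pair E hE C hC with h1 | h1 | h1
      · exfalso
        apply hn
        intro e he
        rw [Subgroup.commutator_eq_bot_iff_le_centralizer] at h1
        exact (Subgroup.mem_centralizer_iff.mp (h1 he) c hc).symm
      · exact h1
      · exact absurd h1 (hdeg E hE C hC)
    have hEA := hpair hA haA hna
    have hEB := hpair hB hbB hnb
    have hfix : Cfsg.conjBy E (a * b) = E := by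
      rw [CfsgLib.RankOne.conjBy_eq_self_iff, Subgroup.mem_normalizer_iff]
      intro f
      constructor
      · intro hf
        rw [← hEab f hf, mul_inv_cancel_right]; exact hf
      · intro hf
        have h1 := hEab _ hf
        have h3 : f = (a * b) * f * (a * b)⁻¹ := by
          have : (a * b) * ((a * b) * f * (a * b)⁻¹) * (a * b)⁻¹ = (a * b) * f * (a * b)⁻¹ := by rw [← h1, mul_inv_cancel_right]
          exact (mul_left_cancel (mul_right_cancel this)).symm
        rw [h3]; exact hf
    have h1 : Cfsg.conjBy E b = Cfsg.conjBy E a⁻¹ := by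
      rw [← CfsgLib.RankOne.conjBy_conjBy, CfsgLib.RankOne.conjBy_inv_eq, CfsgLib.RankOne.conjBy_inv_eq] at hfix
      rw [CfsgLib.RankOne.conjBy_inv_eq, CfsgLib.RankOne.conjBy_conjBy]
      rw [CfsgLib.RankOne.conjBy_conjBy] at hfix
      exact hfix
    obtain ⟨x, hx, -, hxa⟩ := hEA.cond_right a haA ha1
    obtain ⟨y, hy, -, hyb⟩ := hEB.cond_right b⁻¹ (inv_mem hbB) (inv_ne_one.mpr hb1)
    rw [inv_inv] at hyb
    have h2 : Cfsg.conjBy B y⁻¹ = Cfsg.conjBy A x⁻¹ := by rw [hyb, hxa, h1]
    rw [CfsgLib.RankOne.conjBy_inv_eq, inv_inv, CfsgLib.RankOne.conjBy_conjBy] at h2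
    have hBm : B ∈ Cfsg.unipotentSubgroups E A := by
      rw [h2]
      exact CfsgLib.RankOne.mem_conjBy_unipotent hEA (CfsgLib.RankOne.right_mem hEA) (Subgroup.mem_sup_left (mul_mem hy (inv_mem hx)))
    by_cases hAB : A = B
    · subst hAB
      exact hab1 (CfsgLib.RankOne.eq_one_of_normalizes' hEA (mul_mem haA hbB) hfix)
    · exact hb1 (CfsgLib.RankOne.eq_one_of_commute hEA (hS.commutative E hE) (CfsgLib.RankOne.right_mem hEA) hBm hAB haA hbB ha1 hab)
  · rintro ⟨⟨hE, h1⟩, -, h2⟩
    refine ⟨hE, fun e he => ?_⟩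
    rw [← mul_assoc, h1 e he, mul_assoc, h2 e he, mul_assoc]

end Cfsg.Agent.S5026
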