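import Cfsg.Statements.S5027
import Cfsg.Agent.Lib.RankOne
import Cfsg.Agent.S5025

set_option autoImplicit false
open Cfsg

namespace Cfsg.Agent.S5027

/-- Let S be a set of abstract root subgroups of G such that every member of S has a rank one partner in S (the graph of rank one pairs on S has no isolated vertex). Then the second centre of G equals its centre. -/
theorem result {G : Type*} [Group G] {S : Set (Subgroup G)} (hS : Cfsg.IsRootSubgroupSet S)
    (hF : ∀ A ∈ S, ¬ Cfsg.IsIsolatedIn (Cfsg.FAdj S) S A) : Subgroup.upperCentralSeries G 2 = Subgroup.center G := by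
  apply le_antisymm
  · intro g hg
    have key : ∀ A ∈ S, A ≤ Subgroup.centralizer ({g} : Set G) := by
      intro A hA a ha
      rw [Subgroup.mem_centralizer_singleton_iff]
      by_cases ha1 : a = 1
      · subst ha1; simp
      obtain ⟨B, hB⟩ : ∃ B, B ∈ Cfsg.rankOnePartners S A := by
        have := hF A hA
        rw [Cfsg.IsIsolatedIn] at this
        push Not at this
        obtain ⟨B, hB⟩ := this hA
        by_cases h1 : Cfsg.FAdj S A B
        · exact ⟨B, h1.2.1, h1.2.2⟩
        · have h2 := hB h1
          exact ⟨B, h2.1, Cfsg.RankOnePair_symm h2.2.2⟩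
      have hz : g * a * g⁻¹ * a⁻¹ ∈ Subgroup.center G := by
        have h1 := Subgroup.mem_upperCentralSeries_succ_iff.mp hg a
        rw [Subgroup.upperCentralSeries_one] at h1
        exact h1
      by_contra hne
      have hz1 : g * a * g⁻¹ * a⁻¹ ≠ 1 := by
        intro h1
        apply hne
        have h2 := mul_inv_eq_one.mp h1
        exact (mul_inv_eq_iff_eq_mul.mp h2).symm
      apply Cfsg.Agent.S5025.result hS hA hB (z := g * a * g⁻¹ * a⁻¹) ?_ hz1 a ha ha1
      · have h3 : g * a * g⁻¹ * a⁻¹ * a = g * a * g⁻¹ := by group
        rw [h3]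
        refine ⟨?_, _, hS.conj_mem A hA g, CfsgLib.RankOne.mul_mem_conjBy ha⟩
        intro h4
        apply ha1
        have : a = g⁻¹ * (g * a * g⁻¹) * g := by group
        rw [this, h4]; group
      · rw [Subgroup.mem_centralizer_iff]
        intro x _
        exact Subgroup.mem_center_iff.mp hz x
    have h1 : (⊤ : Subgroup G) ≤ Subgroup.centralizer ({g} : Set G) := by
      rw [← hS.generates]
      exact iSup₂_le key
    rw [Subgroup.mem_center_iff]
    intro x
    exact Subgroup.mem_centralizer_singleton_iff.mp (h1 (Subgroup.mem_top x))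
  · rw [← Subgroup.upperCentralSeries_one]
    exact Subgroup.upperCentralSeries_mono G (by norm_num)

end Cfsg.Agent.S5027
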