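import Cfsg.Statements.S5028
import Cfsg.Agent.Lib.RankOne

set_option autoImplicit false
open Cfsg

namespace Cfsg.Agent.S5028

/-- Let S be a set of abstract root subgroups of G and A a member of S having a rank one partner in S. Then A meets every other member of S trivially. -/
theorem result {G : Type*} [Group G] {S : Set (Subgroup G)} (hS : Cfsg.IsRootSubgroupSet S)
    {A : Subgroup G} (hA : ¬ Cfsg.IsIsolatedIn (Cfsg.FAdj S) S A) (hAS : A ∈ S) : ∀ B ∈ S, A ⊓ B = ⊥ ∨ A = B := by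
  intro B hB
  by_contra hcon
  push Not at hcon
  obtain ⟨h1, hne⟩ := hcon
  obtain ⟨C, hC, hAC⟩ : ∃ C ∈ S, Cfsg.IsRankOnePair A C := by
    rw [Cfsg.IsIsolatedIn] at hA
    push Not at hA
    obtain ⟨B, hB⟩ := hA hAS
    by_cases h1 : Cfsg.FAdj S A B
    · exact ⟨B, h1.2.1, h1.2.2⟩
    · have h2 := hB h1
      exact ⟨B, h2.1, Cfsg.RankOnePair_symm h2.2.2⟩
  obtain ⟨⟨a, haA, haB⟩, ha1'⟩ := Subgroup.ne_bot_iff_exists_ne_one.mp h1
  have ha1 : a ≠ 1 := fun h' => ha1' (Subtype.ext h')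
  have hm : Cfsg.conjBy C a ∈ Cfsg.unipotentSubgroups A C :=
    CfsgLib.RankOne.mem_conjBy_unipotent hAC (CfsgLib.RankOne.right_mem hAC) (Subgroup.mem_sup_left haA)
  have hBm := CfsgLib.RankOne.mem_of_moves hS hB hAS hAC (CfsgLib.RankOne.right_mem hAC) haB ha1 hm
    (fun h2 => ha1 (CfsgLib.RankOne.eq_one_of_normalizes hAC haA h2))
  have := CfsgLib.RankOne.inf_eq_bot hAC (CfsgLib.RankOne.left_mem hAC) hBm hne
  exact h1 this

end Cfsg.Agent.S5028
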