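import Cfsg.Statements.S5079
import Cfsg.Agent.Lib.FusionSaturated
-- import your own Cfsg.Agent.* helpers here

set_option autoImplicit false
open Cfsg

namespace Cfsg.Agent.S5079

/-- In any fusion system over a finite p-group S: if P is fully automized and receptive and Q is conjugate to P in the system, then there is a map of the system with source N_S(Q) and values in N_S(P) carrying Q onto P. -/
theorem result {Ω : Type*} [Group Ω] {S : Subgroup Ω} [Finite S] (p : ℕ) [Fact p.Prime] (hS : IsPGroup p S) (F : Cfsg.FusionSystem S) (P Q : Subgroup Ω) (h₁ : F.IsFullyAutomized p P) (h₂ : F.IsReceptive P) (hQ : F.IsConj Q P) : ∃ φ ∈ F.Hom (Cfsg.FusionSystem.normalizerIn S Q), (∀ x, φ x ∈ Cfsg.FusionSystem.normalizerIn S P) ∧ (Q.subgroupOf (Cfsg.FusionSystem.normalizerIn S Q)).map φ = P := by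
  obtain ⟨f, ⟨φ, hφ, hφf⟩, himg, hN⟩ := CfsgLib.Fusion.exists_map_normalizer hS h₁ h₂ hQ
  have hQN := CfsgLib.Fusion.le_normalizerIn (S := S) (CfsgLib.Fusion.IsConj_le_left hQ)
  refine ⟨φ, hφ, fun x => by rw [hφf]; exact hN x x.2, ?_⟩
  have hf : CfsgLib.Fusion.FMap F (FusionSystem.normalizerIn S Q) f := ⟨φ, hφ, hφf⟩
  ext y
  constructor
  · rintro ⟨x, hx, rfl⟩
    rw [← himg, hφf]
    exact CfsgLib.Fusion.apply_mem_img hx
  · intro hy
    rw [← himg] at hy
    obtain ⟨x, hx, rfl⟩ := (hf.restrict hQN).mem_img.1 hy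
    exact ⟨⟨x, hQN hx⟩, hx, hφf _⟩

end Cfsg.Agent.S5079
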