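import Cfsg.Statements.S5084
import Cfsg.Agent.Lib.FusionNormal
-- import your own Cfsg.Agent.* helpers here

set_option autoImplicit false
open Cfsg

namespace Cfsg.Agent.S5084

/-- In a saturated fusion system over a finite p-group S, a subgroup Q is central in the system if and only if Q ≤ S and no element of Q is conjugate in the system to any element other than itself. -/
theorem result {Ω : Type*} [Group Ω] {S : Subgroup Ω} [Finite S] (p : ℕ) [Fact p.Prime] (hS : IsPGroup p S) (F : Cfsg.FusionSystem S) (hF : F.IsSaturated p) (Q : Subgroup Ω) : F.IsCentral Q ↔ (Q ≤ S ∧ ∀ x ∈ Q, ∀ y : Ω, F.IsConjElt x y → y = x) := by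
  open CfsgLib.Fusion in
  rw [isCentral_iff_conjElt hS hF]
  refine and_congr_right fun hQ => ⟨?_, ?_⟩
  · rintro h x hx y ⟨φ, hφ, rfl⟩
    rw [← ext_apply φ]
    exact h _ _ (FMap.of_mem hφ) x (Subgroup.mem_zpowers x) hx
  · intro h P f hf x hx hxQ
    have hle : Subgroup.zpowers x ≤ P := by rw [Subgroup.zpowers_le]; exact hx
    obtain ⟨φ, hφ, hφf⟩ := hf.restrict hle
    exact h x hxQ (f x) ⟨φ, hφ, hφf _⟩

end Cfsg.Agent.S5084
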