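import Cfsg.Statements.S5087
import Cfsg.Agent.Lib.FusionNormal
-- import your own Cfsg.Agent.* helpers here

set_option autoImplicit false
open Cfsg

namespace Cfsg.Agent.S5087

/-- In a saturated fusion system over a finite p-group S, a subgroup Q is normal in the system if and only if every subgroup P that equals S or is essential contains Q and every element of Aut_F(P) maps Q onto itself. -/
theorem result {Ω : Type*} [Group Ω] {S : Subgroup Ω} [Finite S] (p : ℕ) [Fact p.Prime] (hS : IsPGroup p S) (F : Cfsg.FusionSystem S) (hF : F.IsSaturated p) (Q : Subgroup Ω) : F.IsNormal Q ↔ ∀ P : Subgroup Ω, (P = S ∨ F.IsEssential p P) → (Q ≤ P ∧ ∀ α ∈ F.autGroup P, (Q.subgroupOf P).map α.toMonoidHom = Q.subgroupOf P) := by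
  open CfsgLib.Fusion in
  constructor
  · intro h P hP
    have hQP : Q ≤ P := by
      rcases hP with rfl | hP
      · exact h.1
      · exact IsNormal.le_of_centric_radical hS h hP.1 (essential_isRadical hS hP)
    have hPS : P ≤ S := by
      rcases hP with rfl | hP
      · exact le_rfl
      · exact hP.1.1
    have hsc := IsNormal.stronglyClosed h
    refine ⟨hQP, fun α hα => ?_⟩
    have : Finite P := finite_of_le hPS
    apply Subgroup.eq_of_le_of_card_ge
    · rintro _ ⟨x, hx, rfl⟩
      have h1 := StronglyClosed.map_mem hsc ((mem_autGroup_iff' hPS α).1 hα) x.2 hx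
      rw [aext_apply] at h1
      exact h1
    · rw [Subgroup.card_map_of_injective (f := α.toMonoidHom) α.injective]
  · intro h
    apply isNormal_of_essential hS hF
    intro P hP
    obtain ⟨h1, h2⟩ := h P hP
    refine ⟨h1, fun α hα x hx hxQ => ?_⟩
    have : α ⟨x, hx⟩ ∈ Q.subgroupOf P := by
      rw [← h2 α hα]
      exact ⟨⟨x, hx⟩, hxQ, rfl⟩
    exact this

end Cfsg.Agent.S5087
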