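import Cfsg.Statements.S5088
import Cfsg.Agent.Lib.FusionNormal
-- import your own Cfsg.Agent.* helpers here

set_option autoImplicit false
open Cfsg

namespace Cfsg.Agent.S5088

/-- In a saturated fusion system over a finite p-group, a subgroup Q is normal in the system if and only if there is a chain of subgroups 1 = Q₀ ≤ Q₁ ≤ ⋯ ≤ Qₙ = Q such that each Qᵢ with i ≥ 1 is strongly closed in the system and [Q, Qᵢ] ≤ Qᵢ₋₁. -/
theorem result {Ω : Type*} [Group Ω] {S : Subgroup Ω} [Finite S] (p : ℕ) [Fact p.Prime] (hS : IsPGroup p S) (F : Cfsg.FusionSystem S) (hF : F.IsSaturated p) (Q : Subgroup Ω) : F.IsNormal Q ↔ ∃ (n : ℕ) (Qs : Fin (n + 1) → Subgroup Ω), Qs 0 = ⊥ ∧ Qs (Fin.last n) = Q ∧ Monotone Qs ∧ ∀ i : Fin n, F.StronglyClosed (Qs i.succ) ∧ ⁅Q, Qs i.succ⁆ ≤ Qs (Fin.castSucc i) := by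
  open CfsgLib.Fusion in
  constructor
  · intro h
    have : Finite Q := finite_of_le h.1
    obtain ⟨n, hn⟩ := exists_ucs_eq (hS.to_le h.1).isNilpotent
    refine ⟨n, fun i => ucs Q i, ucs_zero Q, hn, fun i j hij => ucs_mono Q hij, fun i => ⟨?_, ?_⟩⟩
    · exact IsNormal.stronglyClosed (ucs_isNormal h _)
    · rw [Subgroup.commutator_le]
      intro x hx y hy
      have h1 := ucs_comm Q i hx (y := y) hy
      have h2 := IsNormal.conj_mem (ucs_isNormal h i) (h.1 (ucs_le Q _ hy)) h1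
      have e : y * (y⁻¹ * (x * y * x⁻¹)) * y⁻¹ = x * y * x⁻¹ * y⁻¹ := by group
      rw [e] at h2
      exact h2
  · rintro ⟨n, Qs, h0, hn, hmono, h⟩
    apply isNormal_of_chain hS hF n (fun i => if hi : i < n + 1 then Qs ⟨i, hi⟩ else Q)
    · simp only [Nat.zero_lt_succ, dif_pos]
      exact h0
    · simp only [Nat.lt_succ_self, dif_pos]
      exact hn
    · intro i hi
      have hi1 : i + 1 < n + 1 := by omega
      simp only [hi1, dif_pos]
      exact (h ⟨i, hi⟩).1
    · intro i hi x hx y hy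
      have hi1 : i + 1 < n + 1 := by omega
      have hi2 : i < n + 1 := by omega
      simp only [hi1, dif_pos] at hy
      simp only [hi2, dif_pos]
      have h1 := (h ⟨i, hi⟩).2
      rw [Subgroup.commutator_le] at h1
      have h2 : x * y * x⁻¹ * y⁻¹ ∈ Qs (Fin.castSucc ⟨i, hi⟩) := h1 x hx y hy
      have e : y⁻¹ * (x * y * x⁻¹) = y⁻¹ * (x * y * x⁻¹ * y⁻¹) * y⁻¹⁻¹ := by group
      rw [e]
      have hQS : Q ≤ S := by
        rcases Nat.eq_zero_or_pos n with rfl | hpos
        · omega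
        · obtain ⟨m, rfl⟩ := Nat.exists_eq_succ_of_ne_zero hpos.ne'
          have := (h (Fin.last m)).1.1
          rw [show (Fin.last m).succ = Fin.last (m + 1) from rfl, hn] at this
          exact this
      have hyS : y ∈ S := (h ⟨i, hi⟩).1.1 hy
      rcases Nat.eq_zero_or_pos i with rfl | hi0
      · have h3 : x * y * x⁻¹ * y⁻¹ ∈ Qs 0 := h2
        rw [h0, Subgroup.mem_bot] at h3
        rw [h3]
        simp
      · obtain ⟨j, rfl⟩ := Nat.exists_eq_succ_of_ne_zero hi0.ne'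
        exact StronglyClosed.conj_mem (h ⟨j, by omega⟩).1 (S.inv_mem hyS) h2

end Cfsg.Agent.S5088
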