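import Cfsg.Statements.S5089
import Cfsg.Agent.Lib.FusionNormal
-- import your own Cfsg.Agent.* helpers here

set_option autoImplicit false
open Cfsg

namespace Cfsg.Agent.S5089

/-- A saturated fusion system over a finite p-group has a nontrivial subgroup that is normal in the system (O_p(F) ≠ 1) if and only if some nontrivial abelian subgroup is strongly closed in the system. -/
theorem result {Ω : Type*} [Group Ω] {S : Subgroup Ω} [Finite S] (p : ℕ) [Fact p.Prime] (hS : IsPGroup p S) (F : Cfsg.FusionSystem S) (hF : F.IsSaturated p) : F.core ≠ ⊥ ↔ ∃ Q : Subgroup Ω, Q ≠ ⊥ ∧ IsMulCommutative Q ∧ F.StronglyClosed Q := by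
  open CfsgLib.Fusion in
  constructor
  · intro h
    obtain ⟨Q, hQ, hQne⟩ : ∃ Q, F.IsNormal Q ∧ Q ≠ ⊥ := by
      by_contra hcon
      push Not at hcon
      apply h
      unfold FusionSystem.core
      rw [sSup_eq_bot]
      exact fun Q hQ => hcon Q hQ
    have : Finite Q := finite_of_le hQ.1
    have hQp := hS.to_le hQ.1
    refine ⟨ucs Q 1, ?_, ?_, IsNormal.stronglyClosed (ucs_isNormal hQ 1)⟩
    · unfold ucs
      rw [Subgroup.upperCentralSeries_one]
      intro h0
      have : Nontrivial Q := (Subgroup.nontrivial_iff_ne_bot Q).2 hQne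
      have h1 : Nontrivial (Subgroup.center Q) := hQp.center_nontrivial
      rw [Subgroup.map_eq_bot_iff_of_injective _ Q.subtype_injective] at h0
      exact (Subgroup.nontrivial_iff_ne_bot _).1 h1 h0
    · refine ⟨⟨fun a b => Subtype.ext ?_⟩⟩
      obtain ⟨_, ⟨x, hx, rfl⟩⟩ := a
      obtain ⟨_, ⟨y, hy, rfl⟩⟩ := b
      have hx' : x ∈ Subgroup.center Q := by rw [← Subgroup.upperCentralSeries_one]; exact hx
      have := Subgroup.mem_center_iff.1 hx' y
      exact (congrArg Subtype.val this).symm
  · rintro ⟨Q, hne, hab, hsc⟩ h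
    apply hne
    have hn : F.IsNormal Q := by
      apply isNormal_of_chain hS hF 1 (fun i => if i = 0 then ⊥ else Q)
      · simp
      · simp
      · intro i hi
        simp only [Nat.add_eq_zero_iff, one_ne_zero, and_false, if_false]
        exact hsc
      · intro i hi x hx y hy
        simp only [Nat.add_eq_zero_iff, one_ne_zero, and_false, if_false] at hy
        have : i = 0 := by omega
        simp only [this, if_true]
        have hc : (⟨x, hx⟩ : Q) * ⟨y, hy⟩ = ⟨y, hy⟩ * ⟨x, hx⟩ := hab.is_comm.comm _ _
        have hc' : x * y = y * x := congrArg Subtype.val hc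
        rw [Subgroup.mem_bot, hc']
        group
    rw [eq_bot_iff, ← h]
    exact le_sSup hn

end Cfsg.Agent.S5089
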