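import Cfsg.Statements.S5094
import Cfsg.Agent.Lib.H8ZElt
import Cfsg.Agent.Lib.FusionCore
import Cfsg.Agent.Lib.FusionGroup

set_option autoImplicit false
open Cfsg

set_option linter.style.haveILetI false
namespace Cfsg.Agent.S5094

section
open CfsgLib.Fusion CfsgLib.Zstar CfsgLib.Coprime CfsgLib.H8BS
open scoped Pointwise

theorem aux {G : Type*} [Group G] [Finite G] (S : Sylow 2 G) {x : G} (hx : x ∈ S) (hc : ∀ g : G, g * x * g⁻¹ * x⁻¹ ∈ Cfsg.pPrimeCore 2 G)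
    (P : Subgroup G) (hP : P ≤ S) (g : G) (hg : ∀ y ∈ P, g * y * g⁻¹ ∈ (S : Subgroup G)) :
    ∃ h, h * x * h⁻¹ = x ∧ ∀ y ∈ P, h * y * h⁻¹ = g * y * g⁻¹ := by
  have : Fact (Nat.Prime 2) := ⟨Nat.prime_two⟩
  obtain ⟨N, hN⟩ : ∃ N, N = Cfsg.pPrimeCore 2 G := ⟨_, rfl⟩
  haveI hNn : N.Normal := by rw [hN]; exact CfsgLib.Core.pPrimeCore_normal 2 G
  have hNo : Odd (Nat.card N) := by rw [hN]; exact card_core_odd G
  rw [← hN] at hc
  have h2odd : ∀ a : G, (∃ k, orderOf a = 2 ^ k) → a ∈ N → a = 1 := by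
    intro a ⟨k, hk⟩ ha
    have h1 : Odd (orderOf a) := hNo.of_dvd_nat (Subgroup.orderOf_dvd_natCard _ ha)
    rw [hk] at h1
    rcases k with _ | k
    · exact orderOf_eq_one_iff.mp (by rw [hk, pow_zero])
    · exfalso
      rw [← Nat.not_even_iff_odd] at h1
      exact h1 (by rw [pow_succ]; exact even_iff_two_dvd.mpr (dvd_mul_left _ _))
  have hS2 : ∀ a ∈ (S : Subgroup G), ∃ k, orderOf a = 2 ^ k := by
    intro a ha
    obtain ⟨k, hk⟩ := (IsPGroup.iff_orderOf.mp S.isPGroup') ⟨a, ha⟩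
    exact ⟨k, by rw [← hk, Subgroup.orderOf_mk]⟩
  have hxS : ∀ s ∈ (S : Subgroup G), s * x = x * s := by
    intro s hs
    have h1 : s * x * s⁻¹ * x⁻¹ = 1 := h2odd _ (hS2 _ (mul_mem (mul_mem (mul_mem hs hx) (inv_mem hs)) (inv_mem hx))) (hc s)
    calc s * x = (s * x * s⁻¹ * x⁻¹) * (x * s) := by group
      _ = x * s := by rw [h1, one_mul]
  obtain ⟨C, hC⟩ : ∃ C, C = Subgroup.centralizer {r | ∃ y ∈ P, r = g * y * g⁻¹} := ⟨_, rfl⟩
  have hxC : x ∈ C := by
    rw [hC, Subgroup.mem_centralizer_iff]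
    rintro r ⟨y, hy, rfl⟩
    exact hxS _ (hg y hy)
  have hyC : g * x * g⁻¹ ∈ C := by
    rw [hC, Subgroup.mem_centralizer_iff]
    rintro r ⟨y, hy, rfl⟩
    calc g * y * g⁻¹ * (g * x * g⁻¹) = g * (y * x) * g⁻¹ := by group
      _ = g * (x * y) * g⁻¹ := by rw [hxS y (hP hy)]
      _ = _ := by group
  have hx2 := hS2 x hx
  have hy2 : ∃ k, orderOf (g * x * g⁻¹) = 2 ^ k := by
    rw [CfsgLib.H7Invol.orderOf_conj' g x]; exact hx2
  have hcop : CopAct (Subgroup.zpowers x) (N ⊓ C) := by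
    refine ⟨Subgroup.zpowers_le.mpr ?_, ?_, Or.inl inferInstance⟩
    · rw [Subgroup.mem_normalizer_iff]
      intro n
      constructor
      · rintro ⟨h1, h2⟩
        exact ⟨hNn.conj_mem n h1 x, C.mul_mem (C.mul_mem hxC h2) (C.inv_mem hxC)⟩
      · rintro ⟨h1, h2⟩
        have e : n = x⁻¹ * (x * n * x⁻¹) * x⁻¹⁻¹ := by group
        rw [e]
        exact ⟨hNn.conj_mem _ h1 x⁻¹, C.mul_mem (C.mul_mem (C.inv_mem hxC) h2) (C.inv_mem (C.inv_mem hxC))⟩
    · obtain ⟨k, hk⟩ := hx2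
      rw [Nat.card_zpowers, hk]
      apply Nat.Coprime.pow_left
      have h3 : Odd (Nat.card (N ⊓ C : Subgroup G)) := hNo.of_dvd_nat (Subgroup.card_dvd_of_le inf_le_left)
      exact (odd_iff_coprime.mp h3).symm
  have hyK : g * x * g⁻¹ ∈ (N ⊓ C) ⊔ Subgroup.zpowers x := by
    have e : g * x * g⁻¹ = (g * x * g⁻¹ * x⁻¹) * x := by group
    rw [e]
    exact Subgroup.mul_mem_sup ⟨hc g, C.mul_mem hyC (C.inv_mem hxC)⟩ (Subgroup.mem_zpowers x)
  obtain ⟨n, hn, hnA⟩ := hcop.conj (B := Subgroup.zpowers (g * x * g⁻¹)) (Subgroup.zpowers_le.mpr hyK) (by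
    rw [Nat.card_zpowers, Nat.card_zpowers, CfsgLib.H7Invol.orderOf_conj' g x])
  have h1 : n * x * n⁻¹ ∈ Subgroup.zpowers (g * x * g⁻¹) := by
    rw [← hnA]
    exact Subgroup.smul_mem_pointwise_smul x (MulAut.conj n) _ (Subgroup.mem_zpowers x)
  have h2 : n * x * n⁻¹ * (g * x * g⁻¹)⁻¹ = 1 := by
    apply h2odd
    · have h3 : n * x * n⁻¹ * (g * x * g⁻¹)⁻¹ ∈ Subgroup.zpowers (g * x * g⁻¹) := mul_mem h1 (inv_mem (Subgroup.mem_zpowers _))
      have h4 := orderOf_dvd_of_mem_zpowers h3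
      obtain ⟨k, hk⟩ := hy2
      rw [hk] at h4
      obtain ⟨j, -, hj⟩ := (Nat.dvd_prime_pow Nat.prime_two).mp h4
      exact ⟨j, hj⟩
    · have e : n * x * n⁻¹ * (g * x * g⁻¹)⁻¹ = (n * x * n⁻¹ * x⁻¹) * (g * x * g⁻¹ * x⁻¹)⁻¹ := by group
      rw [e]
      exact mul_mem (hc n) (inv_mem (hc g))
  have h3 : n * x * n⁻¹ = g * x * g⁻¹ := mul_inv_eq_one.mp h2
  refine ⟨n⁻¹ * g, ?_, ?_⟩
  · have e : n⁻¹ * g * x * (n⁻¹ * g)⁻¹ = n⁻¹ * (g * x * g⁻¹) * n := by group
    rw [e, ← h3]; group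
  · intro y hy
    have h4 := hn.2
    rw [hC] at h4
    have h5 := (Subgroup.mem_centralizer_iff.mp h4) (g * y * g⁻¹) ⟨y, hy, rfl⟩
    have e : n⁻¹ * g * y * (n⁻¹ * g)⁻¹ = n⁻¹ * ((g * y * g⁻¹) * n) := by group
    rw [e, h5]; group

theorem main {G : Type*} [Group G] [Finite G] (S : Sylow 2 G) (x : G) : x ∈ (Cfsg.groupFusionSystem (S : Subgroup G)).center ↔
    x ∈ S ∧ ∀ g : G, g * x * g⁻¹ * x⁻¹ ∈ Cfsg.pPrimeCore 2 G := by
  constructor
  · intro hx
    have hxS : x ∈ (S : Subgroup G) := center_le _ hx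
    refine ⟨hxS, ?_⟩
    apply zstar_elt (Nat.card G) G le_rfl S x
    refine ⟨hxS, fun g hg => ?_⟩
    have hcen : (Cfsg.groupFusionSystem (S : Subgroup G)).IsCentral (Subgroup.zpowers x) := isCentral_iff_le.mpr (Subgroup.zpowers_le.mpr hx)
    have hF : FMap (Cfsg.groupFusionSystem (S : Subgroup G)) (Subgroup.zpowers x) (fun y => g * y * g⁻¹) := by
      rw [FMap_group_iff]
      refine ⟨Subgroup.zpowers_le.mpr hxS, ?_, g, fun _ _ => rfl⟩
      intro y hy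
      obtain ⟨i, rfl⟩ := Subgroup.mem_zpowers_iff.mp hy
      rw [← MulAut.conj_apply, map_zpow, MulAut.conj_apply]
      exact zpow_mem hg i
    exact IsCentral.fix hcen hF (Subgroup.mem_zpowers x) (Subgroup.mem_zpowers x)
  · rintro ⟨hx, hc⟩
    suffices h : (Cfsg.groupFusionSystem (S : Subgroup G)).IsCentral (Subgroup.zpowers x) from
      (isCentral_iff_le.mp h) (Subgroup.mem_zpowers x)
    rw [isCentral_iff]
    refine ⟨Subgroup.zpowers_le.mpr hx, ?_⟩
    intro P f hf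
    rw [FMap_group_iff] at hf
    obtain ⟨hP, hfS, g, hg⟩ := hf
    obtain ⟨h, hhx, hhP⟩ := aux S hx hc P hP g (fun y hy => by rw [← hg y hy]; exact hfS y hy)
    refine ⟨fun y => h * y * h⁻¹, ?_, ?_, ?_⟩
    · rw [FMap_group_iff]
      refine ⟨sup_le hP (Subgroup.zpowers_le.mpr hx), ?_, h, fun _ _ => rfl⟩
      have h1 : P ⊔ Subgroup.zpowers x ≤ (S : Subgroup G).comap (MulAut.conj h).toMonoidHom := by
        refine sup_le ?_ (Subgroup.zpowers_le.mpr ?_)
        · intro y hy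
          show h * y * h⁻¹ ∈ (S : Subgroup G)
          rw [hhP y hy, ← hg y hy]; exact hfS y hy
        · show h * x * h⁻¹ ∈ (S : Subgroup G)
          rw [hhx]; exact hx
      intro y hy
      exact h1 hy
    · intro y hy
      show h * y * h⁻¹ = _
      rw [hhP y hy, ← hg y hy]
    · intro y hy
      obtain ⟨i, rfl⟩ := Subgroup.mem_zpowers_iff.mp hy
      show h * x ^ i * h⁻¹ = x ^ i
      rw [← MulAut.conj_apply, map_zpow, MulAut.conj_apply, hhx]

end


/-- Glauberman's Z*-Theorem in fusion language: for a finite group G with Sylow 2-subgroup S, the centre of the fusion system of G on S is the set of elements of S whose image in G/O(G) is central, O(G) being the largest normal subgroup of odd order. -/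
theorem result {G : Type*} [Group G] [Finite G] (S : Sylow 2 G) : (Cfsg.groupFusionSystem (S : Subgroup G)).center = (S : Subgroup G) ⊓ (Subgroup.center (G ⧸ Cfsg.oddCore G)).comap (QuotientGroup.mk' (Cfsg.oddCore G)) := by
  ext x
  rw [main S x, Subgroup.mem_inf, Subgroup.mem_comap, Subgroup.mem_center_iff]
  refine and_congr Iff.rfl ?_
  haveI hNn : (Cfsg.pPrimeCore 2 G).Normal := CfsgLib.Core.pPrimeCore_normal 2 G
  have key : ∀ g : G, g * x * g⁻¹ * x⁻¹ ∈ Cfsg.pPrimeCore 2 G ↔ QuotientGroup.mk' (Cfsg.oddCore G) g * QuotientGroup.mk' (Cfsg.oddCore G) x = QuotientGroup.mk' (Cfsg.oddCore G) x * QuotientGroup.mk' (Cfsg.oddCore G) g := by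
    intro g
    rw [← QuotientGroup.eq_one_iff, ← QuotientGroup.mk'_apply, map_mul, map_mul, map_mul, map_inv, map_inv]
    constructor
    · intro h
      rw [mul_inv_eq_one, mul_inv_eq_iff_eq_mul] at h
      exact h
    · intro h
      rw [mul_inv_eq_one, mul_inv_eq_iff_eq_mul]
      exact h
  constructor
  · intro h gb
    obtain ⟨g, rfl⟩ := QuotientGroup.mk'_surjective (Cfsg.oddCore G) gb
    exact (key g).mp (h g)
  · intro h g
    exact (key g).mpr (h _)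

end Cfsg.Agent.S5094
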