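import Cfsg.Statements.S5102
import Cfsg.Agent.Lib.FusionGroup
-- import your own Cfsg.Agent.* helpers here

set_option autoImplicit false
open Cfsg

namespace Cfsg.Agent.S5102

/-- A normal p-subgroup of a finite group G is normal in the fusion system of G on a Sylow p-subgroup. -/
theorem result {G : Type*} [Group G] [Finite G] (p : ℕ) [Fact p.Prime] (S : Sylow p G) (R : Subgroup G) [R.Normal] (hR : IsPGroup p R) : (Cfsg.groupFusionSystem (S : Subgroup G)).IsNormal R := by
  open CfsgLib.Fusion CfsgLib.SylowIn in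
  have hRS : R ≤ (S : Subgroup G) := by
    obtain ⟨g, -, hg⟩ := S.isSylowIn_top.exists_conj le_top hR
    intro x hx
    have := hg (g⁻¹ * x * g) (by
      have := (inferInstance : R.Normal).conj_mem x hx g⁻¹
      rwa [inv_inv] at this)
    have e : g * (g⁻¹ * x * g) * g⁻¹ = x := by group
    rwa [e] at this
  refine ⟨hRS, ?_⟩
  rintro P φ ⟨hP, hφ, g, hg⟩
  have hx1 : ∀ x ∈ P, g * x * g⁻¹ ∈ (S : Subgroup G) := fun x hx => by
    rw [← hg ⟨x, hx⟩]; exact hφ _
  have hx2 : ∀ x ∈ R, g * x * g⁻¹ ∈ R := fun x hx => (inferInstance : R.Normal).conj_mem x hx g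
  refine ⟨conjHom (P ⊔ R) g, ⟨sup_le hP hRS, ?_, g, fun x => rfl⟩, fun x => (hg x).symm, ?_⟩
  · rintro ⟨x, hx⟩
    have : P ⊔ R ≤ cj g⁻¹ (S : Subgroup G) := by
      apply sup_le
      · intro x hx; rw [mem_cj, inv_inv]; exact hx1 x hx
      · intro x hx; rw [mem_cj, inv_inv]; exact hRS (hx2 x hx)
    have := this hx
    rw [mem_cj, inv_inv] at this
    exact this
  · ext x
    constructor
    · rintro ⟨y, hy, rfl⟩
      exact hx2 y hy
    · intro hx
      have h3 := (inferInstance : R.Normal).conj_mem x hx g⁻¹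
      refine ⟨⟨_, (le_sup_right : R ≤ P ⊔ R) h3⟩, h3, ?_⟩
      show g * (g⁻¹ * x * g⁻¹⁻¹) * g⁻¹ = x
      group

end Cfsg.Agent.S5102
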