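import Cfsg.Statements.S5106
import Cfsg.Agent.Lib.FusionNormal
-- import your own Cfsg.Agent.* helpers here

set_option autoImplicit false
open Cfsg

namespace Cfsg.Agent.S5106

/-- In a saturated fusion system over a finite p-group S, a subgroup R ≤ S is normal in the system if and only if every map of the system whose source is a subgroup of R is the restriction of an element of Aut_F(R). -/
theorem result {Ω : Type*} [Group Ω] {S : Subgroup Ω} [Finite S] (p : ℕ) [Fact p.Prime] (hS : IsPGroup p S) (F : Cfsg.FusionSystem S) (hF : F.IsSaturated p) (R : Subgroup Ω) (hRS : R ≤ S) : F.IsNormal R ↔ ∀ (P : Subgroup Ω) (hPR : P ≤ R) (φ : P →* Ω), φ ∈ F.Hom P → ∃ α ∈ F.autGroup R, ∀ x : P, ((α (Subgroup.inclusion hPR x) : R) : Ω) = φ x := by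
  open CfsgLib.Fusion in
  constructor
  · intro h P hPR φ hφ
    obtain ⟨g, hg, h1, h2⟩ := (isNormal_iff.1 h).2 P _ (FMap.of_mem hφ)
    obtain ⟨α, hα, hαg⟩ := (hg.restrict le_sup_right).exists_aut h2
    refine ⟨α, hα, fun x => ?_⟩
    rw [hαg]
    show g x = φ x
    rw [h1 x x.2, ext_apply]
  · intro h
    have : Finite R := finite_of_le hRS
    obtain ⟨n, hn⟩ := exists_ucs_eq (hS.to_le hRS).isNilpotent
    apply isNormal_of_chain hS hF n (ucs R) (ucs_zero R) hn
    · intro i _
      rw [stronglyClosed_iff]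
      refine ⟨(ucs_le R _).trans hRS, ?_⟩
      intro P f hP hf x hx
      obtain ⟨φ, hφ, hφf⟩ := hf
      obtain ⟨α, hα, hαx⟩ := h P (hP.trans (ucs_le R _)) φ hφ
      have h1 := hαx ⟨x, hx⟩
      rw [hφf] at h1
      obtain ⟨y, hy, hyx⟩ := hP hx
      have h2 : Subgroup.inclusion (hP.trans (ucs_le R _)) ⟨x, hx⟩ = y := Subtype.ext hyx.symm
      rw [h2] at h1
      show f x ∈ _
      simp only at h1
      rw [← h1]
      refine ⟨α y, ?_, rfl⟩
      have h3 := Subgroup.characteristic_iff_map_eq.1
        (inferInstance : (Subgroup.upperCentralSeries R (i + 1)).Characteristic) α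
      rw [← h3]
      exact ⟨y, hy, rfl⟩
    · intro i _ x hx y hy
      exact ucs_comm R i hx hy

end Cfsg.Agent.S5106
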