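import Cfsg.Statements.S5107
import Cfsg.Agent.Lib.FusionNormal
import Cfsg.Agent.Lib.FusionGroup
-- import your own Cfsg.Agent.* helpers here

set_option autoImplicit false
open Cfsg

namespace Cfsg.Agent.S5107

/-- If a Sylow p-subgroup S of a finite group G has nilpotency class at most two and its centre is strongly closed in S with respect to G, then every map of the fusion system of G on S is conjugation by an element of N_G(S), and S is the largest subgroup normal in that fusion system. -/
theorem result {G : Type*} [Group G] [Finite G] (p : ℕ) [Fact p.Prime] (S : Sylow p G) (hcl : ⁅(S : Subgroup G), (S : Subgroup G)⁆ ≤ (S : Subgroup G) ⊓ Subgroup.centralizer ((S : Subgroup G) : Set G)) (hZ : Cfsg.IsStronglyClosed ((S : Subgroup G) ⊓ Subgroup.centralizer ((S : Subgroup G) : Set G)) (S : Subgroup G)) : (∀ (P : Subgroup G) (φ : P →* G), φ ∈ (Cfsg.groupFusionSystem (S : Subgroup G)).Hom P → ∃ g ∈ Subgroup.normalizer ((S : Subgroup G) : Set G), ∀ x : P, φ x = g * (x : G) * g⁻¹) ∧ (Cfsg.groupFusionSystem (S : Subgroup G)).core = S :=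 by
  open CfsgLib.Fusion in
  have hsat := groupFusionSystem_saturated p S
  set C := (S : Subgroup G) ⊓ Subgroup.centralizer ((S : Subgroup G) : Set G) with hC
  have hn : (groupFusionSystem (S : Subgroup G)).IsNormal S := by
    apply isNormal_of_chain S.2 hsat 2 (fun i => if i = 0 then ⊥ else if i = 1 then C else S)
    · simp
    · simp
    · intro i hi
      have : i = 0 ∨ i = 1 := by omega
      rcases this with rfl | rfl
      · simp only [Nat.zero_add, one_ne_zero, if_false, if_true]
        rw [stronglyClosed_iff]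
        refine ⟨hZ.1, ?_⟩
        intro R f hR hf x hx
        obtain ⟨h1, h2, g, h3⟩ := FMap_group_iff.1 hf
        have h4 := hZ.2 x (hR hx) g (by rw [← h3 x hx]; exact h2 x hx)
        rw [h3 x hx]; exact h4
      · simp only [Nat.reduceAdd, OfNat.ofNat_ne_zero, if_false, OfNat.ofNat_ne_one]
        rw [stronglyClosed_iff]
        exact ⟨le_rfl, fun R f hR hf x hx => hf.mapsTo hx⟩
    · intro i hi x hx y hy
      have : i = 0 ∨ i = 1 := by omega
      rcases this with rfl | rfl
      · simp only [Nat.zero_add, one_ne_zero, if_false, if_true] at hy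
        simp only [if_true]
        have := Subgroup.mem_centralizer_iff.1 hy.2 x hx
        rw [Subgroup.mem_bot, this]
        group
      · simp only [one_ne_zero, if_false, if_true]
        simp only [Nat.reduceAdd, OfNat.ofNat_ne_zero, if_false, OfNat.ofNat_ne_one] at hy
        have h1 : y⁻¹ * x * y⁻¹⁻¹ * x⁻¹ ∈ C := (Subgroup.commutator_le.1 hcl) y⁻¹ ((S : Subgroup G).inv_mem hy) x hx
        have e : y⁻¹ * (x * y * x⁻¹) = y⁻¹ * x * y⁻¹⁻¹ * x⁻¹ := by group
        rw [e]; exact h1
  constructor
  · intro P φ hφ
    obtain ⟨g, hg, h1, h2⟩ := (isNormal_iff.1 hn).2 P _ (FMap.of_mem hφ)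
    have hPS := (FMap.of_mem hφ).le
    rw [sup_eq_right.2 hPS] at hg
    obtain ⟨_, h4, t, ht⟩ := FMap_group_iff.1 hg
    refine ⟨t, ?_, fun x => ?_⟩
    · apply mem_normalizer_of_conj_mem
      intro x hx
      rw [← ht x hx]; exact h4 x hx
    · rw [← ht x (hPS x.2), h1 x x.2, ext_apply]
  · apply le_antisymm
    · unfold FusionSystem.core
      exact sSup_le fun Q hQ => hQ.1
    · exact le_sSup hn

end Cfsg.Agent.S5107
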