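import Cfsg.Statements.S5112
import Cfsg.Agent.Lib.FusionAutS
-- import your own Cfsg.Agent.* helpers here

set_option autoImplicit false
open Cfsg

namespace Cfsg.Agent.S5112

/-- If S is a dihedral or generalized quaternion 2-group of order at least 16, then in every saturated fusion system over S (at the prime 2) the automorphism group Aut_F(S) consists of the inner automorphisms of S. -/
theorem result {Ω : Type*} [Group Ω] {S : Subgroup Ω} [Finite S] (n : ℕ) (hn : 4 ≤ n) (hshape : Nonempty (S ≃* DihedralGroup (2 ^ (n - 1))) ∨ Nonempty (S ≃* QuaternionGroup (2 ^ (n - 2)))) (F : Cfsg.FusionSystem S) (hF : F.IsSaturated 2) : F.autGroup S = Cfsg.Inn S := by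
  open Cfsg.FusionSystem CfsgLib.Fusion CfsgLib.SylowIn in
  have hp2 : Fact (Nat.Prime 2) := ⟨Nat.prime_two⟩
  have h : IsPGroup 2 S ∧ ∀ α : MulAut S, (orderOf α).Coprime 2 → α = 1 := by
    rcases hshape with ⟨⟨e⟩⟩ | ⟨⟨e⟩⟩
    · exact aut_dihedral (by omega) e
    · exact aut_quaternion (by omega) e
  exact autGroup_top_eq_inn h.1 hF fun α _ => h.2 α

end Cfsg.Agent.S5112
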