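import Cfsg.Statements.S5159
import Cfsg.Agent.Lib.FusionSolv3
-- import your own Cfsg.Agent.* helpers here

set_option autoImplicit false
open Cfsg

namespace Cfsg.Agent.S5159

/-- Let F be a saturated fusion system over a finite p-group S, E a normal subsystem over T, and D the factor system of F modulo T (read through any homomorphism on S with kernel T). Then F is solvable if and only if E and D are solvable (solvable, for a system over a subgroup S: for every subgroup R other than S that is strongly closed in F, the factor system of F modulo R has a nontrivial subgroup normal in it). -/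
theorem result {Ω : Type*} [Group Ω] {S : Subgroup Ω} [Finite S] (p : ℕ) [Fact p.Prime] (hS : IsPGroup p S) (F : Cfsg.FusionSystem S) (hF : F.IsSaturated p) {T : Subgroup Ω} (E : Cfsg.FusionSystem T) (hE : E.IsNormalIn F p) {Ω' : Type*} [Group Ω'] {S' : Subgroup Ω'} (θ : S →* Ω') (D : Cfsg.FusionSystem S') (hD : F.IsFactorSystem T θ D) : F.IsSolvableSystem ↔ (E.IsSolvableSystem ∧ D.IsSolvableSystem) := by
  open Cfsg.FusionSystem CfsgLib.Fusion CfsgLib.SylowIn in
  obtain ⟨⟨hEs, -, hinv⟩, -⟩ := hE
  have hT := hinv.2.1
  have hTf : Finite T := finite_of_le hT.1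
  have hTp : IsPGroup p T := hS.to_le hT.1
  have hfac := Fac.of hS hF hT hD
  have hfin := hfac.finite
  have hD' := hfac.isPGroup hS
  have hDs := surjectiveMorphism_saturated hS hF (factorSystem_surjective hS hF hT hD)
  rw [solvable_iff hS hF, solvable_iff hTp hEs, solvable_iff hD' hDs]
  constructor
  · intro h
    constructor
    · have h1 := SolvTo.inf_sub hT hinv.1 h
      have e : S ⊓ T = T := inf_eq_right.2 hT.1
      rwa [e] at h1
    · have h1 := SolvTo.image hS hF hfac h
      have e : imageAlong θ S = S' := by
        have e1 := hfac.image_pre (P' := S') le_rfl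
        rwa [hfac.pre_top] at e1
      rwa [e] at h1
  · rintro ⟨h1, h2⟩
    have h3 := SolvTo.pre hfac (solvTo_of_invariant hS hEs hinv h1) h2
    rwa [hfac.pre_top] at h3

end Cfsg.Agent.S5159
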