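import Cfsg.Statements.S5160
import Cfsg.Agent.Lib.FusionNS6
-- import your own Cfsg.Agent.* helpers here

set_option autoImplicit false
open Cfsg

namespace Cfsg.Agent.S5160

/-- Let G be a finite group with nontrivial Sylow p-subgroup S and F its fusion system on S. Suppose (a) no nontrivial proper subgroup of S is strongly closed in F, and (b) the automorphisms of S induced by G are generated by those induced, for R running over the fully normalized radical centric subgroups of F, by the subgroup of N_G(R) generated by its elements of p-power order. Then F is simple. -/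
theorem result {G : Type*} [Group G] [Finite G] (p : ℕ) [Fact p.Prime] (S : Sylow p G) (hS1 : (S : Subgroup G) ≠ ⊥) (ha : ∀ T : Subgroup G, (Cfsg.groupFusionSystem (S : Subgroup G)).StronglyClosed T → T = ⊥ ∨ T = (S : Subgroup G)) (hb : Cfsg.autInducedBy ⊤ (S : Subgroup G) = ⨆ (R : Subgroup G) (_ : (Cfsg.groupFusionSystem (S : Subgroup G)).IsFullyNormalized R ∧ (Cfsg.groupFusionSystem (S : Subgroup G)).IsRadical p R ∧ (Cfsg.groupFusionSystem (S : Subgroup G)).IsCentric R), Cfsg.autInducedBy (Subgroup.closure {g : G | g ∈ Subgroup.normalizer (R : Set G) ∧ ∃ k : ℕ, orderOf g = p ^ k}) (S : Subgroup G)) : (Cfsg.groupFusionSystem (S : Subgroup G)).IsSimple p := by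
  open Cfsg.FusionSystem CfsgLib.Fusion in
  set F := Cfsg.groupFusionSystem (S : Subgroup G) with hFdef
  have hF : F.IsSaturated p := groupFusionSystem_saturated p S
  have hSp : IsPGroup p (S : Subgroup G) := S.isPGroup'
  refine ⟨hF, hS1, fun T E hE => ?_⟩
  obtain ⟨⟨hEs, -, hEi⟩, -⟩ := hE
  rcases ha T hEi.2.1 with h | h
  · exact Or.inl h
  right
  subst h
  refine ⟨rfl, eq_of_invariant hEi ?_⟩
  have hEF : E ≤ F := le_iff_FMap.2 fun P f hf => subsystem_iff.1 hEi.1 P f hf
  have hle : Cfsg.autInducedBy ⊤ (S : Subgroup G) ≤ E.autGroup S := by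
    rw [hb]
    refine iSup_le fun R => iSup_le fun hR => ?_
    obtain ⟨hRn, -, hRc⟩ := hR
    have hRS := hRc.1
    intro α hα
    obtain ⟨g, hg, hgα⟩ := mem_autInducedBy_iff.1 hα
    -- `g` normalizes `R` and induces an element of `Aut_E(R)`
    have hgR : ∃ hn : g ∈ Subgroup.normalizer (R : Set G), conjAut R g hn ∈ E.autGroup R := by
      refine Subgroup.closure_induction (p := fun g _ => ∃ hn : g ∈ Subgroup.normalizer (R : Set G),
        conjAut R g hn ∈ E.autGroup R) ?_ ?_ ?_ ?_ hg
      · rintro x ⟨hx, k, hk⟩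
        refine ⟨hx, mem_of_pow_aut hSp hF hEi hRn (k := k) ?_ ?_⟩
        · apply mem_autGroup_of_FMap (f := fun y => x * y * x⁻¹) _ _ fun y => rfl
          rw [hFdef, FMap_group_iff]
          exact ⟨hRS, fun y hy => hRS (conj_mem_of_mem_normalizer hx hy), x, fun _ _ => rfl⟩
        · have hpow : ∀ n : ℕ, ∀ y : R, (((conjAut R x hx) ^ n) y : G) = x ^ n * y * (x ^ n)⁻¹ := by
            intro n
            induction n with
            | zero => intro y; simp
            | succ n ih =>
              intro y
              rw [pow_succ', MulAut.mul_apply, conjAut_apply, ih]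
              rw [pow_succ']; group
          ext y
          rw [hpow]
          have : x ^ p ^ k = 1 := by rw [← hk]; exact pow_orderOf_eq_one x
          rw [this]; simp
      · refine ⟨Subgroup.one_mem _, ?_⟩
        have : conjAut R 1 (Subgroup.one_mem _) = 1 := by
          ext y; rw [conjAut_apply]; simp
        rw [this]; exact Subgroup.one_mem _
      · rintro x y - - ⟨hx, hx'⟩ ⟨hy, hy'⟩
        refine ⟨Subgroup.mul_mem _ hx hy, ?_⟩
        have : conjAut R (x * y) (Subgroup.mul_mem _ hx hy) = conjAut R x hx * conjAut R y hy := by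
          ext z
          rw [MulAut.mul_apply, conjAut_apply, conjAut_apply, conjAut_apply]; group
        rw [this]; exact Subgroup.mul_mem _ hx' hy'
      · rintro x - ⟨hx, hx'⟩
        refine ⟨Subgroup.inv_mem _ hx, ?_⟩
        have : conjAut R x⁻¹ (Subgroup.inv_mem _ hx) = (conjAut R x hx)⁻¹ := by
          rw [eq_inv_iff_mul_eq_one]
          ext z
          rw [MulAut.mul_apply, conjAut_apply, conjAut_apply]; simp; group
        rw [this]; exact Subgroup.inv_mem _ hx'
    obtain ⟨hn, hgE⟩ := hgR
    have hER : FMap E R (fun y => g * y * g⁻¹) := by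
      rw [mem_autGroup_iff' hRS] at hgE
      refine hgE.congr fun y hy => ?_
      rw [aext_of_mem _ hy, conjAut_apply]
    have hFS : FMap F S (fun y => g * y * g⁻¹) := by
      rw [hFdef, FMap_group_iff]
      refine ⟨le_rfl, fun y hy => ?_, g, fun _ _ => rfl⟩
      have := hgα ⟨y, hy⟩
      rw [← this]; exact (α ⟨y, hy⟩).2
    have hES := mem_of_centric hSp hF hEs hEF hFS hRS hRc hER
    exact mem_autGroup_of_FMap α hES hgα
  intro f hf
  obtain ⟨α, hα, hαf⟩ := hf.exists_aut_of_mapsTo fun x hx => hf.mapsTo hx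
  have h1 : α ∈ Cfsg.autInducedBy ⊤ (S : Subgroup G) := by
    rw [mem_autInducedBy_iff]
    obtain ⟨-, -, g, hg⟩ := FMap_group_iff.1 hf
    exact ⟨g, Subgroup.mem_top _, fun x => by rw [hαf, hg x x.2]⟩
  have h2 := hle h1
  rw [mem_autGroup_iff' le_rfl] at h2
  refine h2.congr fun x hx => ?_
  rw [aext_of_mem α hx, hαf]

end Cfsg.Agent.S5160
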