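import Cfsg.Statements.S5344
import Cfsg.Agent.Lib.TTS4

set_option autoImplicit false
open Cfsg

namespace Cfsg.Agent.S5344

/-- In a set of 3-transpositions, let a, b, c be members with a and c different and commuting, while neither a nor c commutes with b (a 3-string). Then there is an injective homomorphism from the symmetric group of degree 4 into the ambient group sending the transpositions (0 1), (1 2), (2 3) to a, b, c; so a, b, c generate a copy of the symmetric group of degree 4 in which they are transpositions. -/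
theorem result {G : Type*} [Group G] {D : Set G} (hD : Cfsg.IsThreeTranspositionSet D) {a b c : G} (ha : a ∈ D) (hb : b ∈ D) (hc : c ∈ D) (hac : a ≠ c) (hac' : Commute a c) (hab : ¬ Commute a b) (hbc : ¬ Commute b c) : ∃ φ : Equiv.Perm (Fin 4) →* G, Function.Injective φ ∧ φ (Equiv.swap 0 1) = a ∧ φ (Equiv.swap 1 2) = b ∧ φ (Equiv.swap 2 3) = c := by
  have hsq : ∀ d ∈ D, d * d = 1 := by
    intro d hd
    have := pow_orderOf_eq_one d
    rwa [hD.1 d hd, pow_two] at this
  have hbr : ∀ d ∈ D, ∀ e ∈ D, ¬ Commute d e → d * e * d = e * d * e := by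
    intro d hd e he hn
    have id' : d⁻¹ = d := inv_eq_of_mul_eq_one_left (hsq d hd)
    have ie : e⁻¹ = e := inv_eq_of_mul_eq_one_left (hsq e he)
    rcases hD.2 d hd e he with h | h
    · exfalso
      apply hn
      show d * e = e * d
      rw [pow_two] at h
      have h3 : d * e = (d * e)⁻¹ := eq_inv_of_mul_eq_one_left h
      rw [h3, mul_inv_rev, id', ie]
    · have h3 : (d * e * d) * (e * d * e) = 1 := by rw [← h]; simp only [pow_succ, pow_zero, one_mul, mul_assoc]
      have h4 : d * e * d = (e * d * e)⁻¹ := eq_inv_of_mul_eq_one_left h3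
      rw [h4]
      simp only [mul_inv_rev, id', ie]
      group
  have hr : CfsgLib.TT.S4.Rel a b c := by
    have e1 := hbr a ha b hb hab
    have e2 := hbr b hb c hc hbc
    refine ⟨hsq a ha, hsq b hb, hsq c hc, hac'.symm.eq, ?_, ?_⟩
    · rw [← mul_assoc, ← mul_assoc]; exact e1.symm
    · rw [← mul_assoc, ← mul_assoc]; exact e2.symm
  exact ⟨CfsgLib.TT.S4.hom hr, CfsgLib.TT.S4.hom_inj hr hac, CfsgLib.TT.S4.hom_s0 hr, CfsgLib.TT.S4.hom_s1 hr, CfsgLib.TT.S4.hom_s2 hr⟩

end Cfsg.Agent.S5344
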