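import Cfsg.Statements.S5349
import Cfsg.Agent.Lib.TT7

set_option autoImplicit false
open Cfsg

namespace Cfsg.Agent.S5349

/-- Let D be a conjugacy class of 3-transpositions generating the finite group G, with at least two members, and d a member of D. Then the set of members of D commuting with exactly the same members of D as d coincides with the set of members of D lying in the coset of d modulo the largest normal 2-subgroup of G, and also with the orbit of d under conjugation by that normal 2-subgroup. -/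
theorem result {G : Type*} [Group G] [Finite G] {D : Set G} (hD : Cfsg.IsThreeTranspositionClass D) (hD2 : ∃ a ∈ D, ∃ b ∈ D, a ≠ b) {d : G} (hd : d ∈ D) : {v : G | v ∈ D ∧ ∀ e ∈ D, Commute v e ↔ Commute d e} = {v : G | v ∈ D ∧ d⁻¹ * v ∈ Cfsg.pCore 2 G} ∧ {v : G | v ∈ D ∧ ∀ e ∈ D, Commute v e ↔ Commute d e} = {v : G | ∃ g ∈ Cfsg.pCore 2 G, v = g * d * g⁻¹} := by
  have r := CfsgLib.TT.r1_of hD hD2
  have h := r.tt
  have id' := h.inv hd
  have e1 : ∀ v : G, v ∈ D → ((∀ e ∈ D, Commute v e ↔ Commute d e) ↔ d⁻¹ * v ∈ Cfsg.pCore 2 G) := by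
    intro v hv
    rw [id', ← CfsgLib.TT.VF_eq]
    exact ⟨fun hh => CfsgLib.TT.V_core h hd hv hh.symm, fun hh => (CfsgLib.TT.V_of_core h hd hv hh).symm⟩
  have hset : {v : G | v ∈ D ∧ ∀ e ∈ D, Commute v e ↔ Commute d e} = {v : G | v ∈ D ∧ d⁻¹ * v ∈ Cfsg.pCore 2 G} := by
    ext v
    exact ⟨fun hh => ⟨hh.1, (e1 v hh.1).1 hh.2⟩, fun hh => ⟨hh.1, (e1 v hh.1).2 hh.2⟩⟩
  refine ⟨hset, ?_⟩
  rw [hset]
  ext v
  constructor
  · rintro ⟨hv, hq⟩
    rw [id'] at hq
    exact r.V_orbit hd hv hq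
  · rintro ⟨g, hg, rfl⟩
    refine ⟨h.cj g d hd, ?_⟩
    have := mul_mem ((CfsgLib.Core.pCore_normal 2 G).conj_mem g hg d⁻¹) (inv_mem hg)
    have e2 : d⁻¹ * g * d⁻¹⁻¹ * g⁻¹ = d⁻¹ * (g * d * g⁻¹) := by group
    rwa [e2] at this

end Cfsg.Agent.S5349
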