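import Cfsg.Statements.S5350
import Cfsg.Agent.Lib.TT7

set_option autoImplicit false
open Cfsg

namespace Cfsg.Agent.S5350

/-- Let D be a conjugacy class of 3-transpositions generating the finite group G, with at least two members, and d a member of D. Then the set of members w of D whose commuting partners in D (other than w) are exactly those of d (other than d) coincides with the set of members of D lying in the coset of d modulo the largest normal 3-subgroup of G, and also with the orbit of d under conjugation by that normal 3-subgroup. -/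
theorem result {G : Type*} [Group G] [Finite G] {D : Set G} (hD : Cfsg.IsThreeTranspositionClass D) (hD2 : ∃ a ∈ D, ∃ b ∈ D, a ≠ b) {d : G} (hd : d ∈ D) : {w : G | w ∈ D ∧ {y : G | y ∈ D ∧ y ≠ d ∧ Commute d y} = {y : G | y ∈ D ∧ y ≠ w ∧ Commute w y}} = {w : G | w ∈ D ∧ d⁻¹ * w ∈ Cfsg.pCore 3 G} ∧ {w : G | w ∈ D ∧ {y : G | y ∈ D ∧ y ≠ d ∧ Commute d y} = {y : G | y ∈ D ∧ y ≠ w ∧ Commute w y}} = {w : G | ∃ g ∈ Cfsg.pCore 3 G, w = g * d * g⁻¹} := by
  have r := CfsgLib.TT.r1_of hD hD2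
  have h := r.tt
  have id' := h.inv hd
  have e1 : ∀ v : G, v ∈ D → ({y : G | y ∈ D ∧ y ≠ d ∧ Commute d y} = {y : G | y ∈ D ∧ y ≠ v ∧ Commute v y} ↔ d⁻¹ * v ∈ Cfsg.pCore 3 G) := by
    intro v hv
    rw [id']
    constructor
    · intro hh
      exact CfsgLib.TT.W_core h hd hv (CfsgLib.TT.WF_eq.2 hh)
    · intro hh
      exact CfsgLib.TT.WF_eq.1 (CfsgLib.TT.W_of_core h hd hv hh)
  have hset : {w : G | w ∈ D ∧ {y : G | y ∈ D ∧ y ≠ d ∧ Commute d y} = {y : G | y ∈ D ∧ y ≠ w ∧ Commute w y}} = {w : G | w ∈ D ∧ d⁻¹ * w ∈ Cfsg.pCore 3 G} := by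
    ext v
    exact ⟨fun hh => ⟨hh.1, (e1 v hh.1).1 hh.2⟩, fun hh => ⟨hh.1, (e1 v hh.1).2 hh.2⟩⟩
  refine ⟨hset, ?_⟩
  rw [hset]
  ext v
  constructor
  · rintro ⟨hv, hq⟩
    rw [id'] at hq
    exact CfsgLib.TT.W_orbit h hd hv hq
  · rintro ⟨g, hg, rfl⟩
    refine ⟨h.cj g d hd, ?_⟩
    have := mul_mem ((CfsgLib.Core.pCore_normal 3 G).conj_mem g hg d⁻¹) (inv_mem hg)
    have e2 : d⁻¹ * g * d⁻¹⁻¹ * g⁻¹ = d⁻¹ * (g * d * g⁻¹) := by group
    rwa [e2] at this

end Cfsg.Agent.S5350
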