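import Cfsg.Statements.S5363
import Mathlib

set_option autoImplicit false
open Cfsg

namespace Cfsg.Agent.S5363

section
theorem semi {G : Type*} [Group G] {a u : G} (h : a * u * a = u⁻¹) (ha : a * a = 1) (k : ℕ) : a * u ^ k = (u ^ k)⁻¹ * a := by
  induction k with
  | zero => simp
  | succ k ih =>
    have h1 : a * u = u⁻¹ * a := by
      calc a * u = (a * u) * (a * a) := by rw [ha, mul_one]
        _ = (a * u * a) * a := by group
        _ = u⁻¹ * a := by rw [h]
    calc a * u ^ (k + 1) = (a * u ^ k) * u := by rw [pow_succ]; group
      _ = (u ^ k)⁻¹ * (a * u) := by rw [ih]; group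
      _ = (u ^ (k + 1))⁻¹ * a := by rw [h1, pow_succ']; group
end


/-- Let D be a conjugation-invariant set of involutions of a finite group G. Then every product of two members of D has odd order or order 2 if and only if, for every a in D and every b in D different from a and commuting with a, the members of D commuting with a b are exactly those commuting with both a and b. -/
theorem result {G : Type*} [Group G] [Finite G] {D : Set G} (hinv : ∀ d ∈ D, orderOf d = 2) (hconj : ∀ g : G, ∀ d ∈ D, g * d * g⁻¹ ∈ D) : (∀ a ∈ D, ∀ b ∈ D, Odd (orderOf (a * b)) ∨ orderOf (a * b) = 2) ↔ ∀ a ∈ D, ∀ b ∈ D, b ≠ a → Commute a b → {y : G | y ∈ D ∧ Commute (a * b) y} = {y : G | y ∈ D ∧ Commute a y} ∩ {y : G | y ∈ D ∧ Commute b y} := by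
  have hsq : ∀ d ∈ D, d * d = 1 := by
    intro d hd
    have := pow_orderOf_eq_one d
    rwa [hinv d hd, pow_two] at this
  constructor
  · intro hord a ha b hb hba hab
    ext y
    constructor
    · rintro ⟨hy, hc⟩
      have key : Commute a y := by
        by_contra hn
        have hn2 : orderOf (a * y) ≠ 2 := by
          intro h2
          apply hn
          have h3 := pow_orderOf_eq_one (a * y)
          rw [h2, pow_two] at h3
          have h4 : a * y = (a * y)⁻¹ := eq_inv_of_mul_eq_one_left h3
          show a * y = y * a
          rw [h4, mul_inv_rev, inv_eq_of_mul_eq_one_left (hsq a ha), inv_eq_of_mul_eq_one_left (hsq y hy)]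
        have hodd := (hord a ha y hy).resolve_right hn2
        have hsqeq : (a * y) ^ 2 = (b * y) ^ 2 := by
          have h1 : a * b * y = y * (a * b) := hc.eq
          have h2 : a * y * a = b * y * b := by
            calc a * y * a = a * (y * (a * b)) * b := by
                  have : b * b = 1 := hsq b hb
                  calc a * y * a = a * y * a * (b * b) := by rw [this, mul_one]
                    _ = _ := by group
              _ = (a * a) * b * y * b := by rw [← h1]; group
              _ = b * y * b := by rw [hsq a ha, one_mul]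
          calc (a * y) ^ 2 = (a * y * a) * y := by rw [pow_two]; group
            _ = (b * y) ^ 2 := by rw [h2, pow_two]; group
        have hodd2 : Odd (orderOf (b * y)) := by
          rcases hord b hb y hy with h | h
          · exact h
          · exfalso
            have h3 := pow_orderOf_eq_one (b * y)
            rw [h, ← hsqeq] at h3
            have h4 : orderOf (a * y) ∣ 2 := orderOf_dvd_of_pow_eq_one h3
            rcases (Nat.dvd_prime Nat.prime_two).1 h4 with h5 | h5
            · apply hn
              have h6 : a * y = 1 := orderOf_eq_one_iff.1 h5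
              have h7 : a = y := by rw [eq_inv_of_mul_eq_one_left h6, inv_eq_of_mul_eq_one_left (hsq y hy)]
              rw [h7]
            · exact hn2 h5
        obtain ⟨j, hj⟩ := hodd.mul hodd2
        have e1 : a * y = ((a * y) ^ 2) ^ (j + 1) := by
          rw [← pow_mul]
          have : 2 * (j + 1) = orderOf (a * y) * orderOf (b * y) + 1 := by omega
          rw [this, pow_succ, pow_mul, pow_orderOf_eq_one, one_pow, one_mul]
        have e2 : b * y = ((b * y) ^ 2) ^ (j + 1) := by
          rw [← pow_mul]
          have : 2 * (j + 1) = orderOf (b * y) * orderOf (a * y) + 1 := by rw [mul_comm (orderOf (b * y))]; omega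
          rw [this, pow_succ, pow_mul, pow_orderOf_eq_one, one_pow, one_mul]
        apply hba
        have : a * y = b * y := by rw [e1, e2, hsqeq]
        exact (mul_right_cancel this).symm
      refine ⟨⟨hy, key⟩, ⟨hy, ?_⟩⟩
      have : b = a⁻¹ * (a * b) := by group
      rw [this]
      exact key.inv_left.mul_left hc
    · rintro ⟨⟨hy, h1⟩, ⟨_, h2⟩⟩
      exact ⟨hy, h1.mul_left h2⟩
  · intro H a ha b hb
    by_contra hcon
    rw [not_or, Nat.not_odd_iff_even] at hcon
    obtain ⟨⟨m, hm⟩, hn2⟩ := hcon
    have haa := hsq a ha
    have hbb := hsq b hb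
    have ia := inv_eq_of_mul_eq_one_left haa
    have ib := inv_eq_of_mul_eq_one_left hbb
    set u := a * b with hu
    have hau : a * u * a = u⁻¹ := by
      rw [hu, mul_inv_rev, ia, ib]
      calc a * (a * b) * a = (a * a) * b * a := by group
        _ = b * a := by rw [haa, one_mul]
    have hbu : b * u * b = u⁻¹ := by
      rw [hu, mul_inv_rev, ia, ib]
      calc b * (a * b) * b = b * a * (b * b) := by group
        _ = b * a := by rw [hbb, mul_one]
    have ho := orderOf_pos u
    have hz1 : u ^ m * u ^ m = 1 := by rw [← pow_add, ← hm, pow_orderOf_eq_one]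
    have hz2 : u ^ m ≠ 1 := by
      intro h
      have h1 := orderOf_dvd_of_pow_eq_one h
      have h2 := Nat.le_of_dvd (by omega) h1
      omega
    have hzi : (u ^ m)⁻¹ = u ^ m := inv_eq_of_mul_eq_one_left hz1
    have haz : a * u ^ m = u ^ m * a := by rw [semi hau haa, hzi]
    have hbz : b * u ^ m = u ^ m * b := by rw [semi hbu hbb, hzi]
    have hD' : a * u ^ m ∈ D := by
      rcases Nat.even_or_odd m with ⟨j, hj⟩ | ⟨j, hj⟩
      · have e : a * u ^ m = (u ^ j)⁻¹ * a * (u ^ j)⁻¹⁻¹ := by
          rw [hj, pow_add, ← mul_assoc, semi hau haa]; group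
        rw [e]; exact hconj _ a ha
      · have e : a * u ^ m = (u ^ j)⁻¹ * b * (u ^ j)⁻¹⁻¹ := by
          have e2 : a * u = b := by rw [hu, ← mul_assoc, haa, one_mul]
          calc a * u ^ m = (a * u ^ j) * u * u ^ j := by
                rw [hj]
                have : 2 * j + 1 = j + 1 + j := by omega
                rw [this, pow_add, pow_add, pow_one]; group
            _ = (u ^ j)⁻¹ * (a * u) * u ^ j := by rw [semi hau haa]; group
            _ = _ := by rw [e2]; group
        rw [e]; exact hconj _ b hb
    have h1 := H a ha _ hD' (fun h => hz2 (by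
      have : a * u ^ m = a * 1 := by rw [h, mul_one]
      exact mul_left_cancel this)) (show a * (a * u ^ m) = a * u ^ m * a by rw [mul_assoc, ← haz])
    have e1 : a * (a * u ^ m) = u ^ m := by rw [← mul_assoc, haa, one_mul]
    rw [e1] at h1
    have h2 : b ∈ {y : G | y ∈ D ∧ Commute (u ^ m) y} := ⟨hb, hbz.symm⟩
    rw [h1] at h2
    have hab : Commute a b := h2.1.2
    have : u ^ 2 = 1 := by rw [hu, hab.mul_pow, pow_two, pow_two, haa, hbb, one_mul]
    have h4 : orderOf u ∣ 2 := orderOf_dvd_of_pow_eq_one this
    rcases (Nat.dvd_prime Nat.prime_two).1 h4 with h5 | h5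
    · omega
    · exact hn2 h5

end Cfsg.Agent.S5363
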