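import Cfsg.Statements.S5364
import Mathlib

set_option autoImplicit false
open Cfsg

namespace Cfsg.Agent.S5364

/-- Let D be a conjugation-invariant set of involutions of a finite group G and t an involution in the centre of G such that d t does not lie in D for any d in D. If the images of the members of D in G modulo the subgroup generated by t satisfy the 3-transposition order conditions (each has order 2 and any two have product of order at most 3), then so do the members of D. -/
theorem result {G : Type*} [Group G] [Finite G] {D : Set G} (hinv : ∀ d ∈ D, orderOf d = 2) (hconj : ∀ g : G, ∀ d ∈ D, g * d * g⁻¹ ∈ D) (t : G) (ht : orderOf t = 2) (htZ : t ∈ Subgroup.center G) (hDt : ∀ d ∈ D, d * t ∉ D) [(Subgroup.zpowers t).Normal] (himg : Cfsg.IsThreeTranspositionSet ((QuotientGroup.mk : G → G ⧸ Subgroup.zpowers t) '' D)) : Cfsg.IsThreeTranspositionSet D := by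
  have hsq : ∀ d ∈ D, d * d = 1 := by
    intro d hd
    have := pow_orderOf_eq_one d
    rwa [hinv d hd, pow_two] at this
  have htt : t * t = 1 := by
    have := pow_orderOf_eq_one t
    rwa [ht, pow_two] at this
  have hz : ∀ x : G, x ∈ Subgroup.zpowers t → x = 1 ∨ x = t := by
    intro x hx
    obtain ⟨k, rfl⟩ := Subgroup.mem_zpowers_iff.1 hx
    rcases Int.even_or_odd k with ⟨j, hj⟩ | ⟨j, hj⟩
    · left; rw [hj, ← two_mul, zpow_mul, zpow_two, htt, one_zpow]
    · right; rw [hj, zpow_add, zpow_mul, zpow_two, htt, one_zpow, one_mul, zpow_one]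
  refine ⟨hinv, ?_⟩
  intro d hd e he
  have hdd := hsq d hd
  have hee := hsq e he
  have id' := inv_eq_of_mul_eq_one_left hdd
  have ie := inv_eq_of_mul_eq_one_left hee
  rcases himg.2 _ ⟨d, hd, rfl⟩ _ ⟨e, he, rfl⟩ with h | h
  · rw [← QuotientGroup.mk_mul, ← QuotientGroup.mk_pow, QuotientGroup.eq_one_iff] at h
    rcases hz _ h with h1 | h1
    · exact Or.inl h1
    · exfalso
      apply hDt d hd
      have h2 : e * d * e⁻¹ = d * t := by
        rw [← h1, pow_two, ie]
        calc e * d * e = (d * d) * e * d * e := by rw [hdd, one_mul]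
          _ = _ := by group
      rw [← h2]
      exact hconj e d hd
  · rw [← QuotientGroup.mk_mul, ← QuotientGroup.mk_pow, QuotientGroup.eq_one_iff] at h
    rcases hz _ h with h1 | h1
    · exact Or.inr h1
    · exfalso
      have h3 : (d * e * d) * (e * d * e) = t := by rw [← h1]; simp only [pow_succ, pow_zero, one_mul, mul_assoc]
      have h4 : e * d * e⁻¹ = (d * e * d⁻¹) * t := by
        rw [← h3, id', ie]
        calc e * d * e = 1 * (e * d * e) := by rw [one_mul]
          _ = (d * e * (d * d) * e * d) * (e * d * e) := by rw [hdd, mul_one, mul_assoc d e e, hee, mul_one, hdd]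
          _ = _ := by group
      apply hDt _ (hconj d e he)
      rw [← h4]
      exact hconj e d hd

end Cfsg.Agent.S5364
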