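import Cfsg.Statements.S5392
import Cfsg.Agent.Lib.Leech26

set_option autoImplicit false
open Cfsg

open scoped Pointwise
namespace Cfsg.Agent.S5392

/-- The Leech lattice modulo twice itself is a faithful irreducible module for the first Conway group: an automorphism of the rank-24 lattice built from the length-24 code that moves every lattice vector only by twice a lattice vector lies in the centre of the automorphism group (the centre consists of ±1, which act trivially there, so the kernel is exactly the centre), and an additive subgroup lying between twice the lattice and the lattice that is invariant under all lattice automorphisms is one of the two. -/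
theorem result : (∀ g : ↥Cfsg.Co0, (∀ v : ↥Cfsg.leechLattice, ∃ w : ↥Cfsg.leechLattice, ((g • v : ↥Cfsg.leechLattice) : Cfsg.GolayPt → ℤ) - (v : Cfsg.GolayPt → ℤ) = 2 • (w : Cfsg.GolayPt → ℤ)) → g ∈ Subgroup.center ↥Cfsg.Co0) ∧ ∀ M : AddSubgroup (Cfsg.GolayPt → ℤ), (∀ v ∈ Cfsg.leechLattice, (2 : ℤ) • v ∈ M) → M ≤ Cfsg.leechLattice → (∀ g : ↥Cfsg.Co0, ∀ v : ↥Cfsg.leechLattice, (v : Cfsg.GolayPt → ℤ) ∈ M → ((g • v : ↥Cfsg.leechLattice) : Cfsg.GolayPt → ℤ) ∈ M) → (∀ x ∈ M, ∃ w ∈ Cfsg.leechLattice, x = (2 : ℤ) • w) ∨ M = Cfsg.leechLattice := by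
  constructor
  · intro g hg
    have h : g = 1 ∨ g = CfsgLib.Leech.negOne := by
      apply CfsgLib.Leech.pm_eq_one
      intro w hw
      apply CfsgLib.Leech.cong_small (by rw [CfsgLib.Leech.co_norm, hw]) hw
      obtain ⟨z, hz⟩ := hg w
      refine ⟨z, Subtype.ext ?_⟩
      rw [← two_nsmul]
      exact hz
    rcases h with rfl | rfl
    · exact one_mem _
    · exact CfsgLib.Leech.negOne_mem
  · intro M h2 hM hg
    by_cases h : ∀ x ∈ M, ∃ w ∈ Cfsg.leechLattice, x = (2 : ℤ) • w
    · exact Or.inl h
    right
    push Not at h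
    obtain ⟨x, hx, hx2⟩ := h
    have h3 := CfsgLib.Leech.inv_sub (M.comap Cfsg.leechLattice.subtype) (fun v => by
      have := h2 v v.2
      rw [two_zsmul] at this
      exact this) (fun g v hv => hg g v hv) (x := ⟨x, hM hx⟩) hx (by
      rintro ⟨w, hw⟩
      apply hx2 w w.2
      rw [two_zsmul]
      exact congrArg Subtype.val hw)
    apply le_antisymm hM
    intro y hy
    have h4 : (⟨y, hy⟩ : Cfsg.leechLattice) ∈ M.comap Cfsg.leechLattice.subtype := by rw [h3]; trivial
    exact h4

end Cfsg.Agent.S5392
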