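import Cfsg.Statements.S5459
import Cfsg.Agent.Lib.CM3

set_option autoImplicit false
open Cfsg

open scoped commutatorElement
set_option linter.style.haveILetI false
namespace Cfsg.Agent.S5459

/-- Let G be a finite group with a quasisimple normal subgroup L and an involution d such that G is generated by L and d, the centre of L has odd order, and d inverts every element of the centre of L. If the commuting graph on the conjugacy class of the image of d in G modulo the centre of L is connected, then the commuting graph on the conjugacy class of d is connected. -/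
theorem result {G : Type*} [Group G] [Finite G] (L : Subgroup G) [L.Normal] (hL : Cfsg.IsQuasisimple ↥L) (d : G) (hd : orderOf d = 2) (hgen : L ⊔ Subgroup.zpowers d = ⊤) (hodd : Odd (Nat.card ↥(Subgroup.center ↥L))) (hinv : ∀ c ∈ (Subgroup.center ↥L).map L.subtype, d * c * d⁻¹ = c⁻¹) [hn : ((Subgroup.center ↥L).map L.subtype).Normal] (hconn : (Cfsg.commutingGraph (conjugatesOf (QuotientGroup.mk d : G ⧸ (Subgroup.center ↥L).map L.subtype))).Connected) : (Cfsg.commutingGraph (conjugatesOf d)).Connected := by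
  classical
  set Z : Subgroup G := (Subgroup.center ↥L).map L.subtype with hZ
  let D : Set G := conjugatesOf d
  have hD : ∀ x, x ∈ D ↔ ∃ g, g * d * g⁻¹ = x := fun x => by
    change IsConj d x ↔ _
    rw [isConj_iff]
  have hDc : ∀ g x, x ∈ D → g * x * g⁻¹ ∈ D := by
    intro g x hx
    obtain ⟨h, rfl⟩ := (hD x).1 hx
    exact (hD _).2 ⟨g * h, by group⟩
  let R : G → G → Prop := fun x y => x ∈ D ∧ y ∈ D ∧ Commute x y
  have hRs : ∀ x y, R x y → R y x := fun x y h => ⟨h.2.1, h.1, h.2.2.symm⟩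
  have hRc : ∀ g x y, R x y → R (g * x * g⁻¹) (g * y * g⁻¹) := fun g x y h =>
    ⟨hDc g x h.1, hDc g y h.2.1, by
      have := h.2.2
      change g * x * g⁻¹ * (g * y * g⁻¹) = g * y * g⁻¹ * (g * x * g⁻¹)
      have h3 : x * y = y * x := this
      calc g * x * g⁻¹ * (g * y * g⁻¹) = g * (x * y) * g⁻¹ := by group
        _ = g * (y * x) * g⁻¹ := by rw [h3]
        _ = _ := by group⟩
  have hTc : ∀ g x y, Relation.ReflTransGen R x y → Relation.ReflTransGen R (g * x * g⁻¹) (g * y * g⁻¹) := by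
    intro g x y h
    induction h with
    | refl => exact Relation.ReflTransGen.refl
    | tail _ h ih => exact ih.tail (hRc g _ _ h)
  have hTs : ∀ x y, Relation.ReflTransGen R x y → Relation.ReflTransGen R y x := by
    intro x y h
    induction h with
    | refl => exact Relation.ReflTransGen.refl
    | tail _ h ih => exact ih.head (hRs _ _ h)
  let K : Subgroup G :=
    { carrier := {g | Relation.ReflTransGen R d (g * d * g⁻¹)}
      one_mem' := by
        change Relation.ReflTransGen R d (1 * d * 1⁻¹)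
        rw [one_mul, inv_one, mul_one]
      mul_mem' := by
        intro a b ha hb
        change Relation.ReflTransGen R d (a * b * d * (a * b)⁻¹)
        have := hTc a _ _ hb
        rw [show a * (b * d * b⁻¹) * a⁻¹ = a * b * d * (a * b)⁻¹ by group] at this
        exact Relation.ReflTransGen.trans ha this
      inv_mem' := by
        intro a ha
        change Relation.ReflTransGen R d (a⁻¹ * d * a⁻¹⁻¹)
        have := hTc a⁻¹ _ _ ha
        rw [show a⁻¹ * (a * d * a⁻¹) * a⁻¹⁻¹ = d by group] at this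
        exact hTs _ _ this }
  have hKm : ∀ g, g ∈ K ↔ Relation.ReflTransGen R d (g * d * g⁻¹) := fun g => Iff.rfl
  have hinv' : ∀ x ∈ D, ∀ z ∈ Z, x * z * x⁻¹ = z⁻¹ := by
    intro x hx z hz
    obtain ⟨g, rfl⟩ := (hD x).1 hx
    have h1 : g⁻¹ * z * g ∈ Z := by simpa using hn.conj_mem z hz g⁻¹
    have h2 := hinv _ h1
    calc g * d * g⁻¹ * z * (g * d * g⁻¹)⁻¹ = g * (d * (g⁻¹ * z * g) * d⁻¹) * g⁻¹ := by group
      _ = z⁻¹ := by rw [h2]; group
  have hcard : Nat.card Z = Nat.card (Subgroup.center ↥L) :=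
    Nat.card_congr ((Subgroup.center ↥L).equivMapOfInjective L.subtype L.subtype_injective).toEquiv.symm
  have hroot : ∀ (n : ℕ), (n = 2 ∨ n = 4) → ∀ z ∈ Z, ∃ c ∈ Z, c ^ n = z := by
    intro n hn' z hz
    have ho : Nat.Coprime n (orderOf z) := by
      have h1 : orderOf z ∣ Nat.card Z := by
        have := orderOf_dvd_natCard (⟨z, hz⟩ : Z)
        rwa [← Subgroup.orderOf_coe] at this
      rw [hcard] at h1
      have h2 : Odd (orderOf z) := Odd.of_dvd_nat hodd h1
      rcases hn' with rfl | rfl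
      · exact (Nat.coprime_two_left.2 h2)
      · exact (show Nat.Coprime (2 ^ 2) (orderOf z) from (Nat.coprime_two_left.2 h2).pow_left 2)
    obtain ⟨m, hm⟩ := exists_pow_eq_self_of_coprime ho
    exact ⟨z ^ m, Z.pow_mem hz m, by rw [← pow_mul, mul_comm, pow_mul, hm]⟩
  have hconj : ∀ y ∈ D, ∀ c ∈ Z, c * y * c⁻¹ = c ^ 2 * y := by
    intro y hy c hc
    have h1 := hinv' y hy c⁻¹ (Z.inv_mem hc)
    rw [inv_inv] at h1
    calc c * y * c⁻¹ = c * (y * c⁻¹ * y⁻¹) * y := by group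
      _ = c ^ 2 * y := by rw [h1, sq]
  have hmk : ∀ z ∈ Z, (QuotientGroup.mk z : G ⧸ Z) = 1 := fun z hz => (QuotientGroup.eq_one_iff z).2 hz
  have hlift : ∀ x ∈ D, ∀ y ∈ D, Commute (QuotientGroup.mk x : G ⧸ Z) (QuotientGroup.mk y) → ∃ c ∈ Z, Commute x (c * y * c⁻¹) := by
    intro x hx y hy hxy
    have hz : x * y * x⁻¹ * y⁻¹ ∈ Z := by
      rw [← QuotientGroup.eq_one_iff]
      have h3 : (QuotientGroup.mk x : G ⧸ Z) * QuotientGroup.mk y = QuotientGroup.mk y * QuotientGroup.mk x := hxy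
      rw [QuotientGroup.mk_mul, QuotientGroup.mk_mul, QuotientGroup.mk_mul, h3, QuotientGroup.mk_inv, QuotientGroup.mk_inv]
      group
    obtain ⟨c, hc, hc4⟩ := hroot 4 (Or.inr rfl) _ hz
    refine ⟨c, hc, ?_⟩
    rw [hconj y hy c hc]
    have h1 := hinv' x hx _ (Z.pow_mem hc 2)
    have h2 : x * (c ^ 2 * y) * x⁻¹ = c ^ 2 * y := by
      calc x * (c ^ 2 * y) * x⁻¹ = (x * c ^ 2 * x⁻¹) * (x * y * x⁻¹ * y⁻¹) * y := by group
        _ = c ^ 2 * y := by rw [h1, ← hc4]; group
    change x * (c ^ 2 * y) = c ^ 2 * y * x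
    calc x * (c ^ 2 * y) = x * (c ^ 2 * y) * x⁻¹ * x := by group
      _ = _ := by rw [h2]
  have hDl : ∀ w : G ⧸ Z, w ∈ conjugatesOf (QuotientGroup.mk d : G ⧸ Z) → ∃ y ∈ D, QuotientGroup.mk y = w := by
    intro w hw
    change IsConj _ _ at hw
    rw [isConj_iff] at hw
    obtain ⟨c, rfl⟩ := hw
    obtain ⟨g, rfl⟩ := QuotientGroup.mk_surjective c
    exact ⟨g * d * g⁻¹, (hD _).2 ⟨g, rfl⟩, rfl⟩
  have hdm : (QuotientGroup.mk d : G ⧸ Z) ∈ conjugatesOf (QuotientGroup.mk d : G ⧸ Z) := mem_conjugatesOf_self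
  have hpath : ∀ w : ↥(conjugatesOf (QuotientGroup.mk d : G ⧸ Z)), ∃ x ∈ D, (QuotientGroup.mk x : G ⧸ Z) = w.1 ∧ Relation.ReflTransGen R d x := by
    intro w
    have hr := (SimpleGraph.reachable_iff_reflTransGen _ _).1 (hconn.preconnected ⟨_, hdm⟩ w)
    induction hr with
    | refl => exact ⟨d, mem_conjugatesOf_self, rfl, Relation.ReflTransGen.refl⟩
    | tail _ h ih =>
      obtain ⟨x, hx, hx1, hx2⟩ := ih
      rename_i b c' _
      obtain ⟨y, hy, hy1⟩ := hDl c'.1 c'.2
      have hcom : Commute (QuotientGroup.mk x : G ⧸ Z) (QuotientGroup.mk y) := by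
        rw [hx1, hy1]
        rcases ((SimpleGraph.fromRel_adj _ _ _).1 h).2 with h | h
        · exact h
        · exact h.symm
      obtain ⟨c, hc, hcc⟩ := hlift x hx y hy hcom
      refine ⟨c * y * c⁻¹, hDc c y hy, ?_, hx2.tail ⟨hx, hDc c y hy, hcc⟩⟩
      rw [QuotientGroup.mk_mul, QuotientGroup.mk_mul, QuotientGroup.mk_inv, hmk c hc, hy1]
      group
  have hZK : ∀ g : G, ∃ c ∈ Z, c * g ∈ K := by
    intro g
    have hgm : (QuotientGroup.mk (g * d * g⁻¹) : G ⧸ Z) ∈ conjugatesOf (QuotientGroup.mk d : G ⧸ Z) := by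
      change IsConj _ _
      rw [isConj_iff]
      exact ⟨QuotientGroup.mk g, rfl⟩
    obtain ⟨x, hx, hx1, hx2⟩ := hpath ⟨_, hgm⟩
    have hz : x * (g * d * g⁻¹)⁻¹ ∈ Z := by
      rw [← QuotientGroup.eq_one_iff, QuotientGroup.mk_mul, QuotientGroup.mk_inv, hx1, mul_inv_cancel]
    obtain ⟨c, hc, hc2⟩ := hroot 2 (Or.inl rfl) _ hz
    refine ⟨c, hc, (hKm _).2 ?_⟩
    have h1 := hconj (g * d * g⁻¹) ((hD _).2 ⟨g, rfl⟩) c hc
    rw [hc2, inv_mul_cancel_right] at h1
    rw [show c * g * d * (c * g)⁻¹ = c * (g * d * g⁻¹) * c⁻¹ by group, h1]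
    exact hx2
  have hLK : L ≤ K := by
    have h1 : commutator ↥L ≤ K.comap L.subtype := by
      rw [commutator_def, Subgroup.commutator_le]
      rintro a - b -
      obtain ⟨c, hc, hcK⟩ := hZK a
      obtain ⟨c', hc', hcK'⟩ := hZK b
      obtain ⟨z, hz, rfl⟩ := hc
      obtain ⟨z', hz', rfl⟩ := hc'
      have h3 : ⁅z * a, z' * b⁆ = ⁅a, b⁆ := by
        have e1 : ∀ y, z * y = y * z := fun y => (Subgroup.mem_center_iff.1 hz y).symm
        have e2 : ∀ y, z' * y = y * z' := fun y => (Subgroup.mem_center_iff.1 hz' y).symm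
        have e1' : ∀ y, z⁻¹ * y = y * z⁻¹ := fun y => (Subgroup.mem_center_iff.1 ((Subgroup.center ↥L).inv_mem hz) y).symm
        have e2' : ∀ y, z'⁻¹ * y = y * z'⁻¹ := fun y => (Subgroup.mem_center_iff.1 ((Subgroup.center ↥L).inv_mem hz') y).symm
        rw [commutatorElement_def, commutatorElement_def, mul_inv_rev, mul_inv_rev]
        calc z * a * (z' * b) * (a⁻¹ * z⁻¹) * (b⁻¹ * z'⁻¹) = z * (a * (z' * b) * a⁻¹) * z⁻¹ * (b⁻¹ * z'⁻¹) := by group
          _ = (a * (z' * b) * a⁻¹) * (b⁻¹ * z'⁻¹) := by rw [e1, mul_inv_cancel_right]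
          _ = (a * (b * z') * a⁻¹) * (b⁻¹ * z'⁻¹) := by rw [e2 b]
          _ = a * b * (z' * (a⁻¹ * b⁻¹)) * z'⁻¹ := by group
          _ = a * b * a⁻¹ * b⁻¹ := by rw [e2 (a⁻¹ * b⁻¹)]; group
      rw [← h3]
      have k1 : z * a ∈ K.comap L.subtype := hcK
      have k2 : z' * b ∈ K.comap L.subtype := hcK'
      exact Subgroup.mul_mem _ (Subgroup.mul_mem _ (Subgroup.mul_mem _ k1 k2) (Subgroup.inv_mem _ k1)) (Subgroup.inv_mem _ k2)
    intro l hl
    have h2 : (⟨l, hl⟩ : L) ∈ commutator ↥L := by rw [hL.1.commutator_eq_top]; trivial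
    exact h1 h2
  have hK : K = ⊤ := by
    rw [eq_top_iff, ← hgen, sup_le_iff]
    refine ⟨hLK, ?_⟩
    rw [Subgroup.zpowers_le, hKm, mul_inv_cancel_right]
  have hdD : d ∈ D := mem_conjugatesOf_self
  have hfin : ∀ x, Relation.ReflTransGen R d x → ∀ hx : x ∈ D, (Cfsg.commutingGraph D).Reachable ⟨d, hdD⟩ ⟨x, hx⟩ := by
    intro x h
    induction h with
    | refl => exact fun _ => SimpleGraph.Reachable.refl _
    | tail _ h ih =>
      intro hx
      refine (ih h.1).trans ?_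
      rename_i b c' _
      by_cases hbc : b = c'
      · subst hbc
        exact SimpleGraph.Reachable.refl _
      · exact SimpleGraph.Adj.reachable ((SimpleGraph.fromRel_adj _ _ _).2 ⟨fun h' => hbc (congrArg Subtype.val h'), Or.inl h.2.2⟩)
  have hall : ∀ x : D, (Cfsg.commutingGraph D).Reachable ⟨d, hdD⟩ x := by
    rintro ⟨x, hx⟩
    obtain ⟨g, rfl⟩ := (hD x).1 hx
    exact hfin _ ((hKm g).1 (hK ▸ Subgroup.mem_top g)) hx
  haveI : Nonempty D := ⟨⟨d, hdD⟩⟩
  exact ⟨fun x y => (hall x).symm.trans (hall y)⟩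

end Cfsg.Agent.S5459
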