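import Cfsg.Statements.S5541
import Cfsg.Agent.Lib.CM3

set_option autoImplicit false
open Cfsg

open scoped Pointwise
namespace Cfsg.Agent.S5541

/-- Let ρ be a representation of a group H on a finite-dimensional real vector space U whose only ρ-invariant subspaces are the zero subspace and U, and suppose U carries a non-zero ρ-invariant symmetric bilinear form. Then the following are equivalent: (1) there is a non-zero ρ-equivariant commutative bilinear product on U of which every ρ-equivariant bilinear product is a scalar multiple; (2) there is a non-zero ρ-invariant trilinear form on U that is symmetric under all permutations of its arguments and of which every ρ-invariant trilinear form is a scalar multiple. -/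
theorem result {H : Type*} [Group H] {U : Type*} [AddCommGroup U] [Module ℝ U] [FiniteDimensional ℝ U] (ρ : Representation ℝ H U) (hirr : ∀ W : Submodule ℝ U, (∀ g : H, W.map (ρ g) ≤ W) → W = ⊥ ∨ W = ⊤) (B : LinearMap.BilinForm ℝ U) (hB0 : B ≠ 0) (hBs : ∀ u v, B u v = B v u) (hBi : ∀ (g : H) (u v : U), B (ρ g u) (ρ g v) = B u v) : (∃ m : U →ₗ[ℝ] U →ₗ[ℝ] U, m ≠ 0 ∧ (∀ u v, m u v = m v u) ∧ (∀ (g : H) (u v : U), m (ρ g u) (ρ g v) = ρ g (m u v)) ∧ ∀ m' : U →ₗ[ℝ] U →ₗ[ℝ] U, (∀ (g : H) (u v : U), m' (ρ g u) (ρ g v) = ρ g (m' u v)) → ∃ c : ℝ, m' = c • m) ↔ (∃ t : U →ₗ[ℝ] U →ₗ[ℝ] U →ₗ[ℝ] ℝ, t ≠ 0 ∧ (∀ u v w, t u v w = t v u w ∧ t u v w = t u w v) ∧ (∀ (g : H) (u v w : U), t (ρ g u) (ρ g v) (ρ g w) = t u v w) ∧ ∀ t' : U →ₗ[ℝ] U →ₗ[ℝ] U →ₗ[ℝ] ℝ, (∀ (g : H) (u v w : U), t' (ρ g u) (ρ g v) (ρ g w) = t' u v w) → ∃ c : ℝ, t' = c • t) := by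
  classical
  have hker : LinearMap.ker B = ⊥ := by
    rcases hirr (LinearMap.ker B) (by
      intro g
      rintro _ ⟨u, hu, rfl⟩
      rw [LinearMap.mem_ker]
      ext v
      have h1 : v = ρ g (ρ g⁻¹ v) := by
        rw [← Module.End.mul_apply, ← map_mul, mul_inv_cancel, map_one, Module.End.one_apply]
      have h2 : B u = 0 := LinearMap.mem_ker.1 hu
      rw [h1, hBi, h2]
      rfl) with h | h
    · exact h
    · exact absurd (LinearMap.ker_eq_top.1 h) hB0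
  have hBinj : Function.Injective B := LinearMap.ker_eq_bot.1 hker
  have hsurj : Function.Surjective B :=
    (LinearMap.injective_iff_surjective_of_finrank_eq_finrank (f := (B : U →ₗ[ℝ] Module.Dual ℝ U)) (Subspace.dual_finrank_eq (K := ℝ) (V := U)).symm).1 hBinj
  let e : U ≃ₗ[ℝ] (U →ₗ[ℝ] ℝ) := LinearEquiv.ofBijective (B : U →ₗ[ℝ] (U →ₗ[ℝ] ℝ)) ⟨hBinj, hsurj⟩
  have he : ∀ u, e u = B u := fun u => rfl
  have hPhi : ∀ t : U →ₗ[ℝ] U →ₗ[ℝ] U →ₗ[ℝ] ℝ, ∃ m : U →ₗ[ℝ] U →ₗ[ℝ] U, ∀ u v w, B (m u v) w = t u v w := by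
    intro t
    refine ⟨t.compr₂ (e.symm : (U →ₗ[ℝ] ℝ) →ₗ[ℝ] U), fun u v w => ?_⟩
    have h1 : (t.compr₂ (e.symm : (U →ₗ[ℝ] ℝ) →ₗ[ℝ] U)) u v = e.symm (t u v) := rfl
    rw [h1, ← he, LinearEquiv.apply_symm_apply]
  have hPhi' : ∀ m : U →ₗ[ℝ] U →ₗ[ℝ] U, ∃ t : U →ₗ[ℝ] U →ₗ[ℝ] U →ₗ[ℝ] ℝ, ∀ u v w, t u v w = B (m u v) w := fun m =>
    ⟨m.compr₂ (e : U →ₗ[ℝ] (U →ₗ[ℝ] ℝ)), fun _ _ _ => rfl⟩
  have hinj : ∀ x y : U, (∀ w, B x w = B y w) → x = y := fun x y h => hBinj (LinearMap.ext h)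
  have hequi : ∀ (m : U →ₗ[ℝ] U →ₗ[ℝ] U) (t : U →ₗ[ℝ] U →ₗ[ℝ] U →ₗ[ℝ] ℝ), (∀ u v w, B (m u v) w = t u v w) →
      (∀ (g : H) (u v w : U), t (ρ g u) (ρ g v) (ρ g w) = t u v w) → ∀ (g : H) (u v : U), m (ρ g u) (ρ g v) = ρ g (m u v) := by
    intro m t hmt hti g u v
    apply hinj
    intro w
    have h1 : w = ρ g (ρ g⁻¹ w) := by
      rw [← Module.End.mul_apply, ← map_mul, mul_inv_cancel, map_one, Module.End.one_apply]
    rw [h1, hBi, hmt, hmt, hti]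
  constructor
  · rintro ⟨m, hm0, hms, hme, hmu⟩
    obtain ⟨t, ht⟩ := hPhi' m
    have hti : ∀ (g : H) (u v w : U), t (ρ g u) (ρ g v) (ρ g w) = t u v w := fun g u v w => by rw [ht, ht, hme, hBi]
    have hex : ∃ u v w, t u v w ≠ 0 := by
      by_contra hcon
      push Not at hcon
      apply hm0
      ext u v
      apply hinj
      intro w
      rw [← ht, hcon]
      simp
    have htu : ∀ t' : U →ₗ[ℝ] U →ₗ[ℝ] U →ₗ[ℝ] ℝ, (∀ (g : H) (u v w : U), t' (ρ g u) (ρ g v) (ρ g w) = t' u v w) → ∃ c : ℝ, t' = c • t := by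
      intro t' ht'
      obtain ⟨m', hm'⟩ := hPhi t'
      obtain ⟨c, hc⟩ := hmu m' (hequi m' t' hm' ht')
      refine ⟨c, ?_⟩
      ext u v w
      rw [← hm', hc]
      simp [ht]
    have hs1 : ∀ u v w, t u v w = t v u w := fun u v w => by rw [ht, ht, hms]
    let t2 : U →ₗ[ℝ] U →ₗ[ℝ] U →ₗ[ℝ] ℝ :=
      { toFun := fun u => (t u).flip
        map_add' := fun x y => by ext; simp
        map_smul' := fun c x => by ext; simp }
    have ht2 : ∀ u v w, t2 u v w = t u w v := fun u v w => rfl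
    obtain ⟨c, hc⟩ := htu t2 (fun g u v w => by rw [ht2, ht2, hti])
    have hc' : ∀ u v w, t u w v = c * t u v w := fun u v w => by
      rw [← ht2, hc]
      simp
    obtain ⟨u₀, v₀, w₀, h0⟩ := hex
    have hc1 : c = 1 := by
      have e1 : t v₀ u₀ w₀ = t u₀ v₀ w₀ := hs1 _ _ _
      have e2 : t v₀ w₀ u₀ = c * t v₀ u₀ w₀ := hc' _ _ _
      have e3 : t w₀ v₀ u₀ = t v₀ w₀ u₀ := hs1 _ _ _
      have e4 : t w₀ u₀ v₀ = c * t w₀ v₀ u₀ := hc' _ _ _
      have e5 : t u₀ w₀ v₀ = t w₀ u₀ v₀ := hs1 _ _ _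
      have e6 : t u₀ w₀ v₀ = c * t u₀ v₀ w₀ := hc' _ _ _
      have e7 : t u₀ v₀ w₀ = c * t u₀ w₀ v₀ := hc' _ _ _
      have hcz : c ≠ 0 := by
        rintro rfl
        rw [zero_mul] at e7
        exact h0 e7
      have e8 : c * (c * t u₀ v₀ w₀) = c * t u₀ v₀ w₀ :=
        (by rw [e5, e4, e3, e2, e1] : t u₀ w₀ v₀ = c * (c * t u₀ v₀ w₀)).symm.trans e6
      have e9 := mul_left_cancel₀ hcz e8
      exact mul_right_cancel₀ h0 (by rw [e9, one_mul])
    refine ⟨t, ?_, fun u v w => ⟨hs1 u v w, by rw [hc' u v w, hc1, one_mul]⟩, hti, htu⟩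
    rintro rfl
    exact h0 rfl
  · rintro ⟨t, ht0, hts, hti, htu⟩
    obtain ⟨m, hm⟩ := hPhi t
    refine ⟨m, ?_, ?_, hequi m t hm hti, ?_⟩
    · rintro rfl
      apply ht0
      ext u v w
      rw [← hm]
      simp
    · intro u v
      apply hinj
      intro w
      rw [hm, hm, (hts u v w).1]
    · intro m' hm'
      obtain ⟨t', ht'⟩ := hPhi' m'
      obtain ⟨c, hc⟩ := htu t' (fun g u v w => by rw [ht', ht', hm', hBi])
      refine ⟨c, ?_⟩
      ext u v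
      apply hinj
      intro w
      rw [← ht', hc]
      simp [hm]

end Cfsg.Agent.S5541
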