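import Cfsg.Statements.S5548
import Cfsg.Agent.Lib.GolayMod

set_option autoImplicit false
open Cfsg

open scoped Pointwise
namespace Cfsg.Agent.S5548

section
open Cfsg CfsgLib.Golay
open scoped Pointwise
theorem pair_sd {a b c : GolayPt} (hab : a ≠ b) (hac : a ≠ c) (hbc : b ≠ c) :
    symmDiff ({a, b} : Finset GolayPt) {b, c} = {a, c} := by
  ext x
  rw [Finset.mem_symmDiff]
  simp only [Finset.mem_insert, Finset.mem_singleton]
  constructor
  · rintro (⟨h1 | h1, h2⟩ | ⟨h1 | h1, h2⟩)
    · exact Or.inl h1
    · exact absurd (Or.inl h1) h2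
    · exact absurd (Or.inr h1) h2
    · exact Or.inr h1
  · rintro (rfl | rfl)
    · left; exact ⟨Or.inl rfl, by rintro (h | h); exacts [hab h, hac h]⟩
    · right; exact ⟨Or.inr rfl, by rintro (h | h); exacts [hac h.symm, hbc h.symm]⟩
theorem smul_pair' (g : Equiv.Perm GolayPt) (a b : GolayPt) : g • ({a, b} : Finset GolayPt) = {g a, g b} := by
  ext x; rw [Finset.mem_smul_finset]; simp [eq_comm]
theorem pairs_of_one {V : Submodule (ZMod 2) (GolayPt → ZMod 2)}
    (hV : ∀ σ ∈ M24, ∀ w ∈ V, (fun p => w (σ.symm p)) ∈ V) {a b : GolayPt} (hab : a ≠ b) (h : word {a, b} ∈ V)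
    {c d : GolayPt} (hcd : c ≠ d) : word {c, d} ∈ V := by
  obtain ⟨g, hg, hgm⟩ := trans_list (l := [a, b]) (l' := [c, d]) (by simp [hab]) (by simp [hcd]) rfl (by simp)
  simp only [List.map_cons, List.map_nil, List.cons.injEq, and_true] at hgm
  have h1 := inv_word V hV hg h
  rwa [smul_pair', hgm.1, hgm.2] at h1
theorem pair_of_leader {V : Submodule (ZMod 2) (GolayPt → ZMod 2)}
    (hV : ∀ σ ∈ M24, ∀ w ∈ V, (fun p => w (σ.symm p)) ∈ V) {t : Finset GolayPt} (ht : t.card ≤ 4) (hne : t.Nonempty)
    (h : word t ∈ V) : ∃ a b, a ≠ b ∧ word {a, b} ∈ V := by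
  classical
  obtain ⟨d, hd⟩ := hne
  obtain ⟨e, he⟩ : ∃ e, e ∉ t := by
    by_contra hc
    push Not at hc
    have : t = Finset.univ := by ext x; simp [hc x]
    rw [this] at ht
    have h24 : (Finset.univ : Finset GolayPt).card = 24 := by decide
    omega
  have hc1 : (t.erase d).card + 1 = t.card := Finset.card_erase_add_one hd
  obtain ⟨g, hg, hgm⟩ := trans_list (l := (t.erase d).toList ++ [d]) (l' := (t.erase d).toList ++ [e])
    (List.nodup_append.mpr ⟨Finset.nodup_toList _, by simp, by
      intro a ha b hb hab
      rw [List.mem_singleton] at hb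
      rw [Finset.mem_toList, hab, hb] at ha
      exact Finset.notMem_erase d t ha⟩)
    (List.nodup_append.mpr ⟨Finset.nodup_toList _, by simp, by
      intro a ha b hb hab
      rw [List.mem_singleton] at hb
      rw [Finset.mem_toList, hab, hb] at ha
      exact he (Finset.mem_of_mem_erase ha)⟩)
    (by simp) (by rw [List.length_append, Finset.length_toList]; simp; omega)
  rw [List.map_append] at hgm
  have h1 := List.append_inj_left hgm (by simp)
  have h2 := List.append_inj_right hgm (by simp)
  have hfix : ∀ x ∈ t.erase d, g x = x := fun x hx =>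
    List.map_inj_left.mp (h1.trans (List.map_id _).symm) x (Finset.mem_toList.mpr hx)
  have hgd : g d = e := by simpa using h2
  have hgt : g • t = insert e (t.erase d) := by
    ext x
    rw [Finset.mem_smul_finset, Finset.mem_insert]
    constructor
    · rintro ⟨y, hy, rfl⟩
      by_cases hyd : y = d
      · left; rw [hyd]; exact hgd
      · right
        have hy' : y ∈ t.erase d := Finset.mem_erase.mpr ⟨hyd, hy⟩
        rw [Equiv.Perm.smul_def, hfix y hy']; exact hy'
    · rintro (rfl | hx)
      · exact ⟨d, hd, hgd⟩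
      · exact ⟨x, Finset.mem_of_mem_erase hx, hfix x hx⟩
  have hne : d ≠ e := fun h => he (h ▸ hd)
  refine ⟨d, e, hne, ?_⟩
  have h3 := sd_word V h (inv_word V hV hg h)
  rw [hgt] at h3
  have h4 : symmDiff t (insert e (t.erase d)) = {d, e} := by
    ext x
    rw [Finset.mem_symmDiff, Finset.mem_insert, Finset.mem_erase, Finset.mem_insert, Finset.mem_singleton]
    constructor
    · rintro (⟨h1, h2⟩ | ⟨h1 | h1, h2⟩)
      · left; by_contra hx; exact h2 (Or.inr ⟨hx, h1⟩)
      · right; exact h1
      · exact absurd h1.2 h2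
    · rintro (rfl | rfl)
      · left; exact ⟨hd, by rintro (h | h); exacts [hne h, h.1 rfl]⟩
      · right; exact ⟨Or.inl rfl, he⟩
  rwa [h4] at h3
theorem even_le {W : Submodule (ZMod 2) (GolayPt → ZMod 2)} (h : ∀ a b : GolayPt, a ≠ b → word {a, b} ∈ W) :
    ∀ (n : ℕ) (s : Finset GolayPt), s.card = n → Even n → word s ∈ W := by
  classical
  intro n
  induction n using Nat.strong_induction_on with
  | _ n ih =>
    intro s hn he
    by_cases h0 : n = 0
    · rw [h0, Finset.card_eq_zero] at hn
      rw [hn, word_empty]; exact zero_mem _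
    · have h2 : 1 < s.card := by
        rw [hn]
        obtain ⟨k, hk⟩ := he
        omega
      obtain ⟨a, ha, b, hb, hab⟩ := Finset.one_lt_card.mp h2
      have h3 : word ((s.erase a).erase b) ∈ W := by
        apply ih (n - 2) (by omega) _ _ (by obtain ⟨k, hk⟩ := he; exact ⟨k - 1, by omega⟩)
        rw [Finset.card_erase_of_mem (Finset.mem_erase.mpr ⟨hab.symm, hb⟩), Finset.card_erase_of_mem ha, hn]
        omega
      have h4 := sd_word W h3 (h a b hab)
      have h5 : symmDiff ((s.erase a).erase b) {a, b} = s := by
        ext x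
        rw [Finset.mem_symmDiff, Finset.mem_erase, Finset.mem_erase, Finset.mem_insert, Finset.mem_singleton]
        constructor
        · rintro (⟨⟨h1, h2, h3⟩, -⟩ | ⟨rfl | rfl, -⟩)
          · exact h3
          · exact ha
          · exact hb
        · intro hx
          by_cases hxa : x = a
          · right; exact ⟨Or.inl hxa, fun h => h.2.1 hxa⟩
          · by_cases hxb : x = b
            · right; exact ⟨Or.inr hxb, fun h => h.1 hxb⟩
            · left; exact ⟨⟨hxb, hxa, hx⟩, by rintro (h | h); exacts [hxa h, hxb h]⟩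
      rwa [h5] at h4
theorem sum_word (s : Finset GolayPt) : ∑ p, word s p = (s.card : ZMod 2) := by
  simp only [word]
  rw [Finset.sum_boole]
  simp
end


/-- For the automorphism group of the length-24 binary Golay code of the definitions (the Mathieu group of degree 24) acting on binary words of length 24 by permuting coordinates, the only invariant subspaces of the space of all words are: zero, the span of the all-ones word, the code itself, the even-weight words, and the whole space. (So the permutation module has a unique composition series.) -/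
theorem result (W : Submodule (ZMod 2) (Cfsg.GolayPt → ZMod 2)) (hW : ∀ σ ∈ Cfsg.M24, ∀ w ∈ W, (fun p => w (σ.symm p)) ∈ W) : W = ⊥ ∨ W = Submodule.span (ZMod 2) {fun _ => (1 : ZMod 2)} ∨ W = Cfsg.golayCode ∨ (W : Set (Cfsg.GolayPt → ZMod 2)) = {w | ∑ p, w p = 0} ∨ W = ⊤ := by
  classical
  by_cases hle : W ≤ Cfsg.golayCode
  · rcases CfsgLib.Golay.inv_sub_code W hW hle with h | h | h
    · exact Or.inl h
    · exact Or.inr (Or.inl h)
    · exact Or.inr (Or.inr (Or.inl h))
  right; right; right
  -- pairs lie in W
  have hGinv : ∀ σ ∈ Cfsg.M24, ∀ w ∈ Cfsg.golayCode, (fun p => w (σ.symm p)) ∈ Cfsg.golayCode := by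
    intro σ hσ w hw
    rw [← CfsgLib.Golay.word_support₂ w, CfsgLib.Golay.word_smul]
    rw [← CfsgLib.Golay.mem_supports, CfsgLib.Golay.M24_smul_supports hσ, CfsgLib.Golay.mem_supports,
      CfsgLib.Golay.word_support₂]
    exact hw
  set V := W ⊔ Cfsg.golayCode with hVdef
  have hV : ∀ σ ∈ Cfsg.M24, ∀ w ∈ V, (fun p => w (σ.symm p)) ∈ V := by
    intro σ hσ w hw
    rw [hVdef, Submodule.mem_sup] at hw
    obtain ⟨y, hy, z, hz, rfl⟩ := hw
    rw [hVdef, Submodule.mem_sup]
    exact ⟨_, hW σ hσ y hy, _, hGinv σ hσ z hz, rfl⟩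
  obtain ⟨w, hw, hwG⟩ := SetLike.not_le_iff_exists.mp hle
  obtain ⟨t, ht1, ht2, ht3, -⟩ := CfsgLib.Golay.exists_leader V le_sup_right _ (Cfsg.support₂ w) rfl
    (by rw [CfsgLib.Golay.word_support₂]; exact (le_sup_left : W ≤ V) hw) (by rw [CfsgLib.Golay.word_support₂]; exact hwG)
  have htne : t.Nonempty := by
    rw [Finset.nonempty_iff_ne_empty]
    rintro rfl
    apply ht3
    rw [CfsgLib.Golay.word_empty]; exact zero_mem _
  obtain ⟨a0, b0, hab0, hpair⟩ := pair_of_leader hV ht1 htne ht2
  have hVpair : ∀ a b : Cfsg.GolayPt, a ≠ b → CfsgLib.Golay.word {a, b} ∈ V := fun a b hab =>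
    pairs_of_one hV hab0 hpair hab
  have hWpair : ∀ a b : Cfsg.GolayPt, a ≠ b → CfsgLib.Golay.word {a, b} ∈ W := by
    by_cases hGW : Cfsg.golayCode ≤ W
    · intro a b hab
      have := hVpair a b hab
      rwa [hVdef, sup_eq_left.mpr hGW] at this
    · have hno : ∀ s ∈ Cfsg.supports (Cfsg.golayCode : Set (Cfsg.GolayPt → ZMod 2)), CfsgLib.Golay.word s ∈ W →
          s = ∅ ∨ s = Finset.univ := by
        intro s hs hsW
        by_contra hc
        push Not at hc
        exact hGW (CfsgLib.Golay.code_le_of_word W hW hs (Finset.nonempty_iff_ne_empty.mp hc.1) hc.2 hsW)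
      have hor : ∀ a b : Cfsg.GolayPt, a ≠ b → CfsgLib.Golay.word {a, b} ∈ W ∨
          CfsgLib.Golay.word (symmDiff {a, b} Finset.univ) ∈ W := by
        intro a b hab
        have h1 := hVpair a b hab
        rw [hVdef, Submodule.mem_sup] at h1
        obtain ⟨y, hy, z, hz, hyz⟩ := h1
        set s := Cfsg.support₂ z with hs
        have hzs : CfsgLib.Golay.word s = z := CfsgLib.Golay.word_support₂ z
        have hsG : s ∈ Cfsg.supports (Cfsg.golayCode : Set (Cfsg.GolayPt → ZMod 2)) := by
          rw [CfsgLib.Golay.mem_supports, hzs]; exact hz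
        have hy' : y = CfsgLib.Golay.word (symmDiff {a, b} s) := by
          rw [← CfsgLib.Golay.word_add, hzs, ← hyz]
          have e : z + z = 0 := by funext p; exact CharTwo.add_self_eq_zero _
          rw [add_assoc, e, add_zero]
        rw [hy'] at hy
        have hσ : ∀ σ ∈ Cfsg.M24, σ a = a → σ b = b → σ • s = s := by
          intro σ hσ ha hb
          have h2 := CfsgLib.Golay.inv_word W hW hσ hy
          rw [Finset.smul_finset_symmDiff, smul_pair', ha, hb] at h2
          have h3 := CfsgLib.Golay.sd_word W hy h2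
          have h4 : symmDiff (symmDiff ({a, b} : Finset Cfsg.GolayPt) s) (symmDiff {a, b} (σ • s)) = symmDiff s (σ • s) := by
            rw [symmDiff_symmDiff_symmDiff_comm, symmDiff_self, bot_symmDiff]
          rw [h4] at h3
          have h5 := hno _ (CfsgLib.Golay.symmDiff_mem hsG ((CfsgLib.Golay.M24_smul_supports hσ).mpr hsG)) h3
          rcases h5 with h5 | h5
          · exact (symmDiff_eq_bot.mp h5).symm
          · exfalso
            have h6 : a ∈ symmDiff s (σ • s) := by rw [h5]; exact Finset.mem_univ _
            have h7 : a ∈ σ • s ↔ a ∈ s := by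
              have := CfsgLib.Golay.mem_smul_iff (g := σ) (s := s) (p := a)
              rwa [ha] at this
            rw [Finset.mem_symmDiff, h7] at h6
            tauto
        have hdich : (∀ x, x ≠ a → x ≠ b → x ∉ s) ∨ (∀ x, x ≠ a → x ≠ b → x ∈ s) := by
          by_contra hc
          push Not at hc
          obtain ⟨⟨x, hxa, hxb, hx⟩, ⟨y, hya, hyb, hy⟩⟩ := hc
          obtain ⟨g, hg, hgm⟩ := CfsgLib.Golay.trans_list (l := [a, b, x]) (l' := [a, b, y])
            (by simp [hab, hxa.symm, hxb.symm]) (by simp [hab, hya.symm, hyb.symm]) rfl (by simp)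
          simp only [List.map_cons, List.map_nil, List.cons.injEq, and_true] at hgm
          have h2 := hσ g hg hgm.1 hgm.2.1
          apply hy
          rw [← hgm.2.2, ← h2]
          exact CfsgLib.Golay.mem_smul_iff.mpr hx
        have hcs := CfsgLib.Golay.supports_card hsG
        rcases hdich with h2 | h2
        · left
          have h3 : s ⊆ {a, b} := by
            intro x hx
            by_contra hxn
            simp only [Finset.mem_insert, Finset.mem_singleton, not_or] at hxn
            exact h2 x hxn.1 hxn.2 hx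
          have h4 := Finset.card_le_card h3
          have h5 : ({a, b} : Finset Cfsg.GolayPt).card ≤ 2 := Finset.card_le_two
          have h6 : s = ∅ := by rw [← Finset.card_eq_zero]; omega
          rw [h6] at hy
          have e : symmDiff ({a, b} : Finset Cfsg.GolayPt) ∅ = {a, b} := symmDiff_bot _
          rwa [e] at hy
        · right
          have h3 : sᶜ ⊆ {a, b} := by
            intro x hx
            by_contra hxn
            simp only [Finset.mem_insert, Finset.mem_singleton, not_or] at hxn
            exact Finset.mem_compl.mp hx (h2 x hxn.1 hxn.2)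
          have h4 := Finset.card_le_card h3
          have h5 : ({a, b} : Finset Cfsg.GolayPt).card ≤ 2 := Finset.card_le_two
          have h7 := Finset.card_add_card_compl s
          have h24 : Fintype.card Cfsg.GolayPt = 24 := by decide
          have h6 : s = Finset.univ := by rw [← Finset.card_eq_iff_eq_univ]; omega
          rwa [h6] at hy
      by_cases hex : ∃ a b : Cfsg.GolayPt, a ≠ b ∧ CfsgLib.Golay.word {a, b} ∈ W
      · obtain ⟨a, b, hab, h⟩ := hex
        intro c d hcd
        exact pairs_of_one hW hab h hcd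
      · push Not at hex
        intro a c hac
        obtain ⟨b, hb⟩ : ∃ b : Cfsg.GolayPt, b ∉ [a, c] := by
          by_contra hcon
          push Not at hcon
          have h1 : (Finset.univ : Finset Cfsg.GolayPt) ⊆ [a, c].toFinset := fun z _ => List.mem_toFinset.mpr (hcon z)
          have h2 := Finset.card_le_card h1
          have h3 := [a, c].toFinset_card_le
          have h24 : (Finset.univ : Finset Cfsg.GolayPt).card = 24 := by decide
          simp only [List.length_cons, List.length_nil] at h3
          omega
        simp only [List.mem_cons, List.not_mem_nil, or_false, not_or] at hb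
        have h1 := (hor a b (fun h => hb.1 h.symm)).resolve_left (hex a b (fun h => hb.1 h.symm))
        have h2 := (hor b c hb.2).resolve_left (hex b c hb.2)
        have h3 := CfsgLib.Golay.sd_word W h1 h2
        have h4 : symmDiff (symmDiff ({a, b} : Finset Cfsg.GolayPt) Finset.univ) (symmDiff {b, c} Finset.univ) = symmDiff {a, b} {b, c} := by
          rw [symmDiff_symmDiff_symmDiff_comm, symmDiff_self, symmDiff_bot]
        rw [h4, pair_sd (fun h => hb.1 h.symm) hac hb.2] at h3
        exact h3
  have heven : ∀ s : Finset Cfsg.GolayPt, Even s.card → CfsgLib.Golay.word s ∈ W := fun s hs => even_le hWpair _ s rfl hs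
  have hE : ∀ v : Cfsg.GolayPt → ZMod 2, ∑ p, v p = 0 → v ∈ W := by
    intro v hv
    rw [← CfsgLib.Golay.word_support₂ v, sum_word] at hv
    rw [← CfsgLib.Golay.word_support₂ v]
    apply heven
    rw [ZMod.natCast_eq_zero_iff_even] at hv
    exact hv
  by_cases hodd : ∃ v ∈ W, ∑ p, v p ≠ 0
  · right
    obtain ⟨v, hv, hv1⟩ := hodd
    rw [eq_top_iff]
    intro x _
    by_cases hx : ∑ p, x p = 0
    · exact hE x hx
    · have h1 : ∑ p, (x + v) p = 0 := by
        simp only [Pi.add_apply, Finset.sum_add_distrib]
        have e1 := CfsgLib.Golay.zmod2_ne _ hx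
        have e2 := CfsgLib.Golay.zmod2_ne _ hv1
        rw [e1, e2]; decide
      have h2 := hE _ h1
      have h3 := sub_mem h2 hv
      rwa [add_sub_cancel_right] at h3
  · left
    push Not at hodd
    ext v
    exact ⟨fun h => hodd v h, fun h => hE v h⟩

end Cfsg.Agent.S5548
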