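import Cfsg.Statements.S5550
import Cfsg.Agent.Lib.GolayMod

set_option autoImplicit false
open Cfsg

open scoped Pointwise
namespace Cfsg.Agent.S5550

section
open Cfsg CfsgLib.Golay
open scoped Pointwise
/-- the transitivity used for the stabiliser of a code word -/
def TwoT (e X : Finset GolayPt) : Prop :=
  (∀ p ∈ X, ∀ q ∈ X, ∀ p' ∈ X, ∀ q' ∈ X, p ≠ q → p' ≠ q' → ∃ σ ∈ M24, σ • e = e ∧ σ p = p' ∧ σ q = q') ∧
  8 ≤ X.card ∧ (∀ x ∉ X, ∀ y ∉ X, ∃ σ ∈ M24, σ • e = e ∧ σ x = y) ∧ (Xᶜ.card = 0 ∨ 8 ≤ Xᶜ.card)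
theorem twoT_univ {e : Finset GolayPt} (h : e = ∅ ∨ e = Finset.univ) : TwoT e Finset.univ := by
  have he : ∀ σ : Equiv.Perm GolayPt, σ • e = e := by
    intro σ
    rcases h with rfl | rfl
    · exact Finset.smul_finset_empty σ
    · exact Finset.smul_finset_univ
  refine ⟨?_, by decide, fun x hx => absurd (Finset.mem_univ x) hx, by left; decide⟩
  intro p _ q _ p' _ q' _ h1 h2
  obtain ⟨g, hg, hgm⟩ := trans_list (l := [p, q]) (l' := [p', q']) (by simp [h1]) (by simp [h2]) rfl (by simp)
  simp only [List.map_cons, List.map_nil, List.cons.injEq, and_true] at hgm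
  exact ⟨g, hg, he g, hgm.1, hgm.2⟩
theorem ext6 {o : Finset GolayPt} (ho : o ∈ octads) {l : List GolayPt} (hl : l.Nodup) (hlo : ∀ p ∈ l, p ∈ o)
    (h6 : l.length ≤ 6) : ∃ l', (l ++ l').Nodup ∧ (l ++ l').length = 6 ∧ ∀ p ∈ l ++ l', p ∈ o :=
  exists_extend_in o 6 (by rw [card_octad ho]; norm_num) l hl hlo h6
theorem frame_l {o o' : Finset GolayPt} (ho : o ∈ octads) (ho' : o' ∈ octads) {l l' : List GolayPt} (hl : l.Nodup) (hl' : l'.Nodup)
    (hlo : ∀ p ∈ l, p ∈ o) (hlo' : ∀ p ∈ l', p ∈ o') (h6 : l.length = 6) (h6' : l'.length = 6) {x y : GolayPt} (hx : x ∉ o) (hy : y ∉ o') :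
    ∃ g ∈ M24, g • o = o' ∧ l.map g = l' ∧ g x = y := by
  match l, h6, l', h6' with
  | [a, b, c, d, e, f], _, [a', b', c', d', e', f'], _ =>
    obtain ⟨g, hg, h, e0, e1, e2, e3, e4, e5, e6⟩ := frame_trans ho (hlo a (by simp)) (hlo b (by simp)) (hlo c (by simp))
      (hlo d (by simp)) (hlo e (by simp)) (hlo f (by simp)) hl hx ho' (hlo' a' (by simp)) (hlo' b' (by simp))
      (hlo' c' (by simp)) (hlo' d' (by simp)) (hlo' e' (by simp)) (hlo' f' (by simp)) hl' hy
    exact ⟨g, hg, h, by simp [e0, e1, e2, e3, e4, e5], e6⟩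
theorem exists_out {o : Finset GolayPt} (ho : o ∈ octads) : ∃ x, x ∉ o := by
  by_contra hc
  push Not at hc
  have : o = Finset.univ := by ext x; simp [hc x]
  have h8 := card_octad ho
  rw [this] at h8
  have h24 : (Finset.univ : Finset GolayPt).card = 24 := by decide
  omega
theorem twoT_octad {o e : Finset GolayPt} (ho : o ∈ octads) (he : e = o ∨ e = oᶜ) : TwoT e o := by
  have hst : ∀ σ : Equiv.Perm GolayPt, σ • o = o → σ • e = e := by
    intro σ hσ
    rcases he with rfl | rfl
    · exact hσ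
    · rw [smul_compl, hσ]
  have h24 : Fintype.card GolayPt = 24 := by decide
  refine ⟨?_, by rw [card_octad ho], ?_, by right; rw [Finset.card_compl, card_octad ho, h24]; norm_num⟩
  · intro p hp q hq p' hp' q' hq' h1 h2
    obtain ⟨l, hl1, hl2, hl3⟩ := ext6 ho (l := [p, q]) (by simp [h1]) (by simp [hp, hq]) (by simp)
    obtain ⟨l', hl1', hl2', hl3'⟩ := ext6 ho (l := [p', q']) (by simp [h2]) (by simp [hp', hq']) (by simp)
    obtain ⟨x, hx⟩ := exists_out ho
    obtain ⟨g, hg, h3, h4, -⟩ := frame_l ho ho hl1 hl1' hl3 hl3' hl2 hl2' hx hx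
    simp only [List.cons_append, List.nil_append, List.map_cons, List.cons.injEq] at h4
    exact ⟨g, hg, hst g h3, h4.1, h4.2.1⟩
  · intro x hx y hy
    obtain ⟨l, hl1, hl2, hl3⟩ := ext6 ho (l := []) (by simp) (by simp) (by simp)
    obtain ⟨g, hg, h3, -, h5⟩ := frame_l ho ho hl1 hl1 hl3 hl3 hl2 hl2 hx hy
    exact ⟨g, hg, hst g h3, h5⟩
theorem twoT_dod {d : Finset GolayPt} (hd : d ∈ dodecads) : TwoT d d := by
  have h24 : Fintype.card GolayPt = 24 := by decide
  have h12 : d.card = 12 := hd.2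
  refine ⟨?_, by rw [h12]; norm_num, ?_, by right; rw [Finset.card_compl, h12, h24]; norm_num⟩
  · intro p hp q hq p' hp' q' hq' h1 h2
    obtain ⟨g, hg, h3, h4⟩ := dod_trans hd hd (l := [p, q]) (l' := [p', q']) (by simp [h1]) (by simp [h2])
      (by simp [hp, hq]) (by simp [hp', hq']) rfl (by simp)
    simp only [List.map_cons, List.map_nil, List.cons.injEq, and_true] at h4
    exact ⟨g, hg, h3, h4.1, h4.2⟩
  · intro x hx y hy
    obtain ⟨g, hg, h3, h4⟩ := dod_trans (compl_mem_dodecads hd) (compl_mem_dodecads hd) (l := [x]) (l' := [y]) (by simp) (by simp)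
      (by simp [hx]) (by simp [hy]) rfl (by simp)
    simp only [List.map_cons, List.map_nil, List.cons.injEq, and_true] at h4
    refine ⟨g, hg, ?_, h4⟩
    rw [smul_compl] at h3
    exact compl_injective h3
theorem exists_X {e : Finset GolayPt} (he : e ∈ supports (golayCode : Set (GolayPt → ZMod 2))) : ∃ X, TwoT e X := by
  rcases supports_card he with h | h | h | h | h
  · exact ⟨_, twoT_univ (Or.inl (Finset.card_eq_zero.mp h))⟩
  · exact ⟨e, twoT_octad ⟨he, h⟩ (Or.inl rfl)⟩
  · exact ⟨e, twoT_dod ⟨he, h⟩⟩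
  · have hcc : eᶜ ∈ octads := by
      refine ⟨?_, ?_⟩
      · rw [mem_supports_iff, mask_compl']
        rw [mem_supports_iff] at he
        exact isCode_xor (by decide +kernel) he
      · rw [Finset.card_compl, h]; rfl
    exact ⟨eᶜ, twoT_octad hcc (Or.inr (compl_compl e).symm)⟩
  · refine ⟨_, twoT_univ (Or.inr ?_)⟩
    rw [← Finset.card_eq_iff_eq_univ, h]; rfl
/-- no small set or sextet is fixed -/
theorem no_fixed {e X t : Finset GolayPt} (hX : TwoT e X) (ht : t.card ≤ 4) (htG : t ∉ supports (golayCode : Set (GolayPt → ZMod 2)))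
    (h : ∀ σ ∈ M24, σ • e = e → symmDiff (σ • t) t ∈ supports (golayCode : Set (GolayPt → ZMod 2))) : False := by
  classical
  obtain ⟨h2, h8, h1, hc⟩ := hX
  have htne : t.Nonempty := by
    rw [Finset.nonempty_iff_ne_empty]
    rintro rfl
    apply htG
    rw [mem_supports_iff, mask_empty]; exact isCode_zero
  have hcard : ∀ σ : Equiv.Perm GolayPt, (symmDiff (σ • t) t).card + 2 * (σ • t ∩ t).card = 2 * t.card := by
    intro σ
    have := card_symmDiff' (σ • t) t
    rw [card_smul'] at this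
    omega
  by_cases h3 : t.card ≤ 3
  · have hfix : ∀ σ ∈ M24, σ • e = e → σ • t = t := by
      intro σ hσ hσe
      have h4 := supports_card (h σ hσ hσe)
      have h5 := hcard σ
      have h6 : (symmDiff (σ • t) t).card = 0 := by omega
      rw [Finset.card_eq_zero] at h6
      exact symmDiff_eq_bot.mp h6
    obtain ⟨x, hx⟩ := htne
    by_cases hxX : x ∈ X
    · have hsub : X ⊆ t := by
        intro y hy
        by_cases hxy : x = y
        · rw [← hxy]; exact hx
        · obtain ⟨σ, hσ, hσe, hσx, -⟩ := h2 x hxX y hy y hy x hxX hxy (Ne.symm hxy)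
          rw [← hσx, ← hfix σ hσ hσe]
          exact mem_smul_iff.mpr hx
      have := Finset.card_le_card hsub
      omega
    · have hsub : Xᶜ ⊆ t := by
        intro y hy
        rw [Finset.mem_compl] at hy
        obtain ⟨σ, hσ, hσe, hσx⟩ := h1 x hxX y hy
        rw [← hσx, ← hfix σ hσ hσe]
        exact mem_smul_iff.mpr hx
      have h5 := Finset.card_le_card hsub
      have h6 : 0 < Xᶜ.card := Finset.card_pos.mpr ⟨x, Finset.mem_compl.mpr hxX⟩
      omega
  · have h4 : t.card = 4 := by omega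
    have hS := sext_mem h4
    have hfix : ∀ σ ∈ M24, σ • e = e → σ • sext t = sext t := by
      intro σ hσ hσe
      rw [smul_sext hσ h4, sext_eq_iff (by rw [card_smul', h4]) h4, ← mask_xor, ← mem_supports_iff]
      exact h σ hσ hσe
    have hS6 : (sext t).card = 6 := hS.1
    choose φ hφ1 hφ2 using fun p => sextet_covers hS p
    obtain ⟨p, hp, q, hq, hpq, hpqo⟩ := Finset.exists_ne_map_eq_of_card_lt_of_maps_to
      (s := X) (t := sext t) (f := φ) (by omega) (fun x _ => hφ1 x)
    have hu4 : (φ p).card = 4 := hS.2.1 _ (hφ1 p)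
    obtain ⟨r, hr, hru⟩ : ∃ r ∈ X, r ∉ φ p := by
      by_contra hcon
      push Not at hcon
      have := Finset.card_le_card (show X ⊆ φ p from hcon)
      omega
    have hqu : q ∈ φ p := by rw [hpqo]; exact hφ2 q
    have hpr : p ≠ r := fun h => hru (h ▸ hφ2 p)
    obtain ⟨σ, hσ, hσe, hσp, hσq⟩ := h2 p hp q hq p hp r hr hpq hpr
    have h5 : σ • φ p ∈ sext t := by
      rw [← hfix σ hσ hσe]; exact mem_smul_fam.mpr (hφ1 p)
    have h6 : σ • φ p = φ p := by
      by_contra hne
      have h7 := sextet_disjoint hS h5 (hφ1 p) hne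
      have h9 := mem_smul_iff (g := σ) (s := φ p) (p := p)
      rw [hσp] at h9
      exact (Finset.disjoint_left.mp h7) (h9.mpr (hφ2 p)) (hφ2 p)
    apply hru
    rw [← hσq, ← h6]
    exact mem_smul_iff.mpr hqu
end


/-- Let u be a word of the length-24 binary Golay code of the definitions (possibly zero or all-ones) and w any binary word of length 24 outside the code. Then some automorphism of the code (a coordinate permutation preserving it) fixes u but moves w to a word not congruent to w modulo the code: the stabilizer of a codeword fixes no non-zero element of the quotient of the space of all words by the code. -/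
theorem result (u : (Cfsg.GolayPt → ZMod 2)) (hu : u ∈ Cfsg.golayCode) (w : (Cfsg.GolayPt → ZMod 2)) (hw : w ∉ Cfsg.golayCode) : ∃ σ ∈ Cfsg.M24, (fun p => u (σ.symm p)) = u ∧ (fun p => w (σ.symm p)) - w ∉ Cfsg.golayCode := by
  classical
  by_contra hcon
  push Not at hcon
  set s := Cfsg.support₂ w with hs
  set e := Cfsg.support₂ u with he
  have hws : CfsgLib.Golay.word s = w := CfsgLib.Golay.word_support₂ w
  have hue : CfsgLib.Golay.word e = u := CfsgLib.Golay.word_support₂ u
  have heG : e ∈ Cfsg.supports (Cfsg.golayCode : Set (Cfsg.GolayPt → ZMod 2)) := by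
    rw [CfsgLib.Golay.mem_supports, hue]; exact hu
  obtain ⟨t, ht1, -, ht3, ht4⟩ := CfsgLib.Golay.exists_leader ⊤ le_top _ s rfl Submodule.mem_top (by rw [hws]; exact hw)
  obtain ⟨X, hX⟩ := exists_X heG
  refine no_fixed hX ht1 (by rw [CfsgLib.Golay.mem_supports]; exact ht3) ?_
  intro σ hσ hσe
  have h1 := hcon σ hσ (by rw [← hue, CfsgLib.Golay.word_smul, hσe])
  have h2 : (fun p => w (σ.symm p)) - w = CfsgLib.Golay.word (symmDiff (σ • s) s) := by
    rw [← CfsgLib.Golay.word_add, ← CfsgLib.Golay.word_smul, hws]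
    funext p
    exact CharTwo.sub_eq_add _ _
  rw [h2, ← CfsgLib.Golay.mem_supports] at h1
  rw [← CfsgLib.Golay.mem_supports] at ht4
  have h3 : symmDiff (σ • t) t = symmDiff (symmDiff (σ • s) s) (symmDiff (symmDiff (σ • s) (σ • t)) (symmDiff s t)) := by
    rw [symmDiff_symmDiff_symmDiff_comm, symmDiff_symmDiff_cancel_left, symmDiff_symmDiff_cancel_left]
  rw [h3]
  apply CfsgLib.Golay.symmDiff_mem h1
  apply CfsgLib.Golay.symmDiff_mem _ ht4
  rw [← Finset.smul_finset_symmDiff]
  exact (CfsgLib.Golay.M24_smul_supports hσ).mpr ht4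

end Cfsg.Agent.S5550
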