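import Cfsg.Statements.S5553
import Cfsg.Agent.Lib.Leech28

set_option autoImplicit false
open Cfsg

namespace Cfsg.Agent.S5553

/-- The Leech lattice of the definitions has an additive subgroup A containing twice the lattice, of index 2^12 in the lattice, all of whose vectors have squared length divisible by 32: the invariant quadratic form 'squared length over 16 modulo 2' on the lattice modulo twice the lattice (a 24-dimensional space over the field with two elements) vanishes on a 12-dimensional subspace, so it is of plus type. -/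
theorem result : ∃ A : AddSubgroup (Cfsg.GolayPt → ℤ), A ≤ Cfsg.leechLattice ∧ (∀ v ∈ Cfsg.leechLattice, (2 : ℤ) • v ∈ A) ∧ (A.addSubgroupOf Cfsg.leechLattice).index = 2 ^ 12 ∧ ∀ v ∈ A, (32 : ℤ) ∣ Cfsg.sqNorm v := by
  refine ⟨(CfsgLib.Leech.tt.comap CfsgLib.Leech.red4).map Cfsg.leechLattice.subtype, ?_, ?_, ?_, ?_⟩
  · rintro _ ⟨v, -, rfl⟩
    exact v.2
  · intro v hv
    refine ⟨⟨v, hv⟩ + ⟨v, hv⟩, ?_, ?_⟩
    · show CfsgLib.Leech.red4 (⟨v, hv⟩ + ⟨v, hv⟩) ∈ CfsgLib.Leech.tt
      rw [CfsgLib.Leech.tt_mem, map_add]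
      have key : ∀ a : ZMod 4, a + a = 0 ∨ a + a = 2 := by decide
      have hpar : (∀ i, CfsgLib.Leech.red4 ⟨v, hv⟩ i + CfsgLib.Leech.red4 ⟨v, hv⟩ i = 0) ∨ (∀ i, CfsgLib.Leech.red4 ⟨v, hv⟩ i + CfsgLib.Leech.red4 ⟨v, hv⟩ i = 2) := by
        have h1 : CfsgLib.Leech.red4 ⟨v, hv⟩ ∈ Set.range CfsgLib.Leech.F4 := by
          rw [← CfsgLib.Leech.range_red4]; exact ⟨_, rfl⟩
        obtain ⟨⟨b, C, hC⟩, hb⟩ := h1
        rw [← hb]
        cases b
        · left
          intro i
          show ((if false then 1 else 0 : ZMod 4) + (if i ∈ C then 2 else 0)) + ((if false then 1 else 0 : ZMod 4) + (if i ∈ C then 2 else 0)) = 0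
          by_cases hi : i ∈ C
          · rw [if_pos hi]; decide
          · rw [if_neg hi]; decide
        · right
          intro i
          show ((if true then 1 else 0 : ZMod 4) + (if i ∈ C then 2 else 0)) + ((if true then 1 else 0 : ZMod 4) + (if i ∈ C then 2 else 0)) = 2
          by_cases hi : i ∈ C
          · rw [if_pos hi]; decide
          · rw [if_neg hi]; decide
      rcases hpar with h | h
      · left; funext i; exact h i
      · right; funext i; exact h i
    · rw [two_zsmul]; rfl
  · have h : ((CfsgLib.Leech.tt.comap CfsgLib.Leech.red4).map Cfsg.leechLattice.subtype).addSubgroupOf Cfsg.leechLattice = CfsgLib.Leech.tt.comap CfsgLib.Leech.red4 := by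
      exact AddSubgroup.comap_map_eq_self_of_injective Subtype.val_injective _
    rw [h, CfsgLib.Leech.index_tt]; norm_num
  · rintro _ ⟨v, hv, rfl⟩
    exact CfsgLib.Leech.norm_tt hv

end Cfsg.Agent.S5553
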