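import Cfsg.Statements.S5594
import Cfsg.Agent.Lib.Leech26

set_option autoImplicit false
open Cfsg

namespace Cfsg.Agent.S5594

/-- The automorphism group of the Leech lattice contains the negation map, and the subgroup of order 2 it generates has no complement: the automorphism group is a non-split extension of its quotient by that subgroup (it is not the direct product of a group of order 2 with the first Conway group). -/
theorem result :
    ∃ n : ↥Cfsg.Co0, (∀ v : ↥Cfsg.leechLattice, ((n • v : ↥Cfsg.leechLattice) : Cfsg.GolayPt → ℤ) = -(v : Cfsg.GolayPt → ℤ)) ∧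
    ∀ K : Subgroup ↥Cfsg.Co0, ¬ (Subgroup.zpowers n).IsComplement' K := by
  refine ⟨CfsgLib.Leech.negOne, fun v => ?_, fun K hK => ?_⟩
  · rw [CfsgLib.Leech.negOne_smul]; rfl
  · have h1 := hK.index_eq_card
    have h2 : K.index = 2 := by
      rw [h1, Nat.card_zpowers]
      exact orderOf_eq_prime (by rw [pow_two]; exact CfsgLib.Leech.negOne_sq) CfsgLib.Leech.negOne_ne
    have h3 : CfsgLib.Leech.negOne ∈ K := by
      rw [← CfsgLib.Leech.iOne_sq]
      exact Subgroup.mul_self_mem_of_index_two h2 _
    have h4 := hK.disjoint
    rw [Subgroup.disjoint_def] at h4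
    exact CfsgLib.Leech.negOne_ne (h4 (Subgroup.mem_zpowers _) h3)

end Cfsg.Agent.S5594
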