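import Cfsg.Statements.S5601
import Cfsg.Agent.Lib.GolayCnt
import Cfsg.Agent.S5602

set_option autoImplicit false
open scoped Pointwise
open Cfsg

set_option linter.style.haveILetI false
namespace Cfsg.Agent.S5601

section
open Cfsg CfsgLib.Golay
open scoped Pointwise
theorem fix_zpowers {X : Subgroup ↥M24} {x : ↥M24} (hx : X = Subgroup.zpowers x) :
    {p : GolayPt | ∀ y ∈ X, ((y : ↥M24) : Equiv.Perm GolayPt) p = p}.ncard =
      (Finset.univ.filter fun p => (x : Equiv.Perm GolayPt) p = p).card := by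
  rw [← Set.ncard_coe_finset]
  congr 1
  ext p
  rw [Set.mem_setOf_eq, Finset.mem_coe, Finset.mem_filter]
  constructor
  · intro h; exact ⟨Finset.mem_univ _, h x (by rw [hx]; exact Subgroup.mem_zpowers x)⟩
  · rintro ⟨-, h⟩ y hy
    rw [hx, Subgroup.mem_zpowers_iff] at hy
    obtain ⟨n, rfl⟩ := hy
    have h1 : x ∈ MulAction.stabilizer ↥M24 p := h
    exact Subgroup.zpow_mem _ h1 n
theorem gen3' {X : Subgroup ↥M24} (hX : Nat.card X = 3) : ∃ x : ↥M24, X = Subgroup.zpowers x ∧ orderOf (x : Equiv.Perm GolayPt) = 3 := by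
  haveI : Fact (Nat.Prime 3) := ⟨by norm_num⟩
  obtain ⟨x, hx⟩ := exists_prime_orderOf_dvd_card' (G := X) 3 (by rw [hX])
  refine ⟨x, ?_, ?_⟩
  · have h1 : Subgroup.zpowers (x : ↥M24) ≤ X := by rw [Subgroup.zpowers_le]; exact x.2
    symm
    apply Subgroup.eq_of_le_of_card_ge h1
    rw [Nat.card_zpowers, hX, Subgroup.orderOf_coe, hx]
  · rw [Subgroup.orderOf_coe, Subgroup.orderOf_coe, hx]
theorem exi {T : ℕ} (hT : good T = true) (h3 : ordB 3 T = true) (h0 : Nat.beq (img T 6) 6 = false) :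
    ∃ X : Subgroup ↥M24, Nat.card X = 3 ∧ ∃ g : ↥M24, X = Subgroup.zpowers g ∧ Packs T g := by
  obtain ⟨g, hg, hgp⟩ := exists_of_good hT
  have h2 : orderOf g = 3 := by
    apply orderOf_eq_prime
    · ext1 p
      apply idx_injective
      have h := iter_spec hgp 3 p
      rw [← h, Equiv.Perm.one_apply]
      exact Nat.eq_of_beq_eq_true (List.all_eq_true.mp h3 _ (mem_ixs.mpr (idx_lt p)))
    · rintro rfl
      have := hgp (pt 6)
      rw [Equiv.Perm.one_apply, idx_pt (by norm_num)] at this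
      rw [← this] at h0
      simp at h0
  refine ⟨Subgroup.zpowers ⟨g, hg⟩, ?_, ⟨g, hg⟩, rfl, hgp⟩
  rw [Nat.card_zpowers, Subgroup.orderOf_mk, h2]
end


/-- The group of the length-24 code has exactly two conjugacy classes of subgroups of order 3: a subgroup of order 3 fixes either exactly 6 of the 24 points or none of them, both cases occur, and two subgroups of order 3 with the same number of fixed points are conjugate. -/
theorem result : (∀ X : Subgroup ↥Cfsg.M24, Nat.card X = 3 → {p : Cfsg.GolayPt | ∀ x ∈ X, ((x : ↥Cfsg.M24) : Equiv.Perm Cfsg.GolayPt) p = p}.ncard = 6 ∨ {p : Cfsg.GolayPt | ∀ x ∈ X, ((x : ↥Cfsg.M24) : Equiv.Perm Cfsg.GolayPt) p = p}.ncard = 0) ∧ (∃ X : Subgroup ↥Cfsg.M24, Nat.card X = 3 ∧ {p : Cfsg.GolayPt | ∀ x ∈ X, ((x : ↥Cfsg.M24) : Equiv.Perm Cfsg.GolayPt) p = p}.ncard = 6) ∧ (∃ X : Subgroup ↥Cfsg.M24, Nat.card X = 3 ∧ {p : Cfsg.GolayPt | ∀ x ∈ X, ((x : ↥Cfsg.M24)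 : Equiv.Perm Cfsg.GolayPt) p = p}.ncard = 0) ∧ ∀ X Y : Subgroup ↥Cfsg.M24, Nat.card X = 3 → Nat.card Y = 3 → {p : Cfsg.GolayPt | ∀ x ∈ X, ((x : ↥Cfsg.M24) : Equiv.Perm Cfsg.GolayPt) p = p}.ncard = {p : Cfsg.GolayPt | ∀ x ∈ Y, ((x : ↥Cfsg.M24) : Equiv.Perm Cfsg.GolayPt) p = p}.ncard → ∃ k : ↥Cfsg.M24, MulAut.conj k • X = Y := by
  have haux : ∀ {T : ℕ} {x y k k' : Equiv.Perm Cfsg.GolayPt}, k ∈ Cfsg.M24 → k' ∈ Cfsg.M24 →
        CfsgLib.Golay.Packs T (k * x * k⁻¹) → CfsgLib.Golay.Packs T (k' * y * k'⁻¹) →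
        ∃ k ∈ Cfsg.M24, k * x * k⁻¹ = y := by
    intro T x y k k' hk hk' h3 h4
    have h5 := h3.eq h4
    refine ⟨k'⁻¹ * k, mul_mem (inv_mem hk') hk, ?_⟩
    have : k'⁻¹ * k * x * (k'⁻¹ * k)⁻¹ = k'⁻¹ * (k * x * k⁻¹) * k' := by group
    rw [this, h5]; group
  refine ⟨?_, ?_, ?_, ?_⟩
  · intro X hX
    obtain ⟨x, hx, hx3⟩ := gen3' hX
    rw [fix_zpowers hx]
    rcases Cfsg.Agent.S5602.cls x.2 hx3 with ⟨_, _, _, h1⟩ | ⟨_, _, _, h1⟩
    · left; exact h1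
    · right; exact h1
  · obtain ⟨X, hX, g, hg, hgp⟩ := exi (T := CfsgLib.Golay.r3A) (by decide +kernel) (by decide +kernel) (by decide +kernel)
    refine ⟨X, hX, ?_⟩
    rw [fix_zpowers hg, CfsgLib.Golay.fix_eq (m := 0x3f) (by decide +kernel) hgp, CfsgLib.Golay.card_eq_pop,
      CfsgLib.Golay.mask_toFS (by norm_num)]
    decide +kernel
  · obtain ⟨X, hX, g, hg, hgp⟩ := exi (T := CfsgLib.Golay.r3B) (by decide +kernel) (by decide +kernel) (by decide +kernel)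
    refine ⟨X, hX, ?_⟩
    rw [fix_zpowers hg, CfsgLib.Golay.fix_eq (m := 0) (by decide +kernel) hgp, CfsgLib.Golay.card_eq_pop,
      CfsgLib.Golay.mask_toFS (by norm_num)]
    decide +kernel
  · intro X Y hX hY h
    obtain ⟨x, hx, hx3⟩ := gen3' hX
    obtain ⟨y, hy, hy3⟩ := gen3' hY
    rw [fix_zpowers hx, fix_zpowers hy] at h
    have key : ∃ k ∈ Cfsg.M24, k * (x : Equiv.Perm Cfsg.GolayPt) * k⁻¹ = y := by
      rcases Cfsg.Agent.S5602.cls x.2 hx3 with ⟨k, hk, hp, h1⟩ | ⟨k, hk, hp, h1⟩ <;>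
        rcases Cfsg.Agent.S5602.cls y.2 hy3 with ⟨k', hk', hp', h1'⟩ | ⟨k', hk', hp', h1'⟩
      · exact haux hk hk' hp hp'
      · rw [h1, h1'] at h; norm_num at h
      · rw [h1, h1'] at h; norm_num at h
      · exact haux hk hk' hp hp'
    obtain ⟨k, hk, hkx⟩ := key
    refine ⟨⟨k, hk⟩, ?_⟩
    rw [hx, hy]
    have h2 : (⟨k, hk⟩ : ↥Cfsg.M24) * x * (⟨k, hk⟩ : ↥Cfsg.M24)⁻¹ = y := Subtype.ext hkx
    rw [← h2]
    exact MonoidHom.map_zpowers (MulAut.conj (⟨k, hk⟩ : ↥Cfsg.M24)).toMonoidHom x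

end Cfsg.Agent.S5601
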