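import Cfsg.Statements.S5603
import Cfsg.Agent.Lib.GolayCnt
import Cfsg.Agent.S5602

set_option autoImplicit false
open scoped Pointwise
open Cfsg

namespace Cfsg.Agent.S5603

/-- A fixed-point-free element of order 3 of the group of the length-24 code maps to themselves exactly 7 sextets and exactly 15 trios. -/
theorem result (g : Equiv.Perm Cfsg.GolayPt) (hg : g ∈ Cfsg.M24) (h₃ : orderOf g = 3) (h₀ : ∀ p, g p ≠ p) : {S : Finset (Finset Cfsg.GolayPt) | S ∈ Cfsg.sextets ∧ g • S = S}.ncard = 7 ∧ {T : Finset (Finset Cfsg.GolayPt) | T ∈ Cfsg.trios ∧ g • T = T}.ncard = 15 := by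
  rcases Cfsg.Agent.S5602.cls hg h₃ with ⟨_, _, _, h1⟩ | ⟨k, hk, hp, h1⟩
  · exfalso
    have : (Finset.univ.filter fun p => g p = p) = ∅ := by
      rw [Finset.filter_eq_empty_iff]; intro p _; exact h₀ p
    rw [this] at h1; simp at h1
  · have hM : k * g * k⁻¹ ∈ Cfsg.M24 := mul_mem (mul_mem hk hg) (inv_mem hk)
    refine ⟨?_, ?_⟩
    · rw [CfsgLib.Golay.fixed_fam_conj (CfsgLib.Golay.sextets_smul_iff hk)]
      exact CfsgLib.Golay.fixed_sextet hM hp (by decide +kernel)
    · rw [CfsgLib.Golay.fixed_fam_conj (CfsgLib.Golay.trios_smul_iff hk)]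
      exact CfsgLib.Golay.fixed_trio hM hp (by decide +kernel)

end Cfsg.Agent.S5603
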