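import Cfsg.Statements.S5604
import Cfsg.Agent.Lib.GolayElt2
import Cfsg.Agent.Lib.GolayM

set_option autoImplicit false
open scoped Pointwise
open Cfsg

open scoped Pointwise
set_option linter.style.haveILetI false
namespace Cfsg.Agent.S5604

section
open Cfsg CfsgLib.Golay
open scoped Pointwise
def lA' : List (ℕ × ℕ) := [(0, 0xbdab49ca307b9ac5a928398a418820), (1, 0x99a11426a55da8cb9e4d03dca20c41), (2, 0x43cb56ca0eb9a2c981340aec751062), (3, 0x6add0a24b69beac4065115cc03a883), (4, 0xa5ec58c9c642e0c689351cde101d44), (5, 0x389439ca30239a95d581b980fa5905), (6, 0xb55171b002291520b92f69e9382e26), (7, 0x5ba2dba6953150c7925355a0310407), (8, 0xce474973534c985d822c4357d2c8), (10, 0x796885c9b1b426c30d3723aa2080ea), (11, 0x7968853044b1c1219937886ad74e0b), (13, 0x900ab26e83d1f22cd83754505c4cd), (14, 0xce4426a555a92bc1829bc2b899ae), (15, 0x19c408c9c60ae096d98aa4c882deaf), (16, 0x50482ba695195127c5805d8e66ba70), (17, 0xa5ec523023428f213535301ee9c171),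 (19, 0x389432a5f7222d2aad8185011335d3), (20, 0x1282734a6d0456972184b4065bd5f4), (21, 0x8ccce5304469c091d25078576416f5), (22, 0x900a6ca0e39a299958342c57abe96), (23, 0x50482848cb1cdc98bd80ab4f4b20b7)]
def LC : List ℕ := [0x835662a5f78a2ccaaa4e3d26418820, 0xbdab49ca307b9ac5a928398a418820]
def LN : List ℕ := [0x33a0b2a6d46bd0cb9e511d66250480, 0x5c4d02a515759eca0e4d55e6139040, 0x835662a5f78a2ccaaa4e3d26418820, 0xa22f59c9a6b45cc81d2f1aca250480, 0xabe979c9cb4362c30d36540a139040, 0xbdab49ca307b9ac5a928398a418820]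
def pre : ℕ → ℕ
  | 1 => 0xbdab49ca307b9ac5a928398a418820 | 2 => 0x935833062f85d532adc9b568839040 | 3 => 0x52293bb98f58531940cda949611c60 | 4 => 0xa9cd383dc945ed11358b28e5450480 | 5 => 0xa9da65a2657a6f063852b123408d40 | _ => 0xce057d85473251b992bab468228e0
def cI (i T : ℕ) : Bool := ixs.all fun x => Nat.beq (img T (img r7A x)) (iter r7A i (img T x))
theorem chkF : allC (fun m => or (not (Nat.beq (pop m) 8)) (or (not (Nat.beq (act r7A m) m)) (mem3 m 5279 1009728 15762208))) rows 0 = true := by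
  decide +kernel
theorem chkA : chkTr (fun P => commB P r7A) 0 16510463 lA' = true := by decide +kernel
theorem chkN : ∀ i ∈ [1, 2, 3, 4, 5, 6], allS4 (fun P Q R => or (not (cI i (mulP (mulP (pre i) P) (mulP Q R))))
    (LN.any fun n => Nat.beq n (mulP (mulP (pre i) P) (mulP Q R)))) = true := by decide +kernel
theorem chkC : allS4 (fun P Q R => or (not (cI 1 (mulP (mulP (pre 1) P) (mulP Q R))))
    (LC.any fun n => Nat.beq n (mulP (mulP (pre 1) P) (mulP Q R)))) = true := by decide +kernel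
theorem chkP : ∀ i ∈ [1, 2, 3, 4, 5, 6], good (pre i) = true ∧ img (pre i) 0 = 0 ∧ img (pre i) 1 = iter r7A i 0 ∧
    img (pre i) 2 = iter r7A (2 * i) 0 ∧ img (pre i) 3 = iter r7A (3 * i) 0 := by decide +kernel
theorem chkLN : LN.all (fun P => and (good P) (and (Nat.beq (img P 0) 0) (or (cI 1 P) (or (cI 2 P) (cI 4 P))))) = true := by decide +kernel
theorem chkLC : LC.all (fun P => and (good P) (and (Nat.beq (img P 0) 0) (cI 1 P))) = true := by decide +kernel

theorem norm_iff {G : Type*} [Group G] [Finite G] (y g : G) :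
    g ∈ Subgroup.normalizer (Subgroup.zpowers y : Set G) ↔ g * y * g⁻¹ ∈ Subgroup.zpowers y := by
  constructor
  · intro h
    exact (Subgroup.mem_normalizer_iff.mp h y).mp (Subgroup.mem_zpowers y)
  · intro h
    apply Subgroup.mem_normalizer_fintype
    intro n hn
    obtain ⟨z, rfl⟩ := hn
    show g * y ^ z * g⁻¹ ∈ Subgroup.zpowers y
    rw [← conj_zpow]
    exact Subgroup.zpow_mem _ h z
def NM (t : Equiv.Perm GolayPt) : Subgroup (Equiv.Perm GolayPt) :=
  M24 ⊓ Subgroup.normalizer (Subgroup.zpowers t : Set (Equiv.Perm GolayPt))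
theorem mem_NM {t g : Equiv.Perm GolayPt} : g ∈ NM t ↔ g ∈ M24 ∧ g * t * g⁻¹ ∈ Subgroup.zpowers t := by
  rw [NM, Subgroup.mem_inf, norm_iff]
theorem cI_spec {i T : ℕ} {t g : Equiv.Perm GolayPt} (ht : Packs r7A t) (hT : Packs T g) :
    cI i T = true ↔ g * t * g⁻¹ = t ^ i := by
  rw [mul_inv_eq_iff_eq_mul, cI, List.all_eq_true]
  constructor
  · intro h
    ext1 p
    apply idx_injective
    have h1 := Nat.eq_of_beq_eq_true (h (idx p) (mem_ixs.mpr (idx_lt p)))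
    rw [← ht, ← hT, ← hT, iter_spec ht] at h1
    exact h1
  · intro h x hx
    have h1 := congrArg (fun (f : Equiv.Perm GolayPt) => idx (f (pt x))) h
    simp only [Equiv.Perm.mul_apply] at h1
    rw [hT, ht, idx_pt (mem_ixs.mp hx), ← iter_spec ht, hT, idx_pt (mem_ixs.mp hx)] at h1
    rw [h1]; exact Nat.beq_refl _
theorem pre_enum {S : ℕ} (hS : good S = true) (p : ℕ → Bool)
    (hc : allS4 (fun P Q R => p (mulP (mulP S P) (mulP Q R))) = true)
    {g : Equiv.Perm GolayPt} (hg : g ∈ M24) (h0 : g (pt 0) = pt (img S 0)) (h1 : g (pt 1) = pt (img S 1))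
    (h2 : g (pt 2) = pt (img S 2)) (h3 : g (pt 3) = pt (img S 3)) : ∃ T, Packs T g ∧ p T = true := by
  obtain ⟨s, hs, hsp⟩ := exists_of_good hS
  have aux : ∀ i < 24, g (pt i) = pt (img S i) → (s⁻¹ * g) (pt i) = pt i := by
    intro i hi h
    rw [Equiv.Perm.mul_apply, h, Equiv.Perm.inv_eq_iff_eq, hsp.apply hi rfl]
  obtain ⟨P, Q, R, a, b, c, hp, ha, hb, hc', hgc⟩ := allS4_spec hc (mul_mem (inv_mem hs) hg)
    (aux 0 (by norm_num) h0) (aux 1 (by norm_num) h1) (aux 2 (by norm_num) h2) (aux 3 (by norm_num) h3)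
  have h4 := (hsp.mul ha).mul (hb.mul hc')
  have h5 : s * a * (b * c) = g := by
    rw [mul_assoc, ← hgc]; group
  rw [h5] at h4
  exact ⟨_, h4, hp⟩
variable {t : Equiv.Perm GolayPt} (htM : t ∈ M24) (htp : Packs r7A t)
include htp in
theorem ord7 : orderOf t = 7 := by
  haveI : Fact (Nat.Prime 7) := ⟨by norm_num⟩
  apply orderOf_eq_prime
  · ext1 p
    apply idx_injective
    rw [← iter_spec htp 7 p, Equiv.Perm.one_apply]
    have key : ordB 7 r7A = true := by decide +kernel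
    exact Nat.eq_of_beq_eq_true (List.all_eq_true.mp key _ (mem_ixs.mpr (idx_lt p)))
  · rintro rfl
    have := htp (pt 0)
    revert this; decide +kernel
include htp in
theorem exists_pow {g : Equiv.Perm GolayPt} (hg : g ∈ NM t) : ∃ i ∈ [1, 2, 3, 4, 5, 6], g * t * g⁻¹ = t ^ i := by
  classical
  have h1 := (mem_NM.mp hg).2
  rw [← mem_powers_iff_mem_zpowers, mem_powers_iff_mem_range_orderOf, ord7 htp, Finset.mem_image] at h1
  obtain ⟨i, hi, h⟩ := h1
  have h2 : i ≠ 0 := by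
    rintro rfl
    rw [pow_zero] at h
    have : t = 1 := by
      have e : t = g⁻¹ * (g * t * g⁻¹) * g := by group
      rw [e, ← h]; group
    have h7 := ord7 htp
    rw [this] at h7; simp at h7
  refine ⟨i, ?_, h.symm⟩
  rw [Finset.mem_range] at hi
  interval_cases i <;> simp_all
theorem CM_le_NM {g : Equiv.Perm GolayPt} (hg : g ∈ CM t) : g ∈ NM t := by
  rw [mem_NM]
  refine ⟨hg.1, ?_⟩
  rw [hg.2, mul_inv_cancel_right]; exact Subgroup.mem_zpowers t
include htp in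
theorem t0_ne : t (pt 0) ≠ pt 0 := by
  intro h
  have := htp (pt 0)
  rw [h] at this
  revert this; decide +kernel
include htp in
theorem moved {g : Equiv.Perm GolayPt} (hg : g ∈ NM t) : (16510463 : ℕ).testBit (idx (g (pt 0))) = true := by
  have key : ixs.all (fun i => or ((16510463 : ℕ).testBit i) (Nat.beq (img r7A i) i)) = true := by decide +kernel
  have h1 := List.all_eq_true.mp key _ (mem_ixs.mpr (idx_lt (g (pt 0))))
  rw [Bool.or_eq_true] at h1
  rcases h1 with h1 | h1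
  · exact h1
  · exfalso
    have h2 := Nat.eq_of_beq_eq_true h1
    rw [← htp] at h2
    have h3 : t (g (pt 0)) = g (pt 0) := idx_injective h2
    obtain ⟨i, hi, h4⟩ := exists_pow htp (inv_mem hg)
    have h5 : (t ^ i) (pt 0) = pt 0 := by
      rw [← h4]
      simp only [Equiv.Perm.mul_apply, inv_inv]
      rw [h3, Equiv.Perm.inv_eq_iff_eq]
    have h6 : ¬ 7 ∣ i := by
      intro hd
      simp only [List.mem_cons, List.not_mem_nil, or_false] at hi
      omega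
    exact t0_ne htp (pow_fix (p := 7) (by norm_num) (by rw [← ord7 htp]; exact pow_orderOf_eq_one t) h6 h5)
include htp in
theorem trA {q : GolayPt} (hq : (16510463 : ℕ).testBit (idx q) = true) : ∃ c ∈ CM t, c (pt 0) = q := by
  obtain ⟨P, g, hg, h1, h2, h3⟩ := chkTr_spec chkA (by norm_num) (p := q) hq
  exact ⟨g, ⟨hg, (commB_iff h2 htp).mp h1⟩, h3⟩
include htp in
theorem images {g : Equiv.Perm GolayPt} {i : ℕ} (hi : i ∈ [1, 2, 3, 4, 5, 6]) (h : g * t * g⁻¹ = t ^ i)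
    (h0 : g (pt 0) = pt 0) : g (pt 0) = pt (img (pre i) 0) ∧ g (pt 1) = pt (img (pre i) 1) ∧
      g (pt 2) = pt (img (pre i) 2) ∧ g (pt 3) = pt (img (pre i) 3) := by
  obtain ⟨-, p0, p1, p2, p3⟩ := chkP i hi
  have t1 : t (pt 0) = pt 1 := htp.apply (by norm_num) (by decide +kernel)
  have t2 : t (pt 1) = pt 2 := htp.apply (by norm_num) (by decide +kernel)
  have t3 : t (pt 2) = pt 3 := htp.apply (by norm_num) (by decide +kernel)
  have hgt : ∀ x, g (t x) = (t ^ i) (g x) := fun x => by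
    rw [mul_inv_eq_iff_eq_mul] at h
    have := congrArg (fun (f : Equiv.Perm GolayPt) => f x) h
    simpa only [Equiv.Perm.mul_apply] using this
  have e1 : g (pt 1) = (t ^ i) (pt 0) := by rw [← t1, hgt, h0]
  have e2 : g (pt 2) = (t ^ (2 * i)) (pt 0) := by
    rw [← t2, hgt, e1, two_mul, pow_add, Equiv.Perm.mul_apply]
  have e3 : g (pt 3) = (t ^ (3 * i)) (pt 0) := by
    rw [← t3, hgt, e2, show 3 * i = i + 2 * i by ring, pow_add, Equiv.Perm.mul_apply]
  have key : ∀ n, (t ^ n) (pt 0) = pt (iter r7A n 0) := by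
    intro n
    have := iter_spec htp n (pt 0)
    rw [idx_pt (by norm_num)] at this
    rw [this, pt_idx]
  rw [p0, p1, p2, p3, h0, e1, e2, e3, key, key, key]
  exact ⟨rfl, rfl, rfl, rfl⟩
include htp in
theorem card_NM : Nat.card (NM t) = 126 := by
  have s1 := card_Fx_step (NM t) [] (pt 0) (m := 16510463) (by norm_num) (by
    intro q
    constructor
    · intro hq
      obtain ⟨c, hc, h⟩ := trA htp hq
      exact ⟨c, ⟨CM_le_NM hc, by simp⟩, h⟩
    · rintro ⟨g, ⟨hg, -⟩, rfl⟩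
      exact moved htp hg)
  have s2 : Nat.card (Fx (NM t) [pt 0]) = 6 := by
    have h16 : (6 : ℕ) = LN.length := by decide
    rw [h16]
    apply card_of_enum _ _ (by decide +kernel)
    · intro P hP
      have h1 := List.all_eq_true.mp chkLN P hP
      simp only [Bool.and_eq_true, Bool.or_eq_true] at h1
      obtain ⟨g, hg, hgp⟩ := exists_of_good h1.1
      rw [cI_spec htp hgp, cI_spec htp hgp, cI_spec htp hgp] at h1
      refine ⟨g, ⟨mem_NM.mpr ⟨hg, ?_⟩, ?_⟩, hgp⟩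
      · rcases h1.2.2 with h | h | h
        · rw [h]; exact Subgroup.npow_mem_zpowers t _
        · rw [h]; exact Subgroup.npow_mem_zpowers t _
        · rw [h]; exact Subgroup.npow_mem_zpowers t _
      · intro p hp
        rw [List.mem_singleton] at hp
        rw [hp]; exact hgp.apply (by norm_num) (Nat.eq_of_beq_eq_true h1.2.1)
    · rintro g ⟨hg, hf⟩
      have g0 : g (pt 0) = pt 0 := hf _ (by simp)
      obtain ⟨i, hi, h⟩ := exists_pow htp hg
      obtain ⟨i0, i1, i2, i3⟩ := images htp hi h g0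
      obtain ⟨T, hT, h1⟩ := pre_enum (chkP i hi).1 (fun T => or (not (cI i T)) (LN.any fun n => Nat.beq n T))
        (chkN i hi) (mem_NM.mp hg).1 i0 i1 i2 i3
      rw [(cI_spec htp hT).mpr h, Bool.not_true, Bool.false_or, List.any_eq_true] at h1
      obtain ⟨n, hn, h2⟩ := h1
      rw [← Nat.eq_of_beq_eq_true h2] at hT
      exact ⟨n, hn, hT⟩
  rw [Fx_nil] at s1
  have p1 : pop 16510463 = 21 := by decide +kernel
  rw [s1, s2, p1]
include htp in
theorem card_CM : Nat.card (CM t) = 42 := by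
  have s1 := card_Fx_step (CM t) [] (pt 0) (m := 16510463) (by norm_num) (by
    intro q
    constructor
    · intro hq
      obtain ⟨c, hc, h⟩ := trA htp hq
      exact ⟨c, ⟨hc, by simp⟩, h⟩
    · rintro ⟨g, ⟨hg, -⟩, rfl⟩
      exact moved htp (CM_le_NM hg))
  have hcm : ∀ g : Equiv.Perm GolayPt, g * t = t * g ↔ g * t * g⁻¹ = t ^ 1 := by
    intro g; rw [mul_inv_eq_iff_eq_mul, pow_one]
  have s2 : Nat.card (Fx (CM t) [pt 0]) = 2 := by
    have h16 : (2 : ℕ) = LC.length := by decide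
    rw [h16]
    apply card_of_enum _ _ (by decide +kernel)
    · intro P hP
      have h1 := List.all_eq_true.mp chkLC P hP
      simp only [Bool.and_eq_true] at h1
      obtain ⟨g, hg, hgp⟩ := exists_of_good h1.1
      rw [cI_spec htp hgp, ← hcm] at h1
      refine ⟨g, ⟨⟨hg, h1.2.2⟩, ?_⟩, hgp⟩
      intro p hp
      rw [List.mem_singleton] at hp
      rw [hp]; exact hgp.apply (by norm_num) (Nat.eq_of_beq_eq_true h1.2.1)
    · rintro g ⟨hg, hf⟩
      have g0 : g (pt 0) = pt 0 := hf _ (by simp)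
      have h := (hcm g).mp hg.2
      obtain ⟨i0, i1, i2, i3⟩ := images htp (i := 1) (by simp) h g0
      obtain ⟨T, hT, h1⟩ := pre_enum (chkP 1 (by simp)).1 (fun T => or (not (cI 1 T)) (LC.any fun n => Nat.beq n T))
        chkC hg.1 i0 i1 i2 i3
      rw [(cI_spec htp hT).mpr h, Bool.not_true, Bool.false_or, List.any_eq_true] at h1
      obtain ⟨n, hn, h2⟩ := h1
      rw [← Nat.eq_of_beq_eq_true h2] at hT
      exact ⟨n, hn, hT⟩
  rw [Fx_nil] at s1
  have p1 : pop 16510463 = 21 := by decide +kernel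
  rw [s1, s2, p1]
include htp in
theorem CM_nc : ∃ x ∈ CM t, ∃ y ∈ CM t, x * y ≠ y * x := by
  have key : (and (good 0x7466bb26e8851ec282460d5a751062) (commB 0x7466bb26e8851ec282460d5a751062 r7A)) = true ∧ (and (good 0x5ba2d3b06a3002923e53a8a14b20b7) (commB 0x5ba2d3b06a3002923e53a8a14b20b7 r7A)) = true ∧ commB 0x7466bb26e8851ec282460d5a751062 0x5ba2d3b06a3002923e53a8a14b20b7 = false := by
    decide +kernel
  obtain ⟨k1, k2, k3⟩ := key
  rw [Bool.and_eq_true] at k1 k2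
  obtain ⟨x, hx, hxp⟩ := exists_of_good k1.1
  obtain ⟨y, hy, hyp⟩ := exists_of_good k2.1
  refine ⟨x, ⟨hx, (commB_iff hxp htp).mp k1.2⟩, y, ⟨hy, (commB_iff hyp htp).mp k2.2⟩, ?_⟩
  intro h
  rw [(commB_iff hxp hyp).mpr h] at k3
  exact absurd k3 (by decide)

theorem T_eq : tA 74 = 5279 ∧ tB 74 = 1009728 ∧ tC 74 = 15762208 := by decide +kernel
include htp in
theorem T_inv {n : Equiv.Perm GolayPt} (hn : n ∈ NM t) : n • tr 74 = tr 74 := by
  obtain ⟨e1, e2, e3⟩ := T_eq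
  have hlt := tOk_lt (i := 74) (by norm_num)
  have h7 := ord7 htp
  have hfix : ∀ m < 2 ^ 24, act r7A m = m → t • toFS m = toFS m := by
    intro m hm h
    rw [← toFS_mask (t • toFS m), htp.mask_smul, mask_toFS hm, h]
  have hmem : ∀ o ∈ octads, t • o = o → o ∈ tr 74 := by
    intro o ho hto
    have h1 := forall_code _ chkF ho.1
    rw [mem_octads_iff] at ho
    have h2 : act r7A (mask o) = mask o := by rw [← htp.mask_smul, hto]
    rw [ho.2, h2, Nat.beq_refl, Nat.beq_refl, Bool.not_true, Bool.false_or, Bool.false_or] at h1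
    rw [tr, mem_trio3 hlt.1 hlt.2.1 hlt.2.2, e1, e2, e3]; exact h1
  have hpow : ∀ (o : Finset GolayPt) (z : ℕ), t • o = o → (t ^ z) • o = o := by
    intro o z h
    induction z with
    | zero => rw [pow_zero, one_smul]
    | succ z ih => rw [pow_succ, ← smul_smul, h, ih]
  have hns : ∀ o ∈ octads, t • o = o → t • n • o = n • o := by
    intro o _ hto
    obtain ⟨i, hi, h⟩ := exists_pow htp (inv_mem hn)
    rw [inv_inv] at h
    have h2 : t * n = n * t ^ i := by rw [← h]; group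
    rw [smul_smul, h2, ← smul_smul, hpow o i hto]
  have mA : toFS (tA 74) ∈ tr 74 := by rw [tr, trio3]; simp
  have mB : toFS (tB 74) ∈ tr 74 := by rw [tr, trio3]; simp
  have hs := t_spec (i := 74) (by norm_num)
  have hnM := (mem_NM.mp hn).1
  have fA : t • toFS (tA 74) = toFS (tA 74) := hfix _ hlt.1 (by rw [e1]; decide +kernel)
  have fB : t • toFS (tB 74) = toFS (tB 74) := hfix _ hlt.2.1 (by rw [e2]; decide +kernel)
  apply smul_trio_eq hnM (tr_mem (by norm_num)) (tr_mem (by norm_num)) mA mB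
  · intro h
    have := toFS_inj hlt.1 hlt.2.1 h
    rw [e1, e2] at this; norm_num at this
  · exact hmem _ ((smul_mem_octads hnM).mpr hs.1) (hns _ hs.1 fA)
  · exact hmem _ ((smul_mem_octads hnM).mpr hs.2.1) (hns _ hs.2.1 fB)
theorem gen7 {X : Subgroup ↥M24} (hX : Nat.card X = 7) : ∃ x : ↥M24, X = Subgroup.zpowers x ∧
    ∃ k : ↥M24, Packs r7A ((k * x * k⁻¹ : ↥M24) : Equiv.Perm GolayPt) := by
  haveI : Fact (Nat.Prime 7) := ⟨by norm_num⟩
  obtain ⟨x, hx⟩ := exists_prime_orderOf_dvd_card' (G := X) 7 (by rw [hX])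
  have hX' : X = Subgroup.zpowers (x : ↥M24) := by
    have h1 : Subgroup.zpowers (x : ↥M24) ≤ X := by rw [Subgroup.zpowers_le]; exact x.2
    symm
    apply Subgroup.eq_of_le_of_card_ge h1
    rw [Nat.card_zpowers, hX, Subgroup.orderOf_coe, hx]
  have hx7 : orderOf ((x : ↥M24) : Equiv.Perm GolayPt) = 7 := by
    rw [Subgroup.orderOf_coe, Subgroup.orderOf_coe, hx]
  have h1 : ((x : ↥M24) : Equiv.Perm GolayPt) ≠ 1 := by
    intro h; rw [h] at hx7; simp at hx7
  obtain ⟨-, -, e, he, -, k, hk, h⟩ := class7 (x : ↥M24).2 (by rw [← hx7]; exact pow_orderOf_eq_one _) h1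
  have hcases : ∀ e ∈ ctab7, e.2.2 = r7A ∨ e.2.2 = r7B := by
    have h : ctab7.all (fun e => or (Nat.beq e.2.2 r7A) (Nat.beq e.2.2 r7B)) = true := by decide +kernel
    intro e he
    have := List.all_eq_true.mp h e he
    simpa only [Bool.or_eq_true, Nat.beq_eq] using this
  rcases hcases e he with h3 | h3
  · rw [h3] at h
    exact ⟨x, hX', ⟨k, hk⟩, h⟩
  · rw [h3] at h
    refine ⟨(x : ↥M24)⁻¹, by rw [Subgroup.zpowers_inv]; exact hX', ?_⟩
    have key : (and (good 0xba5d22da74599e46b1101c6aa38022) (conjB 0xba5d22da74599e46b1101c6aa38022 0x9d9744c2ad418a472a5163ee310407 r7A)) = true ∧ good 0x9d9744c2ad418a472a5163ee310407 = true ∧ mulB 0x9d9744c2ad418a472a5163ee310407 r7B 0xbdab49ca307b9ac5a928398a418820 = true ∧ good 0xbdab49ca307b9ac5a928398a418820 = true := by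
      decide +kernel
    obtain ⟨k1, k2, k3, k4⟩ := key
    rw [Bool.and_eq_true] at k1
    obtain ⟨q, hq, hqp⟩ := exists_of_good k1.1
    obtain ⟨r, hr, hrp⟩ := exists_of_good k2
    have hi : Packs 0xbdab49ca307b9ac5a928398a418820 1 := packs_of_check (by decide +kernel)
    have h5 : r = (k * (x : ↥M24) * k⁻¹)⁻¹ := by
      rw [eq_inv_iff_mul_eq_one]
      exact mulB_spec k3 hrp h hi
    have h6 := conj_packs k1.2 hqp hrp
    refine ⟨⟨q, hq⟩ * ⟨k, hk⟩, ?_⟩
    rw [h5] at h6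
    have h7 : (((⟨q, hq⟩ * ⟨k, hk⟩ : ↥M24) * (x : ↥M24)⁻¹ * (⟨q, hq⟩ * ⟨k, hk⟩ : ↥M24)⁻¹ : ↥M24) : Equiv.Perm GolayPt) =
      q * (k * ((x : ↥M24) : Equiv.Perm GolayPt) * k⁻¹)⁻¹ * q⁻¹ := by
      show q * k * ((x : ↥M24) : Equiv.Perm GolayPt)⁻¹ * (q * k)⁻¹ = _
      group
    rw [h7]; exact h6
end


/-- For a subgroup S of order 7 of the group of the length-24 code (a Sylow 7-subgroup): the normaliser of S has order 126, the centraliser of S has order 42 and is non-abelian, and the whole normaliser leaves some trio invariant. (These are the orders of a Frobenius group of order 21 times a symmetric group of degree 3; the isomorphism type itself is not asserted here.) -/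
theorem result (S : Subgroup ↥Cfsg.M24) (hS : Nat.card S = 7) : Nat.card ↥(Subgroup.normalizer (S : Set ↥Cfsg.M24)) = 126 ∧ Nat.card ↥(Subgroup.centralizer (S : Set ↥Cfsg.M24)) = 42 ∧ (∃ x ∈ Subgroup.centralizer (S : Set ↥Cfsg.M24), ∃ y ∈ Subgroup.centralizer (S : Set ↥Cfsg.M24), x * y ≠ y * x) ∧ ∃ T ∈ Cfsg.trios, ∀ n ∈ Subgroup.normalizer (S : Set ↥Cfsg.M24), ((n : ↥Cfsg.M24) : Equiv.Perm Cfsg.GolayPt) • T = T := by
  obtain ⟨y, hy, k, hp⟩ := gen7 hS
  set t : Equiv.Perm Cfsg.GolayPt := ((k * y * k⁻¹ : ↥Cfsg.M24) : Equiv.Perm Cfsg.GolayPt) with ht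
  have hcj : ∀ g : ↥Cfsg.M24, ((k * g * k⁻¹ : ↥Cfsg.M24) : Equiv.Perm Cfsg.GolayPt) * t *
      ((k * g * k⁻¹ : ↥Cfsg.M24) : Equiv.Perm Cfsg.GolayPt)⁻¹ = ((k * (g * y * g⁻¹) * k⁻¹ : ↥Cfsg.M24) : Equiv.Perm Cfsg.GolayPt) := by
    intro g
    rw [ht, ← Subgroup.coe_inv, ← Subgroup.coe_mul, ← Subgroup.coe_mul]
    congr 1
    group
  have hzp : ∀ h : ↥Cfsg.M24, h ∈ Subgroup.zpowers y ↔ ((k * h * k⁻¹ : ↥Cfsg.M24) : Equiv.Perm Cfsg.GolayPt) ∈ Subgroup.zpowers t := by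
    intro h
    rw [Subgroup.mem_zpowers_iff, Subgroup.mem_zpowers_iff]
    have e : ∀ n : ℤ, t ^ n = ((k * y ^ n * k⁻¹ : ↥Cfsg.M24) : Equiv.Perm Cfsg.GolayPt) := by
      intro n
      rw [ht, ← Subgroup.coe_zpow, conj_zpow]
    constructor
    · rintro ⟨n, rfl⟩; exact ⟨n, e n⟩
    · rintro ⟨n, hn⟩
      refine ⟨n, ?_⟩
      rw [e] at hn
      have := Subtype.ext hn
      exact mul_left_cancel (mul_right_cancel this)
  have hN : ∀ g : ↥Cfsg.M24, g ∈ Subgroup.normalizer (S : Set ↥Cfsg.M24) ↔ ((k * g * k⁻¹ : ↥Cfsg.M24) : Equiv.Perm Cfsg.GolayPt) ∈ NM t := by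
    intro g
    rw [hy, norm_iff, mem_NM, hcj, hzp]
    exact ⟨fun h => ⟨(k * g * k⁻¹ : ↥Cfsg.M24).2, h⟩, fun h => h.2⟩
  have hC : ∀ g : ↥Cfsg.M24, g ∈ Subgroup.centralizer (S : Set ↥Cfsg.M24) ↔ ((k * g * k⁻¹ : ↥Cfsg.M24) : Equiv.Perm Cfsg.GolayPt) ∈ CfsgLib.Golay.CM t := by
    intro g
    rw [hy, Subgroup.mem_centralizer_iff, CfsgLib.Golay.mem_CM]
    have e : ((k * g * k⁻¹ : ↥Cfsg.M24) : Equiv.Perm Cfsg.GolayPt) * t = t * ((k * g * k⁻¹ : ↥Cfsg.M24) : Equiv.Perm Cfsg.GolayPt) ↔ y * g = g * y := by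
      rw [ht, ← Subgroup.coe_mul, ← Subgroup.coe_mul, Subtype.coe_inj]
      constructor
      · intro h
        have e1 : k * g * k⁻¹ * (k * y * k⁻¹) = k * (g * y) * k⁻¹ := by group
        have e2 : k * y * k⁻¹ * (k * g * k⁻¹) = k * (y * g) * k⁻¹ := by group
        rw [e1, e2] at h
        exact (mul_left_cancel (mul_right_cancel h)).symm
      · intro h
        have e1 : k * g * k⁻¹ * (k * y * k⁻¹) = k * (g * y) * k⁻¹ := by group
        rw [e1, ← h]; group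
    rw [e]
    constructor
    · intro h
      exact ⟨(k * g * k⁻¹ : ↥Cfsg.M24).2, h y (Subgroup.mem_zpowers y)⟩
    · rintro ⟨-, h⟩ z hz
      obtain ⟨n, rfl⟩ := hz
      exact (Commute.zpow_left (show Commute y g from h) n).eq
  have hback : ∀ x : Equiv.Perm Cfsg.GolayPt, (hx : x ∈ Cfsg.M24) → ((k * (k⁻¹ * ⟨x, hx⟩ * k) * k⁻¹ : ↥Cfsg.M24) : Equiv.Perm Cfsg.GolayPt) = x := by
    intro x hx
    have : k * (k⁻¹ * ⟨x, hx⟩ * k) * k⁻¹ = (⟨x, hx⟩ : ↥Cfsg.M24) := by group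
    rw [this]
  refine ⟨?_, ?_, ?_, ?_⟩
  · rw [← card_NM hp]
    apply Nat.card_congr
    refine ⟨fun c => ⟨_, (hN c.1).mp c.2⟩, fun c => ⟨k⁻¹ * ⟨c.1, (mem_NM.mp c.2).1⟩ * k, (hN _).mpr ?_⟩, ?_, ?_⟩
    · rw [hback]; exact c.2
    · intro c; apply Subtype.ext
      show k⁻¹ * (k * c.1 * k⁻¹) * k = c.1
      group
    · intro c; apply Subtype.ext; exact hback _ _
  · rw [← card_CM hp]
    apply Nat.card_congr
    refine ⟨fun c => ⟨_, (hC c.1).mp c.2⟩, fun c => ⟨k⁻¹ * ⟨c.1, (CfsgLib.Golay.mem_CM.mp c.2).1⟩ * k, (hC _).mpr ?_⟩, ?_, ?_⟩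
    · rw [hback]; exact c.2
    · intro c; apply Subtype.ext
      show k⁻¹ * (k * c.1 * k⁻¹) * k = c.1
      group
    · intro c; apply Subtype.ext; exact hback _ _
  · obtain ⟨a, ha, b, hb, hab⟩ := CM_nc hp
    refine ⟨k⁻¹ * ⟨a, ha.1⟩ * k, ?_, k⁻¹ * ⟨b, hb.1⟩ * k, ?_, ?_⟩
    · rw [hC, hback]; exact ha
    · rw [hC, hback]; exact hb
    · intro h
      have e1 : k⁻¹ * (⟨a, ha.1⟩ : ↥Cfsg.M24) * k * (k⁻¹ * (⟨b, hb.1⟩ : ↥Cfsg.M24) * k) = k⁻¹ * ((⟨a, ha.1⟩ : ↥Cfsg.M24) * ⟨b, hb.1⟩) * k := by group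
      have e2 : k⁻¹ * (⟨b, hb.1⟩ : ↥Cfsg.M24) * k * (k⁻¹ * (⟨a, ha.1⟩ : ↥Cfsg.M24) * k) = k⁻¹ * ((⟨b, hb.1⟩ : ↥Cfsg.M24) * ⟨a, ha.1⟩) * k := by group
      rw [e1, e2] at h
      exact hab (congrArg Subtype.val (mul_left_cancel (mul_right_cancel h)))
  · refine ⟨(k⁻¹ : ↥Cfsg.M24).1 • CfsgLib.Golay.tr 74, CfsgLib.Golay.smul_mem_trios (k⁻¹ : ↥Cfsg.M24).2 (CfsgLib.Golay.tr_mem (by norm_num)), ?_⟩
    intro n hn
    have h1 := T_inv hp ((hN n).mp hn)
    have h2 : (k⁻¹ : ↥Cfsg.M24).1 • ((k * n * k⁻¹ : ↥Cfsg.M24) : Equiv.Perm Cfsg.GolayPt) • CfsgLib.Golay.tr 74 = (k⁻¹ : ↥Cfsg.M24).1 • CfsgLib.Golay.tr 74 := by rw [h1]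
    rw [smul_smul] at h2 ⊢
    rw [← h2]
    congr 1
    show _ = (k : Equiv.Perm Cfsg.GolayPt)⁻¹ * (k * n * (k : Equiv.Perm Cfsg.GolayPt)⁻¹)
    have : ((k⁻¹ : ↥Cfsg.M24) : Equiv.Perm Cfsg.GolayPt) = (k : Equiv.Perm Cfsg.GolayPt)⁻¹ := rfl
    rw [this]; group

end Cfsg.Agent.S5604
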