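import Cfsg.Statements.S5605
import Cfsg.Agent.Lib.GolayCnt
import Cfsg.Agent.S5394

set_option autoImplicit false
open scoped Pointwise
open Cfsg

namespace Cfsg.Agent.S5605

/-- An involution of the group of the length-24 code with exactly 8 fixed points maps to themselves exactly 71 octads, exactly 99 trios and exactly 91 sextets. -/
theorem result (g : Equiv.Perm Cfsg.GolayPt) (hg : g ∈ Cfsg.M24) (h₂ : orderOf g = 2) (h₈ : (Finset.univ.filter fun p => g p = p).card = 8) : {o : Finset Cfsg.GolayPt | o ∈ Cfsg.octads ∧ g • o = o}.ncard = 71 ∧ {T : Finset (Finset Cfsg.GolayPt) | T ∈ Cfsg.trios ∧ g • T = T}.ncard = 99 ∧ {S : Finset (Finset Cfsg.GolayPt) | S ∈ Cfsg.sextets ∧ g • S = S}.ncard = 91 := by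
  have h1 : g ≠ 1 := by rintro rfl; simp at h₂
  rcases Cfsg.Agent.S5394.cls hg h₂ with ⟨_, _, _, h⟩ | ⟨k, hk, hp, _⟩
  · exfalso
    have : (Finset.univ.filter fun p => g p = p) = ∅ := by
      rw [Finset.filter_eq_empty_iff]; intro p _; exact h p
    rw [this] at h₈; simp at h₈
  · have hM : k * g * k⁻¹ ∈ Cfsg.M24 := mul_mem (mul_mem hk hg) (inv_mem hk)
    refine ⟨?_, ?_, ?_⟩
    · rw [Cfsg.octads, CfsgLib.Golay.fixed_code_conj hk]
      exact CfsgLib.Golay.fixed_code hp (by decide +kernel)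
    · rw [CfsgLib.Golay.fixed_fam_conj (CfsgLib.Golay.trios_smul_iff hk)]
      exact CfsgLib.Golay.fixed_trio hM hp (by decide +kernel)
    · rw [CfsgLib.Golay.fixed_fam_conj (CfsgLib.Golay.sextets_smul_iff hk)]
      exact CfsgLib.Golay.fixed_sextet hM hp (by decide +kernel)

end Cfsg.Agent.S5605
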