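import Cfsg.Statements.S5606
import Cfsg.Agent.Lib.GolayCnt
import Cfsg.Agent.S5394

set_option autoImplicit false
open scoped Pointwise
open Cfsg

namespace Cfsg.Agent.S5606

/-- A fixed-point-free involution of the group of the length-24 code maps to themselves exactly 15 octads, exactly 75 trios and exactly 51 sextets. -/
theorem result (g : Equiv.Perm Cfsg.GolayPt) (hg : g ∈ Cfsg.M24) (h₂ : orderOf g = 2) (h₀ : ∀ p, g p ≠ p) : {o : Finset Cfsg.GolayPt | o ∈ Cfsg.octads ∧ g • o = o}.ncard = 15 ∧ {T : Finset (Finset Cfsg.GolayPt) | T ∈ Cfsg.trios ∧ g • T = T}.ncard = 75 ∧ {S : Finset (Finset Cfsg.GolayPt) | S ∈ Cfsg.sextets ∧ g • S = S}.ncard = 51 := by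
  have h1 : g ≠ 1 := by rintro rfl; simp at h₂
  rcases Cfsg.Agent.S5394.cls hg h₂ with ⟨k, hk, hp, _⟩ | ⟨_, _, _, h⟩
  · have hM : k * g * k⁻¹ ∈ Cfsg.M24 := mul_mem (mul_mem hk hg) (inv_mem hk)
    refine ⟨?_, ?_, ?_⟩
    · rw [Cfsg.octads, CfsgLib.Golay.fixed_code_conj hk]
      exact CfsgLib.Golay.fixed_code hp (by decide +kernel)
    · rw [CfsgLib.Golay.fixed_fam_conj (CfsgLib.Golay.trios_smul_iff hk)]
      exact CfsgLib.Golay.fixed_trio hM hp (by decide +kernel)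
    · rw [CfsgLib.Golay.fixed_fam_conj (CfsgLib.Golay.sextets_smul_iff hk)]
      exact CfsgLib.Golay.fixed_sextet hM hp (by decide +kernel)
  · exfalso
    obtain ⟨p, hp⟩ := Cfsg.Agent.S5394.oct_ne h
    exact h₀ p (Finset.mem_filter.mp hp).2

end Cfsg.Agent.S5606
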