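import Cfsg.Statements.S5607
import Cfsg.Agent.Lib.GolayElt2
import Cfsg.Agent.S5394

set_option autoImplicit false
open scoped Pointwise
open Cfsg

open scoped Pointwise
namespace Cfsg.Agent.S5607

section
open Cfsg CfsgLib.Golay
open scoped Pointwise
def L15 : List ℕ := [0x46e3, 0x192243, 0x1964a0, 0x248343, 0x24c5a0, 0x3da100, 0x400a4f, 0x404cac, 0x59280c, 0x64890c, 0x821253, 0x8254b0, 0x9b3010, 0xa69110, 0xc2181c]
def tets : List ℕ := [0x243, 0x44a0, 0x192000, 0x248100, 0x40080c, 0x821010]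
def lA' : List (ℕ × ℕ) := [(0, 0xbdab49ca307b9ac5a928398a418820), (1, 0x7acb76390454e32b512769a1518801), (2, 0xa18b1239ac556f34a1677da5008062), (3, 0x9188a732a5bd0ef4ced182da808043), (4, 0x1a5527b9682d2b63358784662082e4), (5, 0x5a5906dc748ca62355c441df608145), (6, 0x3da127cd48a5ea55b02d2022e18926), (7, 0x219e25ca23ac2cc4b4a8a2a77081c7), (8, 0x82623591a263ad332ab73bcb408248), (9, 0x3da8f935558450559013606ee188c9), (10, 0x619025d6e394ec44d1cf69e11080aa), (11, 0xba688ab63281dec3147370944082cb), (12, 0x9197098eb4b15af4bae2510e80822c), (13, 0x71af2ac548209e54da8c1c1670826d), (14, 0xb9a425bd83436d14c15599684080ee), (15, 0x6a62b192166285433a572a0f3082af), (16, 0x51af5945cf2590748a6c5b46508290), (17, 0x7996da0d13b2a1249c822ddd508191), (18, 0xb99cda159338a114daaa1bd6408112), (19, 0x924f6115eb744753128a642e8081b3), (20, 0x11ab12216c796f64b9b254ce308214), (21, 0x526d788ce45c18e34d02a49a5081f5), (22, 0x6268f93495839173285338cb108176), (23, 0x9a5e57228aa8cf035a321316d08097)]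
def lB' : List (ℕ × ℕ) := [(2, 0xbdab49ca307b9ac5a928398a418820), (3, 0x8adf3a22edaba04b2932398ac10c20), (4, 0xa31d542a6f38e4d8d92511970b9020), (5, 0x61c6f42ef514244734d6a267151420), (7, 0x12a71bc2cc6bc8b2a134a9a4371c20), (8, 0x5bd5381c4d2de83ac4ce2259692020), (10, 0xa39eb149b6a90733b0c8ba6302a820), (11, 0x989853920a8d5d41a0d77a64db2c20), (12, 0xb110a3bc45951c3bb53581a6b8b020), (13, 0xb51959106f89502838d7524eb9b420), (14, 0x62852adae81d1e42cccb825b13b820), (15, 0xa48778da641398d4292b398b0abc20), (16, 0x5cc8f43055b96436b8d1524f6a4020), (17, 0x411ab141f69b875b94d43a55264420), (18, 0x9bc6465a9711e30a952b7194d44820), (19, 0x5c188790528baa3a14d73a5566cc20), (20, 0x64d435b8822bed76a127a9a5185020), (21, 0x6a2d788e0459d9491522719537d420), (22, 0xa8cf122a4c742e8134c5a266f5d820), (23, 0x932161b6aba384f894d33a54825c20)]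
def L16 : List ℕ := [0x25913a3d8d91e11595357195718820, 0x2d9b27d1c89c6a75913061aea18820, 0x3da68ac152691e55c534b998e18820, 0x42ce48a9f774d95b50c56a61218820, 0x55a0f94cf5a310e5dd2d8988518820, 0x659f06a094aaa775b932298f118820, 0x6ae253de8a649d0b3cc4426b318820, 0x75a95434af85e4a5b13321a2718820, 0x7ad4cb9d112c092b34cea267518820, 0x82d8a712658bcedb48d7aa51418820, 0x8da4d856f34168459d2f519cc18820, 0x92cb123aac536efb40c79a68818820, 0x9ac872b20eba154b54d1925ed18820, 0xa2eee545a7254b3b20cc7a65018820, 0xaadd7616443d228b4cca825af18820, 0xbdab49ca307b9ac5a928398a418820]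
theorem chk1 : allC (fun m => or (not (Nat.beq (pop m) 8)) (or (not (Nat.beq (act r2A m) m)) (L15.any fun n => Nat.beq n m))) rows 0 = true := by
  decide +kernel
theorem chk1' : L15.all (fun m => and (Nat.blt m (2 ^ 24)) (and (isCode m) (and (Nat.beq (pop m) 8) (Nat.beq (act r2A m) m)))) = true := by
  decide +kernel
theorem chk2 : chkSext tets = true := by decide +kernel
theorem chk3 : tets.all (fun m => ixs.all fun i => or (not (m.testBit i)) (ixs.all fun j =>
    (L15.all (fun m => or (not (m.testBit i)) (m.testBit j))) == m.testBit j)) = true := by decide +kernel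
theorem chkA : chkTr (fun P => commB P r2A) 0 0xffffff lA' = true := by decide +kernel
theorem chkB : chkTr (fun P => and (commB P r2A) (Nat.beq (img P 0) 0)) 2 16776636 lB' = true := by decide +kernel
theorem chkC : allS4 (fun P Q R => or (not (commB (mulP P (mulP Q R)) r2A)) (L16.any fun n => Nat.beq n (mulP P (mulP Q R)))) = true := by
  decide +kernel
theorem chkC' : L16.all (fun P => and (good P) (and (commB P r2A) (and (and (Nat.beq (img P 0) 0) (Nat.beq (img P 1) 1))
    (and (Nat.beq (img P 2) 2) (Nat.beq (img P 3) 3))))) = true := by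
  decide +kernel
theorem nd : L16.Nodup ∧ sortedB L16 = true := ⟨by decide, by decide +kernel⟩

variable {t : Equiv.Perm GolayPt} (htM : t ∈ M24) (htp : Packs r2A t)
include htM htp in
theorem fixed_iff (o : Finset GolayPt) : (o ∈ octads ∧ t • o = o) ↔ mask o ∈ L15 := by
  constructor
  · rintro ⟨ho, h⟩
    have h1 := forall_code _ chk1 ho.1
    rw [mem_octads_iff] at ho
    have h2 : act r2A (mask o) = mask o := by rw [← htp.mask_smul, h]
    rw [ho.2, h2, Nat.beq_refl, Nat.beq_refl, Bool.not_true, Bool.false_or, Bool.false_or, List.any_eq_true] at h1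
    obtain ⟨n, hn, h3⟩ := h1
    rw [← Nat.eq_of_beq_eq_true h3]; exact hn
  · intro h
    have h1 := List.all_eq_true.mp chk1' _ h
    simp only [Bool.and_eq_true, Nat.beq_eq] at h1
    refine ⟨mem_octads_iff.mpr ⟨h1.2.1, h1.2.2.1⟩, ?_⟩
    rw [← toFS_mask (t • o), htp.mask_smul, h1.2.2.2, toFS_mask]
/-- the relation generating the tetrads -/
def Tet (t : Equiv.Perm GolayPt) (p q : GolayPt) : Prop := ∀ o ∈ octads, t • o = o → p ∈ o → q ∈ o
theorem Tet_smul {c : Equiv.Perm GolayPt} (hc : c ∈ CM t) {p q : GolayPt} (h : Tet t p q) : Tet t (c p) (c q) := by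
  intro o ho hto hp
  have h1 : c⁻¹ ∈ CM t := inv_mem hc
  have h2 := h (c⁻¹ • o) (by rw [smul_mem_octads h1.1]; exact ho) (by
    rw [smul_smul, ← h1.2, ← smul_smul, hto]) (by
    have : c⁻¹ (c p) = p := by rw [Equiv.Perm.inv_eq_iff_eq]
    rw [← this]; exact mem_smul_iff.mpr hp)
  have h3 : c q ∈ c • c⁻¹ • o := mem_smul_iff.mpr h2
  rwa [smul_inv_smul] at h3
theorem Tet_iff {c : Equiv.Perm GolayPt} (hc : c ∈ CM t) {p q : GolayPt} : Tet t (c p) (c q) ↔ Tet t p q := by
  constructor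
  · intro h
    have := Tet_smul (inv_mem hc) h
    have e : ∀ x, c⁻¹ (c x) = x := fun x => by rw [Equiv.Perm.inv_eq_iff_eq]
    rwa [e, e] at this
  · exact Tet_smul hc
include htM htp in
theorem Tet_mask {m : ℕ} (hm : m ∈ tets) {p : GolayPt} (hp : m.testBit (idx p) = true) (q : GolayPt) :
    Tet t p q ↔ m.testBit (idx q) = true := by
  have h1 := List.all_eq_true.mp chk3 m hm
  rw [List.all_eq_true] at h1
  have h2 := h1 (idx p) (mem_ixs.mpr (idx_lt p))
  rw [hp, Bool.not_true, Bool.false_or, List.all_eq_true] at h2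
  have h3 := h2 (idx q) (mem_ixs.mpr (idx_lt q))
  rw [beq_iff_eq] at h3
  rw [← h3, List.all_eq_true]
  constructor
  · intro h n hn
    have h15 := List.all_eq_true.mp chk1' n hn
    rw [Bool.and_eq_true] at h15
    have hlt : n < 2 ^ 24 := Nat.le_of_ble_eq_true h15.1
    have h4 : mask (toFS n) = n := mask_toFS hlt
    obtain ⟨ho, hto⟩ := (fixed_iff htM htp (toFS n)).mpr (by rw [h4]; exact hn)
    have h5 := h (toFS n) ho hto
    rw [mem_toFS, mem_toFS] at h5
    cases hb : n.testBit (idx p) with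
    | false => rfl
    | true => rw [h5 hb]; rfl
  · intro h o ho hto hpo
    have hL := (fixed_iff htM htp o).mp ⟨ho, hto⟩
    have h5 := h _ hL
    rw [testBit_mask, testBit_mask, decide_eq_true hpo, Bool.not_true, Bool.false_or, decide_eq_true_eq] at h5
    exact h5
include htM htp in
theorem smul_tet {c : Equiv.Perm GolayPt} (hc : c ∈ CM t) {m n : ℕ} (hm : m ∈ tets) (hn : n ∈ tets) {p : GolayPt}
    (hp : m.testBit (idx p) = true) (hcp : n.testBit (idx (c p)) = true) : c • toFS m = toFS n := by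
  ext r
  rw [mem_toFS, ← Tet_mask htM htp hn hcp, Finset.mem_smul_finset]
  constructor
  · rintro ⟨q, hq, rfl⟩
    rw [mem_toFS] at hq
    exact Tet_smul hc ((Tet_mask htM htp hm hp q).mpr hq)
  · intro h
    refine ⟨c⁻¹ r, ?_, app_inv c r⟩
    rw [mem_toFS, ← Tet_mask htM htp hm hp, ← Tet_iff hc, app_inv]
    exact h
def SS0 : Finset (Finset GolayPt) := (tets.map toFS).toFinset
theorem SS0_mem : SS0 ∈ sextets := chkSext_spec chk2 (by decide)
include htM htp in
theorem SS0_inv {c : Equiv.Perm GolayPt} (hc : c ∈ CM t) : c • SS0 = SS0 := by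
  have h0 : SS0 = sext (toFS 579) := by
    apply sextet_eq_sext SS0_mem
    rw [SS0, List.mem_toFinset, List.mem_map]
    exact ⟨_, by decide, rfl⟩
  have h4 : (toFS 579).card = 4 := by rw [card_eq_pop, mask_toFS (by norm_num)]; decide +kernel
  have hcov : ∀ p : GolayPt, ∃ m ∈ tets, m.testBit (idx p) = true := by
    have key : ixs.all (fun i => tets.any fun m => m.testBit i) = true := by decide +kernel
    intro p
    have := List.all_eq_true.mp key (idx p) (mem_ixs.mpr (idx_lt p))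
    rwa [List.any_eq_true] at this
  obtain ⟨n, hn, hnb⟩ := hcov (c (pt 0))
  have h1 := smul_tet htM htp hc (m := 579) (by decide) hn (p := pt 0) (by decide +kernel) hnb
  conv_lhs => rw [h0, smul_sext hc.1 h4, h1]
  symm
  apply sextet_eq_sext SS0_mem
  rw [SS0, List.mem_toFinset, List.mem_map]
  exact ⟨n, hn, rfl⟩
include htM htp in
theorem trA (q : GolayPt) : ∃ c ∈ CM t, c (pt 0) = q := by
  obtain ⟨P, g, hg, h1, h2, h3⟩ := chkTr_spec chkA (by norm_num) (p := q) (by
    have : ∀ p : GolayPt, (0xffffff : ℕ).testBit (idx p) = true := by decide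
    exact this q)
  exact ⟨g, ⟨hg, (commB_iff h2 htp).mp h1⟩, h3⟩
include htM htp in
theorem card_CM : Nat.card (CM t) = 7680 := by
  have hpt : ∀ i < 24, ∀ {g : Equiv.Perm GolayPt} {P : ℕ}, Packs P g → Nat.beq (img P i) i = true → g (pt i) = pt i :=
    fun i hi g P hP h => hP.apply hi (Nat.eq_of_beq_eq_true h)
  have t0 : t (pt 0) = pt 1 := htp.apply (by norm_num) (by decide +kernel)
  have t2 : t (pt 2) = pt 3 := htp.apply (by norm_num) (by decide +kernel)
  have s1 := card_Fx_step (CM t) [] (pt 0) (m := 0xffffff) (by norm_num) (by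
    intro q
    constructor
    · intro _
      obtain ⟨c, hc, h⟩ := trA htM htp q
      exact ⟨c, ⟨hc, by simp⟩, h⟩
    · intro _
      have : ∀ p : GolayPt, (0xffffff : ℕ).testBit (idx p) = true := by decide
      exact this q)
  have s2 := card_Fx_step (CM t) [pt 0] (pt 2) (m := 16776636) (by norm_num) (by
    intro q
    constructor
    · intro hq
      obtain ⟨P, g, hg, h1, h2, h3⟩ := chkTr_spec chkB (by norm_num) hq
      rw [Bool.and_eq_true] at h1
      exact ⟨g, ⟨⟨hg, (commB_iff h2 htp).mp h1.1⟩, by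
        intro p hp
        rw [List.mem_singleton] at hp
        rw [hp]; exact hpt 0 (by norm_num) h2 h1.2⟩, h3⟩
    · rintro ⟨g, ⟨hg, hg0⟩, rfl⟩
      have h0 : g (pt 0) = pt 0 := hg0 _ (by simp)
      have h1 : ¬ (579 : ℕ).testBit (idx (g (pt 2))) = true := by
        rw [← Tet_mask htM htp (m := 579) (by decide) (p := pt 0) (by decide +kernel)]
        intro h
        rw [← h0, Tet_iff hg, Tet_mask htM htp (m := 579) (by decide) (p := pt 0) (by decide +kernel)] at h
        revert h; decide +kernel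
      have : ∀ p : GolayPt, ¬ (579 : ℕ).testBit (idx p) = true → (16776636 : ℕ).testBit (idx p) = true := by decide
      exact this _ h1)
  have s3 : Nat.card (Fx (CM t) [pt 2, pt 0]) = 16 := by
    have h16 : (16 : ℕ) = L16.length := by decide
    rw [h16]
    apply card_of_enum _ _ nd.2
    · intro P hP
      have h1 := List.all_eq_true.mp chkC' P hP
      simp only [Bool.and_eq_true] at h1
      obtain ⟨g, hg, hgp⟩ := exists_of_good h1.1
      refine ⟨g, ⟨⟨hg, (commB_iff hgp htp).mp h1.2.1⟩, ?_⟩, hgp⟩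
      intro p hp
      simp only [List.mem_cons, List.not_mem_nil, or_false] at hp
      rcases hp with rfl | rfl
      · exact hpt 2 (by norm_num) hgp h1.2.2.2.1
      · exact hpt 0 (by norm_num) hgp h1.2.2.1.1
    · rintro g ⟨hg, hf⟩
      have g0 : g (pt 0) = pt 0 := hf _ (by simp)
      have g2 : g (pt 2) = pt 2 := hf _ (by simp)
      have hgt : ∀ x, g (t x) = t (g x) := fun x => by
        have := congrArg (fun (f : Equiv.Perm GolayPt) => f x) hg.2
        simpa only [Equiv.Perm.mul_apply] using this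
      have g1 : g (pt 1) = pt 1 := by rw [← t0, hgt, g0]
      have g3 : g (pt 3) = pt 3 := by rw [← t2, hgt, g2]
      obtain ⟨P, Q, R, a, b, c, h1, hP, hQ, hR, hgc⟩ := allS4_spec chkC hg.1 g0 g1 g2 g3
      have hM := hP.mul (hQ.mul hR)
      rw [← hgc] at hM
      rw [(commB_iff hM htp).mpr hg.2, Bool.not_true, Bool.false_or, List.any_eq_true] at h1
      obtain ⟨n, hn, h2⟩ := h1
      rw [← Nat.eq_of_beq_eq_true h2] at hM
      exact ⟨n, hn, hM⟩
  rw [Fx_nil] at s1
  have p1 : pop 0xffffff = 24 := by decide +kernel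
  have p2 : pop 16776636 = 20 := by decide +kernel
  rw [s1, s2, s3, p1, p2]
end


/-- For a fixed-point-free involution t of the group of the length-24 code: its centraliser in that group has order 7680, is transitive on the 24 points, and is contained, together with t, in the stabiliser of some sextet. -/
theorem result (t : Equiv.Perm Cfsg.GolayPt) (ht : t ∈ Cfsg.M24) (h₂ : orderOf t = 2) (h₀ : ∀ p, t p ≠ p) : Nat.card {c : Equiv.Perm Cfsg.GolayPt // c ∈ Cfsg.M24 ∧ c * t = t * c} = 7680 ∧ (∀ p q : Cfsg.GolayPt, ∃ c ∈ Cfsg.M24, c * t = t * c ∧ c p = q) ∧ ∃ S ∈ Cfsg.sextets, t • S = S ∧ ∀ c ∈ Cfsg.M24, c * t = t * c → c • S = S := by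
  rcases Cfsg.Agent.S5394.cls ht h₂ with ⟨k, hk, hp, _⟩ | ⟨_, _, _, h⟩
  · have hM : k * t * k⁻¹ ∈ Cfsg.M24 := mul_mem (mul_mem hk ht) (inv_mem hk)
    have hiff : ∀ c : Equiv.Perm Cfsg.GolayPt, (c ∈ Cfsg.M24 ∧ c * t = t * c) ↔ k * c * k⁻¹ ∈ CfsgLib.Golay.CM (k * t * k⁻¹) := by
      intro c
      rw [CfsgLib.Golay.mem_CM]
      have e1 : k * c * k⁻¹ * (k * t * k⁻¹) = k * (c * t) * k⁻¹ := by group
      have e2 : k * t * k⁻¹ * (k * c * k⁻¹) = k * (t * c) * k⁻¹ := by group
      constructor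
      · rintro ⟨h1, h2⟩
        exact ⟨mul_mem (mul_mem hk h1) (inv_mem hk), by rw [e1, e2, h2]⟩
      · rintro ⟨h1, h2⟩
        rw [e1, e2] at h2
        refine ⟨?_, mul_left_cancel (mul_right_cancel h2)⟩
        have : c = k⁻¹ * (k * c * k⁻¹) * k := by group
        rw [this]
        exact mul_mem (mul_mem (inv_mem hk) h1) hk
    refine ⟨?_, ?_, ?_⟩
    · rw [← card_CM hM hp]
      apply Nat.card_congr
      refine ⟨fun c => ⟨k * c.1 * k⁻¹, (hiff c.1).mp c.2⟩, fun c => ⟨k⁻¹ * c.1 * k, (hiff _).mpr ?_⟩, ?_, ?_⟩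
      · have : k * (k⁻¹ * c.1 * k) * k⁻¹ = c.1 := by group
        rw [this]; exact c.2
      · intro c; apply Subtype.ext; show k⁻¹ * (k * c.1 * k⁻¹) * k = c.1; group
      · intro c; apply Subtype.ext; show k * (k⁻¹ * c.1 * k) * k⁻¹ = c.1; group
    · intro p q
      obtain ⟨c1, hc1, h1⟩ := trA hM hp (k p)
      obtain ⟨c2, hc2, h2⟩ := trA hM hp (k q)
      have h3 : c2 * c1⁻¹ ∈ CfsgLib.Golay.CM (k * t * k⁻¹) := mul_mem hc2 (inv_mem hc1)
      have h4 : k * (k⁻¹ * (c2 * c1⁻¹) * k) * k⁻¹ = c2 * c1⁻¹ := by group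
      rw [← h4, ← hiff] at h3
      refine ⟨_, h3.1, h3.2, ?_⟩
      have h5 : c1⁻¹ (k p) = CfsgLib.Golay.pt 0 := by rw [Equiv.Perm.inv_eq_iff_eq]; exact h1.symm
      rw [Equiv.Perm.mul_apply, Equiv.Perm.mul_apply, Equiv.Perm.mul_apply, h5, h2, Equiv.Perm.inv_eq_iff_eq]
    · have hS : ∀ c ∈ Cfsg.M24, c * t = t * c → c • (k⁻¹ • SS0) = k⁻¹ • SS0 := by
        intro c hc hct
        have h1 := SS0_inv hM hp ((hiff c).mp ⟨hc, hct⟩)
        have h2 : k⁻¹ • (k * c * k⁻¹) • SS0 = k⁻¹ • SS0 := by rw [h1]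
        rw [smul_smul] at h2 ⊢
        rw [← h2]; congr 1; group
      exact ⟨k⁻¹ • SS0, CfsgLib.Golay.smul_mem_sextets (inv_mem hk) SS0_mem, hS t ht rfl, hS⟩
  · exfalso
    obtain ⟨p, hp⟩ := Cfsg.Agent.S5394.oct_ne h
    exact h₀ p (Finset.mem_filter.mp hp).2

end Cfsg.Agent.S5607
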