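import Cfsg.Statements.S5608
import Cfsg.Agent.Lib.GolayCnt
import Cfsg.Agent.Lib.GolayTriads
import Cfsg.Agent.S5602
import Cfsg.Agent.S5394

set_option autoImplicit false
open scoped Pointwise
open Cfsg

set_option linter.style.haveILetI false
namespace Cfsg.Agent.S5608

section
open Cfsg CfsgLib.Golay
open scoped Pointwise
theorem E_out : ¬ ∃ o ∈ octads, ∀ p ∈ [pt 0, pt 1, pt 2, pt 3, pt 4, pt 5], p ∈ o := by
  rintro ⟨o, ho, h⟩
  have key : allC (fun m => or (not (Nat.beq (pop m) 8)) (not (Nat.beq (Nat.land m 0x3f) 0x3f))) rows 0 = true := by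
    decide +kernel
  have h1 := forall_code _ key ho.1
  rw [mem_octads_iff] at ho
  have h2 : Nat.land (mask o) 0x3f = 0x3f := by
    show mask o &&& 0x3f = 0x3f
    apply Nat.eq_of_testBit_eq
    intro i
    rw [Nat.testBit_and]
    have h3 : ∀ i < 6, (mask o).testBit i = true := by
      intro i hi
      rw [← mem_pt_iff (by omega)]
      apply h
      interval_cases i <;> simp
    by_cases hi : i < 6
    · rw [h3 i hi, Bool.true_and]
    · have : (0x3f : ℕ).testBit i = false :=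
        Nat.testBit_lt_two_pow (lt_of_lt_of_le (by norm_num : 0x3f < 2 ^ 6) (Nat.pow_le_pow_right (by norm_num) (by omega)))
      rw [this, Bool.and_false]
  rw [ho.2, h2] at h1
  simp at h1
theorem no_fpf {x s : Equiv.Perm GolayPt} (hx : x ∈ M24) (hs : s ∈ M24) (hx3 : x ^ 3 = 1) (hx1 : x ≠ 1)
    (hs2 : ∀ p, s (s p) = p) (hsf : ∀ p, s p ≠ p) (hc : Commute x s)
    (hF : (Finset.univ.filter fun p => x p = p) = toFS 0x3f) : False := by
  have hEmem : ∀ p, x p = p ↔ p ∈ toFS 0x3f := by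
    intro p; rw [← hF, Finset.mem_filter]; simp
  have hE6 : (toFS 0x3f).card = 6 := by rw [card_eq_pop, mask_toFS (by norm_num)]; decide +kernel
  have hE : toFS 0x3f = {pt 0, pt 1, pt 2, pt 3, pt 4, pt 5} := by decide +kernel
  have hsE : ∀ p ∈ toFS 0x3f, s p ∈ toFS 0x3f := by
    intro p hp
    rw [← hEmem] at hp ⊢
    have := congrArg (fun (f : Equiv.Perm GolayPt) => f p) hc.eq
    simp only [Equiv.Perm.mul_apply] at this
    rw [this, hp]
  have ha : pt 0 ∈ toFS 0x3f := by rw [hE]; simp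
  have hb := hsE _ ha
  have pick : ∀ l : List GolayPt, l.length < 6 → ∃ c ∈ toFS 0x3f, c ∉ l := by
    intro l hl
    by_contra hcon
    push Not at hcon
    have h1 : toFS 0x3f ⊆ l.toFinset := fun z hz => List.mem_toFinset.mpr (hcon z hz)
    have h2 := Finset.card_le_card h1
    have h3 := l.toFinset_card_le
    omega
  obtain ⟨c, hc1, hc2⟩ := pick [pt 0, s (pt 0)] (by simp)
  have hd := hsE _ hc1
  obtain ⟨e, he1, he2⟩ := pick [pt 0, s (pt 0), c, s c] (by simp)
  have hf := hsE _ he1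
  simp only [List.mem_cons, List.not_mem_nil, or_false, not_or] at hc2 he2
  have n1 : s c ≠ pt 0 := fun h => hc2.2 (by rw [← h, hs2])
  have n2 : s c ≠ s (pt 0) := fun h => hc2.1 (s.injective h)
  have n3 : s e ≠ pt 0 := fun h => he2.2.1 (by rw [← h, hs2])
  have n4 : s e ≠ s (pt 0) := fun h => he2.1 (s.injective h)
  have n5 : s e ≠ c := fun h => he2.2.2.2 (by rw [← h, hs2])
  have n6 : s e ≠ s c := fun h => he2.2.2.1 (s.injective h)
  have hnd : [pt 0, s (pt 0), c, s c, e, s e].Nodup := by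
    simp only [List.nodup_cons, List.mem_cons, List.not_mem_nil, or_false, not_or, List.nodup_nil, and_true,
      not_false_eq_true]
    exact ⟨⟨(hsf _).symm, fun h => hc2.1 h.symm, n1.symm, fun h => he2.1 h.symm, n3.symm⟩,
      ⟨fun h => hc2.2 h.symm, n2.symm, fun h => he2.2.1 h.symm, n4.symm⟩,
      ⟨(hsf _).symm, fun h => he2.2.2.1 h.symm, n5.symm⟩, ⟨fun h => he2.2.2.2 h.symm, n6.symm⟩, (hsf _).symm⟩
  have hall : ∀ p ∈ [pt 0, s (pt 0), c, s c, e, s e], p ∈ toFS 0x3f := by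
    intro p hp
    simp only [List.mem_cons, List.not_mem_nil, or_false] at hp
    rcases hp with rfl | rfl | rfl | rfl | rfl | rfl <;> assumption
  have hset : [pt 0, s (pt 0), c, s c, e, s e].toFinset = toFS 0x3f := by
    apply Finset.eq_of_subset_of_card_le
    · intro p hp; exact hall p (List.mem_toFinset.mp hp)
    · rw [List.toFinset_card_of_nodup hnd, hE6]; rfl
  obtain ⟨h, hh, hmap⟩ := six_trans_out hnd (l' := [pt 0, pt 1, pt 2, pt 3, pt 4, pt 5]) (by decide) rfl rfl (by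
    rintro ⟨o, ho, hp⟩
    apply E_out
    refine ⟨o, ho, fun p hp' => hp p ?_⟩
    rw [← List.mem_toFinset, hset, hE]
    simpa using hp') E_out
  simp only [List.map_cons, List.map_nil, List.cons.injEq, and_true] at hmap
  obtain ⟨m0, m1, m2, m3, m4, m5⟩ := hmap
  set s' := h * s * h⁻¹ with hs'
  set x' := h * x * h⁻¹ with hx'
  have hs'M : s' ∈ M24 := mul_mem (mul_mem hh hs) (inv_mem hh)
  have hx'M : x' ∈ M24 := mul_mem (mul_mem hh hx) (inv_mem hh)
  have cj : ∀ (y : Equiv.Perm GolayPt) (p q : GolayPt), y p = q → (h * y * h⁻¹) (h p) = h q := by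
    intro y p q hy
    have h2 : h⁻¹ (h p) = p := by rw [Equiv.Perm.inv_eq_iff_eq]
    rw [Equiv.Perm.mul_apply, Equiv.Perm.mul_apply, h2, hy]
  have s0 : s' (pt 0) = pt 1 := by rw [← m0, ← m1, m0]; nth_rewrite 1 [← m0]; exact cj s _ _ rfl
  have s1 : s' (pt 1) = pt 0 := by rw [← m1]; conv_rhs => rw [← m0]
                                   exact cj s _ _ (hs2 _)
  have s2 : s' (pt 2) = pt 3 := by rw [← m2, ← m3]; exact cj s _ _ rfl
  have s3 : s' (pt 3) = pt 2 := by rw [← m2, ← m3]; exact cj s _ _ (hs2 _)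
  have s4 : s' (pt 4) = pt 5 := by rw [← m4, ← m5]; exact cj s _ _ rfl
  have s5 : s' (pt 5) = pt 4 := by rw [← m4, ← m5]; exact cj s _ _ (hs2 _)
  obtain ⟨ρ, hρ, hρp⟩ := exists_of_good (P := r3A) (by decide +kernel)
  obtain ⟨τ, hτ, hτp⟩ := exists_of_good (P := 0x3b52b8199342ad1a3aafbc88510c01) (by decide +kernel)
  have hcard := card_PS_out (x0 := pt 0) (x1 := pt 1) (x2 := pt 2) (x3 := pt 3) (x4 := pt 4) (x5 := pt 5) (by decide) E_out
  have memPS : ∀ y ∈ M24, y (pt 0) = pt 0 → y (pt 1) = pt 1 → y (pt 2) = pt 2 → y (pt 3) = pt 3 →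
      y (pt 4) = pt 4 → y (pt 5) = pt 5 → y ∈ PS [pt 5, pt 4, pt 3, pt 2, pt 1, pt 0] := by
    intro y hy h0 h1 h2 h3 h4 h5
    refine ⟨hy, fun p hp => ?_⟩
    simp only [List.mem_cons, List.not_mem_nil, or_false] at hp
    rcases hp with rfl | rfl | rfl | rfl | rfl | rfl <;> assumption
  have hρPS : ρ ∈ PS [pt 5, pt 4, pt 3, pt 2, pt 1, pt 0] :=
    memPS ρ hρ (hρp.apply (by norm_num) (by decide +kernel)) (hρp.apply (by norm_num) (by decide +kernel))
      (hρp.apply (by norm_num) (by decide +kernel)) (hρp.apply (by norm_num) (by decide +kernel))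
      (hρp.apply (by norm_num) (by decide +kernel)) (hρp.apply (by norm_num) (by decide +kernel))
  have hρ3 : ρ ^ 3 = 1 := by
    ext1 p
    apply idx_injective
    have h := iter_spec hρp 3 p
    rw [← h, Equiv.Perm.one_apply]
    have key : ordB 3 r3A = true := by decide +kernel
    exact Nat.eq_of_beq_eq_true (List.all_eq_true.mp key _ (mem_ixs.mpr (idx_lt p)))
  have hρ1 : ρ ≠ 1 := by
    rintro rfl
    have := hρp (pt 6)
    revert this; decide +kernel
  haveI : Fact (Nat.Prime 3) := ⟨by norm_num⟩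
  have hρo : orderOf ρ = 3 := orderOf_eq_prime hρ3 hρ1
  have hzp : Subgroup.zpowers ρ = PS [pt 5, pt 4, pt 3, pt 2, pt 1, pt 0] := by
    apply Subgroup.eq_of_le_of_card_ge
    · rw [Subgroup.zpowers_le]; exact hρPS
    · rw [hcard, Nat.card_zpowers, hρo]
  have hfx : ∀ p q : GolayPt, h p = q → p ∈ toFS 0x3f → x' q = q := by
    intro p q hpq hp
    rw [← hpq]; exact cj x _ _ ((hEmem p).mpr hp)
  have hx'PS : x' ∈ Subgroup.zpowers ρ := by
    rw [hzp]
    exact memPS x' hx'M (hfx _ _ m0 ha) (hfx _ _ m1 hb) (hfx _ _ m2 hc1) (hfx _ _ m3 hd) (hfx _ _ m4 he1) (hfx _ _ m5 hf)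
  have t0 : τ (pt 0) = pt 1 := hτp.apply (by norm_num) (by decide +kernel)
  have t1 : τ (pt 1) = pt 0 := hτp.apply (by norm_num) (by decide +kernel)
  have t2 : τ (pt 2) = pt 3 := hτp.apply (by norm_num) (by decide +kernel)
  have t3 : τ (pt 3) = pt 2 := hτp.apply (by norm_num) (by decide +kernel)
  have t4 : τ (pt 4) = pt 5 := hτp.apply (by norm_num) (by decide +kernel)
  have t5 : τ (pt 5) = pt 4 := hτp.apply (by norm_num) (by decide +kernel)
  have hw : τ⁻¹ * s' ∈ Subgroup.zpowers ρ := by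
    rw [hzp]
    apply memPS _ (mul_mem (inv_mem hτ) hs'M)
    · rw [Equiv.Perm.mul_apply, s0, Equiv.Perm.inv_eq_iff_eq, t0]
    · rw [Equiv.Perm.mul_apply, s1, Equiv.Perm.inv_eq_iff_eq, t1]
    · rw [Equiv.Perm.mul_apply, s2, Equiv.Perm.inv_eq_iff_eq, t2]
    · rw [Equiv.Perm.mul_apply, s3, Equiv.Perm.inv_eq_iff_eq, t3]
    · rw [Equiv.Perm.mul_apply, s4, Equiv.Perm.inv_eq_iff_eq, t4]
    · rw [Equiv.Perm.mul_apply, s5, Equiv.Perm.inv_eq_iff_eq, t5]
  have hinv : τ * ρ = ρ ^ 2 * τ := by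
    have e : conjB 0x3b52b8199342ad1a3aafbc88510c01 r3A (mulP r3A r3A) = true := by decide +kernel
    have := conjB_spec e hτp hρp (hρp.mul hρp)
    rw [mul_inv_eq_iff_eq_mul] at this
    rw [this, pow_two]
  have hinv2 : ∀ n : ℕ, τ * ρ ^ n * τ⁻¹ = (ρ ^ n) ^ 2 := by
    intro n
    have h1 : τ * ρ * τ⁻¹ = ρ ^ 2 := by rw [mul_inv_eq_iff_eq_mul]; exact hinv
    rw [← conj_pow, h1, ← pow_mul, ← pow_mul, mul_comm]
  obtain ⟨n, hn⟩ : ∃ n : ℕ, ρ ^ n = x' := by
    rw [← mem_powers_iff_mem_zpowers] at hx'PS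
    exact hx'PS
  obtain ⟨m, hm⟩ : ∃ m : ℕ, ρ ^ m = τ⁻¹ * s' := by
    rw [← mem_powers_iff_mem_zpowers] at hw
    exact hw
  have hcomm : s' * x' * s'⁻¹ = x' := by
    rw [mul_inv_eq_iff_eq_mul, hs', hx']
    have h1 : h * s * h⁻¹ * (h * x * h⁻¹) = h * (s * x) * h⁻¹ := by group
    have h2 : h * x * h⁻¹ * (h * s * h⁻¹) = h * (x * s) * h⁻¹ := by group
    rw [h1, h2, hc.eq]
  have hs'e : s' = τ * ρ ^ m := by rw [hm]; group
  have h5 : s' * x' * s'⁻¹ = x' ^ 2 := by
    rw [hs'e, ← hn, ← hinv2 n]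
    have : τ * ρ ^ m * ρ ^ n * (τ * ρ ^ m)⁻¹ = τ * (ρ ^ m * ρ ^ n * (ρ ^ m)⁻¹) * τ⁻¹ := by group
    rw [this, ← pow_add, add_comm, pow_add, mul_inv_cancel_right]
  rw [hcomm, pow_two] at h5
  have h6 : x' = 1 := by
    have := mul_left_cancel (a := x') (b := x') (c := 1) (by rw [mul_one]; exact h5.symm)
    exact this
  apply hx1
  have : x = h⁻¹ * x' * h := by rw [hx']; group
  rw [this, h6]; group
end


/-- If an element of order 3 and an involution of the group of the length-24 code commute, then either the element of order 3 has exactly 6 fixed points and the involution exactly 8, or both are fixed-point-free. -/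
theorem result (x s : Equiv.Perm Cfsg.GolayPt) (hx : x ∈ Cfsg.M24) (hs : s ∈ Cfsg.M24) (h₃ : orderOf x = 3) (h₂ : orderOf s = 2) (hc : Commute x s) : ((Finset.univ.filter fun p => x p = p).card = 6 ∧ (Finset.univ.filter fun p => s p = p).card = 8) ∨ ((Finset.univ.filter fun p => x p = p).card = 0 ∧ (Finset.univ.filter fun p => s p = p).card = 0) := by
  classical
  have hx1 : x ≠ 1 := by rintro rfl; simp at h₃
  have hx3 : x ^ 3 = 1 := by rw [← h₃]; exact pow_orderOf_eq_one x
  have hs2' : s ^ 2 = 1 := by rw [← h₂]; exact pow_orderOf_eq_one s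
  have hs2 : ∀ p, s (s p) = p := fun p => by
    have := congrArg (fun (f : Equiv.Perm Cfsg.GolayPt) => f p) hs2'
    simpa [pow_two] using this
  rcases Cfsg.Agent.S5602.cls hx h₃ with ⟨k, hk, hkx, h1⟩ | ⟨k, hk, _, h1⟩ <;>
    rcases Cfsg.Agent.S5394.cls hs h₂ with ⟨k', hk', _, h2⟩ | ⟨k', hk', _, h2⟩
  · exfalso
    refine no_fpf (x := k * x * k⁻¹) (s := k * s * k⁻¹) (mul_mem (mul_mem hk hx) (inv_mem hk))
      (mul_mem (mul_mem hk hs) (inv_mem hk)) ?_ ?_ ?_ ?_ ?_ (CfsgLib.Golay.fix_eq (by decide +kernel) hkx)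
    · rw [conj_pow, hx3]; group
    · intro h; apply hx1
      have : x = k⁻¹ * (k * x * k⁻¹) * k := by group
      rw [this, h]; group
    · intro p
      have : (k * s * k⁻¹) * (k * s * k⁻¹) = 1 := by
        have h : (k * s * k⁻¹) ^ 2 = 1 := by rw [conj_pow, hs2']; group
        rwa [pow_two] at h
      have h := congrArg (fun (f : Equiv.Perm Cfsg.GolayPt) => f p) this
      simpa using h
    · intro p hp
      apply h2 (k⁻¹ p)
      apply k.injective
      rw [CfsgLib.Golay.app_inv]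
      exact hp
    · show k * x * k⁻¹ * (k * s * k⁻¹) = k * s * k⁻¹ * (k * x * k⁻¹)
      have e1 : k * x * k⁻¹ * (k * s * k⁻¹) = k * (x * s) * k⁻¹ := by group
      have e2 : k * s * k⁻¹ * (k * x * k⁻¹) = k * (s * x) * k⁻¹ := by group
      rw [e1, e2, hc.eq]
  · left; exact ⟨h1, CfsgLib.Golay.card_octad h2⟩
  · right
    refine ⟨h1, ?_⟩
    rw [Finset.card_eq_zero, Finset.filter_eq_empty_iff]
    intro p _; exact h2 p
  · exfalso
    set F := (Finset.univ.filter fun p => s p = p) with hF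
    have hmap : ∀ p, p ∈ F ↔ x p ∈ F := by
      intro p
      rw [hF, Finset.mem_filter, Finset.mem_filter]
      have := congrArg (fun (f : Equiv.Perm Cfsg.GolayPt) => f p) hc.eq
      simp only [Equiv.Perm.mul_apply] at this
      constructor
      · rintro ⟨-, h⟩; exact ⟨Finset.mem_univ _, by rw [← this, h]⟩
      · rintro ⟨-, h⟩; exact ⟨Finset.mem_univ _, x.injective (by rw [this, h])⟩
    let f : Function.End {p // p ∈ F} := fun z => ⟨x z, (hmap z).mp z.2⟩
    haveI : Fact (Nat.Prime 3) := ⟨by norm_num⟩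
    have hf : f ^ 3 ^ 1 = 1 := by
      have hx3' : ∀ p, x (x (x p)) = p := fun p => by
        have := congrArg (fun (f : Equiv.Perm Cfsg.GolayPt) => f p) hx3
        simpa [pow_succ] using this
      rw [pow_one, pow_succ, pow_two]
      funext z
      apply Subtype.ext
      exact hx3' z
    have h3 := Equiv.Perm.card_fixedPoints_modEq hf
    have h4 : Fintype.card {p // p ∈ F} = 8 := by
      rw [Fintype.card_coe]; exact CfsgLib.Golay.card_octad h2
    have h5 : Fintype.card (Function.fixedPoints f) = 0 := by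
      rw [Fintype.card_eq_zero_iff]
      constructor
      rintro ⟨⟨p, hp⟩, hpf⟩
      have h6 : x p = p := congrArg Subtype.val hpf
      rw [Finset.card_eq_zero, Finset.filter_eq_empty_iff] at h1
      exact h1 (Finset.mem_univ p) h6
    rw [h4, h5] at h3
    exact absurd h3 (by decide)

end Cfsg.Agent.S5608
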