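import Cfsg.Statements.S5609
import Cfsg.Agent.Lib.GolaySg2

set_option autoImplicit false
open scoped Pointwise
open Cfsg

open scoped Pointwise
set_option linter.style.haveILetI false
namespace Cfsg.Agent.S5609

section
open CfsgLib.Golay
open scoped Pointwise

theorem adj_iff {x y : Cfsg.octads} : (Cfsg.blockGraph Cfsg.octads).Adj x y ↔ (x.1 ∩ y.1).card = 0 := by
  unfold Cfsg.blockGraph
  rw [SimpleGraph.fromRel_adj]
  rw [Finset.card_eq_zero, ← Finset.disjoint_iff_inter_eq_empty]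
  constructor
  · rintro ⟨-, h | h⟩
    · exact h
    · exact h.symm
  · intro h
    refine ⟨?_, Or.inl h⟩
    rintro rfl
    have h8 := card_octad x.2
    rw [disjoint_self] at h
    rw [Finset.bot_eq_empty] at h
    rw [h] at h8
    simp at h8

theorem mk_adj {x y : Finset Cfsg.GolayPt} (hx : x ∈ Cfsg.octads) (hy : y ∈ Cfsg.octads) (h : (x ∩ y).card = 0) :
    (Cfsg.blockGraph Cfsg.octads).Adj ⟨x, hx⟩ ⟨y, hy⟩ := adj_iff.mpr h

theorem toFS_oct {m : ℕ} (hm : m < 2 ^ 24) (h : isCode m = true ∧ pop m = 8) : toFS m ∈ Cfsg.octads := by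
  rw [mem_octads_iff, mask_toFS hm]; exact h

theorem toFS_inter_card {a b : ℕ} (ha : a < 2 ^ 24) (hb : b < 2 ^ 24) : (toFS a ∩ toFS b).card = pop (Nat.land a b) := by
  rw [inter_card_eq ha, mask_toFS hb]

theorem O0_eq : O0 = toFS 0x149f := by rw [← toFS_mask O0, mask_O0]

theorem nbr4 {o o' : Finset Cfsg.GolayPt} (ho : o ∈ Cfsg.octads) (ho' : o' ∈ Cfsg.octads) (h : (o ∩ o').card = 4) :
    ∃ c ∈ Cfsg.octads, (o ∩ c).card = 0 ∧ (c ∩ o').card = 0 := by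
  obtain ⟨l, hl, h4l, hlo⟩ := exists_list_of_le_card (s := o ∩ o') (n := 4) h.ge
  obtain ⟨g, hg, e1, e2, -⟩ := pair4 ho ho' h hl h4l hlo
  have e3 : o = g⁻¹ • O0 := by rw [← e1, inv_smul_smul]
  have e4 : o' = g⁻¹ • toFS 0x82402f := by rw [← e2, inv_smul_smul]
  refine ⟨g⁻¹ • toFS 0x3da100, (smul_mem_octads (M24.inv_mem hg)).mpr (toFS_oct (by norm_num) (by decide +kernel)), ?_, ?_⟩
  · rw [e3, inter_smul_card, O0_eq, toFS_inter_card (by norm_num) (by norm_num)]; decide +kernel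
  · rw [e4, inter_smul_card, toFS_inter_card (by norm_num) (by norm_num)]; decide +kernel

theorem nbr2 {o o' : Finset Cfsg.GolayPt} (ho : o ∈ Cfsg.octads) (ho' : o' ∈ Cfsg.octads) (h : (o ∩ o').card = 2) :
    (∃ c ∈ Cfsg.octads, ∃ c' ∈ Cfsg.octads, (o ∩ c).card = 0 ∧ (c ∩ c').card = 0 ∧ (c' ∩ o').card = 0) ∧
    ∀ c ∈ Cfsg.octads, (o ∩ c).card = 0 → (c ∩ o').card = 0 → False := by
  obtain ⟨x, y, hxy, hs⟩ := Finset.card_eq_two.mp h
  obtain ⟨g, hg, e1, e2, -⟩ := pair2 ho ho' h (x := x) (y := y) (by rw [hs]; simp) (by rw [hs]; simp) hxy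
  have e3 : o = g⁻¹ • O0 := by rw [← e1, inv_smul_smul]
  have e4 : o' = g⁻¹ • toFS 0x38c023 := by rw [← e2, inv_smul_smul]
  constructor
  · refine ⟨g⁻¹ • toFS 0xb66020, (smul_mem_octads (M24.inv_mem hg)).mpr (toFS_oct (by norm_num) (by decide +kernel)),
      g⁻¹ • toFS 0x41055c, (smul_mem_octads (M24.inv_mem hg)).mpr (toFS_oct (by norm_num) (by decide +kernel)), ?_, ?_, ?_⟩
    · rw [e3, inter_smul_card, O0_eq, toFS_inter_card (by norm_num) (by norm_num)]; decide +kernel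
    · rw [inter_smul_card, toFS_inter_card (by norm_num) (by norm_num)]; decide +kernel
    · rw [e4, inter_smul_card, toFS_inter_card (by norm_num) (by norm_num)]; decide +kernel
  · intro c hc h1 h2
    have h1' : (O0 ∩ g • c).card = 0 := by rw [← e1, inter_smul_card, h1]
    have h2' : (g • c ∩ toFS 0x38c023).card = 0 := by rw [← e2, inter_smul_card, h2]
    rw [O0_eq, inter_card_eq (by norm_num)] at h1'
    rw [inter_card_eq' (by norm_num)] at h2'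
    have hchk : allC (fun m => or (not (Nat.beq (pop m) 8)) (or (not (Nat.beq (pop (Nat.land 0x149f m)) 0)) (not (Nat.beq (pop (Nat.land 0x38c023 m)) 0)))) rows 0 = true := by
      decide +kernel
    have hgc := (octads_iff'.mp ((smul_mem_octads hg).mpr hc))
    have h3 := forall_code _ hchk hgc.1
    rw [hgc.2] at h3
    have h4 : Nat.beq (pop (Nat.land 0x149f (mask (g • c)))) 0 = true := Nat.beq_eq.mpr h1'
    have h5 : Nat.beq (pop (Nat.land 0x38c023 (mask (g • c)))) 0 = true := Nat.beq_eq.mpr h2'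
    rw [h4, h5] at h3
    exact absurd h3 (by decide)

theorem dist0 {o o' : Finset Cfsg.GolayPt} (ho : o ∈ Cfsg.octads) (ho' : o' ∈ Cfsg.octads) (h : (o ∩ o').card = 0) :
    (Cfsg.blockGraph Cfsg.octads).Reachable ⟨o, ho⟩ ⟨o', ho'⟩ ∧ (Cfsg.blockGraph Cfsg.octads).dist ⟨o, ho⟩ ⟨o', ho'⟩ = 1 := by
  have h1 := mk_adj ho ho' h
  exact ⟨h1.reachable, SimpleGraph.dist_eq_one_iff_adj.mpr h1⟩

theorem dist4 {o o' : Finset Cfsg.GolayPt} (ho : o ∈ Cfsg.octads) (ho' : o' ∈ Cfsg.octads) (h : (o ∩ o').card = 4) :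
    (Cfsg.blockGraph Cfsg.octads).Reachable ⟨o, ho⟩ ⟨o', ho'⟩ ∧ (Cfsg.blockGraph Cfsg.octads).dist ⟨o, ho⟩ ⟨o', ho'⟩ = 2 := by
  obtain ⟨c, hc, h1, h2⟩ := nbr4 ho ho' h
  have a1 := mk_adj ho hc h1
  have a2 := mk_adj hc ho' h2
  have hr := a1.reachable.trans a2.reachable
  refine ⟨hr, ?_⟩
  have h3 : (Cfsg.blockGraph Cfsg.octads).dist ⟨o, ho⟩ ⟨o', ho'⟩ ≤ 2 := SimpleGraph.dist_le (SimpleGraph.Walk.cons a1 (SimpleGraph.Walk.cons a2 SimpleGraph.Walk.nil))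
  have h4 : (Cfsg.blockGraph Cfsg.octads).dist ⟨o, ho⟩ ⟨o', ho'⟩ ≠ 0 := by
    intro h0
    have h5 := hr.dist_eq_zero_iff.mp h0
    have h6 : o = o' := congrArg Subtype.val h5
    rw [← h6, Finset.inter_self, card_octad ho] at h
    omega
  have h5 : (Cfsg.blockGraph Cfsg.octads).dist ⟨o, ho⟩ ⟨o', ho'⟩ ≠ 1 := by
    intro h0
    have h6 := adj_iff.mp (SimpleGraph.dist_eq_one_iff_adj.mp h0)
    have h7 : (o ∩ o').card = 0 := h6
    omega
  omega

theorem dist2 {o o' : Finset Cfsg.GolayPt} (ho : o ∈ Cfsg.octads) (ho' : o' ∈ Cfsg.octads) (h : (o ∩ o').card = 2) :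
    (Cfsg.blockGraph Cfsg.octads).Reachable ⟨o, ho⟩ ⟨o', ho'⟩ ∧ (Cfsg.blockGraph Cfsg.octads).dist ⟨o, ho⟩ ⟨o', ho'⟩ = 3 := by
  obtain ⟨⟨c, hc, c', hc', h1, h2, h3⟩, hno⟩ := nbr2 ho ho' h
  have a1 := mk_adj ho hc h1
  have a2 := mk_adj hc hc' h2
  have a3 := mk_adj hc' ho' h3
  have hr := (a1.reachable.trans a2.reachable).trans a3.reachable
  refine ⟨hr, ?_⟩
  have h3 : (Cfsg.blockGraph Cfsg.octads).dist ⟨o, ho⟩ ⟨o', ho'⟩ ≤ 3 := SimpleGraph.dist_le (SimpleGraph.Walk.cons a1 (SimpleGraph.Walk.cons a2 (SimpleGraph.Walk.cons a3 SimpleGraph.Walk.nil)))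
  have h4 : (Cfsg.blockGraph Cfsg.octads).dist ⟨o, ho⟩ ⟨o', ho'⟩ ≠ 0 := by
    intro h0
    have h5 := hr.dist_eq_zero_iff.mp h0
    have h6 : o = o' := congrArg Subtype.val h5
    rw [← h6, Finset.inter_self, card_octad ho] at h
    omega
  have h5 : (Cfsg.blockGraph Cfsg.octads).dist ⟨o, ho⟩ ⟨o', ho'⟩ ≠ 1 := by
    intro h0
    have h6 := adj_iff.mp (SimpleGraph.dist_eq_one_iff_adj.mp h0)
    have h7 : (o ∩ o').card = 0 := h6
    omega
  have h6 : (Cfsg.blockGraph Cfsg.octads).dist ⟨o, ho⟩ ⟨o', ho'⟩ ≠ 2 := by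
    intro h0
    obtain ⟨w, hw⟩ := hr.exists_walk_length_eq_dist
    rw [h0] at hw
    match w, hw with
    | SimpleGraph.Walk.cons (v := v) b1 (SimpleGraph.Walk.cons b2 SimpleGraph.Walk.nil), _ =>
      exact hno v.1 v.2 (adj_iff.mp b1) (adj_iff.mp b2)
  omega

end


/-- In the graph on the 759 octads of the length-24 code in which two octads are adjacent when they are disjoint, the graph is connected (of diameter 3) and two distinct octads are at distance 1, 2 or 3 exactly when they meet in 0, 4 or 2 points respectively. -/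
theorem result (o o' : Finset Cfsg.GolayPt) (ho : o ∈ Cfsg.octads) (ho' : o' ∈ Cfsg.octads) (hne : o ≠ o') : (Cfsg.blockGraph Cfsg.octads).Connected ∧ ((Cfsg.blockGraph Cfsg.octads).dist ⟨o, ho⟩ ⟨o', ho'⟩ = 1 ↔ (o ∩ o').card = 0) ∧ ((Cfsg.blockGraph Cfsg.octads).dist ⟨o, ho⟩ ⟨o', ho'⟩ = 2 ↔ (o ∩ o').card = 4) ∧ ((Cfsg.blockGraph Cfsg.octads).dist ⟨o, ho⟩ ⟨o', ho'⟩ = 3 ↔ (o ∩ o').card = 2) := by
  have key : ∀ x y : Cfsg.octads, x ≠ y → ((x.1 ∩ y.1).card = 0 ∧ (Cfsg.blockGraph Cfsg.octads).Reachable x y ∧ (Cfsg.blockGraph Cfsg.octads).dist x y = 1) ∨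
      ((x.1 ∩ y.1).card = 4 ∧ (Cfsg.blockGraph Cfsg.octads).Reachable x y ∧ (Cfsg.blockGraph Cfsg.octads).dist x y = 2) ∨
      ((x.1 ∩ y.1).card = 2 ∧ (Cfsg.blockGraph Cfsg.octads).Reachable x y ∧ (Cfsg.blockGraph Cfsg.octads).dist x y = 3) := by
    intro x y hxy
    rcases CfsgLib.Golay.octad_inter_octad x.2 y.2 (fun h => hxy (Subtype.ext h)) with h | h | h
    · exact Or.inl ⟨h, dist0 x.2 y.2 h⟩
    · exact Or.inr (Or.inr ⟨h, dist2 x.2 y.2 h⟩)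
    · exact Or.inr (Or.inl ⟨h, dist4 x.2 y.2 h⟩)
  refine ⟨?_, ?_⟩
  · haveI : Nonempty Cfsg.octads := ⟨⟨o, ho⟩⟩
    refine SimpleGraph.Connected.mk ?_
    intro x y
    by_cases hxy : x = y
    · rw [hxy]
    · rcases key x y hxy with h | h | h <;> exact h.2.1
  · rcases key ⟨o, ho⟩ ⟨o', ho'⟩ (fun h => hne (congrArg Subtype.val h)) with ⟨h1, -, h2⟩ | ⟨h1, -, h2⟩ | ⟨h1, -, h2⟩ <;>
    · have h1' : (o ∩ o').card = _ := h1
      refine ⟨?_, ?_, ?_⟩ <;> constructor <;> intro h <;> omega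

end Cfsg.Agent.S5609
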