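import Cfsg.Statements.S5610
import Cfsg.Agent.Lib.GolayOrbT
import Cfsg.Agent.Lib.GolayOct

set_option autoImplicit false
open scoped Pointwise
open Cfsg

namespace Cfsg.Agent.S5610

section
open Cfsg CfsgLib.Golay
open scoped Pointwise
theorem n_octads : octads.ncard = 759 := by
  show (wordsOfWeight (golayCode : Set (GolayPt → ZMod 2)) 8).ncard = 759
  rw [ncard_words]; decide +kernel
theorem cntTO {o : Finset GolayPt} (ho : o ∈ octads) {z N M : ℕ} (h : {o : Finset GolayPt | o ∈ octads ∧ sq T0 {o} = z}.ncard = N)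
    (hM : 3795 * N = 759 * M) : {T | T ∈ trios ∧ sq T {o} = z}.ncard = M := by
  have h1 := D_trio_oct.double octads_tr T0_mem ho z
  rw [ncard_trios, n_octads, h] at h1
  omega
theorem cntSO {o : Finset GolayPt} (ho : o ∈ octads) {z N M : ℕ} (h : {o : Finset GolayPt | o ∈ octads ∧ sq S0 {o} = z}.ncard = N)
    (hM : 1771 * N = 759 * M) : {S | S ∈ sextets ∧ sq S {o} = z}.ncard = M := by
  have h1 := D_sext_oct.double octads_tr S0_mem ho z
  rw [ncard_sextets, n_octads, h] at h1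
  omega
end


/-- The stabiliser of an octad in the group of the length-24 code has exactly three orbits on the 3795 trios, of sizes 15, 420 and 3360, and exactly three orbits on the 1771 sextets, of sizes 35, 840 and 896. -/
theorem result (o : Finset Cfsg.GolayPt) (ho : o ∈ Cfsg.octads) : (∃ X₁ ∈ Cfsg.trios, ∃ X₂ ∈ Cfsg.trios, ∃ X₃ ∈ Cfsg.trios, (MulAction.orbit ↥(MulAction.stabilizer Cfsg.M24 o) X₁).ncard = 15 ∧ (MulAction.orbit ↥(MulAction.stabilizer Cfsg.M24 o) X₂).ncard = 420 ∧ (MulAction.orbit ↥(MulAction.stabilizer Cfsg.M24 o) X₃).ncard = 3360 ∧ Cfsg.trios = MulAction.orbit ↥(MulAction.stabilizer Cfsg.M24 o) X₁ ∪ MulAction.orbit ↥(MulAction.stabilizer Cfsg.M24 o) X₂ ∪ MulAction.orbit ↥(MulAction.stabilizer Cfsg.M24 o) X₃) ∧ (∃ Y₁ ∈ Cfsg.sextets, ∃ Y₂ ∈ Cfsg.sextets, ∃ Y₃ ∈ Cfsg.sextets, (MulAction.orbit ↥(MulAction.stabilizer Cfsg.M24 o) Y₁).ncard = 35 ∧ (MulAction.orbit ↥(MulAction.stabilizer Cfsg.M24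 o) Y₂).ncard = 840 ∧ (MulAction.orbit ↥(MulAction.stabilizer Cfsg.M24 o) Y₃).ncard = 896 ∧ Cfsg.sextets = MulAction.orbit ↥(MulAction.stabilizer Cfsg.M24 o) Y₁ ∪ MulAction.orbit ↥(MulAction.stabilizer Cfsg.M24 o) Y₂ ∪ MulAction.orbit ↥(MulAction.stabilizer Cfsg.M24 o) Y₃) := by
  have hv1 := fun T (hT : T ∈ Cfsg.trios) => (CfsgLib.Golay.D_trio_oct).vals CfsgLib.Golay.T0_mem
    (p := fun x => x = CfsgLib.Golay.zv1 0 ∨ x = CfsgLib.Golay.zv1 2 ∨ x = CfsgLib.Golay.zv1 1)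
    (fun o ho => by
      rcases CfsgLib.Golay.vals1 o ho with h | h | h
      · simp only [h]; decide
      · simp only [h]; decide
      · simp only [h]; decide) hT ho
  have hv2 := fun S (hS : S ∈ Cfsg.sextets) => (CfsgLib.Golay.D_sext_oct).vals CfsgLib.Golay.S0_mem
    (p := fun x => x = CfsgLib.Golay.zv2 0 ∨ x = CfsgLib.Golay.zv2 2 ∨ x = CfsgLib.Golay.zv2 1)
    (fun o ho => by
      rcases CfsgLib.Golay.vals2 o ho with h | h | h
      · simp only [h]; decide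
      · simp only [h]; decide
      · simp only [h]; decide) hS ho
  exact ⟨(CfsgLib.Golay.D_trio_oct.swap CfsgLib.Golay.octads_tr).three ho hv1
    (cntTO ho (CfsgLib.Golay.oct_count CfsgLib.Golay.gen3_spec CfsgLib.Golay.tr1_ok CfsgLib.Golay.root1 CfsgLib.Golay.zv1_inj (c := 0) (by norm_num) CfsgLib.Golay.cn1_ok.1) (by norm_num))
    (cntTO ho (CfsgLib.Golay.oct_count CfsgLib.Golay.gen3_spec CfsgLib.Golay.tr1_ok CfsgLib.Golay.root1 CfsgLib.Golay.zv1_inj (c := 2) (by norm_num) CfsgLib.Golay.cn1_ok.2.2) (by norm_num))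
    (cntTO ho (CfsgLib.Golay.oct_count CfsgLib.Golay.gen3_spec CfsgLib.Golay.tr1_ok CfsgLib.Golay.root1 CfsgLib.Golay.zv1_inj (c := 1) (by norm_num) CfsgLib.Golay.cn1_ok.2.1) (by norm_num))
    (by norm_num) (by norm_num) (by norm_num),
    (CfsgLib.Golay.D_sext_oct.swap CfsgLib.Golay.octads_tr).three ho hv2
    (cntSO ho (CfsgLib.Golay.oct_count CfsgLib.Golay.gens2_spec CfsgLib.Golay.tr2_ok CfsgLib.Golay.root2 CfsgLib.Golay.zv2_inj (c := 0) (by norm_num) CfsgLib.Golay.cn2_ok.1) (by norm_num))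
    (cntSO ho (CfsgLib.Golay.oct_count CfsgLib.Golay.gens2_spec CfsgLib.Golay.tr2_ok CfsgLib.Golay.root2 CfsgLib.Golay.zv2_inj (c := 2) (by norm_num) CfsgLib.Golay.cn2_ok.2.2) (by norm_num))
    (cntSO ho (CfsgLib.Golay.oct_count CfsgLib.Golay.gens2_spec CfsgLib.Golay.tr2_ok CfsgLib.Golay.root2 CfsgLib.Golay.zv2_inj (c := 1) (by norm_num) CfsgLib.Golay.cn2_ok.2.1) (by norm_num))
    (by norm_num) (by norm_num) (by norm_num)⟩

end Cfsg.Agent.S5610
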