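import Cfsg.Statements.S5611
import Cfsg.Agent.Lib.GolayOrbT

set_option autoImplicit false
open scoped Pointwise
open Cfsg

namespace Cfsg.Agent.S5611

section
open Cfsg CfsgLib.Golay
open scoped Pointwise
theorem cntTS {S : Finset (Finset GolayPt)} (hS : S ∈ sextets) {z N M : ℕ} (h : {S | S ∈ sextets ∧ sq T0 S = z}.ncard = N)
    (hM : 3795 * N = 1771 * M) : {T | T ∈ trios ∧ sq T S = z}.ncard = M := by
  have h1 := D_trio_sext.double sextets_tr T0_mem hS z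
  rw [ncard_trios, ncard_sextets, h] at h1
  omega
end


/-- The stabiliser of a sextet in the group of the length-24 code has exactly three orbits on the 759 octads, of sizes 15, 360 and 384, and exactly four orbits on the 3795 trios, of sizes 15, 180, 720 and 2880. -/
theorem result (S : Finset (Finset Cfsg.GolayPt)) (hS : S ∈ Cfsg.sextets) : (∃ X₁ ∈ Cfsg.octads, ∃ X₂ ∈ Cfsg.octads, ∃ X₃ ∈ Cfsg.octads, (MulAction.orbit ↥(MulAction.stabilizer Cfsg.M24 S) X₁).ncard = 15 ∧ (MulAction.orbit ↥(MulAction.stabilizer Cfsg.M24 S) X₂).ncard = 360 ∧ (MulAction.orbit ↥(MulAction.stabilizer Cfsg.M24 S) X₃).ncard = 384 ∧ Cfsg.octads = MulAction.orbit ↥(MulAction.stabilizer Cfsg.M24 S) X₁ ∪ MulAction.orbit ↥(MulAction.stabilizer Cfsg.M24 S) X₂ ∪ MulAction.orbit ↥(MulAction.stabilizer Cfsg.M24 S) X₃) ∧ (∃ Y₁ ∈ Cfsg.trios, ∃ Y₂ ∈ Cfsg.trios, ∃ Y₃ ∈ Cfsg.trios, ∃ Y₄ ∈ Cfsg.trios, (MulAction.orbit ↥(MulAction.stabilizer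 Cfsg.M24 S) Y₁).ncard = 15 ∧ (MulAction.orbit ↥(MulAction.stabilizer Cfsg.M24 S) Y₂).ncard = 180 ∧ (MulAction.orbit ↥(MulAction.stabilizer Cfsg.M24 S) Y₃).ncard = 720 ∧ (MulAction.orbit ↥(MulAction.stabilizer Cfsg.M24 S) Y₄).ncard = 2880 ∧ Cfsg.trios = MulAction.orbit ↥(MulAction.stabilizer Cfsg.M24 S) Y₁ ∪ MulAction.orbit ↥(MulAction.stabilizer Cfsg.M24 S) Y₂ ∪ MulAction.orbit ↥(MulAction.stabilizer Cfsg.M24 S) Y₃ ∪ MulAction.orbit ↥(MulAction.stabilizer Cfsg.M24 S) Y₄) := by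
  have hv1 := fun o (ho : o ∈ Cfsg.octads) => (CfsgLib.Golay.D_sext_oct).vals CfsgLib.Golay.S0_mem
    (p := fun x => x = CfsgLib.Golay.zv2 0 ∨ x = CfsgLib.Golay.zv2 2 ∨ x = CfsgLib.Golay.zv2 1)
    (fun o ho => by
      rcases CfsgLib.Golay.vals2 o ho with h | h | h
      · simp only [h]; decide
      · simp only [h]; decide
      · simp only [h]; decide) hS ho
  have hv2 := fun T (hT : T ∈ Cfsg.trios) => (CfsgLib.Golay.D_trio_sext).vals CfsgLib.Golay.T0_mem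
    (p := fun x => x = CfsgLib.Golay.zv3 0 ∨ x = CfsgLib.Golay.zv3 1 ∨ x = CfsgLib.Golay.zv3 3 ∨ x = CfsgLib.Golay.zv3 2)
    (fun S hS => by
      rcases CfsgLib.Golay.vals3 S hS with h | h | h | h
      · simp only [h]; decide
      · simp only [h]; decide
      · simp only [h]; decide
      · simp only [h]; decide) hT hS
  exact ⟨CfsgLib.Golay.D_sext_oct.three hS hv1
    ((CfsgLib.Golay.D_sext_oct.ncard_eq hS CfsgLib.Golay.S0_mem _).trans (CfsgLib.Golay.oct_count CfsgLib.Golay.gens2_spec CfsgLib.Golay.tr2_ok CfsgLib.Golay.root2 CfsgLib.Golay.zv2_inj (c := 0) (by norm_num) CfsgLib.Golay.cn2_ok.1))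
    ((CfsgLib.Golay.D_sext_oct.ncard_eq hS CfsgLib.Golay.S0_mem _).trans (CfsgLib.Golay.oct_count CfsgLib.Golay.gens2_spec CfsgLib.Golay.tr2_ok CfsgLib.Golay.root2 CfsgLib.Golay.zv2_inj (c := 2) (by norm_num) CfsgLib.Golay.cn2_ok.2.2))
    ((CfsgLib.Golay.D_sext_oct.ncard_eq hS CfsgLib.Golay.S0_mem _).trans (CfsgLib.Golay.oct_count CfsgLib.Golay.gens2_spec CfsgLib.Golay.tr2_ok CfsgLib.Golay.root2 CfsgLib.Golay.zv2_inj (c := 1) (by norm_num) CfsgLib.Golay.cn2_ok.2.1))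
    (by norm_num) (by norm_num) (by norm_num),
    (CfsgLib.Golay.D_trio_sext.swap CfsgLib.Golay.sextets_tr).four hS hv2
    (cntTS hS (CfsgLib.Golay.sext_count CfsgLib.Golay.gen3_spec CfsgLib.Golay.tr3_ok CfsgLib.Golay.root3 CfsgLib.Golay.zv3_inj (c := 0) (by norm_num) CfsgLib.Golay.cn3_ok.1) (by norm_num))
    (cntTS hS (CfsgLib.Golay.sext_count CfsgLib.Golay.gen3_spec CfsgLib.Golay.tr3_ok CfsgLib.Golay.root3 CfsgLib.Golay.zv3_inj (c := 1) (by norm_num) CfsgLib.Golay.cn3_ok.2.1) (by norm_num))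
    (cntTS hS (CfsgLib.Golay.sext_count CfsgLib.Golay.gen3_spec CfsgLib.Golay.tr3_ok CfsgLib.Golay.root3 CfsgLib.Golay.zv3_inj (c := 3) (by norm_num) CfsgLib.Golay.cn3_ok.2.2.2) (by norm_num))
    (cntTS hS (CfsgLib.Golay.sext_count CfsgLib.Golay.gen3_spec CfsgLib.Golay.tr3_ok CfsgLib.Golay.root3 CfsgLib.Golay.zv3_inj (c := 2) (by norm_num) CfsgLib.Golay.cn3_ok.2.2.1) (by norm_num))
    (by norm_num) (by norm_num) (by norm_num) (by norm_num)⟩

end Cfsg.Agent.S5611
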