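import Cfsg.Statements.S5612
import Cfsg.Agent.Lib.GolayOrbT

set_option autoImplicit false
open scoped Pointwise
open Cfsg

namespace Cfsg.Agent.S5612

/-- The stabiliser of a trio in the group of the length-24 code has exactly three orbits on the 759 octads, of sizes 3, 84 and 672, and exactly four orbits on the 1771 sextets, of sizes 7, 84, 336 and 1344. -/
theorem result (T : Finset (Finset Cfsg.GolayPt)) (hT : T ∈ Cfsg.trios) : (∃ X₁ ∈ Cfsg.octads, ∃ X₂ ∈ Cfsg.octads, ∃ X₃ ∈ Cfsg.octads, (MulAction.orbit ↥(MulAction.stabilizer Cfsg.M24 T) X₁).ncard = 3 ∧ (MulAction.orbit ↥(MulAction.stabilizer Cfsg.M24 T) X₂).ncard = 84 ∧ (MulAction.orbit ↥(MulAction.stabilizer Cfsg.M24 T) X₃).ncard = 672 ∧ Cfsg.octads = MulAction.orbit ↥(MulAction.stabilizer Cfsg.M24 T) X₁ ∪ MulAction.orbit ↥(MulAction.stabilizer Cfsg.M24 T) X₂ ∪ MulAction.orbit ↥(MulAction.stabilizer Cfsg.M24 T) X₃) ∧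 (∃ Y₁ ∈ Cfsg.sextets, ∃ Y₂ ∈ Cfsg.sextets, ∃ Y₃ ∈ Cfsg.sextets, ∃ Y₄ ∈ Cfsg.sextets, (MulAction.orbit ↥(MulAction.stabilizer Cfsg.M24 T) Y₁).ncard = 7 ∧ (MulAction.orbit ↥(MulAction.stabilizer Cfsg.M24 T) Y₂).ncard = 84 ∧ (MulAction.orbit ↥(MulAction.stabilizer Cfsg.M24 T) Y₃).ncard = 336 ∧ (MulAction.orbit ↥(MulAction.stabilizer Cfsg.M24 T) Y₄).ncard = 1344 ∧ Cfsg.sextets = MulAction.orbit ↥(MulAction.stabilizer Cfsg.M24 T) Y₁ ∪ MulAction.orbit ↥(MulAction.stabilizer Cfsg.M24 T) Y₂ ∪ MulAction.orbit ↥(MulAction.stabilizer Cfsg.M24 T) Y₃ ∪ MulAction.orbit ↥(MulAction.stabilizer Cfsg.M24 T) Y₄) := by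
  have hv1 := fun o (ho : o ∈ Cfsg.octads) => (CfsgLib.Golay.D_trio_oct).vals CfsgLib.Golay.T0_mem
    (p := fun x => x = CfsgLib.Golay.zv1 0 ∨ x = CfsgLib.Golay.zv1 2 ∨ x = CfsgLib.Golay.zv1 1)
    (fun o ho => by
      rcases CfsgLib.Golay.vals1 o ho with h | h | h
      · simp only [h]; decide
      · simp only [h]; decide
      · simp only [h]; decide) hT ho
  have hv2 := fun S (hS : S ∈ Cfsg.sextets) => (CfsgLib.Golay.D_trio_sext).vals CfsgLib.Golay.T0_mem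
    (p := fun x => x = CfsgLib.Golay.zv3 0 ∨ x = CfsgLib.Golay.zv3 1 ∨ x = CfsgLib.Golay.zv3 3 ∨ x = CfsgLib.Golay.zv3 2)
    (fun S hS => by
      rcases CfsgLib.Golay.vals3 S hS with h | h | h | h
      · simp only [h]; decide
      · simp only [h]; decide
      · simp only [h]; decide
      · simp only [h]; decide) hT hS
  exact ⟨CfsgLib.Golay.D_trio_oct.three hT hv1
    ((CfsgLib.Golay.D_trio_oct.ncard_eq hT CfsgLib.Golay.T0_mem _).trans (CfsgLib.Golay.oct_count CfsgLib.Golay.gen3_spec CfsgLib.Golay.tr1_ok CfsgLib.Golay.root1 CfsgLib.Golay.zv1_inj (c := 0) (by norm_num) CfsgLib.Golay.cn1_ok.1))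
    ((CfsgLib.Golay.D_trio_oct.ncard_eq hT CfsgLib.Golay.T0_mem _).trans (CfsgLib.Golay.oct_count CfsgLib.Golay.gen3_spec CfsgLib.Golay.tr1_ok CfsgLib.Golay.root1 CfsgLib.Golay.zv1_inj (c := 2) (by norm_num) CfsgLib.Golay.cn1_ok.2.2))
    ((CfsgLib.Golay.D_trio_oct.ncard_eq hT CfsgLib.Golay.T0_mem _).trans (CfsgLib.Golay.oct_count CfsgLib.Golay.gen3_spec CfsgLib.Golay.tr1_ok CfsgLib.Golay.root1 CfsgLib.Golay.zv1_inj (c := 1) (by norm_num) CfsgLib.Golay.cn1_ok.2.1))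
    (by norm_num) (by norm_num) (by norm_num),
    CfsgLib.Golay.D_trio_sext.four hT hv2
    ((CfsgLib.Golay.D_trio_sext.ncard_eq hT CfsgLib.Golay.T0_mem _).trans (CfsgLib.Golay.sext_count CfsgLib.Golay.gen3_spec CfsgLib.Golay.tr3_ok CfsgLib.Golay.root3 CfsgLib.Golay.zv3_inj (c := 0) (by norm_num) CfsgLib.Golay.cn3_ok.1))
    ((CfsgLib.Golay.D_trio_sext.ncard_eq hT CfsgLib.Golay.T0_mem _).trans (CfsgLib.Golay.sext_count CfsgLib.Golay.gen3_spec CfsgLib.Golay.tr3_ok CfsgLib.Golay.root3 CfsgLib.Golay.zv3_inj (c := 1) (by norm_num) CfsgLib.Golay.cn3_ok.2.1))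
    ((CfsgLib.Golay.D_trio_sext.ncard_eq hT CfsgLib.Golay.T0_mem _).trans (CfsgLib.Golay.sext_count CfsgLib.Golay.gen3_spec CfsgLib.Golay.tr3_ok CfsgLib.Golay.root3 CfsgLib.Golay.zv3_inj (c := 3) (by norm_num) CfsgLib.Golay.cn3_ok.2.2.2))
    ((CfsgLib.Golay.D_trio_sext.ncard_eq hT CfsgLib.Golay.T0_mem _).trans (CfsgLib.Golay.sext_count CfsgLib.Golay.gen3_spec CfsgLib.Golay.tr3_ok CfsgLib.Golay.root3 CfsgLib.Golay.zv3_inj (c := 2) (by norm_num) CfsgLib.Golay.cn3_ok.2.2.1))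
    (by norm_num) (by norm_num) (by norm_num) (by norm_num)⟩

end Cfsg.Agent.S5612
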