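import Cfsg.Statements.S5613
import Cfsg.Agent.Lib.GolaySg

set_option autoImplicit false
open scoped Pointwise
open Cfsg

namespace Cfsg.Agent.S5613

/-- In the group of the length-24 code, the joint stabiliser of two octads has order 10752, 1152 or 720 according as the octads meet in 0, 4 or 2 points. -/
theorem result (o o' : Finset Cfsg.GolayPt) (ho : o ∈ Cfsg.octads) (ho' : o' ∈ Cfsg.octads) : ((o ∩ o').card = 0 → Nat.card ↥(MulAction.stabilizer Cfsg.M24 o ⊓ MulAction.stabilizer Cfsg.M24 o') = 10752) ∧ ((o ∩ o').card = 4 → Nat.card ↥(MulAction.stabilizer Cfsg.M24 o ⊓ MulAction.stabilizer Cfsg.M24 o') = 1152) ∧ ((o ∩ o').card = 2 → Nat.card ↥(MulAction.stabilizer Cfsg.M24 o ⊓ MulAction.stabilizer Cfsg.M24 o') = 720) := by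
  have h1 := CfsgLib.Golay.card_JS_octads ho ho'
  rw [CfsgLib.Golay.card_PSd_octad ho] at h1
  rw [CfsgLib.Golay.card_stab]
  refine ⟨fun h => ?_, fun h => ?_, fun h => ?_⟩
  · rw [h, CfsgLib.Golay.count0 ho] at h1; omega
  · rw [h, CfsgLib.Golay.count4 ho] at h1; omega
  · rw [h, CfsgLib.Golay.count2 ho] at h1; omega

end Cfsg.Agent.S5613
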