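import Cfsg.Statements.S5614
import Cfsg.Agent.Lib.GolaySg

set_option autoImplicit false
open scoped Pointwise
open Cfsg

namespace Cfsg.Agent.S5614

/-- In the group of the length-24 code, the joint stabiliser of two octads meeting in exactly two points is isomorphic to the symmetric group of degree 6. -/
theorem result (o o' : Finset Cfsg.GolayPt) (ho : o ∈ Cfsg.octads) (ho' : o' ∈ Cfsg.octads) (h₂ : (o ∩ o').card = 2) : Nonempty (↥(MulAction.stabilizer Cfsg.M24 o ⊓ MulAction.stabilizer Cfsg.M24 o') ≃* Equiv.Perm (Fin 6)) := by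
  have h1 := CfsgLib.Golay.card_JS_octads ho ho'
  rw [CfsgLib.Golay.card_PSd_octad ho, h₂, CfsgLib.Golay.count2 ho] at h1
  have hc : (o \ o').card = 6 := by
    have := CfsgLib.Golay.card_sdiff_octad (s := o') ho
    omega
  obtain ⟨e⟩ := CfsgLib.Golay.iso_of_res (s := o \ o') (n := 6) hc (H := CfsgLib.Golay.JS o o')
    (by
      intro g hg
      rw [CfsgLib.Golay.mem_JS] at hg
      rw [CfsgLib.Golay.smul_sdiff', hg.2.1, hg.2.2])
    (by
      intro g hg hfix
      rw [CfsgLib.Golay.mem_JS] at hg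
      exact CfsgLib.Golay.fix_six_pair ho ho' h₂ hg.1 hg.2.2 hfix)
    (Or.inl (by
      have : Nat.factorial 6 = 720 := by decide
      rw [this]; omega))
  exact ⟨(CfsgLib.Golay.stabEquiv o o').trans e⟩

end Cfsg.Agent.S5614
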