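import Cfsg.Statements.S5615
import Cfsg.Agent.Lib.GolayOrbT

set_option autoImplicit false
open scoped Pointwise
open Cfsg

open scoped Pointwise
namespace Cfsg.Agent.S5615

section
open Cfsg CfsgLib.Golay
open scoped Pointwise
def tb : List (ℕ × ℕ) := [(0xf6840, 0xbdab49ca307b9ac5a928398a418820), (0x132b20, 0x7ba662c134ba1616b255146c418147), (0x1c4360, 0x6ae359b8a984a84401f661ae3104ea), (0x21e260, 0x8a2577b8a6b36aa811730268138d82), (0x2e8a20, 0xba28e9c4a9b4aaa79cd00ada260c80), (0x32c940, 0x2c2f25d1c89d62378536519ac38082), (0x3da100, 0xb9a259d68f4b64480acb1a1ca09d80), (0x46e300, 0x5d0d36a5f1ad902728b704a0c18487), (0x55c820, 0xba22d796569ba8259d261c2ac08144), (0x5aa060, 0xbc1d2995a644687b056923ea353040), (0x670160, 0x5d2698a215bd8c728dcd249e11018a), (0x686920, 0xba6519b6ab815c1411e615a8c3a860), (0x742a40, 0x9b9e8ad974b99216b22524a0250067), (0x7b4200, 0xbacad9d1d63562248d0f6424720540), (0x84a960, 0x9d209badf2a990268e2e616c720540), (0x8bc120, 0x925b485e28b15ca78d6614ea409d80),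 (0x978240, 0x72ea5346f04524348a7623daa03027), (0x98ea00, 0x898b54ddafb3a8c98a0822e4151c03), (0xa54b00, 0x7c4d6bc16ea250ca80ad0ca6750c44), (0xaa2340, 0x5c9f069a752a12c8868e1deca20047), (0xb90860, 0x959cd816e67d2a19a9091ae2c39040), (0xc24a60, 0x9d510b996e6a6c428a541c5ea09d80), (0xcd2220, 0x5d5066d93774e0390a34515e40b007), (0xd16140, 0x9c56fba20d958ca71ea50d12260c80), (0xde0900, 0x6bdd55de284d24ab00d024ca110d87), (0xe3a800, 0x9b926bbed1a2e03ab0b253501110e0), (0xecc040, 0x8a4b47caf65d5c130d103cda460142), (0xf08320, 0x9c8cbbd90573d2ca29b13d60418820)]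
theorem chk1 : allC (fun m => or (not (Nat.beq (pop m) 8)) (or (not (Nat.beq (Nat.land m 0x149f) 0))
    (or (mem3 m 0x149f 0x498b40 0xb66020) (tb.any fun e => Nat.beq e.1 m)))) rows 0 = true := by decide +kernel
theorem chk2 : tb.all (fun e => and (and (good e.2) (and (Nat.beq (act e.2 0x149f) 0x149f) (Nat.beq (act e.2 0xf6840) e.1)))
    (and (mem3 (act e.2 0x498b40) 0x149f 0x498b40 0xb66020) (mem3 (act e.2 0xb66020) 0x149f 0x498b40 0xb66020))) = true := by
  decide +kernel
theorem chk3 : allC (fun m => or (not (Nat.beq (pop m) 8)) (or (not (Nat.beq (Nat.land m 0x149f) 0))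
    (lev6.all fun e => mem3 (act e.2 m) 0x149f m (Nat.xor 0xffffff (Nat.lor 0x149f m))))) rows 0 = true := by decide +kernel
theorem O0_T0 : O0 ∈ T0 := by rw [T0, trio3, O0]; simp
theorem trio_other {T : Finset (Finset GolayPt)} (hT : T ∈ trios) {o : Finset GolayPt} (ho : o ∈ T) :
    ∃ a ∈ T, a ≠ o ∧ a ∈ octads ∧ Disjoint o a ∧ T = {o, a, (o ∪ a)ᶜ} := by
  obtain ⟨h1, h2, h3⟩ := hT
  have : ∃ a ∈ T, a ≠ o := by
    by_contra hc
    push Not at hc
    have : T ⊆ {o} := fun x hx => Finset.mem_singleton.mpr (hc x hx)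
    have := Finset.card_le_card this
    rw [h1, Finset.card_singleton] at this
    omega
  obtain ⟨a, ha, hao⟩ := this
  exact ⟨a, ha, hao, h2 a ha, h3 o ho a ha hao.symm, trio_eq ⟨h1, h2, h3⟩ ho ha hao.symm⟩
theorem smul_three (g : Equiv.Perm GolayPt) (a b c : Finset GolayPt) :
    g • ({a, b, c} : Finset (Finset GolayPt)) = {g • a, g • b, g • c} := by
  ext x
  rw [Finset.mem_smul_finset]
  simp [eq_comm]
/-- transitivity on trios through an octad -/
theorem trans1 {o : Finset GolayPt} (ho : o ∈ octads) {T T' : Finset (Finset GolayPt)} (hT : T ∈ trios) (hT' : T' ∈ trios)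
    (h : o ∈ T) (h' : o ∈ T') : ∃ g ∈ M24, g • o = o ∧ g • T = T' := by
  obtain ⟨g, hg, hg1⟩ := trios_tr T hT T' hT'
  have key : ∀ {X : Finset (Finset GolayPt)}, X ∈ trios → o ∈ X → sq X {o} = 64 := by
    intro X hX hoX
    obtain ⟨a, ha, hao, hoa, hd, hXe⟩ := trio_other hX hoX
    have hc : (o ∪ a)ᶜ ∈ X := by rw [hXe]; simp
    have h1 : o ∉ ({a, (o ∪ a)ᶜ} : Finset (Finset GolayPt)) := by
      intro hm
      rw [Finset.mem_insert, Finset.mem_singleton] at hm
      rcases hm with hm | hm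
      · exact hao hm.symm
      · have hne : o.Nonempty := by rw [← Finset.card_pos, card_octad ho]; norm_num
        obtain ⟨p, hp⟩ := hne
        have : p ∈ (o ∪ a)ᶜ := hm ▸ hp
        rw [Finset.mem_compl, Finset.mem_union] at this
        exact this (Or.inl hp)
    have e1 : o ∩ o = o := Finset.inter_self o
    have e2 : (a ∩ o) = ∅ := by rw [Finset.inter_comm]; exact Finset.disjoint_iff_inter_eq_empty.mp hd
    have e3 : ((o ∪ a)ᶜ ∩ o) = ∅ := by
      ext p; simp only [Finset.mem_inter, Finset.mem_compl, Finset.mem_union, Finset.notMem_empty, iff_false]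
      tauto
    rw [hXe]
    show ∑ x ∈ insert o _, ∑ s ∈ ({o} : Finset (Finset GolayPt)), (x ∩ s).card ^ 2 = 64
    rw [Finset.sum_insert h1]
    have h2 : ∑ x ∈ ({a, (o ∪ a)ᶜ} : Finset (Finset GolayPt)), ∑ s ∈ ({o} : Finset (Finset GolayPt)), (x ∩ s).card ^ 2 = 0 := by
      apply Finset.sum_eq_zero
      intro x hx
      rw [Finset.mem_insert, Finset.mem_singleton] at hx
      rw [Finset.sum_singleton]
      rcases hx with rfl | rfl
      · rw [e2]; rfl
      · rw [e3]; rfl
    rw [h2, Finset.sum_singleton, e1, card_octad ho]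
    norm_num
  exact (D_trio_oct.swap octads_tr).tr o ho T hT T' hT' (by rw [key hT h, key hT' h'])
theorem trans2 {T : Finset (Finset GolayPt)} (hT : T ∈ trios) (h : O0 ∈ T) (hne : T ≠ T0) :
    ∃ g ∈ M24, g • O0 = O0 ∧ g • T0 = T0 ∧ g • ({O0, toFS 0xf6840, (O0 ∪ toFS 0xf6840)ᶜ} : Finset (Finset GolayPt)) = T := by
  obtain ⟨a, ha, hao, hoa, hd, hXe⟩ := trio_other hT h
  have h1 := forall_code _ chk1 hoa.1
  have h8 := (mem_octads_iff.mp hoa).2
  have hl : Nat.land (mask a) 0x149f = 0 := by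
    have e : mask (a ∩ O0) = Nat.land (mask a) (mask O0) := mask_inter a O0
    rw [mask_O0] at e
    rw [← e, Finset.inter_comm, Finset.disjoint_iff_inter_eq_empty.mp hd, mask_empty]
  rw [h8, hl] at h1
  simp only [Nat.beq_refl, Bool.not_true, Bool.false_or, Bool.or_eq_true] at h1
  rcases h1 with h1 | h1
  · exfalso
    apply hne
    have haT : a ∈ T0 := by
      rw [T0, mem_trio3 (by norm_num) (by norm_num) (by norm_num)]; exact h1
    rw [hXe, trio_eq T0_mem O0_T0 haT hao.symm]
  · rw [List.any_eq_true] at h1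
    obtain ⟨e, he, hea⟩ := h1
    have h2 := List.all_eq_true.mp chk2 e he
    simp only [Bool.and_eq_true, Nat.beq_eq] at h2
    obtain ⟨⟨h3, h4, h5⟩, h6, h7⟩ := h2
    obtain ⟨g, hg, hP⟩ := exists_of_good h3
    have hgO : g • O0 = O0 := by rw [← toFS_mask (g • O0), hP.mask_smul, mask_O0, h4]; rfl
    have hgA : g • toFS 0xf6840 = a := by
      rw [← toFS_mask (g • toFS 0xf6840), hP.mask_smul, mask_toFS (by norm_num), h5, Nat.eq_of_beq_eq_true hea, toFS_mask]
    refine ⟨g, hg, hgO, ?_, ?_⟩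
    · apply smul_trio_eq hg T0_mem T0_mem (a := toFS 0x498b40) (b := toFS 0xb66020)
      · simp [T0, trio3]
      · simp [T0, trio3]
      · intro h; exact absurd (toFS_inj (by norm_num) (by norm_num) h) (by norm_num)
      · rw [T0, mem_trio3 (by norm_num) (by norm_num) (by norm_num), hP.mask_smul, mask_toFS (by norm_num)]; exact h6
      · rw [T0, mem_trio3 (by norm_num) (by norm_num) (by norm_num), hP.mask_smul, mask_toFS (by norm_num)]; exact h7
    · rw [hXe]
      have e2 : g • (O0 ∪ toFS 0xf6840)ᶜ = (O0 ∪ a)ᶜ := by rw [smul_compl, smul_union', hgO, hgA]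
      rw [smul_three, hgO, hgA, e2]
theorem two_trans_base {T₁ T₂ T₁' T₂' : Finset (Finset GolayPt)} (h1 : T₁ ∈ trios) (h2 : T₂ ∈ trios)
    (h1' : T₁' ∈ trios) (h2' : T₂' ∈ trios) (m1 : O0 ∈ T₁) (m2 : O0 ∈ T₂) (m1' : O0 ∈ T₁') (m2' : O0 ∈ T₂')
    (hne : T₁ ≠ T₂) (hne' : T₁' ≠ T₂') : ∃ g ∈ M24, g • O0 = O0 ∧ g • T₁ = T₁' ∧ g • T₂ = T₂' := by
  have key : ∀ {T₁ T₂ : Finset (Finset GolayPt)}, T₁ ∈ trios → T₂ ∈ trios → O0 ∈ T₁ → O0 ∈ T₂ → T₁ ≠ T₂ →
      ∃ g ∈ M24, g • O0 = O0 ∧ g • T0 = T₁ ∧ g • ({O0, toFS 0xf6840, (O0 ∪ toFS 0xf6840)ᶜ} : Finset (Finset GolayPt)) = T₂ := by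
    intro T₁ T₂ h1 h2 m1 m2 hne
    obtain ⟨g, hg, hgo, hgT⟩ := trans1 O0_mem T0_mem h1 O0_T0 m1
    have h3 : g⁻¹ • T₂ ∈ trios := smul_mem_trios (inv_mem hg) h2
    have h4 : O0 ∈ g⁻¹ • T₂ := by
      have : g⁻¹ • O0 ∈ g⁻¹ • T₂ := mem_smul_fam.mpr m2
      have e : g⁻¹ • O0 = O0 := by rw [inv_smul_eq_iff, hgo]
      rwa [e] at this
    have h5 : g⁻¹ • T₂ ≠ T0 := by
      intro h
      apply hne
      rw [← hgT, ← h, smul_inv_smul]
    obtain ⟨k, hk, k1, k2, k3⟩ := trans2 h3 h4 h5
    refine ⟨g * k, mul_mem hg hk, ?_, ?_, ?_⟩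
    · rw [← smul_smul, k1, hgo]
    · rw [← smul_smul, k2, hgT]
    · rw [← smul_smul, k3, smul_inv_smul]
  obtain ⟨g, hg, a1, a2, a3⟩ := key h1 h2 m1 m2 hne
  obtain ⟨k, hk, b1, b2, b3⟩ := key h1' h2' m1' m2' hne'
  refine ⟨k * g⁻¹, mul_mem hk (inv_mem hg), ?_, ?_, ?_⟩
  · rw [← smul_smul, (inv_smul_eq_iff.mpr a1.symm), b1]
  · rw [← smul_smul, (inv_smul_eq_iff.mpr a2.symm), b2]
  · rw [← smul_smul, (inv_smul_eq_iff.mpr a3.symm), b3]
theorem ker_base {g : Equiv.Perm GolayPt} (hg : g ∈ M24) (hf : ∀ p ∈ O0, g p = p) {T : Finset (Finset GolayPt)}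
    (hT : T ∈ trios) (h : O0 ∈ T) : g • T = T := by
  obtain ⟨a, ha, hao, hoa, hd, hXe⟩ := trio_other hT h
  have m : ∀ i ∈ [0, 1, 2, 3, 4, 7], pt i ∈ O0 := by
    intro i hi; rw [mem_O0]; simp only [List.mem_cons, List.not_mem_nil, or_false] at hi
    rcases hi with rfl | rfl | rfl | rfl | rfl | rfl <;> tauto
  obtain ⟨e, he, hP, -⟩ := base_six hg (hf _ (m 0 (by simp))) (hf _ (m 1 (by simp))) (hf _ (m 2 (by simp)))
    (hf _ (m 3 (by simp))) (hf _ (m 4 (by simp))) (hf _ (m 7 (by simp)))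
  have h1 := forall_code _ chk3 hoa.1
  have h8 := (mem_octads_iff.mp hoa).2
  have hl : Nat.land (mask a) 0x149f = 0 := by
    have e : mask (a ∩ O0) = Nat.land (mask a) (mask O0) := mask_inter a O0
    rw [mask_O0] at e
    rw [← e, Finset.inter_comm, Finset.disjoint_iff_inter_eq_empty.mp hd, mask_empty]
  rw [h8, hl] at h1
  simp only [Nat.beq_refl, Bool.not_true, Bool.false_or] at h1
  rw [List.all_eq_true] at h1
  have h2 := h1 e he
  have hgO : g • O0 = O0 := by
    ext p
    rw [Finset.mem_smul_finset]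
    constructor
    · rintro ⟨q, hq, rfl⟩; rw [Equiv.Perm.smul_def, hf q hq]; exact hq
    · intro hp; exact ⟨p, hp, hf p hp⟩
  have hga : g • a = O0 ∨ g • a = a ∨ g • a = (O0 ∪ a)ᶜ := by
    simp only [mem3, Bool.or_eq_true, Nat.beq_eq] at h2
    have e1 : mask (g • a) = act e.2 (mask a) := hP.mask_smul a
    rw [← toFS_mask (g • a), e1]
    rcases h2 with h2 | h2 | h2
    · left; rw [h2]; rfl
    · right; left; rw [h2, toFS_mask]
    · right; right
      have e3 : mask ((O0 ∪ a)ᶜ) = Nat.xor 0xffffff (Nat.lor 0x149f (mask a)) := by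
        have e5 : mask (O0 ∪ a) = Nat.lor 0x149f (mask a) := by
          apply ext_mask (mask_lt _)
          · show 0x149f ||| mask a < 2 ^ 24
            exact Nat.or_lt_two_pow (by norm_num) (mask_lt a)
          · intro p
            show _ = (0x149f ||| mask a).testBit (idx p)
            rw [Nat.testBit_or, testBit_mask, testBit_mask, Bool.eq_iff_iff, Bool.or_eq_true, decide_eq_true_eq,
              decide_eq_true_eq, Finset.mem_union, O0, mem_toFS]
        rw [mask_compl', e5]
      rw [h2, ← e3, toFS_mask]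
  apply smul_trio_eq hg hT hT h ha hao.symm
  · rw [hgO]; exact h
  · rw [hXe]
    rcases hga with h3 | h3 | h3 <;> rw [h3] <;> simp
/-- preserving the trios through `o` forces preserving the sextets refining `o` -/
theorem sext_fixed {o : Finset GolayPt} (ho : o ∈ octads) {g : Equiv.Perm GolayPt} (hg : g ∈ M24) (hgo : g • o = o)
    (hT : ∀ T ∈ trios, o ∈ T → g • T = T) {t : Finset GolayPt} (ht : t.card = 4) (hto : t ⊆ o) :
    g • t = t ∨ g • t = o \ t := by
  classical
  have hS := sext_mem ht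
  have h8 := card_octad ho
  have hto' : o \ t ∈ sext t := mem_sext.mpr (Or.inr ⟨o, ho, hto, rfl⟩)
  have htt := self_mem_sext t
  have hne : t ≠ o \ t := by
    intro h
    have h1 : t.Nonempty := by rw [← Finset.card_pos, ht]; norm_num
    obtain ⟨p, hp⟩ := h1
    have h2 : p ∈ o \ t := h ▸ hp
    exact (Finset.mem_sdiff.mp h2).2 hp
  have h6 : (sext t).card = 6 := hS.1
  have hR : (((sext t).erase t).erase (o \ t)).card = 4 := by
    rw [Finset.card_erase_of_mem (Finset.mem_erase.mpr ⟨hne.symm, hto'⟩), Finset.card_erase_of_mem htt, h6]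
  obtain ⟨l, hl, hl4, hlm⟩ := exists_list_of_le_card (s := ((sext t).erase t).erase (o \ t)) (n := 4) (by omega)
  match l, hl4 with
  | [u1, u2, u3, u4], _ =>
    have hu : ∀ u ∈ [u1, u2, u3, u4], u ∈ sext t ∧ Disjoint o u ∧ u ⊆ oᶜ := by
      intro u hu
      have h1 := hlm u hu
      rw [Finset.mem_erase, Finset.mem_erase] at h1
      have d1 := sextet_disjoint hS htt h1.2.2 (fun h => h1.2.1 h.symm)
      have d2 := sextet_disjoint hS hto' h1.2.2 (fun h => h1.1 h.symm)
      have d3 : Disjoint o u := by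
        have : o = t ∪ (o \ t) := by rw [Finset.union_sdiff_of_subset hto]
        rw [this, Finset.disjoint_union_left]
        exact ⟨d1, d2⟩
      refine ⟨h1.2.2, d3, ?_⟩
      intro p hp
      rw [Finset.mem_compl]
      exact fun hpo => Finset.disjoint_left.mp d3 hpo hp
    simp only [List.nodup_cons, List.mem_cons, List.not_mem_nil, or_false, not_or, List.nodup_nil, and_true,
      not_false_eq_true] at hl
    obtain ⟨⟨n12, n13, n14⟩, ⟨n23, n24⟩, n34⟩ := hl
    have H1 := hu u1 (by simp)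
    have H2 := hu u2 (by simp)
    have H3 := hu u3 (by simp)
    have H4 := hu u4 (by simp)
    have D : ∀ {u v : Finset GolayPt}, u ∈ sext t → v ∈ sext t → u ≠ v → ∀ p, p ∈ u → p ∉ v := fun hu hv h p hp hv' =>
      Finset.disjoint_left.mp (sextet_disjoint hS hu hv h) hp hv'
    have hcov : ∀ p, p ∉ o → p ∈ u1 ∨ p ∈ u2 ∨ p ∈ u3 ∨ p ∈ u4 := by
      intro p hp
      obtain ⟨v, hv, hpv⟩ := sextet_covers hS p
      have hv1 : v ≠ t := by rintro rfl; exact hp (hto hpv)
      have hv2 : v ≠ o \ t := by rintro rfl; exact hp (Finset.sdiff_subset hpv)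
      have hset : [u1, u2, u3, u4].toFinset = ((sext t).erase t).erase (o \ t) := by
        apply Finset.eq_of_subset_of_card_le
        · intro x hx; exact hlm x (List.mem_toFinset.mp hx)
        · rw [hR, List.toFinset_card_of_nodup (by simp [n12, n13, n14, n23, n24, n34])]; rfl
      have : v ∈ [u1, u2, u3, u4].toFinset := by
        rw [hset, Finset.mem_erase, Finset.mem_erase]; exact ⟨hv2, hv1, hv⟩
      simp only [List.mem_toFinset, List.mem_cons, List.not_mem_nil, or_false] at this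
      rcases this with rfl | rfl | rfl | rfl
      · exact Or.inl hpv
      · exact Or.inr (Or.inl hpv)
      · exact Or.inr (Or.inr (Or.inl hpv))
      · exact Or.inr (Or.inr (Or.inr hpv))
    -- the two trios
    have trio : ∀ {a b c d : Finset GolayPt}, a ∈ sext t → b ∈ sext t → a ≠ b → Disjoint o a → Disjoint o b →
        (o ∪ (a ∪ b))ᶜ = c ∪ d → g • (a ∪ b) = a ∪ b ∨ g • (a ∪ b) = c ∪ d := by
      intro a b c d ha hb hab hoa hob hcd
      have h1 := sext_union ht ha hb hab
      have h2 : Disjoint o (a ∪ b) := by rw [Finset.disjoint_union_right]; exact ⟨hoa, hob⟩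
      have h3 := hT _ (mem_trios_of ho h1 h2) (by simp)
      have h4 : g • (a ∪ b) ∈ g • ({o, a ∪ b, (o ∪ (a ∪ b))ᶜ} : Finset (Finset GolayPt)) := mem_smul_fam.mpr (by simp)
      rw [h3] at h4
      simp only [Finset.mem_insert, Finset.mem_singleton] at h4
      rcases h4 with h4 | h4 | h4
      · exfalso
        have h5 : a ∪ b = o := by
          have : g • (a ∪ b) = g • o := by rw [h4, hgo]
          exact smul_left_cancel g this
        have hne' : o.Nonempty := by rw [← Finset.card_pos, h8]; norm_num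
        rw [h5] at h2
        exact hne'.ne_empty (disjoint_self.mp h2)
      · left; exact h4
      · right; rw [h4, hcd]
    have c12 : (o ∪ (u1 ∪ u2))ᶜ = u3 ∪ u4 := by
      ext p
      simp only [Finset.mem_compl, Finset.mem_union, not_or]
      constructor
      · rintro ⟨h1, h2, h3⟩
        rcases hcov p h1 with h | h | h | h
        · exact absurd h h2
        · exact absurd h h3
        · exact Or.inl h
        · exact Or.inr h
      · rintro (h | h)
        · exact ⟨fun ho' => Finset.disjoint_left.mp H3.2.1 ho' h, D H3.1 H1.1 (Ne.symm n13) p h, D H3.1 H2.1 (Ne.symm n23) p h⟩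
        · exact ⟨fun ho' => Finset.disjoint_left.mp H4.2.1 ho' h, D H4.1 H1.1 (Ne.symm n14) p h, D H4.1 H2.1 (Ne.symm n24) p h⟩
    have c13 : (o ∪ (u1 ∪ u3))ᶜ = u2 ∪ u4 := by
      ext p
      simp only [Finset.mem_compl, Finset.mem_union, not_or]
      constructor
      · rintro ⟨h1, h2, h3⟩
        rcases hcov p h1 with h | h | h | h
        · exact absurd h h2
        · exact Or.inl h
        · exact absurd h h3
        · exact Or.inr h
      · rintro (h | h)
        · exact ⟨fun ho' => Finset.disjoint_left.mp H2.2.1 ho' h, D H2.1 H1.1 (Ne.symm n12) p h, D H2.1 H3.1 n23 p h⟩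
        · exact ⟨fun ho' => Finset.disjoint_left.mp H4.2.1 ho' h, D H4.1 H1.1 (Ne.symm n14) p h, D H4.1 H3.1 (Ne.symm n34) p h⟩
    have e1 : u1 = (u1 ∪ u2) ∩ (u1 ∪ u3) := by
      ext p
      simp only [Finset.mem_inter, Finset.mem_union]
      constructor
      · intro h; exact ⟨Or.inl h, Or.inl h⟩
      · rintro ⟨h1 | h1, h2 | h2⟩
        · exact h1
        · exact h1
        · exact h2
        · exact absurd h2 (D H2.1 H3.1 n23 p h1)
    have e2 : (u1 ∪ u2) ∩ (u2 ∪ u4) = u2 := by
      ext p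
      simp only [Finset.mem_inter, Finset.mem_union]
      constructor
      · rintro ⟨h1 | h1, h2 | h2⟩
        · exact h2
        · exact absurd h2 (D H1.1 H4.1 n14 p h1)
        · exact h1
        · exact h1
      · intro h; exact ⟨Or.inr h, Or.inl h⟩
    have e3 : (u3 ∪ u4) ∩ (u1 ∪ u3) = u3 := by
      ext p
      simp only [Finset.mem_inter, Finset.mem_union]
      constructor
      · rintro ⟨h1 | h1, h2 | h2⟩
        · exact h1
        · exact h1
        · exact absurd h2 (D H4.1 H1.1 (Ne.symm n14) p h1)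
        · exact h2
      · intro h; exact ⟨Or.inl h, Or.inr h⟩
    have e4 : (u3 ∪ u4) ∩ (u2 ∪ u4) = u4 := by
      ext p
      simp only [Finset.mem_inter, Finset.mem_union]
      constructor
      · rintro ⟨h1 | h1, h2 | h2⟩
        · exact absurd h2 (D H3.1 H2.1 (Ne.symm n23) p h1)
        · exact h2
        · exact h1
        · exact h1
      · intro h; exact ⟨Or.inr h, Or.inr h⟩
    have hgu : g • u1 ∈ sext t := by
      have e5 : g • u1 = g • (u1 ∪ u2) ∩ g • (u1 ∪ u3) := by
        conv_lhs => rw [e1]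
        exact Finset.smul_finset_inter
      rw [e5]
      rcases trio H1.1 H2.1 n12 H1.2.1 H2.2.1 c12 with h1 | h1 <;>
        rcases trio H1.1 H3.1 n13 H1.2.1 H3.2.1 c13 with h2 | h2 <;> rw [h1, h2]
      · rw [← e1]; exact H1.1
      · rw [e2]; exact H2.1
      · rw [e3]; exact H3.1
      · rw [e4]; exact H4.1
    have hgS : g • sext t = sext t := by
      have h1 : sext t = sext u1 := sextet_eq_sext hS H1.1
      have h2 : u1.card = 4 := hS.2.1 u1 H1.1
      conv_lhs => rw [h1, smul_sext hg h2]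
      exact (sextet_eq_sext hS hgu).symm
    have hgt : g • t ∈ sext t := by
      rw [← hgS]
      exact mem_smul_fam.mpr htt
    have hgto : g • t ⊆ o := by
      rw [← hgo]; exact Finset.smul_finset_subset_smul_finset hto
    by_contra hcon
    push Not at hcon
    have h1 : g • t ∈ ((sext t).erase t).erase (o \ t) :=
      Finset.mem_erase.mpr ⟨hcon.2, Finset.mem_erase.mpr ⟨hcon.1, hgt⟩⟩
    rw [Finset.mem_erase, Finset.mem_erase] at h1
    have d1 := sextet_disjoint hS htt h1.2.2 (fun h => h1.2.1 h.symm)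
    have d2 := sextet_disjoint hS hto' h1.2.2 (fun h => h1.1 h.symm)
    have hne2 : (g • t).Nonempty := by rw [← Finset.card_pos, card_smul', ht]; norm_num
    obtain ⟨p, hp⟩ := hne2
    have hpo := hgto hp
    by_cases hpt : p ∈ t
    · exact Finset.disjoint_left.mp d1 hpt hp
    · exact Finset.disjoint_left.mp d2 (Finset.mem_sdiff.mpr ⟨hpo, hpt⟩) hp
theorem fix_all {o : Finset GolayPt} (ho : o ∈ octads) {g : Equiv.Perm GolayPt} (hgo : g • o = o)
    (h : ∀ t : Finset GolayPt, t.card = 4 → t ⊆ o → g • t = t ∨ g • t = o \ t) : ∀ p ∈ o, g p = p := by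
  classical
  intro p hp
  by_contra hq
  have hqo : g p ∈ o := by rw [← hgo]; exact mem_smul_iff.mpr hp
  have h8 := card_octad ho
  have hR : ((o.erase p).erase (g p)).card = 6 := by
    rw [Finset.card_erase_of_mem (Finset.mem_erase.mpr ⟨hq, hqo⟩), Finset.card_erase_of_mem hp, h8]
  obtain ⟨l, hl, hl4, hlm⟩ := exists_list_of_le_card (s := (o.erase p).erase (g p)) (n := 6) (by omega)
  match l, hl4 with
  | [r1, r2, r3, r4, r5, r6], _ =>
    have hm : ∀ r ∈ [r1, r2, r3, r4, r5, r6], r ≠ p ∧ r ≠ g p ∧ r ∈ o := by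
      intro r hr
      have h1 := hlm r hr
      rw [Finset.mem_erase, Finset.mem_erase] at h1
      exact ⟨h1.2.1, h1.1, h1.2.2⟩
    have R1 := hm r1 (by simp)
    have R2 := hm r2 (by simp)
    have key : ∀ r ∈ [r3, r4, r5, r6], g r1 ∉ ({p, r1, r2, r} : Finset GolayPt) := by
      intro r hr
      have R := hm r (by simp only [List.mem_cons, List.not_mem_nil, or_false] at hr ⊢; tauto)
      have hn1 : r1 ≠ r2 := by
        intro h; rw [h] at hl; simp at hl
      have hn2 : r1 ≠ r ∧ r2 ≠ r := by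
        simp only [List.nodup_cons, List.mem_cons, List.not_mem_nil, or_false, not_or, List.nodup_nil, and_true,
          not_false_eq_true] at hl hr
        rcases hr with rfl | rfl | rfl | rfl <;> tauto
      have hc : ({p, r1, r2, r} : Finset GolayPt).card = 4 := by
        rw [Finset.card_eq_of_equiv_fin]
        · exact (Finset.equivFinOfCardEq (by
            rw [Finset.card_insert_of_notMem, Finset.card_insert_of_notMem, Finset.card_insert_of_notMem, Finset.card_singleton]
            · simp [hn2.2]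
            · simp [hn1, hn2.1]
            · simp [R1.1.symm, R2.1.symm, R.1.symm]))
      have hsub : ({p, r1, r2, r} : Finset GolayPt) ⊆ o := by
        intro x hx
        simp only [Finset.mem_insert, Finset.mem_singleton] at hx
        rcases hx with rfl | rfl | rfl | rfl
        · exact hp
        · exact R1.2.2
        · exact R2.2.2
        · exact R.2.2
      rcases h _ hc hsub with h1 | h1
      · exfalso
        have h2 : g p ∈ g • ({p, r1, r2, r} : Finset GolayPt) := mem_smul_iff.mpr (by simp)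
        rw [h1] at h2
        simp only [Finset.mem_insert, Finset.mem_singleton] at h2
        rcases h2 with h2 | h2 | h2 | h2
        · exact hq h2
        · exact R1.2.1 h2.symm
        · exact R2.2.1 h2.symm
        · exact R.2.1 h2.symm
      · have h2 : g r1 ∈ g • ({p, r1, r2, r} : Finset GolayPt) := mem_smul_iff.mpr (by simp)
        rw [h1, Finset.mem_sdiff] at h2
        exact h2.2
    have hg1o : g r1 ∈ o := by rw [← hgo]; exact mem_smul_iff.mpr R1.2.2
    have hset : [r1, r2, r3, r4, r5, r6].toFinset = (o.erase p).erase (g p) := by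
      apply Finset.eq_of_subset_of_card_le
      · intro x hx; exact hlm x (List.mem_toFinset.mp hx)
      · rw [hR, List.toFinset_card_of_nodup hl]; rfl
    have h3 : g r1 ∈ (o.erase p).erase (g p) := by
      rw [Finset.mem_erase, Finset.mem_erase]
      refine ⟨fun h => R1.1 (g.injective h), fun h => ?_, hg1o⟩
      exact key r3 (by simp) (by rw [h]; simp)
    rw [← hset] at h3
    simp only [List.mem_toFinset, List.mem_cons, List.not_mem_nil, or_false] at h3
    rcases h3 with h3 | h3 | h3 | h3 | h3 | h3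
    · exact key r3 (by simp) (by rw [h3]; simp)
    · exact key r3 (by simp) (by rw [h3]; simp)
    · exact key r3 (by simp) (by rw [h3]; simp)
    · exact key r4 (by simp) (by rw [h3]; simp)
    · exact key r5 (by simp) (by rw [h3]; simp)
    · exact key r6 (by simp) (by rw [h3]; simp)
end


/-- An octad of the length-24 code lies in exactly 15 trios; the stabiliser of the octad in the code's group acts doubly transitively on these 15 trios, and the kernel of this action is the pointwise stabiliser of the octad. -/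
theorem result (o : Finset Cfsg.GolayPt) (ho : o ∈ Cfsg.octads) : {T : Finset (Finset Cfsg.GolayPt) | T ∈ Cfsg.trios ∧ o ∈ T}.ncard = 15 ∧ (∀ T₁ T₂ T₁' T₂' : Finset (Finset Cfsg.GolayPt), T₁ ∈ Cfsg.trios → T₂ ∈ Cfsg.trios → T₁' ∈ Cfsg.trios → T₂' ∈ Cfsg.trios → o ∈ T₁ → o ∈ T₂ → o ∈ T₁' → o ∈ T₂' → T₁ ≠ T₂ → T₁' ≠ T₂' → ∃ g ∈ Cfsg.M24, g • o = o ∧ g • T₁ = T₁' ∧ g • T₂ = T₂') ∧ ∀ g ∈ Cfsg.M24, g • o = o → ((∀ T ∈ Cfsg.trios, o ∈ T → g • T = T) ↔ ∀ p ∈ o, g p = p) := by
  obtain ⟨k, hk, hko⟩ := CfsgLib.Golay.octads_tr o ho CfsgLib.Golay.O0 CfsgLib.Golay.O0_mem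
  refine ⟨CfsgLib.Golay.ncard_trios_through ho, ?_, ?_⟩
  · intro T₁ T₂ T₁' T₂' h1 h2 h1' h2' m1 m2 m1' m2' hne hne'
    have hm : ∀ {T : Finset (Finset Cfsg.GolayPt)}, o ∈ T → CfsgLib.Golay.O0 ∈ k • T := by
      intro T hT
      rw [← hko]; exact CfsgLib.Golay.mem_smul_fam.mpr hT
    have hs := fun {T : Finset (Finset Cfsg.GolayPt)} (hT : T ∈ Cfsg.trios) => CfsgLib.Golay.smul_mem_trios hk hT
    obtain ⟨g, hg, g1, g2, g3⟩ := two_trans_base (hs h1) (hs h2) (hs h1') (hs h2') (hm m1) (hm m2) (hm m1') (hm m2')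
      (fun h => hne (smul_left_cancel k h)) (fun h => hne' (smul_left_cancel k h))
    refine ⟨k⁻¹ * (g * k), mul_mem (inv_mem hk) (mul_mem hg hk), ?_, ?_, ?_⟩
    · rw [← smul_smul, ← smul_smul, hko, g1, inv_smul_eq_iff, hko]
    · rw [← smul_smul, ← smul_smul, g2, inv_smul_smul]
    · rw [← smul_smul, ← smul_smul, g3, inv_smul_smul]
  · intro g hg hgo
    constructor
    · intro h
      exact fix_all ho hgo (fun t ht hto => sext_fixed ho hg hgo h ht hto)
    · intro h T hT hoT
      have h1 : (k * g * k⁻¹) ∈ Cfsg.M24 := mul_mem (mul_mem hk hg) (inv_mem hk)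
      have h2 := ker_base (g := k * g * k⁻¹) h1 (by
        intro p hp
        have h3 : k⁻¹ p ∈ o := by
          rw [← hko] at hp
          rw [← CfsgLib.Golay.app_inv k p] at hp
          exact CfsgLib.Golay.mem_smul_iff.mp hp
        rw [Equiv.Perm.mul_apply, Equiv.Perm.mul_apply, h _ h3, CfsgLib.Golay.app_inv]) (CfsgLib.Golay.smul_mem_trios hk hT) (by
        rw [← hko]; exact CfsgLib.Golay.mem_smul_fam.mpr hoT)
      have h4 : (k * g * k⁻¹) • k • T = k • g • T := by
        rw [smul_smul, smul_smul]; congr 1; group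
      rw [h4] at h2
      exact smul_left_cancel k h2

end Cfsg.Agent.S5615
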