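import Cfsg.Statements.S5616
import Cfsg.Agent.Lib.GolaySg2
import Cfsg.Agent.Lib.GolaySext

set_option autoImplicit false
open scoped Pointwise
open Cfsg

open scoped Pointwise
namespace Cfsg.Agent.S5616

section
open CfsgLib.Golay
open scoped Pointwise

variable {Y : Finset Cfsg.GolayPt}

/-- number of tetrads meeting `Y` -/
def fn (Y : Finset Cfsg.GolayPt) (S : Finset (Finset Cfsg.GolayPt)) : ℕ := (S.filter fun t => (t ∩ Y).Nonempty).card

theorem sum_inter {S : Finset (Finset Cfsg.GolayPt)} (hS : S ∈ Cfsg.sextets) (Y : Finset Cfsg.GolayPt) : ∑ t ∈ S, (Y ∩ t).card = Y.card := by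
  rw [← Finset.card_biUnion]
  · congr 1
    ext p
    rw [Finset.mem_biUnion]
    constructor
    · rintro ⟨t, -, h⟩; exact (Finset.mem_inter.mp h).1
    · intro h
      obtain ⟨t, ht, hp⟩ := sextet_covers hS p
      exact ⟨t, ht, Finset.mem_inter.mpr ⟨h, hp⟩⟩
  · intro t ht u hu htu
    exact (sextet_disjoint hS ht hu htu).mono Finset.inter_subset_right Finset.inter_subset_right

theorem sum_filter' {S : Finset (Finset Cfsg.GolayPt)} (hS : S ∈ Cfsg.sextets) (Y : Finset Cfsg.GolayPt) :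
    ∑ t ∈ S.filter (fun t => (t ∩ Y).Nonempty), (Y ∩ t).card = Y.card := by
  rw [← sum_inter hS Y]
  apply Finset.sum_subset (Finset.filter_subset _ _)
  intro t ht hnt
  rw [Finset.mem_filter, not_and] at hnt
  have := hnt ht
  rw [Finset.not_nonempty_iff_eq_empty, Finset.inter_comm] at this
  rw [this, Finset.card_empty]

theorem one_le {S : Finset (Finset Cfsg.GolayPt)} {t : Finset Cfsg.GolayPt} (ht : t ∈ S.filter (fun t => (t ∩ Y).Nonempty)) : 1 ≤ (Y ∩ t).card := by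
  rw [Finset.mem_filter] at ht
  rw [Finset.inter_comm]
  exact Finset.card_pos.mpr ht.2

/-- the three cases -/
theorem fn_of_mem {S : Finset (Finset Cfsg.GolayPt)} (hS : S ∈ Cfsg.sextets) (hY : Y.card = 3) {t : Finset Cfsg.GolayPt} (ht : t ∈ S)
    (h2 : 2 ≤ (Y ∩ t).card) : fn Y S = 4 - (Y ∩ t).card := by
  have htf : t ∈ S.filter (fun t => (t ∩ Y).Nonempty) := by
    rw [Finset.mem_filter]
    refine ⟨ht, Finset.card_pos.mp ?_⟩
    rw [Finset.inter_comm]; omega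
  have h1 := sum_filter' hS Y
  rw [← Finset.add_sum_erase _ _ htf, hY] at h1
  have h3 : ((S.filter (fun t => (t ∩ Y).Nonempty)).erase t).card ≤ ∑ u ∈ (S.filter (fun t => (t ∩ Y).Nonempty)).erase t, (Y ∩ u).card := by
    rw [Finset.card_eq_sum_ones]
    apply Finset.sum_le_sum
    intro u hu
    exact one_le (Finset.mem_of_mem_erase hu)
  rw [Finset.card_erase_of_mem htf] at h3
  have hpos : 0 < (S.filter (fun t => (t ∩ Y).Nonempty)).card := Finset.card_pos.mpr ⟨t, htf⟩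
  unfold fn
  rcases Nat.lt_or_ge (Y ∩ t).card 3 with h4 | h4
  · -- exactly two
    have h5 : (Y ∩ t).card = 2 := by omega
    have h6 : ∑ u ∈ (S.filter (fun t => (t ∩ Y).Nonempty)).erase t, (Y ∩ u).card = 1 := by omega
    have h7 : ((S.filter (fun t => (t ∩ Y).Nonempty)).erase t).card ≠ 0 := by
      intro h8
      rw [Finset.card_eq_zero] at h8
      rw [h8, Finset.sum_empty] at h6
      omega
    rw [Finset.card_erase_of_mem htf] at h7
    omega
  · have h5 : (Y ∩ t).card ≤ 3 := by rw [← hY]; exact Finset.card_le_card Finset.inter_subset_left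
    omega

theorem fn_of_le {S : Finset (Finset Cfsg.GolayPt)} (hS : S ∈ Cfsg.sextets) (hY : Y.card = 3) (h : ∀ t ∈ S, (Y ∩ t).card ≤ 1) : fn Y S = 3 := by
  have h1 := sum_filter' hS Y
  have h2 : ∑ t ∈ S.filter (fun t => (t ∩ Y).Nonempty), (Y ∩ t).card = ∑ t ∈ S.filter (fun t => (t ∩ Y).Nonempty), 1 := by
    apply Finset.sum_congr rfl
    intro t ht
    have h3 := one_le ht
    have h4 := h t (Finset.mem_filter.mp ht).1
    omega
  rw [h2, ← Finset.card_eq_sum_ones, hY] at h1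
  exact h1

theorem trich {S : Finset (Finset Cfsg.GolayPt)} (hS : S ∈ Cfsg.sextets) (hY : Y.card = 3) :
    (fn Y S = 1 ∧ ∃ t ∈ S, (Y ∩ t).card = 3) ∨ (fn Y S = 2 ∧ ∃ t ∈ S, (Y ∩ t).card = 2) ∨ (fn Y S = 3 ∧ ∀ t ∈ S, (Y ∩ t).card ≤ 1) := by
  by_cases h : ∀ t ∈ S, (Y ∩ t).card ≤ 1
  · exact Or.inr (Or.inr ⟨fn_of_le hS hY h, h⟩)
  push Not at h
  obtain ⟨t, ht, h2⟩ := h
  have h1 := fn_of_mem hS hY ht h2
  have h5 : (Y ∩ t).card ≤ 3 := by rw [← hY]; exact Finset.card_le_card Finset.inter_subset_left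
  rcases Nat.lt_or_ge (Y ∩ t).card 3 with h4 | h4
  · right; left
    exact ⟨by omega, t, ht, by omega⟩
  · left
    exact ⟨by omega, t, ht, by omega⟩

theorem count_cls (hY : Y.card = 3) (k : ℕ) (hk : k = 2 ∨ k = 3) :
    {S | S ∈ Cfsg.sextets ∧ fn Y S = 4 - k}.ncard = (3).choose k * (21).choose (4 - k) := by
  have h1 := ncard_inter Y 4 k (by omega)
  rw [hY] at h1
  rw [← h1]
  symm
  apply Set.ncard_congr (fun t _ => sext t)
  · rintro t ⟨h4, hc⟩
    refine ⟨sext_mem h4, ?_⟩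
    rw [fn_of_mem (sext_mem h4) hY (self_mem_sext t) (by omega), hc]
  · rintro t u ⟨h4, hc⟩ ⟨h4', hc'⟩ htu
    by_contra hne
    have hu : u ∈ sext t := by rw [htu]; exact self_mem_sext u
    have hd := sextet_disjoint (sext_mem h4) (self_mem_sext t) hu hne
    have h5 : ((Y ∩ t) ∪ (Y ∩ u)).card = k + k := by
      rw [Finset.card_union_of_disjoint (hd.mono Finset.inter_subset_right Finset.inter_subset_right), hc, hc']
    have h6 : ((Y ∩ t) ∪ (Y ∩ u)).card ≤ 3 := by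
      rw [← hY]; exact Finset.card_le_card (Finset.union_subset Finset.inter_subset_left Finset.inter_subset_left)
    omega
  · rintro S ⟨hS, hf⟩
    rcases trich hS hY with ⟨h2, t, ht, hc⟩ | ⟨h2, t, ht, hc⟩ | ⟨h2, -⟩
    · refine ⟨t, ⟨?_, by omega⟩, (sextet_eq_sext hS ht).symm⟩
      exact hS.2.1 t ht
    · refine ⟨t, ⟨?_, by omega⟩, (sextet_eq_sext hS ht).symm⟩
      exact hS.2.1 t ht
    · omega

theorem list_pair {s : Finset Cfsg.GolayPt} (h : s.card = 2) : ∃ a b, a ≠ b ∧ s = {a, b} := Finset.card_eq_two.mp h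

theorem smul_pt_set {g : Equiv.Perm Cfsg.GolayPt} {l m : List Cfsg.GolayPt} {s t : Finset Cfsg.GolayPt} (hl : l.Nodup) (hm : m.Nodup) (h : l.map g = m)
    (hls : ∀ x, x ∈ l ↔ x ∈ s) (hmt : ∀ x, x ∈ m ↔ x ∈ t) : g • s = t := by
  ext y
  rw [← hmt y, ← h, List.mem_map, Finset.mem_smul_finset]
  constructor
  · rintro ⟨x, hx, rfl⟩; exact ⟨x, (hls x).mpr hx, rfl⟩
  · rintro ⟨x, hx, rfl⟩; exact ⟨x, (hls x).mp hx, rfl⟩

/-- transport of sextets by tetrads -/
theorem move {S S' : Finset (Finset Cfsg.GolayPt)} (hS : S ∈ Cfsg.sextets) (hS' : S' ∈ Cfsg.sextets) {t t' : Finset Cfsg.GolayPt}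
    (ht : t ∈ S) (ht' : t' ∈ S') {g : Equiv.Perm Cfsg.GolayPt} (hg : g ∈ Cfsg.M24) (h : g • t = t') : g • S = S' := by
  rw [sextet_eq_sext hS ht, sextet_eq_sext hS' ht', smul_sext hg (hS.2.1 t ht), h]

/-- lists adapted to a tetrad meeting `Y` in `k` points -/
theorem adapted {t : Finset Cfsg.GolayPt} (hY : Y.card = 3) (h4 : t.card = 4) {k : ℕ} (hk : (Y ∩ t).card = k) :
    ∃ a b c : List Cfsg.GolayPt, (a ++ b ++ c).Nodup ∧ a.length = k ∧ b.length = 4 - k ∧ c.length = 3 - k ∧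
      (∀ x, x ∈ a ++ b ↔ x ∈ t) ∧ (∀ x, x ∈ a ++ c ↔ x ∈ Y) := by
  obtain ⟨a, ha, ha1, ha2⟩ := exists_list_eq (Y ∩ t)
  obtain ⟨b, hb, hb1, hb2⟩ := exists_list_eq (t \ Y)
  obtain ⟨c, hc, hc1, hc2⟩ := exists_list_eq (Y \ t)
  have e1 := Finset.card_sdiff_add_card_inter t Y
  have e2 := Finset.card_sdiff_add_card_inter Y t
  rw [Finset.inter_comm] at e1
  refine ⟨a, b, c, ?_, by omega, by omega, by omega, ?_, ?_⟩
  · rw [List.nodup_append, List.nodup_append]
    refine ⟨⟨ha, hb, ?_⟩, hc, ?_⟩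
    · intro x hx y hy hxy
      subst hxy
      rw [ha2, Finset.mem_inter] at hx
      rw [hb2, Finset.mem_sdiff] at hy
      exact hy.2 hx.1
    · intro x hx y hy hxy
      subst hxy
      rw [List.mem_append, ha2, hb2, Finset.mem_inter, Finset.mem_sdiff] at hx
      rw [hc2, Finset.mem_sdiff] at hy
      rcases hx with hx | hx
      · exact hy.2 hx.2
      · exact hx.2 hy.1
  · intro x
    rw [List.mem_append, ha2, hb2, Finset.mem_inter, Finset.mem_sdiff]; tauto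
  · intro x
    rw [List.mem_append, ha2, hc2, Finset.mem_inter, Finset.mem_sdiff]; tauto

theorem trans12 (hY : Y.card = 3) {S S' : Finset (Finset Cfsg.GolayPt)} (hS : S ∈ Cfsg.sextets) (hS' : S' ∈ Cfsg.sextets) {t t' : Finset Cfsg.GolayPt}
    (ht : t ∈ S) (ht' : t' ∈ S') {k : ℕ} (hk : (Y ∩ t).card = k) (hk' : (Y ∩ t').card = k) (h2 : 2 ≤ k) :
    ∃ g ∈ Cfsg.M24, g • Y = Y ∧ g • S = S' := by
  have hk3 : k ≤ 3 := by rw [← hk, ← hY]; exact Finset.card_le_card Finset.inter_subset_left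
  obtain ⟨a, b, c, hnd, ha, hb, hc, h1, h3⟩ := adapted hY (hS.2.1 t ht) hk
  obtain ⟨a', b', c', hnd', ha', hb', hc', h1', h3'⟩ := adapted hY (hS'.2.1 t' ht') hk'
  obtain ⟨g, hg, hgl⟩ := trans_list (l := a ++ b ++ c) (l' := a' ++ b' ++ c') hnd hnd' (by simp [ha, hb, hc, ha', hb', hc'])
    (by simp only [List.length_append, ha, hb, hc]; omega)
  have e1 : (a ++ b).map g = a' ++ b' := app_left hgl (by simp [ha, hb, ha', hb'])
  have e2 : c.map g = c' := app_right hgl (by simp [ha, hb, ha', hb'])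
  have e3 : a.map g = a' := app_left e1 (by simp [ha, ha'])
  have hnab := (List.nodup_append.mp hnd).1
  have hnab' := (List.nodup_append.mp hnd').1
  have sub : ∀ {a b c : List Cfsg.GolayPt}, (a ++ b ++ c).Nodup → (a ++ c).Nodup := by
    intro a b c h
    rw [List.nodup_append, List.nodup_append] at h
    rw [List.nodup_append]
    exact ⟨h.1.1, h.2.1, fun x hx y hy => h.2.2 x (List.mem_append_left _ hx) y hy⟩
  refine ⟨g, hg, ?_, ?_⟩
  · exact smul_pt_set (sub hnd) (sub hnd') (by rw [List.map_append, e3, e2]) h3 h3'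
  · exact move hS hS' ht ht' hg (smul_pt_set hnab hnab' e1 h1 h1')

/-- the third case: normal form -/
theorem frame3 (hY : Y.card = 3) {S : Finset (Finset Cfsg.GolayPt)} (hS : S ∈ Cfsg.sextets) (h : ∀ t ∈ S, (Y ∩ t).card ≤ 1) :
    ∃ a b c x y z w t o, t ∈ S ∧ o ∈ Cfsg.octads ∧ Y = {a, b, c} ∧ t = {a, x, y, z} ∧ [a, x, y, z, b, w].Nodup ∧
      a ∈ o ∧ x ∈ o ∧ y ∈ o ∧ z ∈ o ∧ b ∈ o ∧ w ∈ o ∧ c ∉ o := by
  obtain ⟨a, b, c, hab, hac, hbc, hYe⟩ := Finset.card_eq_three.mp hY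
  obtain ⟨t, ht, hat⟩ := sextet_covers hS a
  obtain ⟨u, hu, hbu⟩ := sextet_covers hS b
  obtain ⟨v, hv, hcv⟩ := sextet_covers hS c
  have two : ∀ {s : Finset Cfsg.GolayPt} {p q : Cfsg.GolayPt}, s ∈ S → p ≠ q → p ∈ Y → q ∈ Y → p ∈ s → q ∈ s → False := by
    intro s p q hs hpq hp hq hps hqs
    have h1 := h s hs
    have h2 : 1 < (Y ∩ s).card := Finset.one_lt_card.mpr ⟨p, Finset.mem_inter.mpr ⟨hp, hps⟩, q, Finset.mem_inter.mpr ⟨hq, hqs⟩, hpq⟩
    omega
  have haY : a ∈ Y := by rw [hYe]; simp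
  have hbY : b ∈ Y := by rw [hYe]; simp
  have hcY : c ∈ Y := by rw [hYe]; simp
  have hbt : b ∉ t := fun h1 => two ht hab haY hbY hat h1
  have htu : t ≠ u := fun h1 => hbt (by rw [h1]; exact hbu)
  have htv : t ≠ v := fun h1 => two ht hac haY hcY hat (by rw [h1]; exact hcv)
  have huv : u ≠ v := fun h1 => two hu hbc hbY hcY hbu (by rw [h1]; exact hcv)
  have ht4 : t.card = 4 := hS.2.1 t ht
  have hu4 : u.card = 4 := hS.2.1 u hu
  have hdtu := sextet_disjoint hS ht hu htu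
  have ho : t ∪ u ∈ Cfsg.octads := by
    rw [sextet_eq_sext hS ht] at hu
    exact sext_union ht4 (self_mem_sext t) hu htu
  have hco : c ∉ t ∪ u := by
    rw [Finset.mem_union, not_or]
    exact ⟨fun h1 => two ht hac haY hcY hat h1, fun h1 => two hu hbc hbY hcY hbu h1⟩
  have ht3 : (t.erase a).card = 3 := by rw [Finset.card_erase_of_mem hat, ht4]
  obtain ⟨x, y, z, hxy, hxz, hyz, hte⟩ := Finset.card_eq_three.mp ht3
  have hte' : t = {a, x, y, z} := by rw [← Finset.insert_erase hat, hte]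
  obtain ⟨w, hwu, hwb⟩ := Finset.exists_mem_ne (s := u) (by rw [hu4]; norm_num) b
  have mem_t : ∀ p ∈ ({x, y, z} : Finset Cfsg.GolayPt), p ∈ t ∧ p ≠ a := by
    intro p hp
    rw [← hte, Finset.mem_erase] at hp
    exact ⟨hp.2, hp.1⟩
  have hx := mem_t x (by simp)
  have hy := mem_t y (by simp)
  have hz := mem_t z (by simp)
  have ne_u : ∀ p ∈ t, ∀ q ∈ u, p ≠ q := fun p hp q hq hpq => Finset.disjoint_left.mp hdtu hp (by rw [hpq]; exact hq)
  refine ⟨a, b, c, x, y, z, w, t, t ∪ u, ht, ho, hYe, hte', ?_, Finset.mem_union_left _ hat, Finset.mem_union_left _ hx.1,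
    Finset.mem_union_left _ hy.1, Finset.mem_union_left _ hz.1, Finset.mem_union_right _ hbu, Finset.mem_union_right _ hwu, hco⟩
  simp only [List.nodup_cons, List.mem_cons, List.not_mem_nil, or_false, not_or, not_false_iff, and_true, List.nodup_nil]
  exact ⟨⟨hx.2.symm, hy.2.symm, hz.2.symm, hab, ne_u a hat w hwu⟩, ⟨hxy, hxz, ne_u x hx.1 b hbu, ne_u x hx.1 w hwu⟩,
    ⟨hyz, ne_u y hy.1 b hbu, ne_u y hy.1 w hwu⟩, ⟨ne_u z hz.1 b hbu, ne_u z hz.1 w hwu⟩, hwb.symm⟩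

theorem trans3 (hY : Y.card = 3) {S S' : Finset (Finset Cfsg.GolayPt)} (hS : S ∈ Cfsg.sextets) (hS' : S' ∈ Cfsg.sextets)
    (h : ∀ t ∈ S, (Y ∩ t).card ≤ 1) (h' : ∀ t ∈ S', (Y ∩ t).card ≤ 1) : ∃ g ∈ Cfsg.M24, g • Y = Y ∧ g • S = S' := by
  obtain ⟨a, b, c, x, y, z, w, t, o, ht, ho, hYe, hte, hnd, m0, m1, m2, m3, m4, m5, m6⟩ := frame3 hY hS h
  obtain ⟨a', b', c', x', y', z', w', t', o', ht', ho', hYe', hte', hnd', n0, n1, n2, n3, n4, n5, n6⟩ := frame3 hY hS' h'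
  obtain ⟨g, hg, -, e0, e1, e2, e3, e4, e5, e6⟩ := frame_trans ho m0 m1 m2 m3 m4 m5 hnd m6 ho' n0 n1 n2 n3 n4 n5 hnd' n6
  refine ⟨g, hg, ?_, move hS hS' ht ht' hg ?_⟩
  · calc g • Y = g • ({a, b, c} : Finset Cfsg.GolayPt) := by rw [← hYe]
      _ = {g a, g b, g c} := by
        ext p; simp only [Finset.mem_smul_finset, Finset.mem_insert, Finset.mem_singleton, Equiv.Perm.smul_def]
        constructor
        · rintro ⟨q, (rfl | rfl | rfl), rfl⟩ <;> simp
        · rintro (rfl | rfl | rfl)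
          · exact ⟨a, by simp, rfl⟩
          · exact ⟨b, by simp, rfl⟩
          · exact ⟨c, by simp, rfl⟩
      _ = Y := by rw [e0, e4, e6, ← hYe']
  · rw [hte, hte']
    ext p; simp only [Finset.mem_smul_finset, Finset.mem_insert, Finset.mem_singleton, Equiv.Perm.smul_def]
    rw [← e0, ← e1, ← e2, ← e3]
    constructor
    · rintro ⟨q, (rfl | rfl | rfl | rfl), rfl⟩ <;> simp
    · rintro (rfl | rfl | rfl | rfl)
      · exact ⟨a, by simp, rfl⟩
      · exact ⟨x, by simp, rfl⟩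
      · exact ⟨y, by simp, rfl⟩
      · exact ⟨z, by simp, rfl⟩

end


/-- Let Y be a set of 3 of the 24 points. The sextets of the length-24 code whose tetrads meeting Y number 1, 2 or 3 are respectively 21, 630 and 1120 in number, and two sextets with the same number of tetrads meeting Y are conjugate under the setwise stabiliser of Y in the code's group. -/
theorem result (Y : Finset Cfsg.GolayPt) (hY : Y.card = 3) : {S : Finset (Finset Cfsg.GolayPt) | S ∈ Cfsg.sextets ∧ (S.filter fun t => (t ∩ Y).Nonempty).card = 1}.ncard = 21 ∧ {S : Finset (Finset Cfsg.GolayPt) | S ∈ Cfsg.sextets ∧ (S.filter fun t => (t ∩ Y).Nonempty).card = 2}.ncard = 630 ∧ {S : Finset (Finset Cfsg.GolayPt) | S ∈ Cfsg.sextets ∧ (S.filter fun t => (t ∩ Y).Nonempty).card = 3}.ncard = 1120 ∧ ∀ S S' : Finset (Finset Cfsg.GolayPt), S ∈ Cfsg.sextets → S' ∈ Cfsg.sextets → (S.filter fun t => (t ∩ Y).Nonempty).card = (S'.filter fun t => (t ∩ Y).Nonempty).card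 → ∃ g ∈ Cfsg.M24, g • Y = Y ∧ g • S = S' := by
  have h1 := count_cls hY 3 (Or.inr rfl)
  have h2 := count_cls hY 2 (Or.inl rfl)
  have e21 : (3).choose 3 * (21).choose (4 - 3) = 21 := by decide
  have e630 : (3).choose 2 * (21).choose (4 - 2) = 630 := by decide +kernel
  rw [e21] at h1
  rw [e630] at h2
  have h1' : {S | S ∈ Cfsg.sextets ∧ fn Y S = 1}.ncard = 21 := h1
  have h2' : {S | S ∈ Cfsg.sextets ∧ fn Y S = 2}.ncard = 630 := h2
  refine ⟨h1', h2', ?_, ?_⟩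
  · have h3 : {S | S ∈ Cfsg.sextets ∧ fn Y S = 1}.ncard + {S | S ∈ Cfsg.sextets ∧ fn Y S = 2}.ncard + {S | S ∈ Cfsg.sextets ∧ fn Y S = 3}.ncard = 1771 := by
      rw [← CfsgLib.Golay.ncard_sextets, ← Set.ncard_union_eq, ← Set.ncard_union_eq]
      · congr 1
        ext S
        simp only [Set.mem_union, Set.mem_setOf_eq]
        constructor
        · rintro ((h | h) | h) <;> exact h.1
        · intro h
          rcases trich h hY with h4 | h4 | h4
          · exact Or.inl (Or.inl ⟨h, h4.1⟩)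
          · exact Or.inl (Or.inr ⟨h, h4.1⟩)
          · exact Or.inr ⟨h, h4.1⟩
      · rw [Set.disjoint_left]
        rintro S (⟨-, h⟩ | ⟨-, h⟩) ⟨-, h'⟩ <;> omega
      · rw [Set.disjoint_left]
        rintro S ⟨-, h⟩ ⟨-, h'⟩; omega
    rw [h1', h2'] at h3
    have h4 : {S | S ∈ Cfsg.sextets ∧ fn Y S = 3}.ncard = 1120 := by omega
    exact h4
  · intro S S' hS hS' hf
    have hf' : fn Y S = fn Y S' := hf
    rcases trich hS hY with ⟨h3, t, ht, hc⟩ | ⟨h3, t, ht, hc⟩ | ⟨h3, hc⟩ <;>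
      rcases trich hS' hY with ⟨h4, t', ht', hc'⟩ | ⟨h4, t', ht', hc'⟩ | ⟨h4, hc'⟩ <;> first | omega | skip
    · exact trans12 hY hS hS' ht ht' hc hc' (by norm_num)
    · exact trans12 hY hS hS' ht ht' hc hc' le_rfl
    · exact trans3 hY hS hS' hc hc'

end Cfsg.Agent.S5616
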