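import Cfsg.Statements.S5617
import Cfsg.Agent.Lib.GolayOrbT

set_option autoImplicit false
open scoped Pointwise
open Cfsg

open scoped Pointwise
namespace Cfsg.Agent.S5617

section
open Cfsg CfsgLib.Golay
open scoped Pointwise
def PP : Set (Finset (Finset GolayPt)) := {X | ∃ d ∈ dodecads, X = {d, Finset.univ \ d}}
theorem smul_pair (g : Equiv.Perm GolayPt) (d : Finset GolayPt) :
    g • ({d, Finset.univ \ d} : Finset (Finset GolayPt)) = {g • d, Finset.univ \ g • d} := by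
  have h1 : g • (Finset.univ \ d) = Finset.univ \ g • d := by
    rw [smul_sdiff', Finset.smul_finset_univ]
  ext x
  rw [Finset.mem_smul_finset]
  simp [eq_comm, h1]
theorem dod_tr {d : Finset GolayPt} (hd : d ∈ dodecads) : ∃ g ∈ M24, g • d = D0 := by
  obtain ⟨l, hl, hl5, hld⟩ := exists_list_of_le_card (s := d) (n := 5) (by have : d.card = 12 := hd.2; omega)
  match l, hl5 with
  | [a, b, c, e, f], _ =>
    obtain ⟨g, hg, h, -⟩ := dod_frame hd (hld a (by simp)) (hld b (by simp)) (hld c (by simp)) (hld e (by simp))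
      (hld f (by simp)) hl
    exact ⟨g, hg, h⟩
theorem PP_tr : ∀ X ∈ PP, ∀ Y ∈ PP, ∃ g ∈ M24, g • X = Y := by
  rintro X ⟨d, hd, rfl⟩ Y ⟨e, he, rfl⟩
  obtain ⟨g, hg, h⟩ := dod_tr hd
  obtain ⟨k, hk, h'⟩ := dod_tr he
  refine ⟨k⁻¹ * g, mul_mem (inv_mem hk) hg, ?_⟩
  rw [smul_pair, ← smul_smul, h, ← h', inv_smul_smul]
theorem PP_st : ∀ g ∈ M24, ∀ X ∈ PP, g • X ∈ PP := by
  rintro g hg X ⟨d, hd, rfl⟩
  exact ⟨g • d, (smul_mem_dodecads hg).mpr hd, smul_pair g d⟩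
theorem P0_mem : P0 ∈ PP := ⟨D0, D0_mem, rfl⟩
theorem D_pair_sext : PairData PP sextets sq :=
  PairData.of_base (fun g _ X S => sq_smul g X S) PP_tr PP_st sextets_st P0_mem
    (sext_pair gens4_spec tr4_ok root4 zv4_inj)
end


/-- The setwise stabiliser, in the group of the length-24 code, of a complementary pair of dodecads has exactly three orbits on the 1771 sextets, of sizes 396, 495 and 880. -/
theorem result (d : Finset Cfsg.GolayPt) (hd : d ∈ Cfsg.dodecads) : ∃ X₁ ∈ Cfsg.sextets, ∃ X₂ ∈ Cfsg.sextets, ∃ X₃ ∈ Cfsg.sextets, (MulAction.orbit ↥(MulAction.stabilizer Cfsg.M24 ({d, Finset.univ \ d} : Finset (Finset Cfsg.GolayPt))) X₁).ncard = 396 ∧ (MulAction.orbit ↥(MulAction.stabilizer Cfsg.M24 ({d, Finset.univ \ d} : Finset (Finset Cfsg.GolayPt))) X₂).ncard = 495 ∧ (MulAction.orbit ↥(MulAction.stabilizer Cfsg.M24 ({d, Finset.univ \ d} : Finset (Finset Cfsg.GolayPt))) X₃).ncard = 880 ∧ Cfsg.sextets = MulAction.orbit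 ↥(MulAction.stabilizer Cfsg.M24 ({d, Finset.univ \ d} : Finset (Finset Cfsg.GolayPt))) X₁ ∪ MulAction.orbit ↥(MulAction.stabilizer Cfsg.M24 ({d, Finset.univ \ d} : Finset (Finset Cfsg.GolayPt))) X₂ ∪ MulAction.orbit ↥(MulAction.stabilizer Cfsg.M24 ({d, Finset.univ \ d} : Finset (Finset Cfsg.GolayPt))) X₃ := by
  have hX : ({d, Finset.univ \ d} : Finset (Finset Cfsg.GolayPt)) ∈ PP := ⟨d, hd, rfl⟩
  have hv2 := fun S (hS : S ∈ Cfsg.sextets) => D_pair_sext.vals P0_mem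
    (p := fun x => x = CfsgLib.Golay.zv4 2 ∨ x = CfsgLib.Golay.zv4 0 ∨ x = CfsgLib.Golay.zv4 1)
    (fun S hS => by
      rcases CfsgLib.Golay.vals4 S hS with h | h | h
      · simp only [h]; decide
      · simp only [h]; decide
      · simp only [h]; decide) hX hS
  exact D_pair_sext.three hX hv2
    ((D_pair_sext.ncard_eq hX P0_mem _).trans (CfsgLib.Golay.sext_count CfsgLib.Golay.gens4_spec CfsgLib.Golay.tr4_ok CfsgLib.Golay.root4 CfsgLib.Golay.zv4_inj (c := 2) (by norm_num) CfsgLib.Golay.cn4_ok.2.2))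
    ((D_pair_sext.ncard_eq hX P0_mem _).trans (CfsgLib.Golay.sext_count CfsgLib.Golay.gens4_spec CfsgLib.Golay.tr4_ok CfsgLib.Golay.root4 CfsgLib.Golay.zv4_inj (c := 0) (by norm_num) CfsgLib.Golay.cn4_ok.1))
    ((D_pair_sext.ncard_eq hX P0_mem _).trans (CfsgLib.Golay.sext_count CfsgLib.Golay.gens4_spec CfsgLib.Golay.tr4_ok CfsgLib.Golay.root4 CfsgLib.Golay.zv4_inj (c := 1) (by norm_num) CfsgLib.Golay.cn4_ok.2.1))
    (by norm_num) (by norm_num) (by norm_num)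

end Cfsg.Agent.S5617
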