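import Cfsg.Statements.S5618
import Cfsg.Agent.Lib.GolaySg
import Cfsg.Agent.Lib.GolayQuartet

set_option autoImplicit false
open scoped Pointwise
open Cfsg

open scoped Pointwise
namespace Cfsg.Agent.S5618

section
open CfsgLib.Golay
open scoped Pointwise

theorem hexad_data {d C : Finset Cfsg.GolayPt} (hC : C ∈ Cfsg.hexadsOn d) : C.card = 6 ∧ C ⊆ d ∧ ∃ o ∈ Cfsg.octads, o ∩ d = C := by
  obtain ⟨h6, o, ho, hod⟩ := hC
  exact ⟨h6, by rw [← hod]; exact Finset.inter_subset_right, o, ho, hod⟩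

theorem hexad_eq {d : Finset Cfsg.GolayPt} {C C' : Finset Cfsg.GolayPt} (hC : C ∈ Cfsg.hexadsOn d) (hC' : C' ∈ Cfsg.hexadsOn d)
    {l : List Cfsg.GolayPt} (hl : l.Nodup) (h5 : l.length = 5) (h1 : ∀ p ∈ l, p ∈ C) (h2 : ∀ p ∈ l, p ∈ C') : C = C' := by
  obtain ⟨-, -, o, ho, hod⟩ := hexad_data hC
  obtain ⟨-, -, o', ho', hod'⟩ := hexad_data hC'
  have : o = o' := eq_of_list ho ho' hl h5 (fun p hp => by have := h1 p hp; rw [← hod] at this; exact (Finset.mem_inter.mp this).1)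
    (fun p hp => by have := h2 p hp; rw [← hod'] at this; exact (Finset.mem_inter.mp this).1)
  rw [← hod, ← hod', this]

theorem surj {d : Finset Cfsg.GolayPt} (hd : d ∈ Cfsg.dodecads) {C : Finset Cfsg.GolayPt} (hC : C ∈ Cfsg.hexadsOn d) (σ : Equiv.Perm ↥C) :
    ∃ g ∈ JS d C, ∀ p : ↥C, g p = σ p := by
  obtain ⟨h6, hCd, -⟩ := hexad_data hC
  refine perm_of_list (n := 5) h6 (fun g hg => (mem_JS.mp hg).2.2) ?_ σ
  intro l l' hl hl' h5 h5' hlC hlC'
  obtain ⟨g, hg, hgd, hgl⟩ := dod_trans hd hd hl hl' (fun p hp => hCd (hlC p hp)) (fun p hp => hCd (hlC' p hp)) (h5.trans h5'.symm) h5.le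
  refine ⟨g, mem_JS.mpr ⟨hg, hgd, ?_⟩, hgl⟩
  have h1 : g • C ∈ Cfsg.hexadsOn d := by
    have := CfsgLib.Golay.smul_mem_hexads hg hC
    rwa [hgd] at this
  exact hexad_eq h1 hC hl' h5' (map_mem_smul hgl hlC) hlC'

theorem five_fix {d : Finset Cfsg.GolayPt} (hd : d ∈ Cfsg.dodecads) {s : Finset Cfsg.GolayPt} (hs : s ⊆ d) (h5 : 5 ≤ s.card)
    {g : Equiv.Perm Cfsg.GolayPt} (hg : g ∈ Cfsg.M24) (hgd : g • d = d) (hfix : ∀ p ∈ s, g p = p) : g = 1 := by
  obtain ⟨l, hl, h5l, hls⟩ := exists_list_of_le_card h5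
  exact dod_unique hd hg hgd hl (fun p hp => hs (hls p hp)) h5l (fun p hp => hfix p (hls p hp))

end


/-- For a dodecad d of the length-24 code and a hexad C on it (a 6-point intersection of d with an octad): the joint stabiliser of d and C in the code's group is isomorphic to the symmetric group of degree 6, and it acts faithfully both on the six points of C and on the six points of d outside C. -/
theorem result (d : Finset Cfsg.GolayPt) (hd : d ∈ Cfsg.dodecads) (C : Finset Cfsg.GolayPt) (hC : C ∈ Cfsg.hexadsOn d) : Nonempty (↥(MulAction.stabilizer Cfsg.M24 d ⊓ MulAction.stabilizer Cfsg.M24 C) ≃* Equiv.Perm (Fin 6)) ∧ (∀ g ∈ MulAction.stabilizer Cfsg.M24 d ⊓ MulAction.stabilizer Cfsg.M24 C, (∀ p ∈ C, ((g : ↥Cfsg.M24) : Equiv.Perm Cfsg.GolayPt) p = p) → g = 1) ∧ ∀ g ∈ MulAction.stabilizer Cfsg.M24 d ⊓ MulAction.stabilizer Cfsg.M24 C, (∀ p ∈ d \ C, ((g : ↥Cfsg.M24) : Equiv.Perm Cfsg.GolayPt) p = p) →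 g = 1 := by
  obtain ⟨h6, hCd, o, ho, hod⟩ := hexad_data hC
  have hcard : 5 ≤ (d \ C).card := by
    have h12 : d.card = 12 := (CfsgLib.Golay.mem_dodecads_iff.mp hd).2 ▸ CfsgLib.Golay.card_eq_pop d
    rw [Finset.card_sdiff_of_subset hCd, h12, h6]
    norm_num
  refine ⟨?_, ?_, ?_⟩
  · obtain ⟨e⟩ := CfsgLib.Golay.iso_of_res (s := C) (n := 6) h6 (H := CfsgLib.Golay.JS d C)
      (fun g hg => (CfsgLib.Golay.mem_JS.mp hg).2.2)
      (by
        intro g hg hfix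
        rw [CfsgLib.Golay.mem_JS] at hg
        exact five_fix hd hCd (by omega) hg.1 hg.2.1 hfix)
      (Or.inr (surj hd hC))
    exact ⟨(CfsgLib.Golay.stabEquiv d C).trans e⟩
  · rintro ⟨g, hg⟩ hgs hfix
    have h := (CfsgLib.Golay.mem_JS.mp ((CfsgLib.Golay.stab_mem_iff d C g hg).mp hgs))
    exact Subtype.ext (five_fix hd hCd (by omega) h.1 h.2.1 hfix)
  · rintro ⟨g, hg⟩ hgs hfix
    have h := (CfsgLib.Golay.mem_JS.mp ((CfsgLib.Golay.stab_mem_iff d C g hg).mp hgs))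
    exact Subtype.ext (five_fix hd Finset.sdiff_subset hcard h.1 h.2.1 hfix)

end Cfsg.Agent.S5618
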