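import Cfsg.Statements.S5619
import Cfsg.Agent.Lib.GolayElt2
import Cfsg.Agent.Lib.GolayDod
import Cfsg.Agent.Lib.GolayM
import Cfsg.Agent.Lib.Quat

set_option autoImplicit false
open scoped Pointwise
open Cfsg

open scoped Pointwise
set_option linter.style.haveILetI false
namespace Cfsg.Agent.S5619

section
open Cfsg CfsgLib.Golay
open scoped Pointwise
def L72 : List ℕ := [0x32909a1df21b2379d975238b068820, 0x32933591b03b24e45eb41d9f128820, 0x32a68a8cb1232164ba8b3ddb278820, 0x33113a0e253a9f64deab23a4d80820, 0x3312859e4f229b79ba951da0588820, 0x33269a920d1a8ae459743de2f90820, 0x424cc7160794db552ef62507178820, 0x42546b486d24e2b651d72d5e780820, 0x4258ab91f12ccf4356ce92e0d18820, 0x44cca749a32a60b656d7250ef88820, 0x44d4cb122f9247432eee2d5b038820, 0x44d86b94f0225f5551d692e2368820, 0x4a0cab40a77ce35652ee1ac8d90820, 0x4a14cb8e4d84ceb355d67d0b120820, 0x4a18673c911cdb452ed78564728820, 0x4ccccb3e24820b4555d71acf268820, 0x4cd46bc0e51a25562ece7d1a488820, 0x4cd8a70db27a08b352f68562538820,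 0x51913abcf26b2174b9742d89118820, 0x51928a34902b22e9daab7dc7238820, 0x51a69594717b25645e956b8f020820, 0x53109ab604798ee9de8b2da4388820, 0x53133a162369896439757de0790820, 0x532685be47298774dab46ba2480820, 0x5d1d750df0954a9b21866cc8788820, 0x5d2ce348856d4e8bcd4c1a63078820, 0x5d2f6636271d613724ca921e520820, 0x5d5d6548a41d1e8ba4cc6ce1138820, 0x5d6d7334f1950937218a1a4af80820, 0x5d6ee60e0f6d229b4d46920e428820, 0x619095c465829b69bab495c8f38820, 0x61933ac8ef8a8b745a8b8386d20820, 0x61a68a408d929ee4dd758d8e518820, 0x629135c1a48986e4da9595ca778820, 0x62928ac4a3918f69dd74839e468820, 0x62a69a49e78189743aab8d9a328820, 0x759749c23225ceca99096a86f28820, 0x75a95434af85e4a5b13321a2718820, 0x75aab490676dde6a2a68830b288820, 0x75d75990e385a26a31286aa4578820, 0x75e8b442516d8acaaa69219e338820, 0x75eb44b5e52586a59913830f190820, 0x9a0ccbb6438a5eb552ce3d49028820, 0x9a1467448f3a614656f66aca390820, 0x9a18ab1cb06a47532dd78d24f20820, 0x9a4cabc5e46a25462dd63d46580820, 0x9a54c71e058a095352d76adf218820,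 0x9a586b34723a0ab556ee8d20478820, 0xa2dd633c708d4e9bcd8a221a590820, 0xa2ed7612457d608725468cc6768820, 0xa2eee545a7254b3b20cc7a65018820, 0xa55d7344ed7ac73b254c2221228820, 0xa56ce63e0322e49ba0ca8ccad38820, 0xa56f6510b28ada874d867a4e380820, 0xaadd7616443d228b4cca825af18820, 0xaaece51db1851f3ba5862a06490820, 0xaaef63406f2d0897214c3ce5168820, 0xad1d661e2d2ae53ba1468248378820, 0xad2d7541e33ada974ccc2a23220820, 0xad2ee3149282c68b258a3cded88820, 0xb39754c6122ddeca2913199a720820, 0xb3a8b995af1dceaa99288b09280820, 0xb3ab440c878de465b2692aa0f68820, 0xb5d74495ed8ba0aab26819a4438820, 0xb5e9598ce42b9a65a9098b1f090820, 0xb5eab446501b88ca19332a8ed78820, 0xbb97441c837d8a6aa933931b180820, 0xbba954ca113d86c59a687a88568820, 0xbbaab9bda595a2aa310939a0320820, 0xbd97543cad3b88aa1a699307088820, 0xbda8b49c6493a06ab1137aa2d28820, 0xbdab49ca307b9ac5a928398a418820]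
def IDP : ℕ := 0xbdab49ca307b9ac5a928398a418820
theorem chk1 : L72.all (fun P => and (good P) (and (Nat.beq (act P 0x7a0bf) 0x7a0bf) (and (Nat.beq (img P 0) 0)
    (and (Nat.beq (img P 1) 1) (Nat.beq (img P 2) 2))))) = true := by decide +kernel
theorem chk2 : L72.all (fun P => or (not (ordB 3 P)) (L72.all fun Q => or (not (ordB 3 Q)) (ordB 3 (mulP P Q)))) = true := by
  decide +kernel
theorem chk3 : L72.all (fun P => or (not (ordB 2 P)) (L72.all fun Q => or (not (ordB 2 Q)) (or (Nat.beq P IDP) (or (Nat.beq Q IDP)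
    (or (Nat.beq P Q) (not (commB P Q))))))) = true := by decide +kernel
theorem chk4 : L72.all (fun P => and (or (not (ordB 8 P)) (ordB 4 P)) (or (not (ordB 9 P)) (ordB 3 P))) = true := by decide +kernel
theorem srt : sortedB L72 = true := by decide +kernel
theorem ordB_conv {n T : ℕ} {g : Equiv.Perm GolayPt} (h : Packs T g) (hn : ordB n T = true) : g ^ n = 1 := by
  ext1 p
  apply idx_injective
  rw [← iter_spec h n p, Equiv.Perm.one_apply]
  exact Nat.eq_of_beq_eq_true (List.all_eq_true.mp hn _ (mem_ixs.mpr (idx_lt p)))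
def B0 : Subgroup (Equiv.Perm GolayPt) := PSd D0 [pt 0, pt 1, pt 2]
theorem card_B0 : Nat.card B0 = 72 := by
  have h := card_PSd D0_mem (l := [pt 0, pt 1, pt 2]) (by decide) (by
    intro p hp
    simp only [List.mem_cons, List.not_mem_nil, or_false] at hp
    rw [D0, mem_toFS]
    rcases hp with rfl | rfl | rfl <;> decide +kernel) (by simp)
  have e : Nat.descFactorial 12 3 = 1320 := by decide
  rw [show ([pt 0, pt 1, pt 2] : List GolayPt).length = 3 from rfl, e] at h
  have h2 : Nat.card B0 * 1320 = 72 * 1320 := h.trans (by norm_num)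
  exact Nat.eq_of_mul_eq_mul_right (by norm_num) h2
theorem len72 : 72 = L72.length := by decide +kernel
theorem all72 : ∀ P ∈ L72, ∃ g ∈ B0, Packs P g := by
  intro P hP
  have h1 := List.all_eq_true.mp chk1 P hP
  simp only [Bool.and_eq_true, Nat.beq_eq] at h1
  obtain ⟨g, hg, hgP⟩ := exists_of_good h1.1
  refine ⟨g, mem_PSd.mpr ⟨hg, ?_, ?_⟩, hgP⟩
  · rw [← toFS_mask (g • D0), hgP.mask_smul, mask_D0, h1.2.1]; rfl
  · intro p hp
    simp only [List.mem_cons, List.not_mem_nil, or_false] at hp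
    rcases hp with rfl | rfl | rfl
    · exact hgP.apply (by norm_num) h1.2.2.1
    · exact hgP.apply (by norm_num) h1.2.2.2.1
    · exact hgP.apply (by norm_num) h1.2.2.2.2
theorem enum {g : Equiv.Perm GolayPt} (hg : g ∈ B0) : ∃ P ∈ L72, Packs P g :=
  enum_of_card B0 L72 srt all72 (card_B0.trans len72) g hg
/-- the properties used -/
structure Prp (G : Type*) [Group G] : Prop where
  card : Nat.card G = 72
  mul3 : ∀ x y : G, x ^ 3 = 1 → y ^ 3 = 1 → (x * y) ^ 3 = 1
  two : ∀ x y : G, x ^ 2 = 1 → y ^ 2 = 1 → x * y = y * x → x = 1 ∨ y = 1 ∨ x = y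
  e8 : ∀ x : G, x ^ 8 = 1 → x ^ 4 = 1
  e9 : ∀ x : G, x ^ 9 = 1 → x ^ 3 = 1
theorem prp_B0 : Prp B0 := by
  have hid : Packs IDP 1 := packs_of_check (by decide +kernel)
  refine ⟨card_B0, ?_, ?_, ?_, ?_⟩
  · rintro ⟨x, hx⟩ ⟨y, hy⟩ h1 h2
    have h1' : x ^ 3 = 1 := congrArg Subtype.val h1
    have h2' : y ^ 3 = 1 := congrArg Subtype.val h2
    obtain ⟨P, hP, hPx⟩ := enum hx
    obtain ⟨Q, hQ, hQy⟩ := enum hy
    have h3 := List.all_eq_true.mp chk2 P hP
    rw [ordB_spec hPx h1', Bool.not_true, Bool.false_or, List.all_eq_true] at h3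
    have h4 := h3 Q hQ
    rw [ordB_spec hQy h2', Bool.not_true, Bool.false_or] at h4
    exact Subtype.ext (ordB_conv (hPx.mul hQy) h4)
  · rintro ⟨x, hx⟩ ⟨y, hy⟩ h1 h2 h3
    have h1' : x ^ 2 = 1 := congrArg Subtype.val h1
    have h2' : y ^ 2 = 1 := congrArg Subtype.val h2
    have h3' : x * y = y * x := congrArg Subtype.val h3
    obtain ⟨P, hP, hPx⟩ := enum hx
    obtain ⟨Q, hQ, hQy⟩ := enum hy
    have h3 := List.all_eq_true.mp chk3 P hP
    rw [ordB_spec hPx h1', Bool.not_true, Bool.false_or, List.all_eq_true] at h3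
    have h4 := h3 Q hQ
    rw [ordB_spec hQy h2', (commB_iff hPx hQy).mpr h3'] at h4
    simp only [Bool.not_true, Bool.false_or, Bool.or_false, Bool.or_eq_true, Nat.beq_eq] at h4
    rcases h4 with h4 | h4 | h4
    · left; rw [h4] at hPx; exact Subtype.ext (hPx.eq hid)
    · right; left; rw [h4] at hQy; exact Subtype.ext (hQy.eq hid)
    · right; right; rw [h4] at hPx; exact Subtype.ext (hPx.eq hQy)
  · rintro ⟨x, hx⟩ h1
    have h1' : x ^ 8 = 1 := congrArg Subtype.val h1
    obtain ⟨P, hP, hPx⟩ := enum hx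
    have h3 := List.all_eq_true.mp chk4 P hP
    rw [Bool.and_eq_true, ordB_spec hPx h1', Bool.not_true, Bool.false_or] at h3
    exact Subtype.ext (ordB_conv hPx h3.1)
  · rintro ⟨x, hx⟩ h1
    have h1' : x ^ 9 = 1 := congrArg Subtype.val h1
    obtain ⟨P, hP, hPx⟩ := enum hx
    have h3 := List.all_eq_true.mp chk4 P hP
    rw [Bool.and_eq_true, ordB_spec hPx h1' , Bool.not_true, Bool.false_or] at h3
    exact Subtype.ext (ordB_conv hPx h3.2)
theorem Prp.of_equiv {G H : Type*} [Group G] [Group H] (e : H ≃* G) (h : Prp G) : Prp H := by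
  have key : ∀ (x : H) (n : ℕ), x ^ n = 1 ↔ (e x) ^ n = 1 := by
    intro x n
    rw [← map_pow, map_eq_one_iff e e.injective]
  refine ⟨(Nat.card_congr e.toEquiv).trans h.card, ?_, ?_, ?_, ?_⟩
  · intro x y h1 h2
    rw [key] at h1 h2 ⊢
    rw [map_mul]; exact h.mul3 _ _ h1 h2
  · intro x y h1 h2 h3
    rw [key] at h1 h2
    rcases h.two _ _ h1 h2 (by rw [← map_mul, h3, map_mul]) with h4 | h4 | h4
    · left; exact (map_eq_one_iff e e.injective).mp h4
    · right; left; exact (map_eq_one_iff e e.injective).mp h4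
    · right; right; exact e.injective h4
  · intro x h1
    rw [key] at h1 ⊢
    exact h.e8 _ h1
  · intro x h1
    rw [key] at h1 ⊢
    exact h.e9 _ h1
theorem syl3 {G : Type*} [Group G] (h : Prp G) (Q : Sylow 3 G) : (Q : Subgroup G).Normal ∧ Nat.card Q = 9 ∧
    ∀ x ∈ (Q : Subgroup G), x ^ 3 = 1 := by
  haveI : Finite G := Nat.finite_of_card_ne_zero (by rw [h.card]; norm_num)
  haveI : Fact (Nat.Prime 3) := ⟨by norm_num⟩
  have hc : Nat.card Q = 9 := by
    rw [Q.card_eq_multiplicity, h.card]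
    have : (72 : ℕ).factorization 3 = 2 := by
      rw [show (72 : ℕ) = 3 ^ 2 * 8 by norm_num, Nat.factorization_mul (by norm_num) (by norm_num), Nat.factorization_pow,
        Finsupp.add_apply, Finsupp.smul_apply, Nat.Prime.factorization_self Nat.prime_three,
        Nat.factorization_eq_zero_of_not_dvd (show ¬ 3 ∣ 8 by norm_num)]
      rfl
    rw [this]; norm_num
  have h3 : ∀ x ∈ (Q : Subgroup G), x ^ 3 = 1 := by
    intro x hx
    apply h.e9
    have := pow_card_eq_one' (G := Q) (x := ⟨x, hx⟩)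
    rw [hc] at this
    exact congrArg Subtype.val this
  refine ⟨?_, hc, h3⟩
  let S : Subgroup G := {
    carrier := {x | x ^ 3 = 1}
    one_mem' := one_pow 3
    mul_mem' := fun {a b} ha hb => h.mul3 a b ha hb
    inv_mem' := fun {a} ha => by show a⁻¹ ^ 3 = 1; rw [inv_pow]; rw [show a ^ 3 = 1 from ha, inv_one] }
  have hS : IsPGroup 3 S := by
    intro x
    exact ⟨1, Subtype.ext (by rw [pow_one]; exact x.2)⟩
  have hQS : (Q : Subgroup G) = S := (Q.3 hS h3).symm
  rw [hQS]
  constructor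
  intro x hx g
  show (g * x * g⁻¹) ^ 3 = 1
  rw [conj_pow, show x ^ 3 = 1 from hx]; group
theorem syl2 {G : Type*} [Group G] (h : Prp G) (P : Sylow 2 G) : Nonempty (P ≃* QuaternionGroup 2) := by
  haveI : Finite G := Nat.finite_of_card_ne_zero (by rw [h.card]; norm_num)
  haveI : Fact (Nat.Prime 2) := ⟨by norm_num⟩
  have hc : Nat.card P = 8 := by
    rw [P.card_eq_multiplicity, h.card]
    have : (72 : ℕ).factorization 2 = 3 := by
      rw [show (72 : ℕ) = 2 ^ 3 * 9 by norm_num, Nat.factorization_mul (by norm_num) (by norm_num), Nat.factorization_pow,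
        Finsupp.add_apply, Finsupp.smul_apply, Nat.Prime.factorization_self Nat.prime_two,
        Nat.factorization_eq_zero_of_not_dvd (show ¬ 2 ∣ 9 by norm_num)]
      rfl
    rw [this]; norm_num
  have hPp : IsPGroup 2 P := P.2
  have hnt : Nontrivial P := by
    rw [← Finite.one_lt_card_iff_nontrivial, hc]; norm_num
  have hz : ∃ z : P, (∀ x : P, z * x = x * z) ∧ z ^ 2 = 1 ∧ z ≠ 1 := by
    haveI := hPp.center_nontrivial
    obtain ⟨z, hz⟩ := exists_prime_orderOf_dvd_card' (G := Subgroup.center P) 2 (by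
      obtain ⟨n, hn⟩ := IsPGroup.iff_card.mp (hPp.to_subgroup (Subgroup.center P))
      have h1 : 1 < Nat.card (Subgroup.center P) := Finite.one_lt_card
      rw [hn] at h1 ⊢
      have : n ≠ 0 := by rintro rfl; simp at h1
      exact dvd_pow_self 2 this)
    refine ⟨z, fun x => (Subgroup.mem_center_iff.mp z.2 x).symm, ?_, ?_⟩
    · have := pow_orderOf_eq_one z
      rw [hz] at this
      exact congrArg Subtype.val this
    · intro h
      have : z = 1 := Subtype.ext h
      rw [this] at hz; simp at hz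
  obtain ⟨z, hzc, hz2, hz1⟩ := hz
  have huniq : ∀ x : P, x ^ 2 = 1 → x ≠ 1 → x = z := by
    intro x hx2 hx1
    rcases h.two (x : G) (z : G) (congrArg Subtype.val hx2) (congrArg Subtype.val hz2)
      (congrArg Subtype.val (hzc x)).symm with h1 | h1 | h1
    · exact absurd (Subtype.ext h1) hx1
    · exact absurd (Subtype.ext h1) hz1
    · exact Subtype.ext h1
  have hsub : ∀ H : Subgroup P, Nat.card H = 2 → H = Subgroup.zpowers z := by
    intro H hH
    obtain ⟨x, hx⟩ := exists_prime_orderOf_dvd_card' (G := H) 2 (by rw [hH])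
    have hx2 : (x : P) ^ 2 = 1 := by
      have := pow_orderOf_eq_one x
      rw [hx] at this
      exact congrArg Subtype.val this
    have hx1 : (x : P) ≠ 1 := by
      intro h
      have : x = 1 := Subtype.ext h
      rw [this] at hx; simp at hx
    have hxz := huniq _ hx2 hx1
    symm
    apply Subgroup.eq_of_le_of_card_ge
    · rw [Subgroup.zpowers_le, ← hxz]; exact x.2
    · exact (hH.trans (by rw [Nat.card_zpowers, orderOf_eq_prime hz2 hz1])).le
  rcases CfsgLib.Quat.unique_subgroup 2 hPp (fun H K hH hK => (hsub H hH).trans (hsub K hK).symm) with hcyc | ⟨-, n, ⟨e⟩⟩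
  · exfalso
    obtain ⟨x, hx⟩ := hcyc.exists_generator
    have h8 : orderOf x = 8 := by rw [orderOf_eq_card_of_forall_mem_zpowers hx, hc]
    have h4 := h.e8 (x : G) (by
      have := pow_orderOf_eq_one x
      rw [h8] at this
      exact congrArg Subtype.val this)
    have h5 : x ^ 4 = 1 := Subtype.ext h4
    have := orderOf_dvd_of_pow_eq_one h5
    rw [h8] at this
    norm_num at this
  · have h1 := Nat.card_congr e.toEquiv
    haveI : NeZero (2 ^ n) := ⟨by positivity⟩
    rw [hc, Nat.card_eq_fintype_card, QuaternionGroup.card] at h1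
    have hn : n = 1 := by
      rcases n with _ | _ | n
      · norm_num at h1
      · rfl
      · rw [pow_succ, pow_succ] at h1
        have : 1 ≤ 2 ^ n := Nat.one_le_two_pow
        omega
    subst hn
    exact ⟨e⟩
end


/-- In the group of the length-24 code, the subgroup fixing a dodecad setwise and three of its points individually (a group of order 72) has a normal Sylow 3-subgroup that is elementary abelian of order 9, and its Sylow 2-subgroups are quaternion of order 8. -/
theorem result (d : Finset Cfsg.GolayPt) (hd : d ∈ Cfsg.dodecads) (p q r : Cfsg.GolayPt) (hp : p ∈ d) (hq : q ∈ d) (hr : r ∈ d) (hpq : p ≠ q) (hpr : p ≠ r) (hqr : q ≠ r) : (∀ Q : Sylow 3 ↥(MulAction.stabilizer Cfsg.M24 d ⊓ MulAction.stabilizer Cfsg.M24 p ⊓ MulAction.stabilizer Cfsg.M24 q ⊓ MulAction.stabilizer Cfsg.M24 r), (Q : Subgroup ↥(MulAction.stabilizer Cfsg.M24 d ⊓ MulAction.stabilizer Cfsg.M24 p ⊓ MulAction.stabilizer Cfsg.M24 q ⊓ MulAction.stabilizer Cfsg.M24 r)).Normal ∧ Nat.card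 ↥Q = 9 ∧ ∀ x ∈ (Q : Subgroup ↥(MulAction.stabilizer Cfsg.M24 d ⊓ MulAction.stabilizer Cfsg.M24 p ⊓ MulAction.stabilizer Cfsg.M24 q ⊓ MulAction.stabilizer Cfsg.M24 r)), x ^ 3 = 1) ∧ ∀ P : Sylow 2 ↥(MulAction.stabilizer Cfsg.M24 d ⊓ MulAction.stabilizer Cfsg.M24 p ⊓ MulAction.stabilizer Cfsg.M24 q ⊓ MulAction.stabilizer Cfsg.M24 r), Nonempty (↥P ≃* QuaternionGroup 2) := by
  obtain ⟨k, hk, hkd, hkm⟩ := CfsgLib.Golay.dod_trans hd CfsgLib.Golay.D0_mem (l := [p, q, r]) (l' := [CfsgLib.Golay.pt 0, CfsgLib.Golay.pt 1, CfsgLib.Golay.pt 2])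
    (by simp [hpq, hpr, hqr]) (by decide) (by simp [hp, hq, hr]) (by
      intro x hx
      simp only [List.mem_cons, List.not_mem_nil, or_false] at hx
      rw [CfsgLib.Golay.D0, CfsgLib.Golay.mem_toFS]
      rcases hx with rfl | rfl | rfl <;> decide +kernel) rfl (by simp)
  simp only [List.map_cons, List.map_nil, List.cons.injEq, and_true] at hkm
  obtain ⟨k0, k1, k2⟩ := hkm
  have e1 : ↥(MulAction.stabilizer Cfsg.M24 d ⊓ MulAction.stabilizer Cfsg.M24 p ⊓ MulAction.stabilizer Cfsg.M24 q ⊓ MulAction.stabilizer Cfsg.M24 r) ≃* CfsgLib.Golay.PSd d [p, q, r] := by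
    apply CfsgLib.Golay.subEquiv
    · intro g hg
      constructor
      · rintro ⟨⟨⟨h1, h2⟩, h3⟩, h4⟩
        refine CfsgLib.Golay.mem_PSd.mpr ⟨hg, h1, ?_⟩
        intro x hx
        simp only [List.mem_cons, List.not_mem_nil, or_false] at hx
        rcases hx with rfl | rfl | rfl
        · exact h2
        · exact h3
        · exact h4
      · intro h
        rw [CfsgLib.Golay.mem_PSd] at h
        exact ⟨⟨⟨h.2.1, h.2.2 p (by simp)⟩, h.2.2 q (by simp)⟩, h.2.2 r (by simp)⟩
    · intro g hg; exact (CfsgLib.Golay.mem_PSd.mp hg).1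
  have hmap : (CfsgLib.Golay.PSd d [p, q, r]).map (MulAut.conj k).toMonoidHom = B0 := by
    have aux : ∀ {x : Cfsg.GolayPt} {y : Cfsg.GolayPt}, k x = y → k⁻¹ y = x := by
      intro x y h; rw [Equiv.Perm.inv_eq_iff_eq]; exact h.symm
    ext g
    rw [Subgroup.mem_map]
    constructor
    · rintro ⟨x, hx, rfl⟩
      rw [CfsgLib.Golay.mem_PSd] at hx
      refine CfsgLib.Golay.mem_PSd.mpr ⟨mul_mem (mul_mem hk hx.1) (inv_mem hk), ?_, ?_⟩
      · show (k * x * k⁻¹) • CfsgLib.Golay.D0 = CfsgLib.Golay.D0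
        rw [← hkd, smul_smul, inv_mul_cancel_right, ← smul_smul, hx.2.1]
      · intro y hy
        show (k * x * k⁻¹) y = y
        simp only [List.mem_cons, List.not_mem_nil, or_false] at hy
        rw [Equiv.Perm.mul_apply, Equiv.Perm.mul_apply]
        rcases hy with rfl | rfl | rfl
        · rw [aux k0, hx.2.2 p (by simp), k0]
        · rw [aux k1, hx.2.2 q (by simp), k1]
        · rw [aux k2, hx.2.2 r (by simp), k2]
    · intro hg
      have hg' := CfsgLib.Golay.mem_PSd.mp hg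
      refine ⟨k⁻¹ * g * k, CfsgLib.Golay.mem_PSd.mpr ⟨mul_mem (mul_mem (inv_mem hk) hg'.1) hk, ?_, ?_⟩, ?_⟩
      · rw [mul_assoc, ← smul_smul, ← smul_smul, hkd, hg'.2.1, ← hkd, inv_smul_smul]
      · intro y hy
        simp only [List.mem_cons, List.not_mem_nil, or_false] at hy
        rw [Equiv.Perm.mul_apply, Equiv.Perm.mul_apply]
        rcases hy with rfl | rfl | rfl
        · rw [k0, hg'.2.2 _ (by simp), aux k0]
        · rw [k1, hg'.2.2 _ (by simp), aux k1]
        · rw [k2, hg'.2.2 _ (by simp), aux k2]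
      · show k * (k⁻¹ * g * k) * k⁻¹ = g
        group
  have e2 : CfsgLib.Golay.PSd d [p, q, r] ≃* B0 :=
    ((CfsgLib.Golay.PSd d [p, q, r]).equivMapOfInjective (MulAut.conj k).toMonoidHom (MulAut.conj k).injective).trans (MulEquiv.subgroupCongr hmap)
  have hP := prp_B0.of_equiv (e1.trans e2)
  exact ⟨fun Q => syl3 hP Q, fun P => syl2 hP P⟩

end Cfsg.Agent.S5619
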