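import Cfsg.Statements.S5622
import Cfsg.Agent.Lib.SDCode24

set_option autoImplicit false
open Cfsg

namespace Cfsg.Agent.S5622

/-- Let C be a self-dual binary code of length 24 with minimum weight at least 8 (a 12-dimensional subspace of the 24-dimensional space over the field with two elements, any two of whose words have dot product zero, with no non-zero word of weight below 8 — an abstract extended binary Golay code). Then the minimum weight of C is exactly 8, and the supports of the words of weight 8 (the octads) form a Steiner system S(5, 8, 24) on the 24 coordinates: every 5 coordinates lie in the support of exactly one word of weight 8. -/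
theorem result (C : Submodule (ZMod 2) (Fin 24 → ZMod 2)) (hdim : Module.finrank (ZMod 2) C = 12) (horth : ∀ v ∈ C, ∀ w ∈ C, ∑ i, v i * w i = 0) (hmin : ∀ w ∈ C, w ≠ 0 → 8 ≤ hammingNorm w) : (∃ w ∈ C, hammingNorm w = 8) ∧ Cfsg.IsSteinerSystem 5 8 (Cfsg.wordsOfWeight (C : Set (Fin 24 → ZMod 2)) 8) := by
  classical
  obtain ⟨w, hw, hw8, -⟩ := CfsgLib.SD24.exists_octad C hdim horth hmin (s := {0, 1, 2, 3, 4}) (by decide)
  refine ⟨⟨w, hw, hw8⟩, ?_, ?_⟩
  · rintro b ⟨-, h⟩; exact h
  · intro s hs
    obtain ⟨w, hw, hw8, hsw⟩ := CfsgLib.SD24.exists_octad C hdim horth hmin hs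
    refine ⟨CfsgLib.SD24.sp w, ⟨⟨⟨w, hw, rfl⟩, hw8⟩, hsw⟩, ?_⟩
    rintro b ⟨⟨⟨v, hv, rfl⟩, hv8⟩, hsv⟩
    have := CfsgLib.SD24.unique_octad C hmin hs hv hw hv8 hw8 hsv hsw
    rw [this]; rfl

end Cfsg.Agent.S5622
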