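import Cfsg.Statements.S5625
import Cfsg.Agent.Lib.Steiner

set_option autoImplicit false
open Cfsg

namespace Cfsg.Agent.S5625

/-- In any Steiner system S(5, 8, 24) and for any set Y of three points, the blocks meeting Y in exactly 3, 2, 1 and 0 points number 21, 168, 360 and 210 respectively (so there are 759 blocks in all). -/
theorem result (α : Type*) [Fintype α] [DecidableEq α] (hα : Fintype.card α = 24) (B : Set (Finset α)) (hB : Cfsg.IsSteinerSystem 5 8 B) (Y : Finset α) (hY : Y.card = 3) : {b : Finset α | b ∈ B ∧ (b ∩ Y).card = 3}.ncard = 21 ∧ {b : Finset α | b ∈ B ∧ (b ∩ Y).card = 2}.ncard = 168 ∧ {b : Finset α | b ∈ B ∧ (b ∩ Y).card = 1}.ncard = 360 ∧ {b : Finset α | b ∈ B ∧ (b ∩ Y).card = 0}.ncard = 210 := by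
  have h := fun j hj => CfsgLib.Steiner.set_eq hB (by norm_num) Y j hj
  rw [hα, hY] at h
  have h0 := h 0 (by norm_num)
  have h1 := h 1 (by norm_num)
  have h2 := h 2 (by norm_num)
  have h3 := h 3 (by norm_num)
  simp only [Finset.sum_range_succ, Finset.sum_range_zero, Nat.choose, CfsgLib.Steiner.lam] at h0 h1 h2 h3
  norm_num [Nat.choose] at h0 h1 h2 h3
  have key : ∀ r, {b : Finset α | b ∈ B ∧ (b ∩ Y).card = r}.ncard = ((CfsgLib.Steiner.bl B).filter (fun c => (Y ∩ c).card = r)).card := by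
    intro r
    rw [← CfsgLib.Steiner.ncard_filter]
    congr 1
    ext b; simp only [Set.mem_setOf_eq, Finset.inter_comm]
  rw [key, key, key, key]
  simp only [Finset.card_eq_zero] at *
  refine ⟨?_, ?_, ?_, ?_⟩ <;> omega

end Cfsg.Agent.S5625
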