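import Cfsg.Statements.S5632
import Cfsg.Agent.Lib.GeoBase

set_option autoImplicit false
open Cfsg

open scoped Pointwise
namespace Cfsg.Agent.S5632

/-- For a finite field F and subspaces 0 < W < U of F^n with dim W + dim U = n, the elements of SL_n(F) stabilising both W and U form a subgroup that is not maximal in SL_n(F): some subgroup lies strictly between it and SL_n(F). -/
theorem result {F : Type*} [Field F] [Fintype F] (n : ℕ) (W U : Submodule F (Fin n → F)) (hW0 : W ≠ ⊥) (hWU : W < U) (hdim : Module.finrank F W + Module.finrank F U = n) : ∃ K : Subgroup (Matrix.GeneralLinearGroup (Fin n) F), Cfsg.Geo.subspaceStabilizer W ⊓ Cfsg.Geo.subspaceStabilizer U ⊓ Cfsg.Geo.specialLinear (Fin n) F < K ∧ K < Cfsg.Geo.specialLinear (Fin n) F := by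
  classical
  have hU1 : U ≠ ⊤ := by
    rintro rfl
    rw [finrank_top, Module.finrank_fin_fun] at hdim
    apply hW0
    rw [← Submodule.finrank_eq_zero]
    omega
  obtain ⟨v, hv⟩ : ∃ v, v ∉ U := by
    by_contra hcon
    push Not at hcon
    exact hU1 (Submodule.eq_top_iff'.2 hcon)
  obtain ⟨u, hu, huW⟩ := Set.exists_of_ssubset (show (W : Set (Fin n → F)) ⊂ U from hWU)
  obtain ⟨w, hw, hw0⟩ := (Submodule.ne_bot_iff W).1 hW0
  refine ⟨Cfsg.Geo.subspaceStabilizer W ⊓ Cfsg.Geo.specialLinear (Fin n) F, ?_, ?_⟩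
  · refine lt_of_le_of_ne (le_inf (inf_le_left.trans inf_le_left) inf_le_right) ?_
    intro heq
    have h1 : u ∉ W ⊔ Submodule.span F {v} := by
      intro h
      obtain ⟨a, ha, b, hb, hab⟩ := Submodule.mem_sup.1 h
      obtain ⟨c, rfl⟩ := Submodule.mem_span_singleton.1 hb
      by_cases hc : c = 0
      · rw [hc, zero_smul, add_zero] at hab
        exact huW (hab ▸ ha)
      · apply hv
        have h2 : c • v = u - a := eq_sub_of_add_eq' hab
        have h3 : v = c⁻¹ • (u - a) := by rw [← h2, smul_smul, inv_mul_cancel₀ hc, one_smul]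
        rw [h3]
        exact U.smul_mem _ (U.sub_mem hu (hWU.le ha))
    obtain ⟨f, hf1, hf2⟩ := CfsgLib.GeoBase.exists_dual h1 1
    have hfv : f v = 0 := hf1 v (Submodule.mem_sup_right (Submodule.mem_span_singleton_self v))
    have hm : CfsgLib.GeoBase.tv f v hfv ∈ Cfsg.Geo.subspaceStabilizer W ⊓ Cfsg.Geo.specialLinear (Fin n) F := by
      refine ⟨CfsgLib.GeoBase.mem_stab_iff.2 (fun x hx => ?_), CfsgLib.GeoBase.tv_mem_sl f v hfv⟩
      rw [CfsgLib.GeoBase.tv_apply, hf1 x (Submodule.mem_sup_left hx), zero_smul, add_zero]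
      exact hx
    rw [← heq] at hm
    have h4 := CfsgLib.GeoBase.mem_stab_iff.1 hm.1.2 u hu
    rw [CfsgLib.GeoBase.tv_apply, hf2, one_smul] at h4
    exact hv ((Submodule.add_mem_iff_right U hu).1 h4)
  · refine lt_of_le_of_ne inf_le_right ?_
    intro heq
    have hvW : v ∉ W := fun h => hv (hWU.le h)
    have h1 : w ∉ Submodule.span F {v} := by
      intro h
      obtain ⟨c, hc⟩ := Submodule.mem_span_singleton.1 h
      have hc0 : c ≠ 0 := by
        rintro rfl
        rw [zero_smul] at hc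
        exact hw0 hc.symm
      apply hvW
      have : v = c⁻¹ • w := by rw [← hc, smul_smul, inv_mul_cancel₀ hc0, one_smul]
      rw [this]
      exact W.smul_mem _ hw
    obtain ⟨f, hf1, hf2⟩ := CfsgLib.GeoBase.exists_dual h1 1
    have hfv : f v = 0 := hf1 v (Submodule.mem_span_singleton_self v)
    have h2 := CfsgLib.GeoBase.tv_mem_sl f v hfv
    rw [← heq] at h2
    have h3 := CfsgLib.GeoBase.mem_stab_iff.1 h2.1 w hw
    rw [CfsgLib.GeoBase.tv_apply, hf2, one_smul] at h3
    exact hvW ((Submodule.add_mem_iff_right W hw).1 h3)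

end Cfsg.Agent.S5632
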