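import Cfsg.Statements.S5633
import Cfsg.Agent.Lib.GeoBase

set_option autoImplicit false
open Cfsg

namespace Cfsg.Agent.S5633

/-- For a finite field F and complementary non-zero subspaces W ⊕ U = F^n with dim W < dim U, the elements of SL_n(F) stabilising both W and U form a subgroup that is not maximal in SL_n(F): some subgroup lies strictly between it and SL_n(F). -/
theorem result {F : Type*} [Field F] [Fintype F] (n : ℕ) (W U : Submodule F (Fin n → F)) (hW0 : W ≠ ⊥) (hWU : W ⊓ U = ⊥) (hWU' : W ⊔ U = ⊤) (hdim : Module.finrank F W < Module.finrank F U) : ∃ K : Subgroup (Matrix.GeneralLinearGroup (Fin n) F), Cfsg.Geo.subspaceStabilizer W ⊓ Cfsg.Geo.subspaceStabilizer U ⊓ Cfsg.Geo.specialLinear (Fin n) F < K ∧ K < Cfsg.Geo.specialLinear (Fin n) F := by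
  classical
  obtain ⟨w, hw, hw0⟩ := (Submodule.ne_bot_iff W).1 hW0
  have hU0 : U ≠ ⊥ := by
    rintro rfl
    rw [finrank_bot] at hdim
    omega
  obtain ⟨u, hu, hu0⟩ := (Submodule.ne_bot_iff U).1 hU0
  have huW : u ∉ W := by
    intro h
    apply hu0
    have : u ∈ W ⊓ U := ⟨h, hu⟩
    rwa [hWU, Submodule.mem_bot] at this
  have hwU : w ∉ U := by
    intro h
    apply hw0
    have : w ∈ W ⊓ U := ⟨hw, h⟩
    rwa [hWU, Submodule.mem_bot] at this
  refine ⟨Cfsg.Geo.subspaceStabilizer W ⊓ Cfsg.Geo.specialLinear (Fin n) F, ?_, ?_⟩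
  · refine lt_of_le_of_ne (le_inf (inf_le_left.trans inf_le_left) inf_le_right) ?_
    intro heq
    obtain ⟨f, hf1, hf2⟩ := CfsgLib.GeoBase.exists_dual huW 1
    have hfv : f w = 0 := hf1 w hw
    have hm : CfsgLib.GeoBase.tv f w hfv ∈ Cfsg.Geo.subspaceStabilizer W ⊓ Cfsg.Geo.specialLinear (Fin n) F := by
      refine ⟨CfsgLib.GeoBase.mem_stab_iff.2 (fun x hx => ?_), CfsgLib.GeoBase.tv_mem_sl f w hfv⟩
      rw [CfsgLib.GeoBase.tv_apply, hf1 x hx, zero_smul, add_zero]
      exact hx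
    rw [← heq] at hm
    have h4 := CfsgLib.GeoBase.mem_stab_iff.1 hm.1.2 u hu
    rw [CfsgLib.GeoBase.tv_apply, hf2, one_smul] at h4
    exact hwU ((Submodule.add_mem_iff_right U hu).1 h4)
  · refine lt_of_le_of_ne inf_le_right ?_
    intro heq
    obtain ⟨f, hf1, hf2⟩ := CfsgLib.GeoBase.exists_dual hwU 1
    have hfv : f u = 0 := hf1 u hu
    have h2 := CfsgLib.GeoBase.tv_mem_sl f u hfv
    rw [← heq] at h2
    have h3 := CfsgLib.GeoBase.mem_stab_iff.1 h2.1 w hw
    rw [CfsgLib.GeoBase.tv_apply, hf2, one_smul] at h3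
    exact huW ((Submodule.add_mem_iff_right W hw).1 h3)

end Cfsg.Agent.S5633
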