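import Cfsg.Statements.S5644
import Cfsg.Agent.Lib.Cug4

set_option autoImplicit false
open Cfsg

namespace Cfsg.Agent.S5644

/-- For a finite field F of odd order and n ≥ 13, let Q be a non-degenerate quadratic form on F^n (its polar form is non-degenerate). Then the elements of SL_n(F) that are similarities of Q (Q(gv) = c Q(v) for a non-zero scalar c depending on g) form a maximal subgroup of SL_n(F). -/
theorem result {F : Type*} [Field F] [Fintype F] (n : ℕ) (hn : 13 ≤ n) (hodd : Odd (Fintype.card F)) (Q : (Fin n → F) → F) (hQ : Cfsg.Geo.IsNondegenerateQuadraticForm Q) : Cfsg.Geo.IsMaximalIn (Cfsg.Geo.specialLinear (Fin n) F) (Cfsg.Geo.quadSimilarityGroup Q ⊓ Cfsg.Geo.specialLinear (Fin n) F) := by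
  have h2 : (2 : F) ≠ 0 := by
    intro h2
    have h3 : ringChar F = 2 := by
      have h4 : ringChar F ∣ 2 := (ringChar.spec F 2).1 (by exact_mod_cast h2)
      rcases (Nat.dvd_prime Nat.prime_two).1 h4 with h5 | h5
      · exact absurd h5 (CharP.ringChar_ne_one)
      · exact h5
    have h6 := FiniteField.even_card_iff_char_two.1 h3
    rw [Nat.odd_iff] at hodd
    omega
  have hb := hQ.polar_bilinear
  let b : LinearMap.BilinForm F (Fin n → F) := LinearMap.mk₂ F (QuadraticMap.polar Q) hb.add_left hb.smul_left hb.add_right hb.smul_right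
  have hbx : ∀ x y, b x y = QuadraticMap.polar Q x y := fun x y => rfl
  have hs : ∀ x y, b x y = b y x := fun x y => by rw [hbx, hbx, QuadraticMap.polar_comm]
  refine CfsgLib.Cug4.os_maximal (b := b) h2 (by rw [Fintype.card_fin]; exact hn) hs ?_ ?_
  · have hR : b.IsRefl := fun u v huv => by rw [hs]; exact huv
    refine (hR.nondegenerate_iff_separatingLeft).mpr ?_
    intro x hx
    by_contra hne
    obtain ⟨-, y, hy⟩ := hQ.nondegenerate x hne
    exact hy (hx y)
  · intro v
    have h1 := hQ.smul 2 v
    rw [hbx, QuadraticMap.polar, ← two_smul F v, h1]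
    ring

end Cfsg.Agent.S5644
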