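import Cfsg.Statements.S5654
import Cfsg.Agent.Lib.Cuw3
import Cfsg.Agent.Lib.Asu5

set_option autoImplicit false
open Cfsg

namespace Cfsg.Agent.S5654

/-- Let F be the field with q² elements and n ≥ 13. In SU_n(q) (determinant-one isometries of the standard unitary form on F^n) the stabiliser of a non-zero subspace W on which the form is non-degenerate and with 2 dim W < n is a maximal subgroup. -/
theorem result {F : Type*} [Field F] [Fintype F] (n q : ℕ) (hF : Fintype.card F = q ^ 2) (hn : 13 ≤ n) (W : Submodule F (Fin n → F)) (hW0 : W ≠ ⊥) (hW : Cfsg.Geo.IsNondegenerateOn (Cfsg.hermForm n F q) W) (hdim : 2 * Module.finrank F W < n) : Cfsg.Geo.IsMaximalIn (Cfsg.GU n F q ⊓ Cfsg.Geo.specialLinear (Fin n) F) (Cfsg.Geo.subspaceStabilizer W ⊓ (Cfsg.GU n F q ⊓ Cfsg.Geo.specialLinear (Fin n) F)) := by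
  obtain ⟨σ, hq⟩ := CfsgLib.Herm.exists_sigma (F := F) (q := q) (by rw [Nat.card_eq_fintype_card]; exact hF)
  have hB := CfsgLib.Herm.stdH_hform hq n
  rw [CfsgLib.Asu5.herm_eq hq] at hW
  rw [CfsgLib.Asu5.GU_eq hq]
  have hfin := CfsgLib.Herm.finrank_perp hq hB W
  rw [Module.finrank_fintype_fun_eq_card, Fintype.card_fin] at hfin
  refine CfsgLib.Cuw3.nondeg_maximal hq hB (by rw [Fintype.card_fin]; omega) hW0 ⟨fun x y => hB.symm _ _, fun x hx => ?_⟩ (by omega) (by omega)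
  by_contra hne
  obtain ⟨⟨y, hy, hy0⟩, -⟩ := hW x.1 x.2 (fun h0 => hne (Subtype.ext h0))
  exact hy0 (hx ⟨y, hy⟩)

end Cfsg.Agent.S5654
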