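import Cfsg.Statements.S5659
import Cfsg.Agent.Lib.Cuo5
import Cfsg.Agent.Lib.Asu5

set_option autoImplicit false
open Cfsg

namespace Cfsg.Agent.S5659

/-- Let F be the field with q² elements, q odd, n ≥ 13, and F₀ the subfield with q elements. Let P be an invertible matrix such that the standard unitary form takes values in F₀ on the F₀-span of the columns of P (so it restricts to a non-degenerate symmetric bilinear form there). Then the elements of SU_n(q) lying in the subfield group of P form a maximal subgroup of SU_n(q). -/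
theorem result {F : Type*} [Field F] [Fintype F] (n q : ℕ) (hF : Fintype.card F = q ^ 2) (hn : 13 ≤ n) (hodd : Odd q) (F₀ : Subfield F) (hcard : Fintype.card F = Nat.card F₀ ^ 2) (P : Matrix.GeneralLinearGroup (Fin n) F) (hP : Cfsg.Geo.IsFormRationalStructure (Cfsg.hermForm n F q) F₀ 1 P) : Cfsg.Geo.IsMaximalIn (Cfsg.GU n F q ⊓ Cfsg.Geo.specialLinear (Fin n) F) (Cfsg.Geo.subfieldSubgroup F₀ P ⊓ (Cfsg.GU n F q ⊓ Cfsg.Geo.specialLinear (Fin n) F)) := by
  obtain ⟨σ, hq⟩ := CfsgLib.Herm.exists_sigma (F := F) (q := q) (by rw [Nat.card_eq_fintype_card]; exact hF)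
  have hB := CfsgLib.Herm.stdH_hform hq n
  rw [CfsgLib.Asu5.herm_eq hq] at hP
  rw [CfsgLib.Asu5.GU_eq hq]
  have hqc : Nat.card F₀ = q := by
    have h1 : Nat.card F₀ ^ 2 = q ^ 2 := by rw [← hcard, hF]
    exact Nat.pow_left_injective (by norm_num : 2 ≠ 0) h1
  have h2 : (2 : F) ≠ 0 := by
    intro h2
    have h3 : ringChar F = 2 := by
      have h4 : ringChar F ∣ 2 := (ringChar.spec F 2).1 (by exact_mod_cast h2)
      rcases (Nat.dvd_prime Nat.prime_two).1 h4 with h5 | h5
      · exact absurd h5 (CharP.ringChar_ne_one)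
      · exact h5
    have h6 := FiniteField.even_card_iff_char_two.1 h3
    rw [hF] at h6
    have h7 := (hodd.pow (n := 2))
    rw [Nat.odd_iff] at h7
    omega
  refine CfsgLib.Cuo5.or_maximal hq hB (F₀ := F₀) (P := P) (fun a => ?_) (fun x y => ?_) h2 (by rw [Fintype.card_fin]; exact hn)
  · rw [CfsgLib.Mob35.mem_iff_pow, hqc, hq.pow]
  · have := hP (fun i => (y i : F)) (fun i => (x i : F)) (fun i => (y i).2) (fun i => (x i).2)
    rw [one_mul] at this
    exact this

end Cfsg.Agent.S5659
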