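import Cfsg.Statements.S5690
import Cfsg.Agent.Lib.Cuq5

set_option autoImplicit false
open Cfsg

namespace Cfsg.Agent.S5690

/-- Let F be a finite field with q elements, n ≥ 13 even, Q a non-degenerate quadratic form on F^n (of either type), and Ω the commutator subgroup of the isometry group of Q, viewed inside GL_n(F). Suppose q ≤ 3 and W is a plane on which the polar form is non-degenerate and which contains a line on which Q vanishes. Then the elements of Ω stabilising W form a subgroup that is not maximal: some subgroup lies strictly between it and Ω. -/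
theorem result {F : Type*} [Field F] [Fintype F] {n : ℕ} (hn : 13 ≤ n) (heven : Even n) (Q : (Fin n → F) → F) (hQ : Cfsg.Geo.IsNondegenerateQuadraticForm Q) (hq : Fintype.card F ≤ 3) (W : Submodule F (Fin n → F)) (hdim : Module.finrank F W = 2) (hW : Cfsg.Geo.IsNondegenerateOn (QuadraticMap.polar Q) W) (hWp : Cfsg.Geo.IsPlusTypeOn Q W) : ∃ K : Subgroup (Matrix.GeneralLinearGroup (Fin n) F), Cfsg.Geo.subspaceStabilizer W ⊓ Cfsg.Geo.omegaGL Q < K ∧ K < Cfsg.Geo.omegaGL Q := by
  obtain ⟨Q', rfl, hnd⟩ := CfsgLib.Cuq3.exists_qf hQ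
  refine CfsgLib.Cuq5.plane_nonmax ?_ hnd (by rw [Fintype.card_fin]; exact hn) hdim hW hWp
  intro a b hab
  have h1 : 1 < Fintype.card F := Fintype.one_lt_card
  have h3 : Fintype.card F = 2 ∨ Fintype.card F = 3 := by omega
  rcases h3 with h3 | h3
  · have ha := FiniteField.pow_card a
    have hb := FiniteField.pow_card b
    rw [h3] at ha hb
    have h4 : a * b * a = b * a * b := by linear_combination b * ha - a * hb
    rw [mul_comm b a, hab, one_mul, one_mul] at h4
    exact h4
  · exact (CfsgLib.Aso1.f3 h3 hab).1

end Cfsg.Agent.S5690
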