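import Cfsg.Statements.S5944

set_option autoImplicit false
open Cfsg

set_option linter.style.haveILetI false
namespace Cfsg.Agent.S5944

/-- For n ≠ 4, every proper subgroup of the symmetric group S_n other than the alternating group A_n has index at least n. -/
theorem result (n : ℕ) (hn : n ≠ 4) (H : Subgroup (Equiv.Perm (Fin n))) (hH : H ≠ ⊤) (hA : H ≠ alternatingGroup (Fin n)) : n ≤ H.index := by
  by_contra hlt
  push Not at hlt
  have hi0 : H.index ≠ 0 := Subgroup.index_ne_zero_of_finite
  have hi1 : H.index ≠ 1 := fun h => hH (Subgroup.index_eq_one.1 h)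
  have hi2 : H.index ≠ 2 := by
    intro h
    haveI : Nontrivial (Fin n) := Fin.nontrivial_iff_two_le.2 (by omega)
    exact hA (Equiv.Perm.eq_alternatingGroup_of_index_eq_two h)
  have h5 : 5 ≤ n := by omega
  by_cases hnt : Nontrivial H.normalCore
  · have h1 := Equiv.Perm.alternatingGroup_le_of_normal (α := Fin n) (by rw [Nat.card_fin]; exact h5) hnt
    have h2 : alternatingGroup (Fin n) ≤ H := h1.trans H.normalCore_le
    have h3 := Subgroup.index_dvd_of_le h2
    haveI : Nontrivial (Fin n) := Fin.nontrivial_iff_two_le.2 (by omega)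
    rw [alternatingGroup.index_eq_two] at h3
    have := Nat.le_of_dvd (by norm_num) h3
    omega
  · rw [Subgroup.nontrivial_iff_ne_bot, not_not, Subgroup.normalCore_eq_ker, MonoidHom.ker_eq_bot_iff] at hnt
    have h1 := Nat.card_le_card_of_injective _ hnt
    rw [Nat.card_eq_fintype_card, Fintype.card_perm, Fintype.card_fin] at h1
    haveI : Fintype (Equiv.Perm (Fin n) ⧸ H) := Fintype.ofFinite _
    classical
    rw [Nat.card_eq_fintype_card, Fintype.card_perm, ← Nat.card_eq_fintype_card] at h1
    change n.factorial ≤ H.index.factorial at h1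
    have h2 : H.index.factorial < n.factorial := Nat.factorial_lt_of_lt (by omega) hlt
    omega

end Cfsg.Agent.S5944
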