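import Cfsg.Statements.S5945
import Cfsg.Agent.Lib.CM5

set_option autoImplicit false
open Cfsg

namespace Cfsg.Agent.S5945

theorem third : ∀ x y : Fin 6, ∃ z : Fin 6, z ≠ x ∧ z ≠ y := by decide


/-- The symmetric group S_6 has exactly 12 subgroups of index 6; each of them is isomorphic to S_5, and at least one of them is not the stabilizer of any point. -/
theorem result : Nat.card {H : Subgroup (Equiv.Perm (Fin 6)) // H.index = 6} = 12 ∧ (∀ H : Subgroup (Equiv.Perm (Fin 6)), H.index = 6 → Nonempty (H ≃* Equiv.Perm (Fin 5))) ∧ ∃ H : Subgroup (Equiv.Perm (Fin 6)), H.index = 6 ∧ ∀ a : Fin 6, H ≠ MulAction.stabilizer (Equiv.Perm (Fin 6)) a := by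
  classical
  have h6 : Fintype.card (Fin 6) = 6 := Fintype.card_fin 6
  obtain ⟨θ, x₀, hθ, hcl⟩ := CfsgLib.CM5.classify h6 CfsgLib.CM5.X6 CfsgLib.CM5.X6_index CfsgLib.CM5.X6_not_point
  have hst : ∀ x : Fin 6, (MulAction.stabilizer (Equiv.Perm (Fin 6)) x).index = 6 := by
    intro x
    rw [MulAction.index_stabilizer_of_transitive, Nat.card_fin]
  have hth : ∀ x : Fin 6, ((MulAction.stabilizer (Equiv.Perm (Fin 6)) x).comap θ.toMonoidHom).index = 6 := by
    intro x
    exact (Subgroup.index_comap_of_surjective _ θ.surjective).trans (hst x)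
  have hinj : ∀ x y : Fin 6, MulAction.stabilizer (Equiv.Perm (Fin 6)) x = MulAction.stabilizer (Equiv.Perm (Fin 6)) y → x = y := by
    intro x y h
    by_contra hne
    obtain ⟨z, hz1, hz2⟩ : ∃ z : Fin 6, z ≠ x ∧ z ≠ y := third x y
    have h1 : Equiv.swap y z ∈ MulAction.stabilizer (Equiv.Perm (Fin 6)) x := Equiv.swap_apply_of_ne_of_ne hne hz1.symm
    rw [h] at h1
    have h2 : Equiv.swap y z y = y := h1
    rw [Equiv.swap_apply_left] at h2
    exact hz2 h2
  refine ⟨?_, ?_, CfsgLib.CM5.X6, CfsgLib.CM5.X6_index, CfsgLib.CM5.X6_not_point⟩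
  · let F : Fin 6 ⊕ Fin 6 → {H : Subgroup (Equiv.Perm (Fin 6)) // H.index = 6} := fun s => match s with
      | Sum.inl x => ⟨_, hst x⟩
      | Sum.inr x => ⟨_, hth x⟩
    have hF : Function.Bijective F := by
      constructor
      · rintro (x | x) (y | y) h
        · exact congrArg Sum.inl (hinj x y (congrArg Subtype.val h))
        · exact absurd (congrArg Subtype.val h).symm (CfsgLib.CM5.comap_not_point θ x₀ _ hθ CfsgLib.CM5.X6_not_point x y)
        · exact absurd (congrArg Subtype.val h) (CfsgLib.CM5.comap_not_point θ x₀ _ hθ CfsgLib.CM5.X6_not_point y x)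
        · have h1 : (MulAction.stabilizer (Equiv.Perm (Fin 6)) x).comap θ.toMonoidHom = (MulAction.stabilizer (Equiv.Perm (Fin 6)) y).comap θ.toMonoidHom := congrArg Subtype.val h
          have h2 := Subgroup.comap_injective (f := θ.toMonoidHom) θ.surjective h1
          exact congrArg Sum.inr (hinj x y h2)
      · rintro ⟨H, hH⟩
        rcases hcl H hH with ⟨x, rfl⟩ | ⟨y, rfl⟩
        · exact ⟨Sum.inl x, rfl⟩
        · exact ⟨Sum.inr y, rfl⟩
    rw [← Nat.card_congr (Equiv.ofBijective F hF)]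
    simp
  · intro H hH
    obtain ⟨β, x₁, hβ⟩ := CfsgLib.CM4.exists_aut (by norm_num) H (by rw [hH, h6])
    obtain ⟨ε⟩ := CfsgLib.CM5.stab_iso x₁
    have hc : Fintype.card {y : Fin 6 // y ≠ x₁} = 5 := by
      rw [Fintype.card_subtype_compl, Fintype.card_subtype_eq, h6]
    let δ : Equiv.Perm {y : Fin 6 // y ≠ x₁} ≃* Equiv.Perm (Fin 5) := (Fintype.equivFinOfCardEq hc).permCongrHom
    have hmap : H.map β.toMonoidHom = MulAction.stabilizer (Equiv.Perm (Fin 6)) x₁ := by
      ext k
      constructor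
      · rintro ⟨h, hh, rfl⟩
        exact (hβ h).1 hh
      · intro hk
        refine ⟨β.symm k, ?_, β.apply_symm_apply k⟩
        rw [SetLike.mem_coe, hβ, β.apply_symm_apply]
        exact hk
    exact ⟨((β.subgroupMap H).trans (MulEquiv.subgroupCongr hmap)).trans (ε.trans δ)⟩

end Cfsg.Agent.S5945
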