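import Cfsg.Statements.S5952

set_option autoImplicit false
open Cfsg

namespace Cfsg.Agent.S5952

open Module

/-- one step -/
theorem step {F V : Type*} [Field F] [AddCommGroup V] [Module F V] [FiniteDimensional F V] (f : V →ₗ[F] V)
    (P U W : Submodule F V) (hPU : Disjoint P U) (hP : P.map f ≤ P) (hU : U.map f ≤ U) (hW : W.map f ≤ W)
    (hirr : ∀ W' : Submodule F V, W' ≤ U → W'.map f ≤ W' → W' = ⊥ ∨ W' = U) :
    finrank F (W ⊓ (P ⊔ U) : Submodule F V) = finrank F (W ⊓ P : Submodule F V) ∨
      finrank F (W ⊓ (P ⊔ U) : Submodule F V) = finrank F (W ⊓ P : Submodule F V) + finrank F U := by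
  classical
  let W1 := W ⊓ (P ⊔ U)
  -- the image in U
  let J : Submodule F V := (W1 ⊔ P) ⊓ U
  have hJ : J = ⊥ ∨ J = U := by
    apply hirr J inf_le_right
    rw [Submodule.map_le_iff_le_comap]
    rintro x ⟨hx1, hx2⟩
    refine ⟨?_, hU ⟨x, hx2, rfl⟩⟩
    obtain ⟨a, ha, b, hb, rfl⟩ := Submodule.mem_sup.1 hx1
    rw [map_add]
    refine Submodule.add_mem_sup ?_ (hP ⟨b, hb, rfl⟩)
    refine ⟨hW ⟨a, ha.1, rfl⟩, ?_⟩
    obtain ⟨c, hc, d, hd, hcd⟩ := Submodule.mem_sup.1 ha.2
    rw [← hcd, map_add]
    exact Submodule.add_mem_sup (hP ⟨c, hc, rfl⟩) (hU ⟨d, hd, rfl⟩)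
  have h1 : W1 ⊔ P = J ⊔ P := by
    apply le_antisymm
    · apply sup_le _ le_sup_right
      intro x hx
      obtain ⟨c, hc, d, hd, hcd⟩ := Submodule.mem_sup.1 hx.2
      rw [← hcd, add_comm]
      refine Submodule.add_mem_sup ⟨?_, hd⟩ hc
      have : d = x - c := by rw [← hcd]; abel
      rw [this]
      exact Submodule.sub_mem _ (Submodule.mem_sup_left hx) (Submodule.mem_sup_right hc)
    · apply sup_le _ le_sup_right
      exact inf_le_left
  have h2 := Submodule.finrank_sup_add_finrank_inf_eq W1 P
  have h3 := Submodule.finrank_sup_add_finrank_inf_eq J P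
  have h4 : W1 ⊓ P = W ⊓ P := by
    apply le_antisymm
    · exact le_inf (inf_le_left.trans inf_le_left) inf_le_right
    · exact le_inf (le_inf inf_le_left (inf_le_right.trans le_sup_left)) inf_le_right
  have h5 : J ⊓ P = ⊥ := by
    rw [eq_bot_iff]
    intro x hx
    exact (Submodule.disjoint_def.1 hPU x hx.2 hx.1.2) ▸ Submodule.zero_mem _
  rw [h5, finrank_bot] at h3
  rw [h4, h1] at h2
  rcases hJ with h | h
  · left
    rw [h, finrank_bot] at h3
    rw [h] at h2
    change finrank F W1 = _
    omega
  · right
    rw [h] at h3 h2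
    change finrank F W1 = _
    omega

theorem exists_sub {F V : Type*} [Field F] [AddCommGroup V] [Module F V] [FiniteDimensional F V] (C : Submodule F V) (k : ℕ)
    (hk : k ≤ finrank F C) : ∃ D : Submodule F V, D ≤ C ∧ finrank F D = k := by
  obtain ⟨D, hD⟩ : ∃ D : Submodule F C, finrank F D = k := by
    let b := Module.finBasis F C
    refine ⟨Submodule.span F (Set.range (fun i : Fin k => b (Fin.castLE hk i))), ?_⟩
    exact (finrank_span_eq_card (b.linearIndependent.comp _ (Fin.castLE_injective hk))).trans (Fintype.card_fin k)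
  refine ⟨D.map C.subtype, Submodule.map_subtype_le C D, ?_⟩
  rw [← hD]
  exact (Submodule.equivMapOfInjective C.subtype C.injective_subtype D).finrank_eq.symm


/-- Which dimensions of invariant subspaces a semisimple linear map has. Let `V` be a finite-dimensional vector space over a field `F` and `f` an invertible semisimple linear map of `V`. Suppose `V` is the internal direct sum of the fixed space `C_V(f)` (the eigenspace for 1) and subspaces `U_1, …, U_s`, each `f`-invariant of dimension `a ≥ 1` on which `f` acts irreducibly (no `f`-invariant subspaces other than 0 and `U_j`). Let `0 < m < dim V` and `ℓ = m mod a`. Then `f` leaves some `m`-dimensional subspace invariant if and only if `dim C_V(f) ≥ m`, or `a ≤ m` and `dim C_V(f) ≥ ℓ`. -/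
theorem result {F V : Type*} [Field F] [AddCommGroup V] [Module F V]
    [FiniteDimensional F V] (f : V →ₗ[F] V) (hf : Function.Bijective f) (hss : Module.End.IsSemisimple f)
    {s a : ℕ} (ha : 1 ≤ a) (U : Fin s → Submodule F V)
    (hUinv : ∀ j, (U j).map f ≤ U j) (hUdim : ∀ j, Module.finrank F ↥(U j) = a)
    (hUirr : ∀ j, ∀ W : Submodule F V, W ≤ U j → W.map f ≤ W → W = ⊥ ∨ W = U j)
    (hdec : DirectSum.IsInternal (fun o : Option (Fin s) => o.elim (Module.End.eigenspace f 1) U))
    (m : ℕ) (hm : 0 < m) (hmV : m < Module.finrank F V) :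
    (∃ W : Submodule F V, Module.finrank F ↥W = m ∧ W.map f ≤ W) ↔
    (m ≤ Module.finrank F ↥(Module.End.eigenspace f 1) ∨
      (a ≤ m ∧ m % a ≤ Module.finrank F ↥(Module.End.eigenspace f 1))) := by
  classical
  set C := Module.End.eigenspace f 1 with hC
  let A : Option (Fin s) → Submodule F V := fun o => o.elim C U
  have hCf : ∀ D : Submodule F V, D ≤ C → D.map f ≤ D := by
    intro D hD
    rw [Submodule.map_le_iff_le_comap]
    intro x hx
    have := Module.End.mem_eigenspace_iff.1 (hD hx)
    rw [one_smul] at this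
    rw [Submodule.mem_comap, this]
    exact hx
  have hsup : iSup A = ⊤ := hdec.submodule_iSup_eq_top
  have hind : iSupIndep A := hdec.submodule_iSupIndep
  -- partial sums
  let P : ℕ → Submodule F V := fun i => C ⊔ ⨆ j : {j : Fin s // j.val < i}, U j.1
  have hP0 : P 0 = C := by
    have : (⨆ j : {j : Fin s // j.val < 0}, U j.1) = ⊥ := by
      rw [eq_bot_iff]
      apply iSup_le
      rintro ⟨j, hj⟩
      exact absurd hj (by omega)
    change C ⊔ _ = C
    rw [this, sup_bot_eq]
  have hPs : ∀ (i : ℕ) (hi : i < s), P (i + 1) = P i ⊔ U ⟨i, hi⟩ := by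
    intro i hi
    apply le_antisymm
    · apply sup_le (le_sup_left.trans le_sup_left)
      apply iSup_le
      rintro ⟨j, hj⟩
      by_cases hji : j.val < i
      · exact (le_iSup (fun j : {j : Fin s // j.val < i} => U j.1) ⟨j, hji⟩).trans (le_sup_right.trans le_sup_left)
      · have : j = ⟨i, hi⟩ := Fin.ext (by change j.val = i; change j.val < i + 1 at hj; omega)
        subst this
        exact le_sup_right
    · apply sup_le
      · apply sup_le le_sup_left
        apply iSup_le
        rintro ⟨j, hj⟩
        exact (le_iSup (fun j : {j : Fin s // j.val < i + 1} => U j.1) ⟨j, by omega⟩).trans le_sup_right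
      · exact (le_iSup (fun j : {j : Fin s // j.val < i + 1} => U j.1) ⟨⟨i, hi⟩, by simp⟩).trans le_sup_right
  have hPtop : P s = ⊤ := by
    rw [eq_top_iff, ← hsup]
    apply iSup_le
    rintro (_ | j)
    · exact le_sup_left
    · exact (le_iSup (fun j : {j : Fin s // j.val < s} => U j.1) ⟨j, j.2⟩).trans le_sup_right
  have hPdisj : ∀ (i : ℕ) (hi : i < s), Disjoint (P i) (U ⟨i, hi⟩) := by
    intro i hi
    have h1 := hind (some ⟨i, hi⟩)
    refine (h1.mono_right ?_).symm
    apply sup_le
    · exact le_iSup₂_of_le none (by simp) le_rfl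
    · apply iSup_le
      rintro ⟨j, hj⟩
      refine le_iSup₂_of_le (some j) ?_ le_rfl
      intro h
      have := Option.some.inj h
      rw [this] at hj
      simp at hj
  have hPf : ∀ i, (P i).map f ≤ P i := by
    intro i
    rw [Submodule.map_sup, Submodule.map_iSup]
    apply sup_le ((hCf C le_rfl).trans le_sup_left)
    apply iSup_le
    intro j
    exact (hUinv j.1).trans ((le_iSup (fun j : {j : Fin s // j.val < i} => U j.1) j).trans le_sup_right)
  have hdimP : ∀ i, i ≤ s → finrank F (P i) = finrank F C + i * a := by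
    intro i
    induction i with
    | zero => intro _; rw [hP0]; ring
    | succ i ih =>
      intro hi
      have h1 := Submodule.finrank_sup_add_finrank_inf_eq (P i) (U ⟨i, by omega⟩)
      rw [(hPdisj i (by omega)).eq_bot, finrank_bot, ← hPs i (by omega), ih (by omega), hUdim] at h1
      rw [Nat.add_mul, one_mul]
      omega
  have hdimV : finrank F V = finrank F C + s * a := by
    have := hdimP s le_rfl
    rwa [hPtop, finrank_top] at this
  constructor
  · rintro ⟨W, hWm, hWf⟩
    have h1 : ∀ i, i ≤ s → ∃ k, finrank F (W ⊓ P i : Submodule F V) = finrank F (W ⊓ C : Submodule F V) + k * a := by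
      intro i
      induction i with
      | zero => intro _; exact ⟨0, by rw [hP0]; ring⟩
      | succ i ih =>
        intro hi
        obtain ⟨k, hk⟩ := ih (by omega)
        rcases step f (P i) (U ⟨i, by omega⟩) W (hPdisj i (by omega)) (hPf i) (hUinv _) hWf (hUirr _) with h | h
        · exact ⟨k, by rw [hPs i (by omega), h, hk]⟩
        · exact ⟨k + 1, by rw [hPs i (by omega), h, hk, hUdim]; ring⟩
    obtain ⟨k, hk⟩ := h1 s le_rfl
    rw [hPtop, inf_top_eq, hWm] at hk
    have h2 : finrank F (W ⊓ C : Submodule F V) ≤ finrank F C := Submodule.finrank_mono inf_le_right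
    rcases Nat.eq_zero_or_pos k with hk0 | hk0
    · left
      rw [hk0, zero_mul, add_zero] at hk
      omega
    · right
      constructor
      · have : 1 * a ≤ k * a := Nat.mul_le_mul_right a hk0
        omega
      · rw [hk, Nat.add_mul_mod_self_right]
        exact (Nat.mod_le _ _).trans h2
  · intro h
    rcases h with h | ⟨h1, h2⟩
    · obtain ⟨D, hD, hDm⟩ := exists_sub C m h
      exact ⟨D, hDm, hCf D hD⟩
    · -- choose j copies
      obtain ⟨j, c, hj, hc, hjc⟩ : ∃ j c, j ≤ s ∧ c ≤ finrank F C ∧ c + j * a = m := by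
        by_cases hs : m / a ≤ s
        · exact ⟨m / a, m % a, hs, h2, Nat.mod_add_div' m a⟩
        · push Not at hs
          have h3 : s * a ≤ m := by
            calc s * a ≤ (m / a) * a := Nat.mul_le_mul_right a hs.le
              _ ≤ m := Nat.div_mul_le_self m a
          exact ⟨s, m - s * a, le_rfl, by omega, by omega⟩
      obtain ⟨D, hD, hDc⟩ := exists_sub C c hc
      let Q : Submodule F V := ⨆ i : {i : Fin s // i.val < j}, U i.1
      have hQ : P j = C ⊔ Q := rfl
      have hCQ : Disjoint C Q := by
        have h3 := hind none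
        refine h3.mono_right ?_
        apply iSup_le
        rintro ⟨i, hi⟩
        exact le_iSup₂_of_le (some i) (by simp) le_rfl
      have hQdim : finrank F Q = j * a := by
        have h3 := Submodule.finrank_sup_add_finrank_inf_eq C Q
        rw [hCQ.eq_bot, finrank_bot, ← hQ, hdimP j hj] at h3
        omega
      refine ⟨D ⊔ Q, ?_, ?_⟩
      · have h3 := Submodule.finrank_sup_add_finrank_inf_eq D Q
        rw [(hCQ.mono_left hD).eq_bot, finrank_bot, hDc, hQdim] at h3
        omega
      · rw [Submodule.map_sup, Submodule.map_iSup]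
        apply sup_le ((hCf D hD).trans le_sup_left)
        apply iSup_le
        intro i
        exact (hUinv i.1).trans ((le_iSup (fun i : {i : Fin s // i.val < j} => U i.1) i).trans le_sup_right)

end Cfsg.Agent.S5952
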